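import Mathlib
import Cfsg.Agent.H10.Mx5

/-!
# Orthogonal groups are maximal in the special linear and symplectic groups
-/

set_option autoImplicit false

namespace Cfsg.Agent.H10

open Module H11 Cfsg.Geo

variable {F : Type*} [Field F] {V : Type*} [AddCommGroup V] [Module F V] {σ : F →+* F}

namespace Cl

variable {ε κ : F} {τ : F →+ F} {B : V →ₛₗ[σ] V →ₗ[F] F} {Q : V → F} (h : Cl ε κ τ B Q)
include h

theorem pullback {W : Type*} [AddCommGroup W] [Module F W] (e : W ≃ₗ[F] V) :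
    Cl ε κ τ (pull B (e : W →ₗ[F] V)) (fun x => Q (e x)) :=
  ⟨h.form.comp _, separatingLeft_pull_equiv h.sep e, h.kind⟩

theorem conj_eich_pull (g : V ≃ₗ[F] V) {u w : V} (hu : Q (g.symm u) = 0)
    (huw : B (g.symm u) (g.symm w) = 0) (c : F) :
    g * h.eich (g.symm u) (g.symm w) c * g⁻¹ = (h.pullback g.symm).eich u w c := by
  ext x
  rw [LinearEquiv.mul_apply, LinearEquiv.mul_apply, h.eich_apply hu huw,
    (h.pullback g.symm).eich_apply hu huw]
  simp [LinearEquiv.coe_inv]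

theorem om_pull_le {M : Subgroup (V ≃ₗ[F] V)} (hM : h.Om ≤ M) {g : V ≃ₗ[F] V} (hg : g ∈ M) :
    (h.pullback g.symm).Om ≤ M := (h.pullback g.symm).om_le fun u w c a b d => by
  rw [← h.conj_eich_pull g a b]
  exact M.mul_mem (M.mul_mem hg (hM (h.eich_mem_om a b d))) (M.inv_mem hg)

end Cl

/-- The similarity group of a quadratic form. -/
def simQ (F : Type*) [Field F] {V : Type*} [AddCommGroup V] [Module F V] (Q : V → F) :
    Subgroup (V ≃ₗ[F] V) where
  carrier := {g | ∃ c : F, c ≠ 0 ∧ ∀ x, Q (g x) = c * Q x}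
  mul_mem' := by
    rintro a b ⟨c, hc, h⟩ ⟨d, hd, h'⟩
    exact ⟨c * d, mul_ne_zero hc hd, fun x => by
      rw [LinearEquiv.mul_apply, h, h', mul_assoc]⟩
  one_mem' := ⟨1, one_ne_zero, fun x => by simp⟩
  inv_mem' := by
    rintro a ⟨c, hc, h⟩
    refine ⟨c⁻¹, inv_ne_zero hc, fun x => ?_⟩
    have := h (a⁻¹ x)
    simp only [LinearEquiv.coe_inv, LinearEquiv.apply_symm_apply] at this ⊢
    rw [this]; field_simp

theorem mem_quadSimilarityGroup_iff {ι : Type} [Fintype ι] [DecidableEq ι] (Q : (ι → F) → F)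
    (g : GL ι F) : g ∈ quadSimilarityGroup Q ↔ glEquiv ι F g ∈ simQ F Q :=
  ⟨fun ⟨c, hc⟩ => ⟨c, c.ne_zero, hc⟩, fun ⟨c, hc, h⟩ => ⟨Units.mk0 c hc, h⟩⟩

theorem mem_similarityGroup_iff {ι : Type} [Fintype ι] [DecidableEq ι]
    {B : (ι → F) →ₛₗ[σ] (ι → F) →ₗ[F] F} {f : (ι → F) → (ι → F) → F} (hf : ∀ x y, f x y = B y x)
    (g : GL ι F) : g ∈ similarityGroup f ↔ glEquiv ι F g ∈ simG B :=
  ⟨fun ⟨c, hc⟩ => ⟨c, c.ne_zero, fun x y => by rw [← hf, ← hf]; exact hc y x⟩,
    fun ⟨c, hc, h⟩ => ⟨Units.mk0 c hc, fun x y => by rw [hf, hf]; exact h y x⟩⟩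

section quad

variable [FiniteDimensional F V] [Finite F] {B B' : V →ₗ[F] V →ₗ[F] F} {Q Q' : V → F}

theorem exists_big_totSing (h : Cl (σ := RingHom.id F) 1 2 (AddMonoidHom.id F) B Q) :
    ∃ T : Submodule F V, (∀ x ∈ T, Q x = 0) ∧ finrank F V ≤ 2 * finrank F T + 2 := by
  obtain ⟨ν, hν⟩ := h.form.exists_wittIdx
  have := IsQuad.finrank_le_wittIdx' h.form h.sep hν
  obtain ⟨T, h1, rfl⟩ := hν
  exact ⟨T, h1.1.1, this⟩

theorem simQ_le_simG (h : IsQuad B Q) : simQ F Q ≤ simG B := by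
  rintro g ⟨c, hc, hg⟩
  refine ⟨c, hc, fun x y => ?_⟩
  have := hg (x + y)
  rw [map_add, h.add', h.add', hg, hg] at this
  linear_combination this

theorem SLv_le_of_dtv_quad (h : Cl (σ := RingHom.id F) 1 2 (AddMonoidHom.id F) B Q)
    (h2 : (2 : F) ≠ 0) (hn : 7 ≤ finrank F V) {M : Subgroup (V ≃ₗ[F] V)} (hM : h.Om ≤ M) {w : V}
    {φ : Dual F V} (hw0 : w ≠ 0) (hφ0 : φ ≠ 0) (hφ : φ w = 0) (ht : dtv w φ ∈ M) :
    SLv F V ≤ M := by
  have hQ : IsQuad B Q := h.form
  have an : ∀ x, Q x = 0 ∨ B x x ≠ 0 := fun x => by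
    rw [hQ.diag']; by_cases h0 : Q x = 0 <;> simp [h0, h2]
  obtain ⟨a, rfl⟩ := h.exists_B φ
  by_cases hm : a ∈ Submodule.span F {w}
  swap
  · exact h.SLv_le_of_dtv hn hM hw0 (an w) hφ hm ht
  obtain ⟨l, rfl⟩ := Submodule.mem_span_singleton.mp hm
  have hl : l ≠ 0 := by rintro rfl; simp at hφ0
  have hww : B w w = 0 := by simpa [hl] using hφ
  obtain ⟨g, hg, hgw⟩ : ∃ g ∈ h.Om, B w (g w) ≠ 0 := by
    by_contra hc; push Not at hc
    have := h.irr_top (by omega) (S := Submodule.span F {x | ∃ g ∈ h.Om, x = g w})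
      (fun g hg s hs => by
        have : Submodule.span F {x | ∃ g ∈ h.Om, x = g w} ≤
            (Submodule.span F {x | ∃ g ∈ h.Om, x = g w}).comap (g : V →ₗ[F] V) :=
          Submodule.span_le.mpr (by
            rintro _ ⟨g', hg', rfl⟩
            exact Submodule.subset_span ⟨g * g', h.Om.mul_mem hg hg', rfl⟩)
        exact this hs)
      ((Submodule.ne_bot_iff _).mpr ⟨w, Submodule.subset_span ⟨1, h.Om.one_mem, rfl⟩, hw0⟩)
    have k : Submodule.span F {x | ∃ g ∈ h.Om, x = g w} ≤ LinearMap.ker (B w) :=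
      Submodule.span_le.mpr (by rintro _ ⟨g, hg, rfl⟩; exact hc g hg)
    rw [this] at k
    exact hw0 (h.sep w fun y => k trivial)
  have hgI := h.om_le_isom hg
  set w' := g w with hw'
  have hw'w' : B w' w' = 0 := by rw [hw', hgI.1, hww]
  have k1 : dtv w' (B (l • w')) ∈ M := by
    have := M.mul_mem (M.mul_mem (hM hg) ht) (M.inv_mem (hM hg))
    rw [conj_dtv] at this
    convert this using 2
    ext v
    rw [LinearMap.comp_apply, ← hgI.1 (l • w)]; simp [LinearEquiv.coe_inv, hw']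
  have k2 := M.mul_mem (M.mul_mem k1 ht) (M.inv_mem k1)
  have z : B (l • w') w' = 0 := by simp [hw'w']
  rw [conj_dtv, ← dtv_neg z, dtv_apply z] at k2
  have e : B (l • w) ∘ₗ (dtv w' (-B (l • w')) : V →ₗ[F] V) =
      B (l • (w - (l * B w w') • w')) := by
    ext v
    rw [LinearMap.comp_apply, LinearEquiv.coe_coe, dtv_apply (by simp [hw'w'])]
    simp only [map_add, map_sub, map_smul, LinearMap.smul_apply, LinearMap.sub_apply,
      LinearMap.neg_apply, RingHom.id_apply, smul_eq_mul, map_neg, mul_neg, neg_mul]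
    ring
  rw [e] at k2
  refine h.SLv_le_of_dtv hn hM (fun e0 => ?_) (an _) ?_ (fun hc => ?_) k2
  · have := congrArg (B w') e0
    simp [hw'w', h.refl_ne hgw] at this
  · simp [hww, hw'w', hQ.comm w' w]
  · obtain ⟨t, ht⟩ := Submodule.mem_span_singleton.mp hc
    have e1 := congrArg (B w') ht
    have e2 := congrArg (B w) ht
    simp [hww, hw'w', hQ.comm w' w, hgw] at e1 e2
    rw [e1] at e2
    have : (2 * l * l * B w w' * B w w') = 0 := by linear_combination e2
    simp [h2, hl, hgw] at this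

theorem prop_on_perp (h : Cl (σ := RingHom.id F) 1 2 (AddMonoidHom.id F) B Q)
    (h' : Cl (σ := RingHom.id F) 1 2 (AddMonoidHom.id F) B' Q') (hn : 5 ≤ finrank F V)
    {M : Subgroup (V ≃ₗ[F] V)} (hM : h.Om ≤ M) (hM' : h'.Om ≤ M) {e : V} (he0 : e ≠ 0)
    (he : Q e = 0) (he' : Q' e = 0) (hno : ∀ φ : Dual F V, φ e = 0 → dtv e φ ∈ M → φ = 0) :
    ∃ l : F, ∀ x y, B e x = 0 → B e y = 0 → B' x y = l * B x y := by
  have hQ : IsQuad B Q := h.form
  have hQ' : IsQuad B' Q' := h'.form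
  have key : ∀ x y, B e x = 0 → B' e x = 0 → B e y = 0 → B' e y = 0 → ∀ v,
      B' x y * B e v = B x y * B' e v := fun x y a1 a2 a3 a4 v => by
    have k1 := hM (h.eich_mem_om he a1 rfl)
    have k2 := hM' (h'.eich_mem_om he' a4 rfl)
    have z : (B' x y • B e - B x y • B' e) e = 0 := by simp [h.diag0 he, h'.diag0 he']
    have e1 : h.eich e x (Q x) * h'.eich e y (Q' y) =
        dtv e (B' x y • B e - B x y • B' e) * (h'.eich e y (Q' y) * h.eich e x (Q x)) := by
      ext v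
      simp only [LinearEquiv.mul_apply, dtv_apply z, h.eich_apply he a1, h'.eich_apply he' a4,
        map_add, map_sub, map_smul, h.diag0 he, h'.diag0 he', a1, a2, a3, a4, h.refl a1,
        h'.refl a4, h'.refl a2, h.refl a3, smul_eq_mul, LinearMap.sub_apply, LinearMap.smul_apply,
        hQ'.comm y x]
      module
    have k3 := M.mul_mem (M.mul_mem k1 k2) (M.inv_mem (M.mul_mem k2 k1))
    rw [e1, mul_inv_cancel_right] at k3
    have := DFunLike.congr_fun (hno _ z k3) v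
    simpa [sub_eq_zero] using this
  have d1 := finrank_le_inf_ker ⊤ (B e)
  have d2 := finrank_le_inf_ker (⊤ ⊓ LinearMap.ker (B e)) (B' e)
  rw [finrank_top] at d1
  obtain ⟨x, y, a1, a2, a3, a4, a5⟩ : ∃ x y, B e x = 0 ∧ B' e x = 0 ∧ B e y = 0 ∧ B' e y = 0 ∧
      B x y ≠ 0 := by
    by_contra hc; push Not at hc
    have d3 := h.form.finrank_perp h.sep (⊤ ⊓ LinearMap.ker (B e) ⊓ LinearMap.ker (B' e))
    have : ⊤ ⊓ LinearMap.ker (B e) ⊓ LinearMap.ker (B' e) ≤
        perp B (⊤ ⊓ LinearMap.ker (B e) ⊓ LinearMap.ker (B' e)) := fun y hy x hx =>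
      hc x y hx.1.2 hx.2 hy.1.2 hy.2
    have := Submodule.finrank_mono this
    omega
  have k : ∀ v, B' e v = B' x y / B x y * B e v := fun v => by
    field_simp; linear_combination -key x y a1 a2 a3 a4 v
  obtain ⟨v, hv⟩ := h.exists_ne he0
  refine ⟨B' x y / B x y, fun x' y' b1 b2 => mul_right_cancel₀ hv ?_⟩
  rw [key x' y' b1 (by rw [k, b1, mul_zero]) b2 (by rw [k, b2, mul_zero]), k]; ring

theorem prop_of_no_transvection (h : Cl (σ := RingHom.id F) 1 2 (AddMonoidHom.id F) B Q)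
    (h' : Cl (σ := RingHom.id F) 1 2 (AddMonoidHom.id F) B' Q') (hn : 11 ≤ finrank F V)
    {M : Subgroup (V ≃ₗ[F] V)} (hM : h.Om ≤ M) (hM' : h'.Om ≤ M)
    (hno : ∀ e, e ≠ 0 → ∀ φ : Dual F V, φ e = 0 → dtv e φ ∈ M → φ = 0) :
    ∃ l : F, ∀ x y, B' x y = l * B x y := by
  have hQ : IsQuad B Q := h.form
  have hQ' : IsQuad B' Q' := h'.form
  obtain ⟨T, hT, hTd⟩ := exists_big_totSing h
  obtain ⟨e1, a1, b1, c1⟩ := h'.exists_sing3 (W := T) (by omega)
  have d1 := finrank_span_one_le (F := F) e1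
  obtain ⟨e2, a2, b2, c2⟩ := h'.exists_sing_notMem (W := T) (Z := Submodule.span F {e1}) (by omega)
  have d2 := finrank_span_pair_le (F := F) e1 e2
  obtain ⟨e3, a3, b3, c3⟩ := h'.exists_sing_notMem (W := T) (Z := Submodule.span F {e1, e2})
    (by omega)
  obtain ⟨l1, h1⟩ := prop_on_perp h h' (by omega) hM hM' b1 (hT _ a1) c1 (hno _ b1)
  have b2' : e2 ≠ 0 := by rintro rfl; simp at b2
  have b3' : e3 ≠ 0 := by rintro rfl; simp at b3
  obtain ⟨l2, h2⟩ := prop_on_perp h h' (by omega) hM hM' b2' (hT _ a2) c2 (hno _ b2')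
  obtain ⟨l3, h3⟩ := prop_on_perp h h' (by omega) hM hM' b3' (hT _ a3) c3 (hno _ b3')
  obtain ⟨x, y, x1, x2, x3, y1, y2, y3, hxy⟩ : ∃ x y, B e1 x = 0 ∧ B e2 x = 0 ∧ B e3 x = 0 ∧
      B e1 y = 0 ∧ B e2 y = 0 ∧ B e3 y = 0 ∧ B x y ≠ 0 := by
    by_contra hc; push Not at hc
    have k1 := finrank_le_inf_ker ⊤ (B e1)
    have k2 := finrank_le_inf_ker (⊤ ⊓ LinearMap.ker (B e1)) (B e2)
    have k3 := finrank_le_inf_ker (⊤ ⊓ LinearMap.ker (B e1) ⊓ LinearMap.ker (B e2)) (B e3)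
    rw [finrank_top] at k1
    set Z := ⊤ ⊓ LinearMap.ker (B e1) ⊓ LinearMap.ker (B e2) ⊓ LinearMap.ker (B e3)
    have d3 := h.form.finrank_perp h.sep Z
    have : Z ≤ perp B Z := fun y hy x hx => hc x y hx.1.1.2 hx.1.2 hx.2 hy.1.1.2 hy.1.2 hy.2
    have := Submodule.finrank_mono this
    omega
  obtain rfl : l1 = l2 := mul_right_cancel₀ hxy ((h1 x y x1 y1).symm.trans (h2 x y x2 y2))
  obtain rfl : l1 = l3 := mul_right_cancel₀ hxy ((h1 x y x1 y1).symm.trans (h3 x y x3 y3))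
  obtain ⟨p, p1, p2⟩ := h.form.exists_perp_not h.sep b3
  obtain ⟨q0, q1, q2⟩ := h.form.exists_perp_not h.sep b2
  have p3 := p1 e1 (Submodule.subset_span (by simp))
  have p4 := p1 e2 (Submodule.subset_span (by simp))
  have q3 := q1 e1 (Submodule.mem_span_singleton_self _)
  set q := q0 - B e3 q0 • p with hq
  have q4 : B e1 q = 0 := by simp [hq, q3, p3]
  have q5 : B e2 q = 1 := by simp [hq, q2, p4]
  have q6 : B e3 q = 0 := by simp [hq, p2]
  have r1 : ∀ u, B e3 u = 0 → (B e1 u = 0 ∨ B e2 u = 0) → ∀ v, B' u v = l1 * B u v :=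
    fun u u1 u2 v => by
      have k1 := h3 u (v - B e3 v • p) u1 (by simp [p2])
      have k2 : B' u p = l1 * B u p := u2.elim (fun a => h1 u p a p3) fun a => h2 u p a p4
      simp only [map_sub, map_smul, smul_eq_mul] at k1
      linear_combination k1 + B e3 v * k2
  have r2 : ∀ v, B' p v = l1 * B p v := fun v => by
    have k1 := h2 p (v - B e2 v • q) p4 (by simp [q5])
    have k2 := h1 p q p3 q4
    simp only [map_sub, map_smul, smul_eq_mul] at k1
    linear_combination k1 + B e2 v * k2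
  refine ⟨l1, fun u v => ?_⟩
  have k1 := r1 (u - B e3 u • p - B e2 u • q) (by simp [p2, q6]) (Or.inr (by simp [p4, q5])) v
  have k2 := r1 q q6 (Or.inl q4) v
  simp only [map_sub, map_smul, smul_eq_mul, LinearMap.sub_apply, LinearMap.smul_apply] at k1
  linear_combination k1 + B e3 u * r2 v + B e2 u * k2

/-- Orthogonal groups in odd characteristic are maximal in the special linear group. -/
theorem max_simQ (h : Cl (σ := RingHom.id F) 1 2 (AddMonoidHom.id F) B Q) (h2 : (2 : F) ≠ 0)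
    (hn : 11 ≤ finrank F V) : IsMaximalIn (SLv F V) (simQ F Q ⊓ SLv F V) := by
  have hQ : IsQuad B Q := h.form
  refine isMaximalIn_inf (fun hc => h.not_SLv_le_simG (by omega) (hc.trans (simQ_le_simG hQ)))
    fun M hHM _ g hg hgS => ?_
  have hM : h.Om ≤ M := (le_inf (fun g hg => ⟨1, one_ne_zero, fun x => by
    rw [(h.om_le_isom hg).2, one_mul]⟩) h.om_le_SLv).trans hHM
  by_contra hc
  obtain ⟨l, hl⟩ := prop_of_no_transvection h (h.pullback g.symm) hn hM (h.om_pull_le hM hg)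
    fun e he φ a b => by
      by_contra h0; exact hc (SLv_le_of_dtv_quad h h2 (by omega) hM he h0 a b)
  have k : ∀ x, Q x = l * Q (g x) := fun x => by
    have := hl (g x) (g x)
    simp only [pull_apply, LinearEquiv.coe_coe, LinearEquiv.symm_apply_apply, hQ.diag'] at this
    exact mul_left_cancel₀ h2 (by linear_combination this)
  obtain ⟨x, -, hx⟩ := hQ.exists_nonsingular (Cl.nondegOn_top h.sep) (by
    intro e; have := congrArg (fun W : Submodule F V => finrank F W) e; simp at this; omega)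
  have hl0 : l ≠ 0 := by rintro rfl; exact hx (by simpa using k x)
  exact hgS ⟨l⁻¹, inv_ne_zero hl0, fun x => by rw [k x]; field_simp⟩

/-- Orthogonal groups in characteristic two are maximal in the symplectic group. -/
theorem max_simQ_sp (h : Cl (σ := RingHom.id F) 1 2 (AddMonoidHom.id F) B Q) (h2 : (2 : F) = 0)
    (s : Cl (σ := RingHom.id F) (-1) 0 0 B (fun _ => 0)) (hn : 9 ≤ finrank F V) :
    IsMaximalIn s.Om (simQ F Q ⊓ s.Om) := by
  have hQ : IsQuad B Q := h.form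
  have m1 : (-1 : F) = 1 := by linear_combination -h2
  have ee : ∀ {Q' : V → F} (h' : Cl (σ := RingHom.id F) 1 2 (AddMonoidHom.id F) B Q') (u w : V)
      (c : F), Q' u = 0 → B u w = 0 → s.eich u w c = h'.eich u w c := fun h' u w c a b => by
    ext x; rw [s.eich_apply rfl b, h'.eich_apply a b, m1]
  have hI : Isom B Q ≤ simQ F Q ⊓ s.Om := fun g hg =>
    ⟨⟨1, one_ne_zero, fun x => by rw [hg.2, one_mul]⟩, (mem_om_alt s).mpr hg.1⟩
  refine isMaximalIn_inf (fun hc => ?_) fun M hHM hM g hg hgS => ?_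
  · obtain ⟨e, -, he0, he⟩ := h.exists_sing3 (W := ⊤) (by simp; omega)
    obtain ⟨f, hf, hef⟩ := h.form.exists_partner h.sep he he0
    obtain ⟨c, -, hc'⟩ := hc (s.eich_mem_om (u := e) (w := 0) (c := 1) rfl (by simp) rfl)
    have := hc' f
    rw [s.eich_apply rfl (by simp), hf] at this
    simp [hef, hQ.sub', hf, he, h.flip_one hef] at this
  have hMI := hM.trans s.om_le_isom
  have hgI := hMI hg
  have hM1 : h.Om ≤ M := h.om_le_isom.trans (hI.trans hHM)
  have hB : pull B (g.symm : V →ₗ[F] V) = B := by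
    ext x y; simpa [LinearEquiv.coe_inv] using ((Isom B _).inv_mem hgI).1 x y
  have h' : Cl (σ := RingHom.id F) 1 2 (AddMonoidHom.id F) B (fun x => Q (g.symm x)) :=
    hB ▸ h.pullback g.symm
  have hM2 : ∀ u w, Q (g.symm u) = 0 → B u w = 0 → s.eich u w (Q (g.symm w)) ∈ M :=
    fun u w a b => by
      have b' : B (g.symm u) (g.symm w) = 0 := by rw [← hgI.1]; simpa using b
      have := M.mul_mem (M.mul_mem hg (hM1 (h.eich_mem_om a b' rfl))) (M.inv_mem hg)
      rw [← ee h _ _ _ a b', s.conj_eich hgI] at this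
      simpa using this
  obtain ⟨y, hy⟩ : ∃ y, Q y ≠ Q (g.symm y) := by
    by_contra hc; push Not at hc
    exact hgS ⟨1, one_ne_zero, fun x => by rw [hc]; simp⟩
  obtain ⟨T, hT, hTd⟩ := exists_big_totSing h
  have d1 := finrank_le_inf_ker T (B y)
  obtain ⟨e, ⟨a1, a2⟩, he0, he'⟩ := h'.exists_sing3 (W := T ⊓ LinearMap.ker (B y)) (by omega)
  have he := hT e a1
  have hey := h.refl a2
  have hAr : ∀ w, B e w = 0 → s.eich e w (Q w) ∈ M := fun w hw => by
    rw [ee h _ _ _ he hw]; exact hM1 (h.eich_mem_om he hw rfl)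
  have k1 := M.mul_mem (hAr y hey) (M.inv_mem (hM2 e y he' hey))
  rw [s.eich_inv rfl hey, s.eich_mul rfl hey (by simp [hey])] at k1
  simp only [add_neg_cancel, s.diag0 rfl, map_neg] at k1
  set d := Q y + (-1 * 0 - Q (g.symm y)) + -1 * -0 with hd
  have hd0 : d ≠ 0 := fun e0 => hy (by linear_combination e0)
  have hf : s.Full M e := s.full_of_ar rfl
    (fun w hw => (s.mem_ar rfl).mpr ⟨hw, _, rfl, hAr w hw⟩) fun c _ => by
      by_cases hc0 : c = 0
      · rw [hc0, s.eich_zero]; exact M.one_mem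
      obtain ⟨t, ht⟩ := FiniteField.isSquare_of_char_two (ringChar_eq_two_of h2) (c / d)
      have ht0 : t ≠ 0 := by rintro rfl; simp [hc0, hd0] at ht
      obtain ⟨r, hr, hre⟩ := h.form.witt_one h.sep he0 (smul_ne_zero ht0 he0)
        (by rw [h.sing_smul he, he])
      have hrM := hHM (hI hr)
      have := M.mul_mem (M.mul_mem hrM k1) (M.inv_mem hrM)
      rw [s.conj_eich (hMI hrM), hre, map_zero, s.eich_smul_left rfl (by simp)] at this
      convert this using 2
      · simp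
      · simp only [RingHom.id_apply]; rw [← ht]; field_simp
  refine (s.om_le_or hMI).resolve_right fun hT => ?_
  have hne : s.fullSpan M ≠ ⊥ := (Submodule.ne_bot_iff _).mpr ⟨e, hf.mem, he0⟩
  exact s.ne_top_of_totSing hT hne (h.irr_top (by omega)
    (fun g hg x hx => s.map_mem_fullSpan hMI (hM1 hg) hx) hne)

end quad

end Cfsg.Agent.H10
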