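import Mathlib
import Cfsg.Agent.H10.Mx6
import Cfsg.Agent.H10.PGL2Tori
import Cfsg.Agent.H10.SubfieldGroups
import Cfsg.Agent.H26.Subf

/-!
A consequence of Dickson's theorem, and rational structures on `ι → F` over a subfield.
-/

set_option autoImplicit false

namespace Cfsg.Agent.H10

open Module H11 Cfsg.Geo

section dickson

open MulAction Matrix
open scoped MatrixGroups

variable {F : Type*} [Field F] [Finite F]

theorem dickson0 {H : Subgroup PGL(2, F)} {a b : F} (ha : aff 1 a ∈ H) (hb : aff 1 b ∈ H)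
    (h0 : a ≠ 0) (h1 : b ≠ 0) (h2 : b ≠ a) (h3 : a + b ≠ 0) (hl : low (1 : F) ∈ H) :
    ∃ g ∈ H, g • inf F = inf F ∧ ∀ c, g ≠ aff 1 c := by
  have hinj : Function.Injective (![0, a, b, a + b] : Fin 4 → F) := by
    intro i j hij
    fin_cases i <;> fin_cases j <;>
      simp [h0, h1, h2, h3, h0.symm, h1.symm, h2.symm, h3.symm] at hij ⊢
  obtain ⟨p, hc⟩ := CharP.exists F
  have := Fact.mk (CharP.char_is_prime F p)
  set L := lineAct_sub p H with hL
  have hab : aff 1 (a + b) ∈ H := by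
    have := H.mul_mem hb ha
    rwa [aff_mul, one_mul, Units.val_one, one_mul] at this
  have mem : ∀ {c : F} (hc : aff 1 c ∈ H), (⟨aff 1 c, hc⟩ : H) ∈ L.U (rat (inf F)) := fun hc => by
    rw [hL, U_sub_eq]; exact mem_U_inf_iff.2 ⟨_, rfl⟩
  have h4 : 4 ≤ Nat.card (L.U (rat (inf F))) := by
    have z : aff 1 (0 : F) ∈ H := by rw [aff_one]; exact H.one_mem
    let f : Fin 4 → L.U (rat (inf F)) := ![⟨_, mem z⟩, ⟨_, mem ha⟩, ⟨_, mem hb⟩, ⟨_, mem hab⟩]
    have hf : Function.Injective f := by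
      intro i j hij
      have e : ∀ i, ∃ hc, (f i).1 = ⟨aff 1 (![0, a, b, a + b] i), hc⟩ := by
        intro i; fin_cases i <;> exact ⟨_, rfl⟩
      obtain ⟨_, e1⟩ := e i
      obtain ⟨_, e2⟩ := e j
      rw [hij, e2] at e1
      exact (hinj (aff_inj (congrArg Subtype.val e1)).2).symm
    simpa using Nat.card_le_card_of_injective f hf
  by_contra hcon
  push Not at hcon
  have hst : stabilizer H (rat (inf F)) ≤ L.U (rat (inf F)) := by
    rintro ⟨g, hg⟩ hg'
    obtain ⟨c, rfl⟩ := hcon g hg (smul_rat_eq_iff.1 hg')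
    exact mem hg
  have hle := Subgroup.card_le_of_le hst
  obtain ⟨z, -, -, -, -, -, h5⟩ := L.wild (x := rat (inf F))
    (by rw [← Subgroup.one_lt_card_iff_ne_bot]; omega)
    (by
      intro hc
      obtain ⟨hs, -⟩ := Nat.card_eq_one_iff_unique.mp hc
      have := hs.elim ⟨_, mem_orbit_self _⟩ ⟨_, mem_orbit _ (⟨_, hl⟩ : H)⟩
      have e : low (1 : F) • inf F = inf F := smul_rat_eq_iff.1 (congrArg Subtype.val this).symm
      rw [low, pgl_mk_smul, smul_inf_eq_inf_iff] at e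
      simp at e)
  generalize Nat.card (L.U (rat (inf F))) = u at *
  generalize Nat.card (stabilizer H (rat (inf F))) = s at *
  obtain ⟨k, rfl⟩ : ∃ k, u = k + 4 := ⟨u - 4, by omega⟩
  have e : k + 4 - 1 = k + 3 := by omega
  rw [e] at h5
  rcases h5 with h5 | ⟨-, h5 | h5⟩ | ⟨h5, -⟩
  · omega
  · nlinarith
  · nlinarith
  · omega

variable {V : Type*} [AddCommGroup V] [Module F V]

/-- The matrices induced on the pairs `(u, N u)` modulo `R`. -/
def indG (M : Subgroup (V ≃ₗ[F] V)) (U R : Submodule F V) (N : V →ₗ[F] V) :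
    Subgroup (GL (Fin 2) F) where
  carrier := {m | m 0 0 * m 1 1 - m 0 1 * m 1 0 = 1 ∧ ∃ g ∈ M, (∀ r ∈ R, g r = r) ∧ ∀ u ∈ U,
    g u - m 0 0 • u - m 1 0 • N u ∈ R ∧ g (N u) - m 0 1 • u - m 1 1 • N u ∈ R}
  one_mem' := ⟨by simp, 1, M.one_mem, fun _ _ => rfl, fun u _ => by simp⟩
  mul_mem' := by
    rintro m m' ⟨d, g, hg, h1, h2⟩ ⟨d', g', hg', h1', h2'⟩
    refine ⟨?_, g * g', M.mul_mem hg hg', fun r hr => by
      rw [LinearEquiv.mul_apply, h1' r hr, h1 r hr], fun u hu => ⟨?_, ?_⟩⟩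
    · simp only [Units.val_mul, Matrix.mul_apply, Fin.sum_univ_two]
      linear_combination (m' 0 0 * m' 1 1 - m' 0 1 * m' 1 0) * d + d'
    · have a := h1 _ (h2' u hu).1
      rw [map_sub, map_sub, map_smul, map_smul] at a
      convert R.add_mem (R.add_mem (h2' u hu).1 (R.smul_mem (m' 0 0) (h2 u hu).1))
        (R.smul_mem (m' 1 0) (h2 u hu).2) using 1
      simp only [Units.val_mul, Matrix.mul_apply, Fin.sum_univ_two, LinearEquiv.mul_apply]
      rw [← a]; module
    · have a := h1 _ (h2' u hu).2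
      rw [map_sub, map_sub, map_smul, map_smul] at a
      convert R.add_mem (R.add_mem (h2' u hu).2 (R.smul_mem (m' 0 1) (h2 u hu).1))
        (R.smul_mem (m' 1 1) (h2 u hu).2) using 1
      simp only [Units.val_mul, Matrix.mul_apply, Fin.sum_univ_two, LinearEquiv.mul_apply]
      rw [← a]; module
  inv_mem' := by
    rintro m ⟨d, g, hg, h1, h2⟩
    have hi : ((m⁻¹ : GL (Fin 2) F) : Matrix (Fin 2) (Fin 2) F) =
        !![m 1 1, -m 0 1; -m 1 0, m 0 0] := by
      rw [Matrix.coe_units_inv]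
      apply Matrix.inv_eq_left_inv
      ext i j
      fin_cases i <;> fin_cases j <;> simp [Matrix.mul_apply, Fin.sum_univ_two] <;>
        first | ring1 | linear_combination d
    have k : ∀ r ∈ R, g⁻¹ r = r := fun r hr => by
      conv_lhs => rw [← h1 r hr]
      simp [LinearEquiv.coe_inv]
    have k' : ∀ x y, g x - y ∈ R → g⁻¹ y - x ∈ R := fun x y hxy => by
      have := k _ hxy
      rw [map_sub] at this
      simp only [LinearEquiv.coe_inv, LinearEquiv.symm_apply_apply] at this ⊢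
      rw [← neg_sub, this]; exact R.neg_mem hxy
    refine ⟨?_, g⁻¹, M.inv_mem hg, k, fun u hu => ⟨?_, ?_⟩⟩
    · simp only [hi]; simp; linear_combination d
    · rw [sub_sub]; apply k'
      convert R.sub_mem (R.smul_mem (m 1 1) (h2 u hu).1) (R.smul_mem (m 1 0) (h2 u hu).2) using 1
      simp only [hi, map_add, map_smul]; simp
      match_scalars <;> first | ring1 | linear_combination d
    · rw [sub_sub]; apply k'
      convert R.sub_mem (R.smul_mem (m 0 0) (h2 u hu).2) (R.smul_mem (m 0 1) (h2 u hu).1) using 1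
      simp only [hi, map_add, map_smul]; simp
      match_scalars <;> first | ring1 | linear_combination d

theorem dickson1 {M : Subgroup (V ≃ₗ[F] V)} {U R : Submodule F V} {N : V →ₗ[F] V}
    {t : V ≃ₗ[F] V} (ht : t ∈ M) (htN : ∀ v, t v = v + N v) (hN : ∀ u ∈ U, N (N u) = 0)
    (hR : ∀ r ∈ R, N r = 0) {a b : F} (h0 : a ≠ 0) (h1 : b ≠ 0) (h2 : b ≠ a) (h3 : a + b ≠ 0)
    (hs : ∀ c, c = a ∨ c = b → ∃ s ∈ M, (∀ r ∈ R, s r = r) ∧ ∀ u ∈ U, s u = u ∧
      s (N u) - c • u - N u ∈ R) :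
    ∃ g ∈ M, ∃ l c : F, l ≠ 1 ∧ l ≠ 0 ∧ (∀ r ∈ R, g r = r) ∧ ∀ u ∈ U, g u - l • u ∈ R ∧
      g (N u) - c • u - l⁻¹ • N u ∈ R := by
  have up : ∀ c, c = a ∨ c = b → aff 1 c ∈ (indG M U R N).map ProjGenLinGroup.mk := by
    intro c hc
    obtain ⟨s, hs1, hs2, hs3⟩ := hs c hc
    refine ⟨affGL 1 c, ⟨by simp, s, hs1, hs2, fun u hu => ⟨?_, ?_⟩⟩, rfl⟩
    · simp [(hs3 u hu).1]
    · simpa using (hs3 u hu).2
  obtain ⟨_, ⟨m, ⟨d, g, hg, k1, k2⟩, rfl⟩, e1, e2⟩ := dickson0 (up a (Or.inl rfl))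
    (up b (Or.inr rfl)) h0 h1 h2 h3 ⟨gl2 1 0 1 1 (by simp), ⟨by simp, t, ht,
      fun r hr => by rw [htN, hR r hr, add_zero], fun u hu => ⟨by simp [htN], by
        simp [htN, hN u hu]⟩⟩, rfl⟩
  rw [pgl_mk_smul, smul_inf_eq_inf_iff] at e1
  rw [e1, mul_zero, sub_zero] at d
  have d' : m 1 1 = (m 0 0)⁻¹ := (eq_inv_of_mul_eq_one_right d)
  refine ⟨g, hg, m 0 0, m 0 1, fun hc => e2 (m 0 1) ?_, left_ne_zero_of_mul_eq_one d, k1,
    fun u hu => ⟨by simpa [e1] using (k2 u hu).1, by rw [← d']; exact (k2 u hu).2⟩⟩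
  rw [aff]
  congr 1
  ext i j
  fin_cases i <;> fin_cases j <;> simp [hc, e1, d']

end dickson

section rat

variable {F : Type*} [Field F] {K : Subfield F} {θ : F ≃+* F} {ι : Type}

theorem exists_frob [Finite F] (K : Subfield F) : ∃ θ : F ≃+* F, (∀ a, θ a = a ↔ a ∈ K) ∧
    ∀ (σ : F →+* F) a, σ (θ a) = θ (σ a) := by
  obtain ⟨σ, hσ⟩ := H26.exists_ringHom_pow_card K 1
  refine ⟨RingEquiv.ofBijective σ (Finite.injective_iff_bijective.mp σ.injective), fun a => ?_,
    fun s a => ?_⟩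
  · rw [H26.mem_subfield_iff_pow_card, RingEquiv.ofBijective_apply, hσ, pow_one]
  · simp [hσ]

/-- The vectors with coordinates in a subfield. -/
def jv (K : Subfield F) : (ι → K) →ₗ[K] (ι → F) where
  toFun x i := x i
  map_add' _ _ := rfl
  map_smul' _ _ := rfl

theorem jv_apply (x : ι → K) (i : ι) : jv K x i = x i := rfl

theorem jv_smul (c : K) (x : ι → K) : jv K (c • x) = (c : F) • jv K x := rfl

theorem jv_injective : Function.Injective (jv K : (ι → K) → ι → F) := fun _ _ h =>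
  funext fun i => Subtype.ext (congrFun h i)

theorem jv_ne {x : ι → K} (hx : x ≠ 0) : jv K x ≠ 0 := fun h =>
  hx (jv_injective (h.trans (map_zero _).symm))

/-- A field automorphism acting on coordinates. -/
def th (θ : F ≃+* F) : (ι → F) →ₛₗ[(θ : F →+* F)] (ι → F) where
  toFun v i := θ (v i)
  map_add' _ _ := funext fun _ => map_add _ _ _
  map_smul' _ _ := funext fun _ => map_mul _ _ _

theorem th_apply (v : ι → F) (i : ι) : th θ v i = θ (v i) := rfl

theorem th_smul (c : F) (v : ι → F) : th θ (c • v) = θ c • th θ v := map_smulₛₗ _ _ _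

theorem th_surj (v : ι → F) : ∃ w, th θ w = v :=
  ⟨fun i => θ.symm (v i), funext fun i => by simp [th_apply]⟩

theorem th_ne {v : ι → F} (hv : v ≠ 0) : th θ v ≠ 0 := fun h =>
  hv (funext fun i => by simpa [th_apply] using congrFun h i)

theorem th_jv (hθ : ∀ a, θ a = a ↔ a ∈ K) (x : ι → K) : th θ (jv K x) = jv K x :=
  funext fun i => (hθ _).mpr (x i).2

theorem exists_jv (hθ : ∀ a, θ a = a ↔ a ∈ K) {v : ι → F} (hv : th θ v = v) : ∃ x, jv K x = v :=
  ⟨fun i => ⟨v i, (hθ _).mp (congrFun hv i)⟩, rfl⟩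

theorem exists_jv_smul (hθ : ∀ a, θ a = a ↔ a ∈ K) {v : ι → F} {c : F} (hv : th θ v = c • v) :
    ∃ (x : ι → K) (a : F), v = a • jv K x := by
  by_cases h0 : v = 0
  · exact ⟨0, 0, by simp [h0]⟩
  obtain ⟨i, hi⟩ := Function.ne_iff.mp h0
  have hi' : v i ≠ 0 := hi
  have e : θ (v i) = c * v i := congrFun hv i
  obtain ⟨x, hx⟩ := exists_jv hθ (v := (v i)⁻¹ • v) (by
    have : c ≠ 0 := by rintro rfl; simp [hi'] at e
    rw [th_smul, hv, map_inv₀, e, smul_smul]; congr 1; field_simp)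
  exact ⟨x, v i, by rw [hx, smul_smul, mul_inv_cancel₀ hi', one_smul]⟩

/-- Extension of scalars of a subspace. -/
def ext (S : Submodule K (ι → K)) : Submodule F (ι → F) := Submodule.span F (jv K '' S)

/-- The rational vectors of a subspace. -/
def pre (K : Subfield F) (S : Submodule F (ι → F)) : Submodule K (ι → K) :=
  (S.restrictScalars K).comap (jv K)

theorem mem_pre {S : Submodule F (ι → F)} {x : ι → K} : x ∈ pre K S ↔ jv K x ∈ S := Iff.rfl

theorem mem_ext {S : Submodule K (ι → K)} {x : ι → K} (hx : x ∈ S) : jv K x ∈ ext S :=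
  Submodule.subset_span ⟨x, hx, rfl⟩

theorem ext_le {S : Submodule K (ι → K)} {T : Submodule F (ι → F)} (h : ∀ x ∈ S, jv K x ∈ T) :
    ext S ≤ T := Submodule.span_le.mpr (by rintro _ ⟨x, hx, rfl⟩; exact h x hx)

theorem ext_induction {S : Submodule K (ι → K)} {p : (ι → F) → Prop} (h1 : ∀ x ∈ S, p (jv K x))
    (h2 : ∀ v w, p v → p w → p (v + w)) (h3 : ∀ (c : F) v, p v → p (c • v)) {v : ι → F}
    (hv : v ∈ ext S) : p v := by
  induction hv using Submodule.span_induction with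
  | mem x hx => obtain ⟨x, hx, rfl⟩ := hx; exact h1 x hx
  | zero => simpa using h1 0 S.zero_mem
  | add x y _ _ a b => exact h2 _ _ a b
  | smul c x _ a => exact h3 _ _ a

theorem th_mem_ext (hθ : ∀ a, θ a = a ↔ a ∈ K) {S : Submodule K (ι → K)} {v : ι → F}
    (hv : v ∈ ext S) : th θ v ∈ ext S :=
  ext_induction (p := fun v => th θ v ∈ ext S) (fun x hx => by rw [th_jv hθ]; exact mem_ext hx)
    (fun v w a b => by rw [map_add]; exact Submodule.add_mem _ a b)
    (fun c v a => by rw [th_smul]; exact Submodule.smul_mem _ _ a) hv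

variable [Fintype ι] [DecidableEq ι]

theorem mem_ext_top (K : Subfield F) (v : ι → F) : v ∈ ext (⊤ : Submodule K (ι → K)) := by
  rw [pi_eq_sum_univ' v]
  refine Submodule.sum_mem _ fun i _ => Submodule.smul_mem _ _ ?_
  convert mem_ext (K := K) (S := ⊤) (x := Pi.single i 1) trivial using 1
  ext j
  by_cases h : j = i <;> simp [jv_apply, h, Pi.single_apply]

omit [DecidableEq ι] in
theorem linearIndependent_jv {κ : Type} {b : κ → ι → K} (h : LinearIndependent K b) :
    LinearIndependent F (fun i => jv K (b i)) :=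
  (linearIndependent_algebraMap_comp_iff (R := K) (S := F)).mpr h

omit [DecidableEq ι] in
theorem finrank_ext (S : Submodule K (ι → K)) : finrank F (ext S) = finrank K S := by
  obtain ⟨b⟩ : Nonempty (Basis (Fin (finrank K S)) K S) := ⟨Module.finBasis K S⟩
  have h1 : LinearIndependent K (fun i => (b i : ι → K)) :=
    b.linearIndependent.map' S.subtype S.ker_subtype
  have hli := linearIndependent_jv h1
  have : ext S = Submodule.span F (Set.range fun i => jv K (b i : ι → K)) := by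
    refine le_antisymm (ext_le fun x hx => ?_) (Submodule.span_le.mpr ?_)
    · have := congrArg (fun y : S => jv K (y : ι → K)) (b.sum_repr ⟨x, hx⟩)
      simp only [Submodule.coe_sum, map_sum, Submodule.coe_smul, jv_smul] at this
      rw [← this]
      exact Submodule.sum_mem _ fun i _ => Submodule.smul_mem _ _ (Submodule.subset_span ⟨i, rfl⟩)
    · rintro _ ⟨i, rfl⟩; exact mem_ext (b i).2
  rw [this, finrank_span_eq_card hli, Fintype.card_fin]

omit [DecidableEq ι] in
theorem finrank_pre_le (S : Submodule F (ι → F)) : finrank K (pre K S) ≤ finrank F S := by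
  rw [← finrank_ext]; exact Submodule.finrank_mono (ext_le fun _ h => h)

omit [DecidableEq ι] in
theorem pre_ext (S : Submodule K (ι → K)) : pre K (ext S) = S :=
  (Submodule.eq_of_le_of_finrank_le (fun _ h => mem_ext h)
    ((finrank_pre_le _).trans (finrank_ext S).le)).symm

/-- Galois descent for subspaces. -/
theorem ext_pre (hθ : ∀ a, θ a = a ↔ a ∈ K) {S : Submodule F (ι → F)}
    (hS : ∀ v ∈ S, th θ v ∈ S) : ext (pre K S) = S := by
  classical
  refine le_antisymm (ext_le fun _ h => h) fun v hv => ?_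
  induction hn : (Finset.univ.filter fun i => v i ≠ 0).card using Nat.strong_induction_on
    generalizing v with
  | _ n ih =>
  subst hn
  by_cases h0 : v = 0
  · rw [h0]; exact Submodule.zero_mem _
  obtain ⟨i, hi⟩ := Function.ne_iff.mp h0
  have hi' : v i ≠ 0 := hi
  have lt : ∀ w ∈ S, (∀ j, v j = 0 → w j = 0) → (∃ j, v j ≠ 0 ∧ w j = 0) → w ∈ ext (pre K S) := by
    rintro w hw h1 ⟨j, h2, h3⟩
    refine ih _ (Finset.card_lt_card ⟨fun k hk => ?_, fun hc => ?_⟩) w hw rfl
    · simp only [Finset.mem_filter, Finset.mem_univ, true_and] at hk ⊢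
      exact fun h => hk (h1 k h)
    · have := hc (Finset.mem_filter.mpr ⟨Finset.mem_univ j, h2⟩)
      simp [h3] at this
  set d := th θ ((v i)⁻¹ • v) - (v i)⁻¹ • v with hd
  have hdS : d ∈ S := S.sub_mem (hS _ (S.smul_mem _ hv)) (S.smul_mem _ hv)
  have d0 : ∀ j, v j = 0 → d j = 0 := fun j hj => by simp [hd, th_apply, hj]
  by_cases hd0 : d = 0
  · obtain ⟨x, hx⟩ := exists_jv hθ (sub_eq_zero.mp hd0)
    have : v = v i • jv K x := by rw [hx, smul_smul, mul_inv_cancel₀ hi', one_smul]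
    rw [this]
    exact Submodule.smul_mem _ _ (mem_ext (by rw [mem_pre, hx]; exact S.smul_mem _ hv))
  · obtain ⟨j, hj⟩ := Function.ne_iff.mp hd0
    have hj' : d j ≠ 0 := hj
    have a := lt d hdS d0 ⟨i, hi', by simp [hd, th_apply, hi']⟩
    have b := lt (v - (v j / d j) • d) (S.sub_mem hv (S.smul_mem _ hdS))
      (fun k hk => by simp [hk, d0 k hk]) ⟨j, fun h => hj' (d0 j h), by simp [hj']⟩
    simpa using Submodule.add_mem _ b (Submodule.smul_mem _ (v j / d j) a)

theorem finrank_pre (hθ : ∀ a, θ a = a ↔ a ∈ K) {S : Submodule F (ι → F)}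
    (hS : ∀ v ∈ S, th θ v ∈ S) : finrank K (pre K S) = finrank F S := by
  rw [← finrank_ext, ext_pre hθ hS]

theorem th_comm (hθ : ∀ a, θ a = a ↔ a ∈ K) {S : Submodule K (ι → K)} {g : (ι → F) →ₗ[F] (ι → F)}
    {μ : F} (hg : ∀ x ∈ S, th θ (g (jv K x)) = μ • g (jv K x)) {v : ι → F} (hv : v ∈ ext S) :
    th θ (g v) = μ • g (th θ v) :=
  ext_induction (p := fun v => th θ (g v) = μ • g (th θ v))
    (fun x hx => by rw [th_jv hθ]; exact hg x hx)
    (fun v w a b => by simp only [map_add, a, b, smul_add])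
    (fun c v a => by rw [map_smul, th_smul, th_smul, a, map_smul, smul_comm]) hv

/-- The maps that are rational up to a scalar. -/
def ratG (θ : F ≃+* F) (ι : Type) : Subgroup ((ι → F) ≃ₗ[F] (ι → F)) where
  carrier := {g | ∃ μ : F, μ ≠ 0 ∧ ∀ v, th θ (g v) = μ • g (th θ v)}
  one_mem' := ⟨1, one_ne_zero, fun v => by simp⟩
  mul_mem' := by
    rintro g g' ⟨a, ha, h⟩ ⟨b, hb, h'⟩
    exact ⟨a * b, mul_ne_zero ha hb, fun v => by
      rw [LinearEquiv.mul_apply, h, h', map_smul, smul_smul]; rfl⟩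
  inv_mem' := by
    rintro g ⟨a, ha, h⟩
    refine ⟨a⁻¹, inv_ne_zero ha, fun v => g.injective ?_⟩
    have := h (g⁻¹ v)
    simp only [LinearEquiv.coe_inv, LinearEquiv.apply_symm_apply, map_smul] at this ⊢
    rw [this, smul_smul, inv_mul_cancel₀ ha, one_smul]

theorem mem_ratG (hθ : ∀ a, θ a = a ↔ a ∈ K) {g : (ι → F) ≃ₗ[F] (ι → F)} {μ : F} (hμ : μ ≠ 0)
    (hg : ∀ x, th θ (g (jv K x)) = μ • g (jv K x)) : g ∈ ratG θ ι :=
  ⟨μ, hμ, fun v => th_comm hθ (g := (g : (ι → F) →ₗ[F] (ι → F))) (fun x _ => hg x)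
    (mem_ext_top K v)⟩

theorem mem_ratG_of_jv (hθ : ∀ a, θ a = a ↔ a ∈ K) {g : (ι → F) ≃ₗ[F] (ι → F)}
    (hg : ∀ x, ∃ y, g (jv K x) = jv K y) : g ∈ ratG θ ι :=
  mem_ratG hθ one_ne_zero fun x => by obtain ⟨y, hy⟩ := hg x; rw [hy, th_jv hθ, one_smul]

omit [Fintype ι] [DecidableEq ι] in
theorem eig_eq (hθ : ∀ a, θ a = a ↔ a ∈ K) {g : (ι → F) ≃ₗ[F] (ι → F)} {x y : ι → K} (hx : x ≠ 0)
    (hy : y ≠ 0) {a b : F} (ha : th θ (g (jv K x)) = a • g (jv K x))
    (hb : th θ (g (jv K y)) = b • g (jv K y))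
    (hc : th θ (g (jv K (x + y))) ∈ Submodule.span F {g (jv K (x + y))}) : a = b := by
  have x0 : g (jv K x) ≠ 0 := by simpa using jv_ne hx
  have y0 : g (jv K y) ≠ 0 := by simpa using jv_ne hy
  by_cases hd : ∃ t : F, jv K y = t • jv K x
  · obtain ⟨t, ht⟩ := hd
    have e := th_jv hθ y
    rw [ht, th_smul, th_jv hθ] at e
    have e' := smul_left_injective F (jv_ne hx) e
    rw [ht, map_smul, th_smul, ha, e', smul_comm, ← map_smul, ← ht] at hb
    exact smul_left_injective F y0 hb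
  · obtain ⟨c, hc⟩ := Submodule.mem_span_singleton.mp hc
    rw [map_add, map_add, map_add, ha, hb] at hc
    have e : (c - b) • jv K y = (a - c) • jv K x := g.injective (by
      rw [map_smul, map_smul]; linear_combination (norm := module) hc)
    by_cases hcb : c - b = 0
    · rw [hcb, zero_smul, eq_comm, smul_eq_zero] at e
      rcases e with e | e
      · linear_combination e + hcb
      · exact (jv_ne hx e).elim
    · exact (hd ⟨(c - b)⁻¹ * (a - c), by rw [mul_smul, ← e, inv_smul_smul₀ hcb]⟩).elim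

theorem mem_subfield_iff (hθ : ∀ a, θ a = a ↔ a ∈ K) (P g : GL ι F) :
    g ∈ subfieldSubgroup K P ↔ glEquiv ι F (P⁻¹ * g * P) ∈ ratG θ ι := by
  have e : g ∈ subfieldSubgroup K P ↔ P⁻¹ * g * P ∈
      (Matrix.GeneralLinearGroup.map (K.subtype : K →+* F)).range ⊔ scalars ι F := by
    constructor
    · rintro ⟨x, hx, rfl⟩; simpa [mul_assoc] using hx
    · intro h; exact ⟨_, h, by simp [mul_assoc]⟩
  rw [e]
  generalize P⁻¹ * g * P = x
  constructor
  · intro hx
    refine (sup_le (c := (ratG θ ι).comap (glEquiv ι F).toMonoidHom) ?_ fun y hy => ?_) hx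
    · rintro _ ⟨y, rfl⟩
      refine mem_ratG_of_jv hθ fun z => ⟨Matrix.mulVec y.1 z, funext fun i => ?_⟩
      exact (RingHom.map_mulVec K.subtype y.1 z i).symm
    · obtain ⟨c, hc⟩ := (mem_scalars_iff y).mp hy
      refine ⟨θ c / c, by simp, fun v => ?_⟩
      simp [hc, Matrix.smul_mulVec, th_smul, smul_smul]
  · rintro ⟨μ, hμ, h⟩
    by_cases hι : IsEmpty ι
    · rw [Subsingleton.elim x 1]; exact one_mem _
    obtain ⟨i⟩ := not_isEmpty_iff.mp hι
    have col : ∀ j k, θ (x.1 k j) = μ * x.1 k j := fun j k => by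
      have := congrFun (h (Pi.single j 1)) k
      have e : th θ (Pi.single j (1 : F) : ι → F) = Pi.single j 1 := funext fun l => by
        by_cases hl : l = j <;> simp [th_apply, hl]
      simpa [e, th_apply] using this
    obtain ⟨k, hk⟩ : ∃ k, x.1 k i ≠ 0 := by
      by_contra hc
      push Not at hc
      exact x.det_ne_zero (Matrix.det_eq_zero_of_column_eq_zero i hc)
    let A : Matrix ι ι K := fun a b => ⟨(x.1 k i)⁻¹ * x.1 a b, (hθ _).mp (by
      rw [map_mul, map_inv₀, col, col]; field_simp)⟩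
    have hA : A.map K.subtype = (x.1 k i)⁻¹ • x.1 := rfl
    have hd : A.det ≠ 0 := fun hc => by
      have := RingHom.map_det K.subtype A
      rw [hc, RingHom.mapMatrix_apply, hA, Matrix.det_smul, map_zero] at this
      exact mul_ne_zero (pow_ne_zero _ (inv_ne_zero hk)) x.det_ne_zero this.symm
    have : x = Matrix.GeneralLinearGroup.map K.subtype (Matrix.GeneralLinearGroup.mkOfDetNeZero A hd) *
        Units.map (Matrix.scalar ι : F →+* Matrix ι ι F).toMonoidHom (Units.mk0 _ hk) := by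
      apply Units.ext
      change x.1 = A.map K.subtype * Matrix.scalar ι (x.1 k i)
      rw [hA, Matrix.scalar_apply, ← Matrix.smul_one_eq_diagonal, Matrix.mul_smul, Matrix.mul_one,
        smul_smul, mul_inv_cancel₀ hk, one_smul]
    rw [this]
    exact Subgroup.mul_mem_sup ⟨_, rfl⟩ ⟨_, rfl⟩

end rat

end Cfsg.Agent.H10
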