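import Mathlib
import Cfsg.Agent.H10.Mx7

/-!
Subfield subgroups of symplectic, unitary and orthogonal groups: overgroups, first part.
-/

set_option autoImplicit false

namespace Cfsg.Agent.H10

open Module H11 Cfsg.Geo

section general

variable {F : Type*} [Field F] {V : Type*} [AddCommGroup V] [Module F V] {σ : F →+* F}

theorem notMem_span_symm {e f : V} (he : e ≠ 0) (h : f ∉ Submodule.span F {e}) :
    e ∉ Submodule.span F {f} := fun hc => by
  obtain ⟨t, ht⟩ := Submodule.mem_span_singleton.mp hc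
  have : t ≠ 0 := by rintro rfl; exact he (by simpa using ht.symm)
  exact h (Submodule.mem_span_singleton.mpr ⟨t⁻¹, by rw [← ht, inv_smul_smul₀ this]⟩)

theorem mem_of_two {S : Submodule F V} {e f z : V} (hf : f ∉ S ⊔ Submodule.span F {e})
    (h1 : z ∈ S ⊔ Submodule.span F {e}) (h2 : z ∈ S ⊔ Submodule.span F {f}) : z ∈ S := by
  obtain ⟨s, hs, _, ht, rfl⟩ := Submodule.mem_sup.mp h2
  obtain ⟨t, rfl⟩ := Submodule.mem_span_singleton.mp ht
  by_cases h0 : t = 0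
  · simpa [h0] using hs
  · refine (hf ?_).elim
    have := Submodule.smul_mem _ t⁻¹ (Submodule.sub_mem _ h1 (Submodule.mem_sup_left hs))
    simpa [h0] using this

namespace Cl

variable {ε κ : F} {τ : F →+ F} {B : V →ₛₗ[σ] V →ₗ[F] F} {Q : V → F} (h : Cl ε κ τ B Q)
include h

theorem eps_or : ε = 1 ∨ ε = -1 := mul_self_eq_one_iff.mp h.eps_mul

theorem exists_totSing_ge [FiniteDimensional F V] [Finite F] {Z W : Submodule F V}
    (hW : TotSing B Q W) (hWZ : W ≤ Z) {k : ℕ} (hk : 2 * k + 1 ≤ finrank F Z) :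
    ∃ T, TotSing B Q T ∧ W ≤ T ∧ T ≤ Z ∧ k ≤ finrank F T := by
  induction k with
  | zero => exact ⟨W, hW, le_rfl, hWZ, Nat.zero_le _⟩
  | succ k ih =>
    obtain ⟨T, h1, h2, h3, h4⟩ := ih (by omega)
    by_cases h5 : k + 1 ≤ finrank F T
    · exact ⟨T, h1, h2, h3, h5⟩
    have d1 := h.form.finrank_perp h.sep T
    have d2 := Submodule.finrank_sup_add_finrank_inf_eq Z (perp B T)
    have d3 := Submodule.finrank_le (Z ⊔ perp B T)
    obtain ⟨x, ⟨a1, a2⟩, a3, a4⟩ := h.exists_sing_notMem (W := Z ⊓ perp B T) (Z := T) (by omega)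
    refine ⟨_, h.form.totSing_sup_span h1 a4 a2, h2.trans le_sup_left,
      sup_le h3 (by simpa using a1), ?_⟩
    have := Submodule.finrank_lt_finrank_of_lt (s := T) (t := T ⊔ Submodule.span F {x})
      (left_lt_sup.mpr (by simpa using a3))
    omega

variable {M : Subgroup (V ≃ₗ[F] V)}

theorem ar_move (hM : M ≤ Isom B Q) {e e' a b : V} (he' : Q e' = 0) (h1 : B e' e = 0)
    (ha : a ∈ h.Ar M e) (hb : b ∈ h.Ar M e') (h2 : B b e = 0) (h3 : B e' a = 0) :
    B b a • e' ∈ h.Ar M e := by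
  obtain ⟨p, c, -, hm⟩ := (h.mem_ar he').mp hb
  have := (h.Ar M e).sub_mem (h.map_mem_ar_fix hM hm (h.eich_fix c h1 h2) ha) ha
  rwa [h.eich_of_perp he' p c h3, add_sub_cancel_left] at this

theorem exists_shear [FiniteDimensional F V] {e f : V} (hf : Q f = 0) (hfe : B f e = 0)
    (hef : e ∉ Submodule.span F {f}) (hA : ∀ y, B f y = 0 → y ∈ h.Ar M f) (a : F) :
    ∃ g ∈ M, g e = e + a • f ∧ g f = f := by
  obtain ⟨y, h1, h2⟩ := h.form.exists_perp_not h.sep hef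
  have h1' : B f y = 0 := h1 f (Submodule.mem_span_singleton_self f)
  have p : B f ((ε * σ a) • y) = 0 := by simp [h1']
  obtain ⟨-, c, -, hm⟩ := (h.mem_ar hf).mp (hA _ p)
  refine ⟨_, hm, ?_, h.eich_fix c (h.diag0 hf) (h.refl p)⟩
  rw [h.eich_of_perp hf p c hfe]
  simp only [map_smulₛₗ, LinearMap.smul_apply, smul_eq_mul, map_mul, h.invol, h.sigma_eps,
    h.flip_one h2]
  rw [mul_right_comm, h.eps_mul, one_mul]

theorem center_of_ar_two [FiniteDimensional F V] [Finite F] (hM : M ≤ Isom B Q)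
    (h2 : (2 : F) = 0) (hσ : σ = RingHom.id F) {e f : V} (he : Q e = 0) (hf : Q f = 0)
    (hef : B e f = 0) (he0 : e ≠ 0) (hfe : f ∉ Submodule.span F {e})
    (hA : ∀ y, B e y = 0 → y ∈ h.Ar M e) (hA' : ∀ y, B f y = 0 → y ∈ h.Ar M f) {c₀ : F}
    (hc₀ : c₀ ≠ 0) (ht : h.eich e 0 c₀ ∈ M) (c : F) : h.eich e 0 c ∈ M := by
  have := Fintype.ofFinite F
  obtain ⟨l, hl⟩ := FiniteField.isSquare_of_char_two
    (CharP.ringChar_of_prime_eq_zero Nat.prime_two (by exact_mod_cast h2)) (c / c₀)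
  by_cases hl0 : l = 0
  · have : c = 0 := by simpa [hl0, hc₀] using hl
    rw [this, h.eich_zero]; exact M.one_mem
  have hef' := notMem_span_symm he0 hfe
  obtain ⟨g1, m1, a1, -⟩ := h.exists_shear hf (h.refl hef) hef' hA' 1
  obtain ⟨g2, m2, a2, b2⟩ := h.exists_shear he hef hfe hA (l - 1)
  obtain ⟨g3, m3, a3, b3⟩ := h.exists_shear hf (h.refl hef) hef' hA' (-l⁻¹)
  have m := M.mul_mem m3 (M.mul_mem m2 m1)
  have k := M.mul_mem (M.mul_mem m ht) (M.inv_mem m)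
  have e1 : (g3 * (g2 * g1)) e = l • e := by
    simp only [LinearEquiv.mul_apply, a1, map_add, map_smul, a2, b2, a3, b3]
    match_scalars <;> field_simp <;> ring
  rw [h.conj_eich (hM m), e1, map_zero, h.eich_smul_left he (by simp), smul_zero] at k
  convert k using 2
  rw [hσ, RingHom.id_apply, ← hl]; field_simp

end Cl

end general

variable {F : Type*} [Field F] {K : Subfield F} {θ : F ≃+* F} {ι : Type} {σ : F →+* F}
  {σ₀ : K →+* K}

theorem mem_span_of_jv [Fintype ι] {s : Set (ι → K)} {x : ι → K}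
    (h : jv K x ∈ Submodule.span F (jv K '' s)) : x ∈ Submodule.span K s := by
  rw [← pre_ext (Submodule.span K s)]
  exact Submodule.span_mono (Set.image_mono Submodule.subset_span) h

/-- A classical form on `ι → F` which up to the scalar `ζ` is defined over a subfield. -/
structure Rat (θ : F ≃+* F) (ε κ : F) (τ : F →+ F) (B : (ι → F) →ₛₗ[σ] (ι → F) →ₗ[F] F)
    (Q : (ι → F) → F) (ε₀ κ₀ : K) (τ₀ : K →+ K) (B₀ : (ι → K) →ₛₗ[σ₀] (ι → K) →ₗ[K] K)
    (Q₀ : (ι → K) → K) (ζ : F) : Prop where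
  cl : Cl ε κ τ B Q
  cl₀ : Cl ε₀ κ₀ τ₀ B₀ Q₀
  fix : ∀ a, θ a = a ↔ a ∈ K
  comm : ∀ a, σ (θ a) = θ (σ a)
  ne : ζ ≠ 0
  hB : ∀ x y, (B₀ x y : F) = ζ * B (jv K x) (jv K y)
  he : ε * σ ζ = ε₀ * ζ
  hQ : ∀ x c, τ₀ c = Q₀ x → τ (c * ζ) = Q (σ ζ • jv K x)

namespace Rat

variable {ε κ : F} {τ : F →+ F} {B : (ι → F) →ₛₗ[σ] (ι → F) →ₗ[F] F} {Q : (ι → F) → F}
  {ε₀ κ₀ : K} {τ₀ : K →+ K} {B₀ : (ι → K) →ₛₗ[σ₀] (ι → K) →ₗ[K] K} {Q₀ : (ι → K) → K} {ζ : F}
  (R : Rat θ ε κ τ B Q ε₀ κ₀ τ₀ B₀ Q₀ ζ)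
include R

theorem sz_ne : σ ζ ≠ 0 := R.cl.sigma_ne R.ne

theorem sz_or : σ ζ = ζ ∨ σ ζ = -ζ := by
  have := R.he
  rcases R.cl.eps_or with a | a <;> rcases R.cl₀.eps_or with b | b <;> simp [a, b] at this
  · exact Or.inl this
  · exact Or.inr this
  · exact Or.inr (neg_eq_iff_eq_neg.mp this)
  · exact Or.inl this

theorem sing {u : ι → K} (hu : Q₀ u = 0) : Q (jv K u) = 0 := by
  have := R.hQ u 0 (by simp [hu])
  have k := R.cl.sing_smul (x := σ ζ • jv K u) (by simpa using this.symm) (σ ζ)⁻¹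
  rwa [inv_smul_smul₀ R.sz_ne] at k

theorem perp_iff {x y : ι → K} : B (jv K x) (jv K y) = 0 ↔ B₀ x y = 0 := by
  rw [← ZeroMemClass.coe_eq_zero (x := B₀ x y), R.hB, mul_eq_zero, or_iff_right R.ne]

theorem perp {x y : ι → K} (hxy : B₀ x y = 0) : B (jv K x) (jv K y) = 0 := R.perp_iff.mpr hxy

theorem perp' {x y : ι → K} (hxy : B₀ x y = 0) (l : F) : B (jv K x) (l • jv K y) = 0 := by
  simp [R.perp hxy]

theorem perp'' {x y : ι → K} (hxy : B₀ x y = 0) (l : F) : B (l • jv K x) (jv K y) = 0 := by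
  simp [R.perp hxy]

/-- The rational Eichler elements. -/
noncomputable def E (u x : ι → K) (c : K) : (ι → F) ≃ₗ[F] (ι → F) :=
  R.cl.eich (jv K u) (σ ζ • jv K x) (c * ζ)

theorem E_apply {u x : ι → K} (hu : Q₀ u = 0) (hx : B₀ u x = 0) (c : K) (v : ι → K) :
    R.E u x c (jv K v) = jv K (R.cl₀.eich u x c v) := by
  rw [E, R.cl.eich_apply (R.sing hu) (R.perp' hx _), R.cl₀.eich_apply hu hx]
  rw [map_sub, map_sub, map_add, jv_smul, jv_smul, jv_smul]
  simp only [map_smulₛₗ, LinearMap.smul_apply, smul_eq_mul, R.cl.invol,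
    Subfield.coe_mul, R.hB, smul_smul]
  congr 2
  · congr 1; linear_combination (B (jv K u) (jv K v)) * R.he
  · ring

theorem E_mem_om {u x : ι → K} {c : K} (hu : Q₀ u = 0) (hx : B₀ u x = 0) (hc : τ₀ c = Q₀ x) :
    R.E u x c ∈ R.cl.Om := R.cl.eich_mem_om (R.sing hu) (R.perp' hx _) (R.hQ x c hc)

theorem E_fix {u x e : ι → K} (c : K) (h1 : B₀ u e = 0) (h2 : B₀ x e = 0) :
    R.E u x c (jv K e) = jv K e := R.cl.eich_fix _ (R.perp h1) (R.perp'' h2 _)

variable [Fintype ι] [DecidableEq ι]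

theorem E_mem_rat {u x : ι → K} (hu : Q₀ u = 0) (hx : B₀ u x = 0) (c : K) :
    R.E u x c ∈ ratG θ ι := mem_ratG_of_jv R.fix fun v => ⟨_, R.E_apply hu hx c v⟩

theorem B_th (a b : ι → F) : ζ * B (th θ a) (th θ b) = θ (ζ * B a b) := by
  refine ext_induction (p := fun a => ζ * B (th θ a) (th θ b) = θ (ζ * B a b)) (fun x _ => ?_)
    (fun v w p q => by simp only [map_add, LinearMap.add_apply, mul_add, p, q])
    (fun c v p => ?_) (mem_ext_top K a)
  · refine ext_induction (p := fun b => ζ * B (th θ (jv K x)) (th θ b) = θ (ζ * B (jv K x) b))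
      (fun y _ => ?_) (fun v w p q => by simp only [map_add, mul_add, p, q]) (fun c v p => ?_)
      (mem_ext_top K b)
    · rw [th_jv R.fix, th_jv R.fix, ← R.hB, (R.fix _).mpr (B₀ x y).2]
    · rw [th_smul, map_smul, map_smul, smul_eq_mul, smul_eq_mul, mul_left_comm, p, mul_left_comm,
        map_mul θ c]
  · rw [th_smul, map_smulₛₗ, map_smulₛₗ, LinearMap.smul_apply, LinearMap.smul_apply, smul_eq_mul,
      smul_eq_mul, mul_left_comm, p, mul_left_comm, map_mul θ (σ c), R.comm]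

theorem perp_th {a b : ι → F} : B (th θ a) (th θ b) = 0 ↔ B a b = 0 := by
  have := R.B_th a b
  constructor
  · intro h; rw [h, mul_zero, eq_comm, map_eq_zero] at this; simpa [R.ne] using this
  · intro h; rw [h, mul_zero, map_zero] at this; simpa [R.ne] using this

theorem mem_ext_perp {e : ι → K} {v : ι → F} (hv : B (jv K e) v = 0) :
    v ∈ ext (LinearMap.ker (B₀ e)) := by
  have : pre K (LinearMap.ker (B (jv K e))) = LinearMap.ker (B₀ e) :=
    Submodule.ext fun x => R.perp_iff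
  rw [← this, ext_pre R.fix]
  · exact hv
  · intro w hw
    rw [LinearMap.mem_ker, ← th_jv R.fix e, R.perp_th]; exact hw

/-- The overgroups under consideration. -/
def Ov (M : Subgroup ((ι → F) ≃ₗ[F] (ι → F))) : Prop :=
  M ≤ Isom B Q ∧ ∀ u x c, Q₀ u = 0 → B₀ u x = 0 → τ₀ c = Q₀ x → R.E u x c ∈ M

variable {R} {M : Subgroup ((ι → F) ≃ₗ[F] (ι → F))} (o : R.Ov M)
include o

omit [Fintype ι] [DecidableEq ι] in
theorem Ov.mem_ar {e y : ι → K} (he : Q₀ e = 0) (hy : B₀ e y = 0) :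
    σ ζ • jv K y ∈ R.cl.Ar M (jv K e) := by
  obtain ⟨c, hc⟩ := R.cl₀.exists_tau y
  exact (R.cl.mem_ar (R.sing he)).mpr ⟨R.perp' hy _, _, R.hQ y c hc, o.2 _ _ _ he hy hc⟩

variable [Finite F]

theorem Ov.om_le_of_full (hn : 3 ≤ Fintype.card ι) {e : ι → K} (he0 : e ≠ 0)
    (he : R.cl.Full M (jv K e)) : R.cl.Om ≤ M := by
  refine (R.cl.om_le_or o.1).resolve_right fun hc => R.cl.ne_top_of_totSing hc
    (fun h0 => jv_ne he0 (by simpa [h0] using he.mem)) ?_
  have := R.cl₀.irr (U := ⊤) (S := pre K (R.cl.fullSpan M)) (Cl.nondegOn_top R.cl₀.sep)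
    (Or.inl (by simpa using hn)) (fun u _ w _ c a b d s hs => by
      rw [mem_pre, ← R.E_apply a b]; exact R.cl.map_mem_fullSpan o.1 (o.2 _ _ _ a b d) hs)
    (s := e) he.mem (by
      obtain ⟨y, hy⟩ := R.cl₀.exists_ne he0; exact ⟨y, trivial, R.cl₀.refl_ne hy⟩)
  exact eq_top_iff.mpr fun v _ => ext_le (S := ⊤) (T := R.cl.fullSpan M) (fun x hx => this hx)
    (mem_ext_top K v)

theorem Ov.spread (hn : 7 ≤ Fintype.card ι) {e y : ι → K} (he0 : e ≠ 0) (he : Q₀ e = 0) {l : F}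
    (hy : y ∉ Submodule.span K {e}) (hl : (l * σ ζ) • jv K y ∈ R.cl.Ar M (jv K e)) {z : ι → K}
    (hz : B₀ e z = 0) : (l * σ ζ) • jv K z ∈ R.cl.Ar M (jv K e) := by
  by_cases hl0 : l = 0
  · simp [hl0]
  let A : AddSubgroup (ι → K) := (R.cl.Ar M (jv K e)).comap
    ((DistribSMul.toAddMonoidHom _ (l * σ ζ)).comp (jv K).toAddMonoidHom)
  refine R.cl₀.perp_irr (A := A) (by simpa using hn) he0 (Or.inl he)
    (fun u x c a b d p q s hs => ?_) hl ?_ hy hz
  · change (l * σ ζ) • jv K (R.cl₀.eich u x c s) ∈ R.cl.Ar M (jv K e)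
    rw [← R.E_apply a b, ← map_smul]
    exact R.cl.map_mem_ar_fix o.1 (o.2 _ _ _ a b d) (R.E_fix c p q) hs
  · have := R.cl.ar_perp hl
    simpa [hl0, R.sz_ne, R.perp_iff] using this

omit o in
theorem exists_cfg (hn : 7 ≤ Fintype.card ι) {e u : ι → K} :
    ∃ f, Q₀ f = 0 ∧ B₀ e f = 0 ∧ B₀ u f = 0 ∧ f ∉ Submodule.span K {e, u} := by
  have d1 := finrank_le_inf_ker ⊤ (B₀ e)
  have d2 := finrank_le_inf_ker (⊤ ⊓ LinearMap.ker (B₀ e)) (B₀ u)
  have d3 := finrank_span_pair_le (F := K) e u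
  have d4 : finrank K (⊤ : Submodule K (ι → K)) = Fintype.card ι := by simp
  obtain ⟨f, ⟨⟨-, a⟩, b⟩, c, d⟩ := R.cl₀.exists_sing_notMem
    (W := ⊤ ⊓ LinearMap.ker (B₀ e) ⊓ LinearMap.ker (B₀ u)) (Z := Submodule.span K {e, u}) (by omega)
  exact ⟨f, d, a, b, c⟩

omit o in
theorem exists_pair (hn : 7 ≤ Fintype.card ι) {Z : Submodule K (ι → K)} (hZ : finrank K Z ≤ 3) :
    ∃ y z, (∀ x ∈ Z, B₀ x y = 0) ∧ (∀ x ∈ Z, B₀ x z = 0) ∧ B₀ y z = 1 := by
  have d := R.cl₀.form.finrank_perp R.cl₀.sep Z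
  obtain ⟨y, a, b⟩ := exists_mem_notMem (W := H11.perp B₀ Z) (Z := Z) (by simp at d; omega)
  obtain ⟨z, p, q⟩ := R.cl₀.form.exists_perp_not R.cl₀.sep b
  exact ⟨y, z, a, p, q⟩

theorem Ov.mul_mem (hn : 7 ≤ Fintype.card ι) {e f : ι → K} (he0 : e ≠ 0) (he : Q₀ e = 0)
    (hf : Q₀ f = 0) (hef : B₀ e f = 0) (hfe : f ∉ Submodule.span K {e}) {l l' : F}
    (hl : ∀ y, B₀ f y = 0 → (l * σ ζ) • jv K y ∈ R.cl.Ar M (jv K f))
    (hl' : ∀ y, B₀ e y = 0 → (l' * σ ζ) • jv K y ∈ R.cl.Ar M (jv K e)) (y : ι → K)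
    (hy : B₀ e y = 0) : (σ l * l' * σ ζ) • jv K y ∈ R.cl.Ar M (jv K e) := by
  obtain ⟨a, b, h1, h2, h3⟩ := R.exists_pair hn (Z := Submodule.span K {e, f})
    ((finrank_span_pair_le _ _).trans (by omega))
  have p : e ∈ Submodule.span K {e, f} := Submodule.subset_span (by simp)
  have q : f ∈ Submodule.span K {e, f} := Submodule.subset_span (by simp)
  have := R.cl.ar_move o.1 (R.sing hf) (R.perp (R.cl₀.refl hef)) (hl' b (h2 e p)) (hl a (h1 f q))
    (R.perp'' (R.cl₀.refl (h1 e p)) _) (R.perp' (h2 f q) _)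
  refine o.spread hn he0 he hfe ?_ hy
  convert this using 2
  have k := R.hB a b
  rw [h3] at k
  simp only [map_smulₛₗ, LinearMap.smul_apply, smul_eq_mul, map_mul, R.cl.invol, RingHom.id_apply]
  simp only [OneMemClass.coe_one] at k
  linear_combination (σ l * l' * σ ζ) * k

variable {r : ℕ}

theorem Ov.om_le (hn : 7 ≤ Fintype.card ι) (hr : r.Prime) (hc : Nat.card K ^ r = Nat.card F)
    (hτ : τ = 0 → NQ τ₀) {e : ι → K} (he0 : e ≠ 0) (he : Q₀ e = 0) {l : F} (hlK : l ∉ K)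
    (hl : ∀ y, B₀ e y = 0 → (l * σ ζ) • jv K y ∈ R.cl.Ar M (jv K e)) : R.cl.Om ≤ M := by
  obtain ⟨f, hf, hef, -, hfe⟩ := R.exists_cfg hn (e := e) (u := e)
  rw [Set.pair_eq_singleton] at hfe
  have hf0 : f ≠ 0 := by rintro rfl; exact hfe (Submodule.zero_mem _)
  have hef' := notMem_span_symm he0 hfe
  have one : ∀ {e : ι → K}, Q₀ e = 0 → ∀ y, B₀ e y = 0 →
      (1 * σ ζ) • jv K y ∈ R.cl.Ar M (jv K e) := fun he y hy => by
    rw [one_mul]; exact o.mem_ar he hy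
  have sw : ∀ l : F, (∀ y, B₀ e y = 0 → (l * σ ζ) • jv K y ∈ R.cl.Ar M (jv K e)) →
      ∀ y, B₀ f y = 0 → (σ l * σ ζ) • jv K y ∈ R.cl.Ar M (jv K f) := fun l hl y hy => by
    simpa using o.mul_mem hn hf0 hf he (R.cl₀.refl hef) hef' hl (one hf) y hy
  let L : Subring F :=
    { carrier := {l | ∀ y, B₀ e y = 0 → (l * σ ζ) • jv K y ∈ R.cl.Ar M (jv K e)}
      mul_mem' := fun {a b} ha hb y hy => by
        simpa [R.cl.invol] using o.mul_mem hn he0 he hf hef hfe (sw a ha) hb y hy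
      one_mem' := one he
      add_mem' := fun ha hb y hy => by
        rw [add_mul, add_smul]; exact AddSubgroup.add_mem _ (ha y hy) (hb y hy)
      zero_mem' := fun y _ => by simp
      neg_mem' := fun ha y hy => by rw [neg_mul, neg_smul]; exact AddSubgroup.neg_mem _ (ha y hy) }
  let L' : Subfield F := { L with
    inv_mem' := fun a ha => by
      by_cases h0 : a = 0
      · rw [h0, inv_zero]; exact L.zero_mem
      · have := Fintype.ofFinite F
        have e1 := FiniteField.pow_card_sub_one_eq_one a h0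
        have e2 : 1 < Fintype.card F := Fintype.one_lt_card
        rw [show Fintype.card F - 1 = Fintype.card F - 2 + 1 by omega, pow_succ] at e1
        rw [← eq_inv_of_mul_eq_one_left e1]
        exact L.pow_mem ha _ }
  have hKL : K ≤ L' := fun a ha y hy => by
    have := o.mem_ar he (y := (⟨a, ha⟩ : K) • y) (by simp [hy])
    rwa [jv_smul, smul_smul, mul_comm] at this
  have hL : ∀ a, a ∈ L' := fun a => by
    rcases subfield_eq_or_of_prime hKL hr hc with h | h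
    · exact (hlK (h ▸ (hl : l ∈ L'))).elim
    · rw [h]; trivial
  have full : ∀ {e : ι → K}, (∀ (l : F) y, B₀ e y = 0 → (l * σ ζ) • jv K y ∈ R.cl.Ar M (jv K e)) →
      ∀ y, B (jv K e) y = 0 → y ∈ R.cl.Ar M (jv K e) := fun h y hy =>
    R.cl.ar_of_arm (ext_le (T := R.cl.Arm M _) (fun x hx a => by
      have := h (a / σ ζ) x hx
      rwa [div_mul_cancel₀ _ R.sz_ne] at this) (R.mem_ext_perp hy))
  have A1 := full (e := e) hL
  have A2 := full (e := f) fun l y hy => by simpa [R.cl.invol] using sw (σ l) (hL _) y hy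
  refine o.om_le_of_full (by omega) he0 (R.cl.full_of_ar (R.sing he) A1 fun c hc => ?_)
  by_cases h2 : τ = 0 → (2 : F) ≠ 0
  · exact R.cl.center_of_ar (by simp; omega) h2 (R.sing he) A1 hc
  push Not at h2
  obtain ⟨c₀, a, b⟩ := hτ h2.1
  have hσ : σ = RingHom.id F := by
    rcases R.cl.kind with k | k | k
    · exact k.1
    · exact k.1
    · obtain ⟨t, ht⟩ := exists_trace_eq k.1 R.cl.invol (map_one σ)
      have : τ t = 1 := by rw [k.2.2.2]; exact ht
      simp [h2.1] at this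
  refine R.cl.center_of_ar_two o.1 h2.2 hσ (R.sing he) (R.sing hf) (R.perp hef) (jv_ne he0)
    (fun hc => hfe ?_) A1 A2 (c₀ := c₀ * ζ) (by simp [a, R.ne]) ?_ c
  · exact mem_span_of_jv (by simpa using hc)
  · simpa [E] using o.2 e 0 c₀ he (by simp) (by rw [b, R.cl₀.Q_zero])

end Rat

end Cfsg.Agent.H10
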