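import Mathlib
import Cfsg.Agent.H10.Mx8

/-!
Subfield subgroups of symplectic, unitary and orthogonal groups: overgroups, second part.
-/

set_option autoImplicit false

namespace Cfsg.Agent.H10

open Module H11 Cfsg.Geo

variable {F : Type*} [Field F] {K : Subfield F} {θ : F ≃+* F} {ι : Type} {σ : F →+* F}
  {σ₀ : K →+* K}

theorem mem_span_of_lines {V : Type*} [AddCommGroup V] [Module F V] {w y y' z : V}
    (hy : y' ∉ Submodule.span F {w, y}) (h1 : z ∈ Submodule.span F {w, y})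
    (h2 : z ∈ Submodule.span F {w, y'}) : z ∈ Submodule.span F {w} := by
  rw [Submodule.span_insert] at hy h1 h2
  exact mem_of_two hy h1 h2

theorem notMem_span_map {V : Type*} [AddCommGroup V] [Module F V] (g : V ≃ₗ[F] V) {s : Set V}
    {x : V} (h : x ∉ Submodule.span F s) : g x ∉ Submodule.span F (g '' s) := fun hc => by
  rw [← LinearEquiv.coe_coe, ← Submodule.map_span] at hc
  obtain ⟨y, hy, e⟩ := hc
  exact h (g.injective e ▸ hy)

theorem finrank_le_inf_ker_add {V W : Type*} [AddCommGroup V] [Module F V] [AddCommGroup W]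
    [Module F W] [FiniteDimensional F V] (U : Submodule F V) (φ : V →ₗ[F] W) :
    finrank F U = finrank F ↥(U ⊓ LinearMap.ker φ) + finrank F (U.map φ) := by
  have := LinearMap.finrank_range_add_finrank_ker (φ.domRestrict U)
  rw [LinearMap.range_domRestrict, LinearMap.ker_domRestrict,
    ← Submodule.finrank_map_subtype_eq U, Submodule.map_comap_subtype] at this
  omega

/-- A functional restricted to the rational vectors. -/
def resJ (K : Subfield F) (φ : (ι → F) →ₗ[F] F) : (ι → K) →ₗ[K] F :=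
  (φ.restrictScalars K) ∘ₗ jv K

theorem finrank_le_of_prop [Fintype ι] (U : Submodule K (ι → K)) (φ : (ι → F) →ₗ[F] F) {a : F}
    (h : ∀ u ∈ U, ∃ t ∈ K, φ (jv K u) = t * a) :
    finrank K U ≤ finrank K ↥(U ⊓ LinearMap.ker (resJ K φ)) + 1 := by
  have := finrank_le_inf_ker_add U (resJ K φ)
  have k : U.map (resJ K φ) ≤ Submodule.span K {a} := by
    rintro _ ⟨u, hu, rfl⟩
    obtain ⟨t, ht, e⟩ := h u hu
    exact Submodule.mem_span_singleton.mpr ⟨⟨t, ht⟩, e.symm⟩
  have := (Submodule.finrank_mono k).trans (finrank_span_one_le a)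
  omega

theorem dickson2 [Finite F] {V : Type*} [AddCommGroup V] [Module F V] {M : Subgroup (V ≃ₗ[F] V)}
    {U R : Submodule F V} {N : V →ₗ[F] V} {t : V ≃ₗ[F] V} (ht : t ∈ M) (htN : ∀ v, t v = v + N v)
    (hN : ∀ u ∈ U, N (N u) = 0) (hR : ∀ r ∈ R, N r = 0) {a ρ : F} (h0 : a ≠ 0) (h1 : ρ ∉ K)
    (hs : ∀ c, c = a ∨ c = ρ * a → ∃ s ∈ M, (∀ r ∈ R, s r = r) ∧ ∀ u ∈ U, s u = u ∧
      s (N u) - c • u - N u ∈ R) :
    ∃ g ∈ M, ∃ l c : F, l ≠ 1 ∧ l ≠ 0 ∧ (∀ r ∈ R, g r = r) ∧ ∀ u ∈ U, g u - l • u ∈ R ∧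
      g (N u) - c • u - l⁻¹ • N u ∈ R := by
  refine dickson1 ht htN hN hR h0 (mul_ne_zero (by rintro rfl; exact h1 K.zero_mem) h0)
    (fun hc => h1 ?_) (fun hc => h1 ?_) hs
  · rw [mul_left_eq_self₀.mp hc |>.resolve_right h0]; exact K.one_mem
  · have : ρ = -1 := mul_right_cancel₀ h0 (by linear_combination hc)
    rw [this]; exact K.neg_mem K.one_mem

theorem mem_of_norms (hθ : ∀ a, θ a = a ↔ a ∈ K) (hc : ∀ a, σ (θ a) = θ (σ a))
    (hσ : σ = RingHom.id F ∨ ∃ t ∈ K, σ t ≠ t) {z : F} (h1 : σ z * z ∈ K)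
    (h2 : ∀ t ∈ K, σ (1 + t * z) * (1 + t * z) ∈ K) : z ∈ K := by
  have s : ∀ t ∈ K, σ t ∈ K := fun t ht => (hθ _).mp (by rw [← hc, (hθ t).mpr ht])
  have k : ∀ t ∈ K, t * z + σ t * σ z ∈ K := fun t ht => by
    convert K.sub_mem (K.sub_mem (h2 t ht) K.one_mem) (K.mul_mem (K.mul_mem ht (s t ht)) h1) using 1
    simp only [map_add, map_mul, map_one]; ring
  rcases hσ with rfl | ⟨t, ht, h⟩
  · have a := (hθ _).mpr h1
    have b := (hθ _).mpr (k 1 K.one_mem)
    simp only [RingHom.id_apply, map_mul, map_add, map_one, one_mul] at a b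
    refine (hθ _).mp (sub_eq_zero.mp (pow_eq_zero_iff two_ne_zero |>.mp ?_))
    linear_combination a - z * b
  · have := K.div_mem (K.sub_mem (k t ht) (K.mul_mem (s t ht) (k 1 K.one_mem))) (K.sub_mem ht (s t ht))
    convert this using 1
    have := sub_ne_zero.mpr h.symm
    field_simp; simp; ring

namespace Rat

variable {ε κ : F} {τ : F →+ F} {B : (ι → F) →ₛₗ[σ] (ι → F) →ₗ[F] F} {Q : (ι → F) → F}
  {ε₀ κ₀ : K} {τ₀ : K →+ K} {B₀ : (ι → K) →ₛₗ[σ₀] (ι → K) →ₗ[K] K} {Q₀ : (ι → K) → K} {ζ : F}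
  [Fintype ι] [DecidableEq ι]

/-- An overgroup which is not the whole group. -/
structure Bad (R : Rat θ ε κ τ B Q ε₀ κ₀ τ₀ B₀ Q₀ ζ) (M : Subgroup ((ι → F) ≃ₗ[F] (ι → F))) :
    Prop where
  o : R.Ov M
  hn : 13 ≤ Fintype.card ι
  hL : ∀ e, e ≠ 0 → Q₀ e = 0 → ∀ l : F,
    (∀ y, B₀ e y = 0 → (l * σ ζ) • jv K y ∈ R.cl.Ar M (jv K e)) → l ∈ K

variable {R : Rat θ ε κ τ B Q ε₀ κ₀ τ₀ B₀ Q₀ ζ} {M : Subgroup ((ι → F) ≃ₗ[F] (ι → F))}
  (b : R.Bad M) [Finite F]
include b

theorem Bad.nr_sing {e u : ι → K} (he0 : e ≠ 0) (he : Q₀ e = 0) (hu : Q₀ u = 0)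
    (heu : B₀ e u = 0) {a : ι → F} (ha : a ∈ R.cl.Ar M (jv K e)) : B (jv K u) a ∈ K := by
  have hn := b.hn
  obtain ⟨f, hf, hef, huf, hfe⟩ := R.exists_cfg (by omega) (e := e) (u := u)
  obtain ⟨y', y, h1, h2, h3⟩ := R.exists_pair (by omega)
    (Z := Submodule.span K {e, u} ⊔ Submodule.span K {f})
    ((finrank_sup_span_le _ _).trans (by have := finrank_span_pair_le (F := K) e u; omega))
  have p : e ∈ Submodule.span K {e, u} ⊔ Submodule.span K {f} :=
    Submodule.mem_sup_left (Submodule.subset_span (by simp))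
  have q : u ∈ Submodule.span K {e, u} ⊔ Submodule.span K {f} :=
    Submodule.mem_sup_left (Submodule.subset_span (by simp))
  have s : f ∈ Submodule.span K {e, u} ⊔ Submodule.span K {f} :=
    Submodule.mem_sup_right (Submodule.subset_span (by simp))
  obtain ⟨c, hc⟩ := R.cl₀.exists_tau y
  have k1 := AddSubgroup.sub_mem _ (R.cl.map_mem_ar_fix b.o.1 (b.o.2 u y c hu (h2 u q) hc)
    (R.E_fix c (R.cl₀.refl heu) (R.cl₀.refl (h2 e p))) ha) ha
  rw [E, R.cl.eich_apply (R.sing hu) (R.perp' (h2 u q) _)] at k1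
  have k2 := R.cl.ar_move b.o.1 (R.sing hf) (R.perp (R.cl₀.refl hef)) k1 (b.o.mem_ar hf (h1 f s))
    (R.perp'' (R.cl₀.refl (h1 e p)) _) (by simp [R.perp (R.cl₀.refl huf), R.perp (h2 f s)])
  have k3 := R.hB y' y
  rw [h3, OneMemClass.coe_one] at k3
  have k4 : -(ε * B (jv K u) a) ∈ K := b.hL e he0 he _ fun z hz => b.o.spread (by omega) he0 he
    (fun hc => hfe (Submodule.span_mono (by simp) hc)) (by
      convert k2 using 2
      simp [R.perp (R.cl₀.refl (h1 u q)), R.cl.invol]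
      linear_combination (ε * B (jv K u) a * σ ζ) * k3) hz
  rcases R.cl.eps_or with h | h <;> simpa [h] using k4

theorem Bad.nr {e u : ι → K} (he0 : e ≠ 0) (he : Q₀ e = 0) (heu : B₀ e u = 0) {a : ι → F}
    (ha : a ∈ R.cl.Ar M (jv K e)) : B (jv K u) a ∈ K := by
  have hn := b.hn
  obtain ⟨f, hf, hef, -, hfe⟩ := R.exists_cfg (by omega) (e := e) (u := e)
  rw [Set.pair_eq_singleton] at hfe
  let A : AddSubgroup (ι → K) :=
    { carrier := {u | ∀ a ∈ R.cl.Ar M (jv K e), B (jv K u) a ∈ K}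
      add_mem' := fun p q a ha => by simpa using K.add_mem (p a ha) (q a ha)
      zero_mem' := fun a _ => by simp
      neg_mem' := fun p a ha => by simpa using p a ha }
  refine R.cl₀.perp_irr (A := A) (by simp; omega) he0 (Or.inl he) (fun u x c p q r s t z hz a ha => ?_)
    (fun a ha => b.nr_sing he0 he hf hef ha) hef hfe heu a ha
  have m := b.o.2 _ _ _ p q r
  have := hz _ (R.cl.map_mem_ar_fix b.o.1 (M.inv_mem m) (by
    conv_lhs => rw [← R.E_fix c s t]
    simp [LinearEquiv.coe_inv]) ha)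
  rw [← (b.o.1 m).1, R.E_apply p q] at this
  simpa [LinearEquiv.coe_inv] using this

theorem Bad.key {t : (ι → F) ≃ₗ[F] (ι → F)} (ht : t ∈ M) {e : ι → K} (he0 : e ≠ 0)
    (he : Q₀ e = 0) (hte : t (jv K e) = jv K e) {v : ι → F} (hv : B (jv K e) v = 0) :
    th θ (t v) - t (th θ v) ∈ Submodule.span F {jv K e} := by
  refine ext_induction (p := fun v => th θ (t v) - t (th θ v) ∈ Submodule.span F {jv K e})
    (fun x hx => ?_) (fun v w p q => ?_) (fun c v p => ?_) (R.mem_ext_perp hv)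
  · refine R.cl.form.mem_of_perp R.cl.sep fun y hy => ?_
    refine ext_le (T := LinearMap.ker (B _)) (fun u hu => R.cl.refl ?_)
      (R.mem_ext_perp (hy _ (Submodule.mem_span_singleton_self _)))
    have k := b.nr he0 he hu (R.cl.map_mem_ar_fix b.o.1 ht hte (b.o.mem_ar he hx))
    have k' : ζ * B (jv K u) (t (jv K x)) ∈ K := by
      rcases R.sz_or with h | h <;> simpa [h] using k
    have := R.B_th (jv K u) (t (jv K x))
    rw [(R.fix _).mpr k', th_jv R.fix] at this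
    rw [map_sub, th_jv R.fix, mul_left_cancel₀ R.ne this, sub_self]
  · convert Submodule.add_mem _ p q using 1
    simp only [map_add]; abel
  · convert Submodule.smul_mem _ (θ c) p using 1
    rw [map_smul, th_smul, th_smul, map_smul, smul_sub]

theorem Bad.key2 {w y : ι → F} {c : F} (ht : R.cl.eich w y c ∈ M) (hw : Q w = 0) (hwy : B w y = 0)
    {S : Submodule K (ι → K)} (hS : 4 ≤ finrank K S) (h0 : ∀ x ∈ S, Q₀ x = 0)
    (h1 : ∀ x ∈ S, B w (jv K x) = 0) (h2 : ∀ x ∈ S, B y (jv K x) = 0) (v : ι → F) :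
    th θ (R.cl.eich w y c v - v) ∈ Submodule.span F {w, y} := by
  have d1 := finrank_span_pair_le (F := F) w y
  have one : ∀ e ∈ S, jv K e ∉ Submodule.span F {w, y} → th θ (R.cl.eich w y c v - v) ∈
      Submodule.span F {w, y} ⊔ Submodule.span F {jv K e} := fun e he hn => by
    obtain ⟨t, p, q⟩ := R.cl.form.exists_perp_not R.cl.sep hn
    have ft : R.cl.eich w y c t = t := R.cl.eich_fix c (p w (Submodule.subset_span (by simp)))
      (p y (Submodule.subset_span (by simp)))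
    have k := b.key ht (e := e) (by rintro rfl; simp at hn) (h0 e he)
      (R.cl.eich_fix c (h1 e he) (h2 e he)) (v := v - B (jv K e) v • t) (by simp [q])
    have k' : ∀ z, R.cl.eich w y c z - z ∈ Submodule.span F {w, y} := fun z => by
      rw [R.cl.eich_apply hw hwy, Submodule.mem_span_pair]
      exact ⟨B y z - c * B w z, -(ε * B w z), by module⟩
    convert Submodule.add_mem _ (Submodule.mem_sup_left (k' (th θ (v - B (jv K e) v • t))))
      (Submodule.mem_sup_right k) using 1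
    simp only [map_sub, map_smul, ft]; abel
  obtain ⟨e, p, q⟩ := exists_mem_notMem (W := S) (Z := pre K (Submodule.span F {w, y}))
    (by have := finrank_pre_le (K := K) (Submodule.span F {w, y}); omega)
  have d2 := finrank_sup_span_le (Submodule.span F {w, y}) (jv K e)
  obtain ⟨f, p', q'⟩ := exists_mem_notMem (W := S)
    (Z := pre K (Submodule.span F {w, y} ⊔ Submodule.span F {jv K e}))
    (by have := finrank_pre_le (K := K) (Submodule.span F {w, y} ⊔ Submodule.span F {jv K e})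
        omega)
  exact mem_of_two q' (one e p q) (one f p' fun hc => q' (Submodule.mem_sup_left hc))

theorem Bad.line {w y : ι → F} {c : F} (ht : R.cl.eich w y c ∈ M) (hw : Q w = 0) (hwy : B w y = 0)
    {S : Submodule K (ι → K)} (hS : 4 ≤ finrank K S) (h0 : ∀ x ∈ S, Q₀ x = 0)
    (h1 : ∀ x ∈ S, B w (jv K x) = 0) (h2 : ∀ x ∈ S, B y (jv K x) = 0)
    (hy : y ∉ Submodule.span F {w}) : th θ w ∈ Submodule.span F {w, y} := by
  obtain ⟨v, p, q⟩ := R.cl.form.exists_perp_not R.cl.sep hy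
  have := b.key2 ht hw hwy hS h0 h1 h2 v
  rwa [R.cl.eich_of_perp hw hwy c (p w (Submodule.mem_span_singleton_self w)), q, one_smul,
    add_sub_cancel_left] at this

theorem Bad.point {w : ι → F} {c : F} (ht : R.cl.eich w 0 c ∈ M) (hw : Q w = 0) (hc : c ≠ 0)
    {S : Submodule K (ι → K)} (hS : 4 ≤ finrank K S) (h0 : ∀ x ∈ S, Q₀ x = 0)
    (h1 : ∀ x ∈ S, B w (jv K x) = 0) : th θ w ∈ Submodule.span F {w} := by
  by_cases hw0 : w = 0
  · simp [hw0]
  obtain ⟨v, hv⟩ := R.cl.exists_ne hw0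
  have := b.key2 ht hw (by simp) hS h0 h1 (by simp) v
  rw [R.cl.eich_apply hw (by simp)] at this
  simp only [map_zero, LinearMap.zero_apply, zero_smul, add_zero, smul_zero, sub_zero,
    sub_sub_cancel_left, map_neg, neg_mem_iff, th_smul] at this
  rw [Submodule.smul_mem_iff _ (by simp [hc, hv])] at this
  simpa [Set.pair_comm] using this

omit [Finite F] [DecidableEq ι] in
theorem Bad.conj {g : (ι → F) ≃ₗ[F] (ι → F)} (hg : g ∈ M) {u x : ι → K} {c : K} (hu : Q₀ u = 0)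
    (hx : B₀ u x = 0) (hc : τ₀ c = Q₀ x) :
    R.cl.eich (g (jv K u)) (σ ζ • g (jv K x)) (c * ζ) ∈ M := by
  have := M.mul_mem (M.mul_mem hg (b.o.2 _ _ _ hu hx hc)) (M.inv_mem hg)
  rwa [E, R.cl.conj_eich (b.o.1 hg), map_smul] at this

/-- If enough conjugates of rational elements have large rational fixed spaces, the image of a
rational point is rational. -/
theorem Bad.point_of_lines {g : (ι → F) ≃ₗ[F] (ι → F)} (hg : g ∈ M) {T : Submodule K (ι → K)}
    (hT : TotSing B₀ Q₀ T) (h3 : 3 ≤ finrank K T) {e : ι → K} (he : e ∈ T)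
    (H : ∀ x ∈ T, x ∉ Submodule.span K {e} → ∃ S : Submodule K (ι → K), 4 ≤ finrank K S ∧
      (∀ z ∈ S, Q₀ z = 0) ∧ ∀ z ∈ S, B (g (jv K e)) (jv K z) = 0 ∧ B (g (jv K x)) (jv K z) = 0) :
    th θ (g (jv K e)) ∈ Submodule.span F {g (jv K e)} := by
  have k : ∀ x ∈ T, x ∉ Submodule.span K {e} →
      th θ (g (jv K e)) ∈ Submodule.span F {g (jv K e), g (jv K x)} := fun x hx hxe => by
    obtain ⟨S, a1, a2, a3⟩ := H x hx hxe
    have := b.line (b.conj hg (c := 0) (hT.1 e he) (hT.2 e he x hx) (by simp [hT.1 x hx]))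
      (by rw [(b.o.1 hg).2, R.sing (hT.1 e he)])
      (by simp [(b.o.1 hg).1, R.perp (hT.2 e he x hx)]) a1 a2 (fun z hz => (a3 z hz).1)
      (fun z hz => by simp [(a3 z hz).2]) (by
        rw [Submodule.smul_mem_iff _ R.sz_ne]
        simpa using notMem_span_map g (s := {jv K e}) fun hc => hxe (mem_span_of_jv (by simpa)))
    obtain ⟨p, q, hpq⟩ := Submodule.mem_span_pair.mp this
    exact Submodule.mem_span_pair.mpr ⟨p, q * σ ζ, by rw [← hpq, smul_smul]⟩
  obtain ⟨x, p, q⟩ := exists_mem_notMem (W := T) (Z := Submodule.span K {e})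
    (by have := finrank_span_one_le (F := K) e; omega)
  obtain ⟨x', p', q'⟩ := exists_mem_notMem (W := T) (Z := Submodule.span K {e, x})
    (by have := finrank_span_pair_le (F := K) e x; omega)
  refine mem_span_of_lines ?_ (k x p q) (k x' p' fun hc => q' (Submodule.span_mono (by simp) hc))
  simpa [Set.image_pair] using notMem_span_map g (s := {jv K e, jv K x})
    fun hc => q' (mem_span_of_jv (by simpa [Set.image_pair]))

theorem Bad.homology {U : Submodule K (ι → K)} (hU : TotSing B₀ Q₀ U) (h6 : 6 ≤ finrank K U)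
    {g : (ι → F) ≃ₗ[F] (ι → F)} (hg : g ∈ M) {w y : ι → F} {l : F} (hl : l ≠ 1)
    (h1 : ∀ v ∈ ext U ⊓ LinearMap.ker (B w) ⊓ LinearMap.ker (B y), g v = v)
    (h2 : ∀ v ∈ ext U, g v - l • v ∈ ext U ⊓ LinearMap.ker (B w) ⊓ LinearMap.ker (B y)) :
    4 ≤ finrank K (pre K (ext U ⊓ LinearMap.ker (B w) ⊓ LinearMap.ker (B y))) := by
  have gU : ∀ v ∈ ext U, g v ∈ ext U := fun v hv => by
    simpa using Submodule.add_mem _ (h2 v hv).1.1 (Submodule.smul_mem _ l hv)
  have pU : ∀ v ∈ ext U, ∀ z ∈ U, B v (jv K z) = 0 := fun v hv z hz =>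
    R.cl.refl (ext_le (T := LinearMap.ker (B (jv K z))) (fun x hx => R.perp (hU.2 z hz x hx)) hv)
  have k1 : ∀ e ∈ U, th θ (g (jv K e)) ∈ Submodule.span F {g (jv K e)} := fun e he =>
    b.point_of_lines hg hU (by omega) he fun x hx _ => ⟨U, by omega, hU.1, fun z hz =>
      ⟨pU _ (gU _ (mem_ext he)) z hz, pU _ (gU _ (mem_ext hx)) z hz⟩⟩
  obtain ⟨e, he, he0⟩ := exists_ne_zero_of_finrank (W := U) (by omega)
  obtain ⟨μ, hμ⟩ := Submodule.mem_span_singleton.mp (k1 e he)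
  have k2 : ∀ v ∈ ext U, th θ (g v) = μ • g (th θ v) := fun v hv =>
    th_comm R.fix (g := (g : (ι → F) →ₗ[F] (ι → F))) (fun x hx => by
      by_cases h0 : x = 0
      · simp [h0]
      obtain ⟨ν, hν⟩ := Submodule.mem_span_singleton.mp (k1 x hx)
      rw [eig_eq R.fix he0 h0 hμ.symm hν.symm (k1 _ (U.add_mem he hx))]
      exact hν.symm) hv
  have d0 := finrank_ext U
  have d1 := finrank_le_inf_ker (ext U) (B w)
  have d2 := finrank_le_inf_ker (ext U ⊓ LinearMap.ker (B w)) (B y)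
  set S := ext U ⊓ LinearMap.ker (B w) ⊓ LinearMap.ker (B y) with hS
  have hμ1 : μ = 1 := by
    obtain ⟨w', rfl⟩ := th_surj (θ := θ) w
    obtain ⟨y', rfl⟩ := th_surj (θ := θ) y
    have d3 := finrank_le_inf_ker S (B w')
    have d4 := finrank_le_inf_ker (S ⊓ LinearMap.ker (B w')) (B y')
    obtain ⟨v, ⟨⟨p1, p2⟩, p3⟩, p4⟩ := exists_ne_zero_of_finrank
      (W := S ⊓ LinearMap.ker (B w') ⊓ LinearMap.ker (B y')) (by omega)
    have := k2 v p1.1.1
    rw [h1 v p1, h1 _ ⟨⟨th_mem_ext R.fix p1.1.1, R.perp_th.mpr p2⟩, R.perp_th.mpr p3⟩] at this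
    exact (smul_left_injective F (th_ne p4) (by simpa using this)).symm
  rw [finrank_pre R.fix fun v hv => ?_]
  · omega
  have p := k2 v hv.1.1
  rw [h1 v hv, hμ1, one_smul] at p
  have q := h2 _ (th_mem_ext R.fix hv.1.1)
  rw [← p] at q
  have : (1 - l) • th θ v ∈ S := by rwa [sub_smul, one_smul]
  rwa [Submodule.smul_mem_iff _ (sub_ne_zero.mpr hl.symm)] at this

omit b in
theorem exists_sing_ne (R : Rat θ ε κ τ B Q ε₀ κ₀ τ₀ B₀ Q₀ ζ) (hn : 3 ≤ Fintype.card ι) {w : ι → F}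
    (hw : w ≠ 0) : ∃ u, Q₀ u = 0 ∧ B w (jv K u) ≠ 0 := by
  by_contra hc
  push Not at hc
  have := R.cl₀.eq_top_of_sing (by simpa using hn) (S := pre K (LinearMap.ker (B w))) hc
  exact hw (R.cl.sep w fun v => ext_le (S := ⊤) (T := LinearMap.ker (B w))
    (fun x hx => mem_pre.mp (by rw [this]; trivial)) (mem_ext_top K v))

omit b in
theorem exists_sing_perp_ne (R : Rat θ ε κ τ B Q ε₀ κ₀ τ₀ B₀ Q₀ ζ) (hn : 7 ≤ Fintype.card ι)
    {e : ι → K} (he0 : e ≠ 0) (he : Q₀ e = 0) {w : ι → F} (hw : w ∉ Submodule.span F {jv K e}) :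
    ∃ u, Q₀ u = 0 ∧ B₀ e u = 0 ∧ B w (jv K u) ≠ 0 := by
  by_contra hc
  push Not at hc
  obtain ⟨f, hf, hef, -, hfe⟩ := R.exists_cfg hn (e := e) (u := e)
  rw [Set.pair_eq_singleton] at hfe
  refine hw (R.cl.form.mem_of_perp R.cl.sep fun y hy => ext_le (T := LinearMap.ker (B w))
    (fun x hx => ?_) (R.mem_ext_perp (hy _ (Submodule.mem_span_singleton_self _))))
  have := R.cl₀.perp_irr (A := AddSubgroup.closure {u | Q₀ u = 0 ∧ B₀ e u = 0}) (by simpa using hn)
    he0 (Or.inl he) (fun u x c p q r s t a ha => ?_) (AddSubgroup.subset_closure ⟨hf, hef⟩) hef hfe hx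
  · exact (AddSubgroup.closure_le (pre K (LinearMap.ker (B w))).toAddSubgroup).mpr
      (fun u hu => hc u hu.1 hu.2) this
  · have m := R.cl₀.eich_mem_isom p q r
    refine (AddSubgroup.closure_le ((AddSubgroup.closure {u | Q₀ u = 0 ∧ B₀ e u = 0}).comap
      (R.cl₀.eich u x c : (ι → K) →+ (ι → K)))).mpr (fun v hv => AddSubgroup.subset_closure
        ⟨(m.2 v).trans hv.1, ?_⟩) ha
    rw [← hv.2, ← m.1 e v, R.cl₀.eich_fix c s t]; rfl

omit b in
theorem exists_ts (R : Rat θ ε κ τ B Q ε₀ κ₀ τ₀ B₀ Q₀ ζ) (hn : 13 ≤ Fintype.card ι) {u v : ι → K}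
    (hu : Q₀ u = 0) (hv : Q₀ v = 0) (huv : B₀ u v = 0) :
    ∃ T, TotSing B₀ Q₀ T ∧ u ∈ T ∧ v ∈ T ∧ 6 ≤ finrank K T := by
  obtain ⟨T, a, p, -, q⟩ := R.cl₀.exists_totSing_ge (Z := ⊤) (k := 6)
    (R.cl₀.form.totSing_span (s := {u, v}) (by rintro _ (rfl | rfl) <;> assumption) (by
      rintro _ (rfl | rfl) _ (rfl | rfl)
      exacts [R.cl₀.diag0 hu, huv, R.cl₀.refl huv, R.cl₀.diag0 hv])) le_top (by simpa using hn)
  exact ⟨T, a, p (Submodule.subset_span (by simp)), p (Submodule.subset_span (by simp)), q⟩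

omit b [Finite F] in
theorem ext_perp (R : Rat θ ε κ τ B Q ε₀ κ₀ τ₀ B₀ Q₀ ζ) {U : Submodule K (ι → K)}
    (hU : TotSing B₀ Q₀ U) {z : ι → K} (hz : z ∈ U) {v : ι → F} (hv : v ∈ ext U) :
    B (jv K z) v = 0 :=
  ext_le (T := LinearMap.ker (B (jv K z))) (fun x hx => R.perp (hU.2 z hz x hx)) hv

theorem Bad.type2 (h2 : finrank K F = 2) {g : (ι → F) ≃ₗ[F] (ι → F)} (hg : g ∈ M) {e : ι → K}
    (he : Q₀ e = 0) : th θ (g (jv K e)) ∈ Submodule.span F {g (jv K e)} := by
  have hn := b.hn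
  obtain ⟨T, a1, a2, -, a3⟩ := R.exists_ts hn he he (R.cl₀.diag0 he)
  refine b.point_of_lines hg a1 (by omega) a2 fun x _ _ => ?_
  have d1 := finrank_le_inf_ker_add ⊤ (resJ K (B (g (jv K e))))
  have d2 := finrank_le_inf_ker_add (⊤ ⊓ LinearMap.ker (resJ K (B (g (jv K e)))))
    (resJ K (B (g (jv K x))))
  have d3 : ∀ S : Submodule K F, finrank K S ≤ 2 := fun S => h2 ▸ Submodule.finrank_le S
  have d4 : finrank K (⊤ : Submodule K (ι → K)) = Fintype.card ι := by simp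
  obtain ⟨S, p1, -, p2, p3⟩ := R.cl₀.exists_totSing_ge (k := 4) R.cl₀.form.totSing_bot
    (Z := ⊤ ⊓ LinearMap.ker (resJ K (B (g (jv K e)))) ⊓ LinearMap.ker (resJ K (B (g (jv K x)))))
    bot_le (by
      have := d3 (Submodule.map (resJ K (B (g (jv K e)))) ⊤)
      have := d3 (Submodule.map (resJ K (B (g (jv K x))))
        (⊤ ⊓ LinearMap.ker (resJ K (B (g (jv K e))))))
      omega)
  exact ⟨S, p3, p1.1, fun z hz => ⟨(p2 hz).1.2, (p2 hz).2⟩⟩

theorem Bad.typeT (hq : NQ τ₀) (hσ : σ = RingHom.id F ∨ ∃ t ∈ K, σ t ≠ t)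
    {g : (ι → F) ≃ₗ[F] (ι → F)} (hg : g ∈ M) {e : ι → K} (he : Q₀ e = 0) :
    th θ (g (jv K e)) ∈ Submodule.span F {g (jv K e)} := by
  have hn := b.hn
  obtain ⟨c₀, hc₀, hc⟩ := hq
  have hc' : τ₀ c₀ = Q₀ 0 := by rw [hc, R.cl₀.Q_zero]
  have ht := b.conj hg he (x := 0) (by simp) hc'
  have hw : Q (g (jv K e)) = 0 := by rw [(b.o.1 hg).2, R.sing he]
  rw [map_zero, map_zero, smul_zero] at ht
  generalize g (jv K e) = w at ht hw
  set c : F := c₀ * ζ with hcd
  have c0 : c ≠ 0 := by simp [hcd, hc₀, R.ne]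
  by_cases hw0 : w = 0
  · simp [hw0]
  obtain ⟨u, hu, huw⟩ := R.exists_sing_ne (by omega) hw0
  obtain ⟨U, a1, a2, -, a3⟩ := R.exists_ts hn hu hu (R.cl₀.diag0 hu)
  by_cases hA : ∀ x ∈ U, B w (jv K x) / B w (jv K u) ∈ K
  · have := finrank_le_of_prop U (B w) (a := B w (jv K u))
      fun x hx => ⟨_, hA x hx, by field_simp⟩
    exact b.point ht hw c0 (S := U ⊓ LinearMap.ker (resJ K (B w))) (by omega)
      (fun x hx => a1.1 x hx.1) fun x hx => hx.2
  obtain ⟨x, hx, hxK⟩ : ∃ x ∈ U, σ (B w (jv K x) / B w (jv K u)) * (B w (jv K x) / B w (jv K u))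
      ∉ K := by
    by_contra hc
    push Not at hc hA
    obtain ⟨x, hx, hxK⟩ := hA
    refine hxK (mem_of_norms R.fix R.comm hσ (hc x hx) fun t ht => ?_)
    have e : B w (jv K (u + (⟨t, ht⟩ : K) • x)) / B w (jv K u) =
        1 + t * (B w (jv K x) / B w (jv K u)) := by
      rw [map_add, jv_smul, map_add, map_smul, smul_eq_mul]; field_simp
    rw [← e]; exact hc _ (U.add_mem a2 (U.smul_mem _ hx))
  have s0 := R.cl.sigma_ne huw
  obtain ⟨h, hh, l, _, hl, -, p1, p2⟩ := dickson2 (U := ext U)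
    (R := ext U ⊓ LinearMap.ker (B w) ⊓ LinearMap.ker (B 0)) (N := (B w).smulRight (-c • w)) ht
    (fun v => by rw [R.cl.eich_apply hw (by simp)]; simp; module)
    (fun v _ => by simp [R.cl.diag0 hw]) (fun v hv => by simp [show B w v = 0 from hv.1.2])
    (a := c * c * B (jv K u) w * B w (jv K u)) (by simp [c0, huw, R.cl.refl_ne huw]) hxK (by
      have k : ∀ z ∈ U, ∃ s ∈ M, (∀ r ∈ ext U ⊓ LinearMap.ker (B w) ⊓ LinearMap.ker (B 0), s r = r) ∧
          ∀ v ∈ ext U, s v = v ∧ s ((B w).smulRight (-c • w) v) -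
            (c * c * B (jv K z) w * B w (jv K z)) • v - (B w).smulRight (-c • w) v ∈
            ext U ⊓ LinearMap.ker (B w) ⊓ LinearMap.ker (B 0) := fun z hz => by
        have f : ∀ v ∈ ext U, R.E z 0 c₀ v = v := fun v hv =>
          R.cl.eich_fix _ (R.ext_perp a1 hz hv) (by simp)
        refine ⟨_, b.o.2 z 0 c₀ (a1.1 z hz) (by simp) hc', fun r hr => f r hr.1.1,
          fun v hv => ⟨f v hv, ?_⟩⟩
        have : R.E z 0 c₀ ((B w).smulRight (-c • w) v) - (c * c * B (jv K z) w * B w (jv K z)) • v -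
            (B w).smulRight (-c • w) v = (c * c * B w v * B (jv K z) w) • jv K z -
              (c * c * B (jv K z) w * B w (jv K z)) • v := by
          rw [E, R.cl.eich_apply (R.sing (a1.1 z hz)) (by simp), ← hcd]; simp; module
        rw [this]
        exact ⟨⟨Submodule.sub_mem _ (Submodule.smul_mem _ _ (mem_ext hz)) (Submodule.smul_mem _ _ hv),
          by simp; ring⟩, by simp⟩
      rintro _ (rfl | rfl)
      · exact k u a2
      · convert k x hx using 8
        rw [R.cl.symm w (jv K x), R.cl.symm w (jv K u), map_div₀]; field_simp)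
  have := b.homology a1 a3 hh hl p1 fun v hv => (p2 v hv).1
  exact b.point ht hw c0 this (fun x hx => a1.1 x (pre_ext U ▸ (hx.1.1 : x ∈ pre K (ext U))))
    fun x hx => hx.1.2

theorem Bad.typeO (hσ : σ = RingHom.id F) (hε : ε = 1) {g : (ι → F) ≃ₗ[F] (ι → F)} (hg : g ∈ M)
    {e : ι → K} (he0 : e ≠ 0) (he : Q₀ e = 0) :
    th θ (g (jv K e)) ∈ Submodule.span F {g (jv K e)} := by
  have hn := b.hn
  subst hσ hε
  have sy : ∀ x y, B x y = B y x := fun x y => by rw [R.cl.symm]; simp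
  obtain ⟨T, t1, t2, -, t3⟩ := R.exists_ts hn he he (R.cl₀.diag0 he)
  refine b.point_of_lines hg t1 (by omega) t2 fun x hx hxe => ?_
  have ht := b.conj hg he (c := 0) (t1.2 e t2 x hx) (by simp [t1.1 x hx])
  have hw : Q (g (jv K e)) = 0 := by rw [(b.o.1 hg).2, R.sing he]
  have hy : B (g (jv K x)) (g (jv K x)) = 0 := by rw [(b.o.1 hg).1, R.perp (t1.2 x hx x hx)]
  have hwy : B (g (jv K e)) (g (jv K x)) = 0 := by rw [(b.o.1 hg).1, R.perp (t1.2 e t2 x hx)]
  have hw0 : g (jv K e) ≠ 0 := by simpa using jv_ne he0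
  have hyw : g (jv K x) ∉ Submodule.span F {g (jv K e)} := by
    simpa using notMem_span_map g (s := {jv K e}) fun hc => hxe (mem_span_of_jv (by simpa))
  generalize g (jv K e) = w at *
  generalize g (jv K x) = y at *
  have hww := R.cl.diag0 hw
  have z0 := R.ne
  let N : (ι → F) →ₗ[F] (ι → F) := (B y).smulRight (ζ • w) - (B w).smulRight (ζ • y)
  have hN : ∀ v, N v = (B y v * ζ) • w - (B w v * ζ) • y := fun v => by simp [N, smul_smul]
  have N0 : ∀ v, N v = 0 → B w v = 0 ∧ B y v = 0 := fun v hv => by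
    rw [hN, sub_eq_zero] at hv
    have : B w v = 0 := by
      by_contra hc
      exact hyw ((Submodule.smul_mem_iff _ (mul_ne_zero hc z0)).mp
        (hv ▸ Submodule.smul_mem _ _ (Submodule.mem_span_singleton_self w)))
    simpa [this, z0, hw0] using hv
  obtain ⟨u, hu, huw⟩ := R.exists_sing_ne (by omega) hw0
  obtain ⟨u', hu', huu', ha⟩ := R.exists_sing_perp_ne (by omega) (e := u)
    (by rintro rfl; simp at huw) hu (w := N (jv K u)) fun hc => by
      obtain ⟨t, ht⟩ := Submodule.mem_span_singleton.mp hc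
      have := congrArg (B w) ht
      rw [hN] at this
      simp [hww, hwy, huw] at this
      exact huw (N0 _ (by rw [← ht, this, zero_smul])).1
  obtain ⟨U, a1, a2, a2', a3⟩ := R.exists_ts hn hu hu' huu'
  by_cases hA : ∀ z ∈ U, ∀ z' ∈ U, B (N (jv K z)) (jv K z') / B (N (jv K u)) (jv K u') ∈ K
  · have d1 := finrank_le_of_prop U (B (N (jv K u))) (a := B (N (jv K u)) (jv K u'))
      fun z hz => ⟨_, hA u a2 z hz, by field_simp⟩
    have d2 := finrank_le_of_prop (U ⊓ LinearMap.ker (resJ K (B (N (jv K u))))) (B (N (jv K u')))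
      (a := B (N (jv K u)) (jv K u')) fun z hz => ⟨_, hA u' a2' z hz.1, by field_simp⟩
    refine ⟨U ⊓ LinearMap.ker (resJ K (B (N (jv K u)))) ⊓ LinearMap.ker (resJ K (B (N (jv K u')))),
      by omega, fun z hz => a1.1 z hz.1.1, fun z hz => N0 _ ?_⟩
    have p : B (N (jv K u)) (jv K z) = 0 := hz.1.2
    have q : B (N (jv K u')) (jv K z) = 0 := hz.2
    refine (smul_eq_zero.mp ?_).resolve_left ha
    have : B (N (jv K u)) (jv K u') • N (jv K z) = B (N (jv K u)) (jv K z) • N (jv K u') -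
        B (N (jv K u')) (jv K z) • N (jv K u) := by
      simp only [hN]; simp; module
    rw [this, p, q]; simp
  push Not at hA
  obtain ⟨z, hz, z', hz', hK⟩ := hA
  obtain ⟨h, hh, l, _, hl, -, p1, p2⟩ := dickson2 (U := ext U)
    (R := ext U ⊓ LinearMap.ker (B w) ⊓ LinearMap.ker (B y)) (N := N) ht
    (fun v => by rw [R.cl.eich_apply hw (by simp [hwy]), hN]; simp; module)
    (fun v _ => by simp [hN, hww, hwy, hy, sy y w])
    (fun v hv => by simp [hN, show B w v = 0 from hv.1.2, show B y v = 0 from hv.2])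
    (a := ζ * B (N (jv K u)) (jv K u')) (mul_ne_zero z0 ha) hK (by
      have k : ∀ z ∈ U, ∀ z' ∈ U, ∃ s ∈ M,
          (∀ r ∈ ext U ⊓ LinearMap.ker (B w) ⊓ LinearMap.ker (B y), s r = r) ∧
          ∀ v ∈ ext U, s v = v ∧ s (N v) - (ζ * B (N (jv K z)) (jv K z')) • v - N v ∈
            ext U ⊓ LinearMap.ker (B w) ⊓ LinearMap.ker (B y) := fun z hz z' hz' => by
        have f : ∀ v ∈ ext U, R.E z z' 0 v = v := fun v hv =>
          R.cl.eich_fix _ (R.ext_perp a1 hz hv) (by simp [R.ext_perp a1 hz' hv])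
        refine ⟨_, b.o.2 z z' 0 (a1.1 z hz) (a1.2 z hz z' hz') (by simp [a1.1 z' hz']),
          fun r hr => f r hr.1.1, fun v hv => ⟨f v hv, ?_⟩⟩
        have : R.E z z' 0 (N v) - (ζ * B (N (jv K z)) (jv K z')) • v - N v =
            (ζ * B (jv K z') (N v)) • jv K z - (ζ * B (jv K z) (N v)) • jv K z' -
              (ζ * B (N (jv K z)) (jv K z')) • v := by
          rw [E, R.cl.eich_apply (R.sing (a1.1 z hz)) (R.perp' (a1.2 z hz z' hz') _)]
          simp; module
        rw [this]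
        refine ⟨⟨Submodule.sub_mem _ (Submodule.sub_mem _ (Submodule.smul_mem _ _ (mem_ext hz))
          (Submodule.smul_mem _ _ (mem_ext hz'))) (Submodule.smul_mem _ _ hv), ?_⟩, ?_⟩ <;>
        · simp [hN, sy (jv K z) w, sy (jv K z) y, sy (jv K z') w, sy (jv K z') y]; ring
      rintro _ (rfl | rfl)
      · exact k u a2 u' a2'
      · convert k z hz z' hz' using 8
        field_simp)
  have := b.homology a1 a3 hh hl p1 fun v hv => (p2 v hv).1
  exact ⟨_, this, fun x hx => a1.1 x (pre_ext U ▸ (hx.1.1 : x ∈ pre K (ext U))),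
    fun x hx => ⟨hx.1.2, hx.2⟩⟩

omit b in
/-- Subfield subgroups are maximal. -/
theorem max_sub (R : Rat θ ε κ τ B Q ε₀ κ₀ τ₀ B₀ Q₀ ζ) (hn : 13 ≤ Fintype.card ι) {r : ℕ}
    (hr : r.Prime) (hc : Nat.card K ^ r = Nat.card F) (hτ : τ = 0 → NQ τ₀)
    (hty : r = 2 ∨ (NQ τ₀ ∧ (σ = RingHom.id F ∨ ∃ t ∈ K, σ t ≠ t)) ∨ (σ = RingHom.id F ∧ ε = 1)) :
    IsMaximalIn R.cl.Om (ratG θ ι ⊓ R.cl.Om) := by
  have hK : 1 < Nat.card K := Finite.one_lt_card
  have hrk : finrank K F = r := Nat.pow_right_injective hK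
    ((Module.natCard_eq_pow_finrank (K := K) (V := F)).symm.trans hc.symm)
  obtain ⟨e, he, -, -, he0⟩ := R.exists_cfg (by omega) (e := 0) (u := 0)
  replace he0 : e ≠ 0 := by rintro rfl; exact he0 (Submodule.zero_mem _)
  refine isMaximalIn_inf (fun hle => ?_) fun M h1 h2 g hg hgS => ?_
  · obtain ⟨l, hl⟩ : ∃ l : F, l ∉ K := by
      by_contra hc'
      push Not at hc'
      rw [(eq_top_iff.mpr fun x _ => hc' x : K = ⊤), card_top_subfield] at hc hK
      exact hr.ne_one (Nat.pow_right_injective hK (hc.trans (pow_one _).symm))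
    obtain ⟨y, x, p, q, s⟩ := R.exists_pair (by omega) (Z := Submodule.span K {e})
      ((finrank_span_one_le _).trans (by omega))
    replace p := p e (Submodule.mem_span_singleton_self e)
    replace q := q e (Submodule.mem_span_singleton_self e)
    obtain ⟨c, hc⟩ := R.cl.exists_tau ((σ l * σ ζ) • jv K y)
    obtain ⟨μ, -, hμ⟩ := hle (R.cl.eich_mem_om (R.sing he) (R.perp' p _) hc)
    have k1 := hμ (jv K e)
    rw [th_jv R.fix, R.cl.eich_fix c (R.cl.diag0 (R.sing he)) (R.perp'' (R.cl₀.refl p) _),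
      th_jv R.fix] at k1
    obtain rfl : 1 = μ := smul_left_injective F (jv_ne he0) (by simpa using k1)
    have k2 := hμ (jv K x)
    have k3 := R.hB y x
    rw [s, OneMemClass.coe_one] at k3
    have k4 : B ((σ l * σ ζ) • jv K y) (jv K x) = l := by
      simp [R.cl.invol]; linear_combination (-l) * k3
    rw [th_jv R.fix, R.cl.eich_of_perp (R.sing he) (R.perp' p _) c (R.perp q), k4, map_add, th_smul,
      th_jv R.fix, th_jv R.fix, one_smul, add_right_inj] at k2
    exact hl ((R.fix l).mp (smul_left_injective F (jv_ne he0) k2))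
  have o : R.Ov M := ⟨h2.trans R.cl.om_le_isom, fun u x c p q s =>
    h1 ⟨R.E_mem_rat p q c, R.E_mem_om p q s⟩⟩
  by_contra hM
  have b : R.Bad M := ⟨o, hn, fun e he0 he l hl => by
    by_contra hlK; exact hM (o.om_le (by omega) hr hc hτ he0 he hlK hl)⟩
  have k1 : ∀ x, Q₀ x = 0 → th θ (g (jv K x)) ∈ Submodule.span F {g (jv K x)} := fun x hx => by
    by_cases h0 : x = 0
    · simp [h0]
    rcases hty with h | h | h
    · exact b.type2 (hrk.trans h) hg hx
    · exact b.typeT h.1 h.2 hg hx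
    · exact b.typeO h.1 h.2 hg h0 hx
  obtain ⟨μ, hμ⟩ := Submodule.mem_span_singleton.mp (k1 e he)
  have k2 : ∀ x, Q₀ x = 0 → th θ (g (jv K x)) = μ • g (jv K x) := fun x hx => by
    by_cases h0 : x = 0
    · simp [h0]
    obtain ⟨f, hf, p, q, s⟩ := R.exists_cfg (by omega) (e := e) (u := x)
    have f0 : f ≠ 0 := by rintro rfl; exact s (Submodule.zero_mem _)
    obtain ⟨ν, hν⟩ := Submodule.mem_span_singleton.mp (k1 x hx)
    obtain ⟨ν', hν'⟩ := Submodule.mem_span_singleton.mp (k1 f hf)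
    rw [eig_eq R.fix he0 f0 hμ.symm hν'.symm (k1 _ (by simp [R.cl₀.Q_add, he, hf, p])),
      ← eig_eq R.fix h0 f0 hν.symm hν'.symm (k1 _ (by simp [R.cl₀.Q_add, hx, hf, q]))]
    exact hν.symm
  let S : Submodule K (ι → K) :=
    { carrier := {x | th θ (g (jv K x)) = μ • g (jv K x)}
      add_mem' := fun {x y} (p : _ = _) (q : _ = _) => by
        change _ = _; simp only [map_add, p, q, smul_add]
      zero_mem' := by simp
      smul_mem' := fun c x (p : _ = _) => by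
        change _ = _
        rw [jv_smul, map_smul, th_smul, p, (R.fix _).mpr c.2, smul_comm] }
  have := R.cl₀.eq_top_of_sing (by simp; omega) (S := S) k2
  refine hgS (mem_ratG R.fix (μ := μ) ?_ fun x => (this ▸ trivial : x ∈ S))
  rintro rfl
  exact th_ne (v := g (jv K e)) (by simpa using jv_ne he0) (by simpa using hμ.symm)

end Rat

end Cfsg.Agent.H10
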