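import Mathlib
import Cfsg.Agent.H10.Mx9

/-!
Subfield subgroups: the five types of form, the linear case, and the passage to matrices.
-/

set_option autoImplicit false

namespace Cfsg.Agent.H10

open Module H11 Cfsg.Geo

variable {F : Type*} [Field F] {K : Subfield F} {θ : F ≃+* F} {ι : Type} {σ : F →+* F}
  {σ₀ : K →+* K}

theorem Cl.mem_om_pull {V : Type*} [AddCommGroup V] [Module F V] {ε κ : F} {τ : F →+ F}
    {B : V →ₛₗ[σ] V →ₗ[F] F} {Q : V → F} (h : Cl ε κ τ B Q) (e g : V ≃ₗ[F] V) :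
    g ∈ h.Om ↔ e⁻¹ * g * e ∈ (h.pullback e).Om := by
  have k : (h.pullback e).Om = h.Om.map (MulAut.conj e⁻¹).toMonoidHom := by
    refine le_antisymm ((h.pullback e).om_le fun u w c a b d =>
      ⟨_, h.eich_mem_om a b d, h.conj_eich_pull e⁻¹ a b c⟩) (Subgroup.map_le_iff_le_comap.mpr
        (h.om_le fun u w c a b d => ?_))
    obtain ⟨u, rfl⟩ := e.surjective u
    obtain ⟨w, rfl⟩ := e.surjective w
    exact Eq.mpr (congrArg (· ∈ (h.pullback e).Om) (h.conj_eich_pull e⁻¹ a b c))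
      ((h.pullback e).eich_mem_om a b d)
  rw [k]
  exact ⟨fun hg => ⟨g, hg, by simp⟩, fun ⟨x, hx, p⟩ => by
    have : x = g := by simpa [mul_assoc] using p
    exact this ▸ hx⟩

variable [Fintype ι] [DecidableEq ι]

theorem isMaximalIn_subfield (hθ : ∀ a, θ a = a ↔ a ∈ K) {G : Subgroup (GL ι F)} (P : GL ι F)
    {G' : Subgroup ((ι → F) ≃ₗ[F] (ι → F))}
    (hG : ∀ g, g ∈ G ↔ (glEquiv ι F P)⁻¹ * glEquiv ι F g * glEquiv ι F P ∈ G')
    (h : IsMaximalIn G' (ratG θ ι ⊓ G')) : IsMaximalIn G (subfieldSubgroup K P ⊓ G) := by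
  have e : ∀ g, ((MulAut.conj P⁻¹).trans (glEquiv ι F)) g = glEquiv ι F (P⁻¹ * g * P) := by simp
  have hG' : ∀ g, g ∈ G ↔ ((MulAut.conj P⁻¹).trans (glEquiv ι F)) g ∈ G' := fun g => by
    rw [e, map_mul, map_mul, map_inv, hG]
  refine isMaximalIn_of_equiv _ hG' (fun g => ?_) h
  rw [Subgroup.mem_inf, Subgroup.mem_inf, ← hG', e, mem_subfield_iff hθ]

omit [Fintype ι] [DecidableEq ι] in
/-- The form over the subfield. -/
def descB (B : (ι → F) →ₛₗ[σ] (ι → F) →ₗ[F] F) (ζ : F) (hσ : ∀ a : K, (σ₀ a : F) = σ a)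
    (hP : ∀ x y, ζ * B (jv K x) (jv K y) ∈ K) : (ι → K) →ₛₗ[σ₀] (ι → K) →ₗ[K] K :=
  LinearMap.mk₂'ₛₗ σ₀ (RingHom.id K) (fun x y => ⟨_, hP x y⟩)
    (fun a b y => Subtype.ext (by simp [mul_add]))
    (fun c a y => Subtype.ext (by
      change ζ * B ((c : F) • jv K a) (jv K y) = (σ₀ c : F) * (ζ * B (jv K a) (jv K y))
      simp [hσ]; ring))
    (fun a b y => Subtype.ext (by simp [mul_add]))
    (fun c a y => Subtype.ext (by
      change ζ * B (jv K a) ((c : F) • jv K y) = (c : F) * (ζ * B (jv K a) (jv K y))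
      simp; ring))

omit [Fintype ι] [DecidableEq ι] in
theorem descB_apply (B : (ι → F) →ₛₗ[σ] (ι → F) →ₗ[F] F) (ζ : F) (hσ : ∀ a : K, (σ₀ a : F) = σ a)
    (hP : ∀ x y, ζ * B (jv K x) (jv K y) ∈ K) (x y : ι → K) :
    (descB B ζ hσ hP x y : F) = ζ * B (jv K x) (jv K y) := rfl

theorem descB_sep {B : (ι → F) →ₛₗ[σ] (ι → F) →ₗ[F] F} (hB : B.SeparatingLeft) {ζ : F} (hζ : ζ ≠ 0)
    (hσ : ∀ a : K, (σ₀ a : F) = σ a) (hP : ∀ x y, ζ * B (jv K x) (jv K y) ∈ K) :
    (descB B ζ hσ hP).SeparatingLeft := fun x hx => by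
  by_contra h0
  refine jv_ne h0 (hB _ fun v => ext_le (S := ⊤) (T := LinearMap.ker (B (jv K x)))
    (fun y _ => ?_) (mem_ext_top K v))
  simpa [descB_apply, hζ] using congrArg Subtype.val (hx y)

section types

variable [Finite F] (hθ : ∀ a, θ a = a ↔ a ∈ K) (hn : 13 ≤ Fintype.card ι) {r : ℕ} (hr : r.Prime)
  (hc : Nat.card K ^ r = Nat.card F) {Q : (ι → F) → F} {ζ : F}
include hθ hn hr hc

theorem max_sub_alt {B : (ι → F) →ₗ[F] (ι → F) →ₗ[F] F}
    (h : Cl (σ := RingHom.id F) (-1) 0 0 B Q) (hζ : ζ ≠ 0)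
    (hP : ∀ x y, ζ * B (jv K x) (jv K y) ∈ K) : IsMaximalIn h.Om (ratG θ ι ⊓ h.Om) := by
  have h0 := clAlt (B := descB (σ₀ := RingHom.id K) B ζ (fun _ => rfl) hP)
    (fun x => Subtype.ext (by simp [descB_apply, h.form.diag])) (descB_sep h.sep hζ _ hP)
  refine Rat.max_sub ⟨h, h0, hθ, fun _ => rfl, hζ, fun _ _ => rfl, by simp, fun x c _ => ?_⟩ hn hr hc
    (fun _ => nq_zero) (Or.inr (Or.inl ⟨nq_zero, Or.inl rfl⟩))
  exact h.form.tv _ |>.elim fun t ht => by rw [ht]; rfl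

theorem max_sub_quad {B : (ι → F) →ₗ[F] (ι → F) →ₗ[F] F}
    (h : Cl (σ := RingHom.id F) 1 2 (AddMonoidHom.id F) B Q) (hζ : ζ ≠ 0)
    (hP : ∀ x, ζ * Q (jv K x) ∈ K) : IsMaximalIn h.Om (ratG θ ι ⊓ h.Om) := by
  have hP' : ∀ x y, ζ * B (jv K x) (jv K y) ∈ K := fun x y => by
    convert K.sub_mem (K.sub_mem (hP (x + y)) (hP x)) (hP y) using 1
    rw [map_add, h.Q_add]; simp; ring
  have h0 := clQuad (B := descB (σ₀ := RingHom.id K) B ζ (fun _ => rfl) hP')
    (Q := fun x => ⟨_, hP x⟩) (IsQuad.of_add_smul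
      (fun x y => Subtype.ext (by simp [descB_apply, h.Q_add]; ring))
      fun c x => Subtype.ext (by
        change ζ * Q ((c : F) • jv K x) = (c : F) * c * (ζ * Q (jv K x))
        simp [h.Q_smul]; ring)) (descB_sep h.sep hζ _ hP')
  refine Rat.max_sub ⟨h, h0, hθ, fun _ => rfl, hζ, fun _ _ => rfl, by simp, fun x c e => ?_⟩ hn hr hc
    (fun e => by simpa using DFunLike.congr_fun e 1) (Or.inr (Or.inr ⟨rfl, rfl⟩))
  have : (c : F) = ζ * Q (jv K x) := congrArg Subtype.val e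
  simp [h.Q_smul, this]; ring

variable {B : (ι → F) →ₛₗ[σ] (ι → F) →ₗ[F] F} (h : Cl 1 1 (trHom σ) B Q) (hσ : σ ≠ RingHom.id F)
  (hσθ : ∀ a, σ (θ a) = θ (σ a))
include h hσ hσθ

omit hθ hn hr hc [Fintype ι] [DecidableEq ι] [Finite F] hσθ in
theorem trHom_ne : trHom σ ≠ 0 := fun e => by
  obtain ⟨t, ht⟩ := exists_trace_eq hσ h.invol (map_one σ)
  simpa [ht] using DFunLike.congr_fun e t

theorem max_sub_herm (ht : ∃ t ∈ K, σ t ≠ t) (hP : ∀ x y, B (jv K x) (jv K y) ∈ K) :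
    IsMaximalIn h.Om (ratG θ ι ⊓ h.Om) := by
  let s : K →+* K := σ.restrict K K fun a ha => (hθ _).mp (by rw [← hσθ, (hθ a).mpr ha])
  have hP' : ∀ x y, 1 * B (jv K x) (jv K y) ∈ K := by simpa using hP
  have hH : IsHerm (descB (σ₀ := s) B 1 (fun _ => rfl) hP') := ⟨fun e => by
      obtain ⟨t, a, b⟩ := ht
      exact b (congrArg Subtype.val (DFunLike.congr_fun e (⟨t, a⟩ : K)) :),
    fun a => Subtype.ext (h.invol a), fun x y => Subtype.ext (by
      change σ (1 * _) = 1 * _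
      rw [h.symm (jv K x)]; simp)⟩
  refine Rat.max_sub ⟨h, clHerm hH (descB_sep h.sep one_ne_zero _ hP'), hθ, hσθ, one_ne_zero,
    fun _ _ => rfl, by simp, fun x c e => ?_⟩ hn hr hc (fun e => (trHom_ne h hσ e).elim)
    (Or.inr (Or.inl ⟨IsHerm.nq hH, Or.inr ht⟩))
  have : (c : F) + σ c = 1 * B (jv K x) (jv K x) := congrArg Subtype.val e
  simp [this, h.form.diag]

omit hr in
theorem max_sub_herm_quad (hr : r = 2) (h2 : (2 : F) ≠ 0) (ht : ∀ t : K, (t : F) = σ t)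
    (hP : ∀ x y, B (jv K x) (jv K y) ∈ K) : IsMaximalIn h.Om (ratG θ ι ⊓ h.Om) := by
  have hP' : ∀ x y, 1 * B (jv K x) (jv K y) ∈ K := by simpa using hP
  have sy : ∀ x y, B (jv K x) (jv K y) = B (jv K y) (jv K x) := fun x y => by
    rw [h.symm (jv K x), one_mul]; exact ht ⟨_, hP x y⟩
  have h0 := clQuad (B := descB (σ₀ := RingHom.id K) B 1 ht hP')
    (Q := fun x => ⟨B (jv K x) (jv K x) / 2, K.div_mem (hP x x) (by norm_num)⟩) (IsQuad.of_add_smul
      (fun x y => Subtype.ext (by simp [descB_apply, sy y x]; field_simp; ring))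
      fun c x => Subtype.ext (by
        change B ((c : F) • jv K x) ((c : F) • jv K x) / 2 =
          (c : F) * c * (B (jv K x) (jv K x) / 2)
        simp [← ht]; ring)) (descB_sep h.sep one_ne_zero _ hP')
  refine Rat.max_sub ⟨h, h0, hθ, hσθ, one_ne_zero, fun _ _ => rfl, by simp, fun x c e => ?_⟩ hn
    (hr ▸ Nat.prime_two) hc (fun e => (trHom_ne h hσ e).elim) (Or.inl hr)
  have : (c : F) = B (jv K x) (jv K x) / 2 := congrArg Subtype.val e
  rw [mul_one, trHom_apply, ← ht, this]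
  simp [h.form.diag]; field_simp; ring

omit hr in
theorem max_sub_herm_alt (hr : r = 2) (ht : ∀ t : K, (t : F) = σ t) (hζ : ζ ≠ 0)
    (hζ' : ζ + σ ζ = 0) (hP : ∀ x y, ζ * B (jv K x) (jv K y) ∈ K)
    (hA : ∀ x, B (jv K x) (jv K x) = 0) : IsMaximalIn h.Om (ratG θ ι ⊓ h.Om) := by
  have h0 := clAlt (B := descB (σ₀ := RingHom.id K) B ζ ht hP)
    (fun x => Subtype.ext (by simp [descB_apply, hA])) (descB_sep h.sep hζ _ hP)
  refine Rat.max_sub ⟨h, h0, hθ, hσθ, hζ, fun _ _ => rfl, by simp; linear_combination hζ',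
    fun x c e => ?_⟩ hn (hr ▸ Nat.prime_two) hc (fun e => (trHom_ne h hσ e).elim) (Or.inl hr)
  have := h.form.diag (jv K x)
  rw [hA, one_mul] at this
  rw [h.Q_smul, ← this, trHom_apply, map_mul, ← ht]
  linear_combination (c : F) * hζ'

end types

section linear

variable {V : Type*} [AddCommGroup V] [Module F V]

/-- The transvections with centre `v` in `M`. -/
def Tr (M : Subgroup (V ≃ₗ[F] V)) (v : V) : AddSubgroup (Dual F V) where
  carrier := {φ | φ v = 0 ∧ dtv v φ ∈ M}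
  add_mem' := fun p q => ⟨by simp [p.1, q.1], by rw [dtv_add p.1 q.1]; exact M.mul_mem p.2 q.2⟩
  zero_mem' := ⟨rfl, by rw [dtv_zero]; exact M.one_mem⟩
  neg_mem' := fun p => ⟨by simp [p.1], by rw [dtv_neg p.1]; exact M.inv_mem p.2⟩

theorem conj_mem_Tr {M : Subgroup (V ≃ₗ[F] V)} {g : V ≃ₗ[F] V} (hg : g ∈ M) {v : V} {φ : Dual F V}
    (h : φ ∈ Tr M v) : φ ∘ₗ ((g⁻¹ : V ≃ₗ[F] V) : V →ₗ[F] V) ∈ Tr M (g v) :=
  ⟨by simpa [LinearEquiv.coe_inv] using h.1, by
    rw [← conj_dtv]; exact M.mul_mem (M.mul_mem hg h.2) (M.inv_mem hg)⟩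

theorem tr_move {M : Subgroup (V ≃ₗ[F] V)} {u v : V} {χ ψ : Dual F V} (h1 : χ ∈ Tr M u)
    (h2 : ψ ∈ Tr M v) (h3 : ψ u = 0) : χ v • ψ ∈ Tr M u := by
  have := conj_mem_Tr h2.2 h1
  rw [dtv_fix v h3, ← dtv_neg h2.1] at this
  convert (Tr M u).sub_mem h1 this using 1
  ext x
  simp [dtv_apply (show (-ψ) v = 0 by simp [h2.1]), mul_comm]

theorem tr_move' {M : Subgroup (V ≃ₗ[F] V)} {u v : V} {χ ψ : Dual F V} (h1 : χ ∈ Tr M u)
    (h2 : ψ ∈ Tr M v) (h3 : χ v = 0) : ψ u • χ ∈ Tr M v := by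
  have := conj_mem_Tr h2.2 h1
  have e : χ ∘ₗ (((dtv v ψ)⁻¹ : V ≃ₗ[F] V) : V →ₗ[F] V) = χ := by
    ext x; rw [← dtv_neg h2.1]; simp [dtv_apply (show (-ψ) v = 0 by simp [h2.1]), h3]
  have k := this.2
  rw [e, dtv_apply h2.1, dtv_add_left h1.1 (by simp [h3]), dtv_smul] at k
  exact ⟨by simp [h3], by simpa using M.mul_mem (M.inv_mem h1.2) k⟩

/-- The maps acting trivially modulo a subspace. -/
def cong (P : Submodule F V) : Subgroup (V ≃ₗ[F] V) where
  carrier := {g | ∀ v, g v - v ∈ P}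
  mul_mem' := fun {a b} p q v => by simpa using P.add_mem (p (b v)) (q v)
  one_mem' := fun v => by simp
  inv_mem' := fun {a} p v => by simpa [LinearEquiv.coe_inv] using P.neg_mem (p (a⁻¹ v))

/-- Rational functionals. -/
def Rt (K : Subfield F) (φ : Dual F (ι → F)) : Prop := ∀ x, φ (jv K x) ∈ K

theorem exists_ext_dual (φ : Dual K (ι → K)) : ∃ ψ : Dual F (ι → F), ∀ x, ψ (jv K x) = φ x := by
  refine ⟨∑ i, (φ (Pi.single i 1) : F) • LinearMap.proj i, fun x => ?_⟩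
  conv_rhs => rw [pi_eq_sum_univ' x]
  simp [jv_apply, mul_comm]

theorem exists_rt {Z : Submodule K (ι → K)} {x : ι → K} (hx : x ∉ Z) :
    ∃ φ, Rt K φ ∧ (∀ z ∈ Z, φ (jv K z) = 0) ∧ φ (jv K x) = 1 := by
  obtain ⟨φ, p, q⟩ := exists_dual_zero_one hx
  obtain ⟨ψ, hψ⟩ := exists_ext_dual φ
  exact ⟨ψ, fun x => hψ x ▸ (φ x).2, fun z hz => by simp [hψ, p z hz], by simp [hψ, q]⟩

theorem dual_ext {φ ψ : Dual F (ι → F)} (h : ∀ x, φ (jv K x) = ψ (jv K x)) : φ = ψ :=
  LinearMap.ext fun v => ext_le (S := ⊤) (T := LinearMap.eqLocus φ ψ) (fun x _ => h x)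
    (mem_ext_top K v)

theorem rt_induction [Finite F] {e : ι → K} {A : AddSubgroup (Dual F (ι → F))}
    (hA : ∀ (l : F) φ, Rt K φ → φ (jv K e) = 0 → l • φ ∈ A) {ψ : Dual F (ι → F)}
    (hψ : ψ (jv K e) = 0) : ψ ∈ A := by
  obtain ⟨b⟩ : Nonempty (Basis (Fin (finrank K F)) K F) := ⟨Module.finBasis K F⟩
  choose φ hφ using fun k => exists_ext_dual (b.coord k ∘ₗ resJ K ψ)
  have : ψ = ∑ k, b k • φ k := dual_ext (K := K) fun x => by
    conv_lhs => rw [← b.sum_repr (ψ (jv K x))]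
    simp only [LinearMap.sum_apply, LinearMap.smul_apply, hφ, smul_eq_mul]
    exact Finset.sum_congr rfl fun k _ => mul_comm _ _
  rw [this]
  refine A.sum_mem fun k _ => hA _ _ (fun x => hφ k x ▸ Subtype.property _) ?_
  rw [hφ]; simp [resJ, hψ]

variable [Finite F] {M : Subgroup ((ι → F) ≃ₗ[F] (ι → F))}
  (hM : ∀ u φ, Rt K φ → φ (jv K u) = 0 → φ ∈ Tr M (jv K u))
include hM

omit [Finite F] in
theorem tr_spread (hn : 4 ≤ Fintype.card ι) {u x : ι → K} {χ : Dual F (ι → F)}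
    (hχ : χ ∈ Tr M (jv K u)) {ψ : Dual F (ι → F)} (h1 : Rt K ψ) (h2 : ψ (jv K u) = 0) :
    χ (jv K x) • ψ ∈ Tr M (jv K u) := by
  have d1 := finrank_le_of_prop (K := K) ⊤ ψ (a := 1) fun z _ => ⟨_, h1 z, (mul_one _).symm⟩
  have d2 := finrank_span_pair_le (F := K) u x
  obtain ⟨y, p, q⟩ := exists_mem_notMem (W := ⊤ ⊓ LinearMap.ker (resJ K ψ))
    (Z := Submodule.span K {u, x}) (by simp at d1 ⊢; omega)
  obtain ⟨φ, a1, a2, a3⟩ := exists_rt q
  have k := tr_move hχ (hM x φ a1 (a2 x (Submodule.subset_span (by simp))))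
    (a2 u (Submodule.subset_span (by simp)))
  simpa [a3] using tr_move k (hM y ψ h1 p.2) h2

omit [Finite F] in
theorem tr_mul (hn : 4 ≤ Fintype.card ι) {u x : ι → K} (hx : x ∉ Submodule.span K {u}) {l l' : F}
    (hl : ∀ φ, Rt K φ → φ (jv K u) = 0 → l • φ ∈ Tr M (jv K u))
    (hl' : ∀ φ, Rt K φ → φ (jv K x) = 0 → l' • φ ∈ Tr M (jv K x)) (ψ : Dual F (ι → F))
    (h1 : Rt K ψ) (h2 : ψ (jv K u) = 0) : (l * l') • ψ ∈ Tr M (jv K u) := by
  obtain ⟨φ, a1, a2, a3⟩ := exists_rt hx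
  obtain ⟨y, -, q⟩ := exists_mem_notMem (W := ⊤) (Z := Submodule.span K {u, x})
    (by have := finrank_span_pair_le (F := K) u x; simp; omega)
  obtain ⟨φ', b1, b2, b3⟩ := exists_rt q
  have k := tr_move (hl φ a1 (a2 u (Submodule.mem_span_singleton_self u)))
    (hl' φ' b1 (b2 x (Submodule.subset_span (by simp))))
    (by simp [b2 u (Submodule.subset_span (by simp))])
  simpa [a3, b3] using tr_spread hM hn (x := y) k h1 h2

theorem SLv_le_of_tr (hn : 4 ≤ Fintype.card ι) {r : ℕ} (hr : r.Prime)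
    (hc : Nat.card K ^ r = Nat.card F) {u x : ι → K} (hu : u ≠ 0) {χ : Dual F (ι → F)}
    (hχ : χ ∈ Tr M (jv K u)) (hx : χ (jv K x) ∉ K) : SLv F (ι → F) ≤ M := by
  obtain ⟨y, -, q⟩ := exists_mem_notMem (W := ⊤) (Z := Submodule.span K {u})
    (by have := finrank_span_one_le (F := K) u; simp; omega)
  let L : Subring F :=
    { carrier := {l | ∀ φ, Rt K φ → φ (jv K u) = 0 → l • φ ∈ Tr M (jv K u)}
      mul_mem' := fun {a b} ha hb => tr_mul hM hn q ha (by
        simpa using tr_mul hM hn (notMem_span_symm hu q) (l := 1) (by simpa using hM y) hb)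
      one_mem' := by simpa using hM u
      add_mem' := fun ha hb y p q => by
        rw [add_smul]; exact AddSubgroup.add_mem _ (ha y p q) (hb y p q)
      zero_mem' := fun y _ _ => by simp
      neg_mem' := fun {a} ha y p q => by
        rw [neg_smul a y]; exact AddSubgroup.neg_mem _ (ha y p q) }
  let L' : Subfield F := { L with
    inv_mem' := fun a ha => by
      by_cases h0 : a = 0
      · rw [h0, inv_zero]; exact L.zero_mem
      · have := Fintype.ofFinite F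
        have e1 := FiniteField.pow_card_sub_one_eq_one a h0
        have e2 : 1 < Fintype.card F := Fintype.one_lt_card
        rw [show Fintype.card F - 1 = Fintype.card F - 2 + 1 by omega, pow_succ] at e1
        rw [← eq_inv_of_mul_eq_one_left e1]
        exact L.pow_mem ha _ }
  have hKL : K ≤ L' := fun a ha φ p q =>
    hM u _ (fun z => K.mul_mem ha (p z)) (by simp [q])
  have hL : ∀ a, a ∈ L' := fun a => by
    rcases subfield_eq_or_of_prime hKL hr hc with h | h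
    · have : χ (jv K x) ∈ L' := fun φ p q => tr_spread hM hn hχ p q
      rw [h] at this
      exact (hx this).elim
    · rw [h]; trivial
  refine SLv_le_of_full (fun S hS h0 => ?_) (jv_ne hu) fun φ hφ => (rt_induction hL hφ).2
  have k : ∀ s ∈ S, ∀ i, s i ≠ 0 → ∀ z : ι → K, z i = 0 → jv K z ∈ S := fun s hs i hi z hz => by
    have p : (LinearMap.proj i : Dual F (ι → F)) (jv K z) = 0 := by simp [jv_apply, hz]
    have := S.sub_mem (hS _ (hM z _ (fun y => (y i).2) p).2 s hs) hs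
    rw [dtv_apply p, add_sub_cancel_left] at this
    exact (S.smul_mem_iff hi).mp this
  obtain ⟨s, hs, hs0⟩ := (Submodule.ne_bot_iff S).mp h0
  obtain ⟨i, hi⟩ := Function.ne_iff.mp hs0
  obtain ⟨j, hj⟩ := Fintype.exists_ne_of_one_lt_card (by omega) i
  have k1 := k s hs i hi (Pi.single j 1) (by simp [hj])
  refine eq_top_iff.mpr fun v _ => ext_le (S := ⊤) (T := S) (fun z _ => ?_) (mem_ext_top K v)
  have := S.add_mem (k s hs i hi (z - Pi.single i (z i)) (by simp))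
    (k _ k1 j (by simp [jv_apply]) (Pi.single i (z i)) (by simp [hj]))
  rwa [← map_add, sub_add_cancel] at this

omit hM [Finite F] in
theorem exists_rt_pair {w : ι → F} (hw : ∀ φ, Rt K φ → φ w = 0 → φ = 0) {Z : Submodule K (ι → K)}
    (hZ : finrank K Z + 2 ≤ Fintype.card ι) : ∃ φ ψ, Rt K φ ∧ Rt K ψ ∧
      (∀ z ∈ Z, φ (jv K z) = 0 ∧ ψ (jv K z) = 0) ∧ φ w ≠ 0 ∧ ψ w / φ w ∉ K := by
  obtain ⟨x, -, p⟩ := exists_mem_notMem (W := ⊤) (Z := Z) (by simp; omega)
  obtain ⟨y, -, q⟩ := exists_mem_notMem (W := ⊤) (Z := Z ⊔ Submodule.span K {x})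
    (by have := finrank_sup_span_le Z x; simp; omega)
  obtain ⟨φ, a1, a2, a3⟩ := exists_rt p
  obtain ⟨ψ, b1, b2, b3⟩ := exists_rt q
  have h0 : φ w ≠ 0 := fun hc => by simp [hw φ a1 hc] at a3
  refine ⟨φ, ψ, a1, b1, fun z hz => ⟨a2 z hz, b2 z (Submodule.mem_sup_left hz)⟩, h0, fun hc => ?_⟩
  have := hw (ψ - (ψ w / φ w) • φ) (fun z => K.sub_mem (b1 z) (K.mul_mem hc (a1 z)))
    (by simp [h0])
  have e := DFunLike.congr_fun this (jv K x)
  simp [a3, b2 x (Submodule.mem_sup_right (Submodule.mem_span_singleton_self x)), h0] at e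
  simp [hw ψ b1 e] at b3

theorem rat_point (hn : 4 ≤ Fintype.card ι)
    (hb : ∀ u, u ≠ 0 → ∀ χ ∈ Tr M (jv K u), ∀ x, χ (jv K x) ∈ K) {g : (ι → F) ≃ₗ[F] (ι → F)}
    (hg : g ∈ M) (e : ι → K) : ∃ (a : F) (x : ι → K), g (jv K e) = a • jv K x := by
  by_contra hc
  push Not at hc
  have k : ∀ u, u ≠ 0 → ∃ ψ ∈ Tr M (g (jv K e)), ψ (jv K u) ≠ 0 := fun u hu => by
    by_contra h
    push Not at h
    have h1 : g⁻¹ (jv K u) ∉ Submodule.span F {jv K e} := fun h1 => by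
      obtain ⟨t, ht⟩ := Submodule.mem_span_singleton.mp h1
      have e1 : t • g (jv K e) = jv K u := by rw [← map_smul, ht]; simp [LinearEquiv.coe_inv]
      have : t ≠ 0 := by rintro rfl; exact jv_ne hu (by simpa using e1.symm)
      exact hc t⁻¹ u (by rw [← e1, inv_smul_smul₀ this])
    obtain ⟨φ, p, q⟩ := exists_dual_zero_one h1
    have := rt_induction (A := (LinearMap.ker (Dual.eval F _ (g⁻¹ (jv K u)))).toAddSubgroup)
      (fun l φ a b => Submodule.smul_mem _ _ (h _ (conj_mem_Tr hg (hM e φ a b))))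
      (p _ (Submodule.mem_span_singleton_self _))
    exact one_ne_zero (q.symm.trans this)
  generalize g (jv K e) = w at hc k
  by_cases hw : ∀ φ, Rt K φ → φ w = 0 → φ = 0
  swap
  · push Not at hw
    obtain ⟨φ, a1, a2, a3⟩ := hw
    have d1 := finrank_le_of_prop (K := K) ⊤ φ (a := 1) fun z _ => ⟨_, a1 z, (mul_one _).symm⟩
    have d0 : finrank K (⊤ : Submodule K (ι → K)) = Fintype.card ι := by simp
    obtain ⟨u, p, hu⟩ := exists_ne_zero_of_finrank (W := ⊤ ⊓ LinearMap.ker (resJ K φ))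
      (by omega)
    obtain ⟨ψ, b1, b2⟩ := k u hu
    have c1 := tr_move' (hM u φ a1 p.2) b1 a2
    obtain ⟨i, hi⟩ : ∃ i, ψ (jv K u) * w i ∉ K := by
      by_contra h
      push Not at h
      exact hc (ψ (jv K u))⁻¹ (fun i => ⟨_, h i⟩) (funext fun i => by simp [jv_apply, b2])
    have d2 := finrank_le_inf_ker (⊤ ⊓ LinearMap.ker (resJ K φ)) (LinearMap.proj i)
    obtain ⟨u', p', hu'⟩ := exists_ne_zero_of_finrank
      (W := ⊤ ⊓ LinearMap.ker (resJ K φ) ⊓ LinearMap.ker (LinearMap.proj i : (ι → K) →ₗ[K] K))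
      (by omega)
    have c2 := tr_move' c1 (hM u' (LinearMap.proj i) (fun y => (y i).2)
      (by simpa [jv_apply] using p'.2)) (by simp [show φ (jv K u') = 0 from p'.1.2])
    obtain ⟨z, hz⟩ : ∃ z, φ (jv K z) ≠ 0 := by
      by_contra h
      push Not at h
      exact a3 (dual_ext h)
    refine hi ?_
    convert K.div_mem (hb u' hu' _ c2 z) (a1 z) using 1
    simp; field_simp
  obtain ⟨u, -, hu⟩ := exists_ne_zero_of_finrank (W := (⊤ : Submodule K (ι → K))) (by simp; omega)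
  obtain ⟨ψ, b1, b2⟩ := k u hu
  obtain ⟨φ, φ', a1, a2, a3, a4, a5⟩ := exists_rt_pair hw (Z := Submodule.span K {u})
    (by have := finrank_span_one_le (F := K) u; omega)
  replace a3 := a3 u (Submodule.mem_span_singleton_self u)
  have m1 : jv K u ∈ Submodule.span F {jv K u, w} := Submodule.subset_span (by simp)
  have m2 : w ∈ Submodule.span F {jv K u, w} := Submodule.subset_span (by simp)
  obtain ⟨h, ⟨hh, hP⟩, l, c, hl, hl0, -, p⟩ := dickson2 (M := M ⊓ cong (Submodule.span F {jv K u, w}))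
    (U := Submodule.span F {jv K u}) (R := ⊥) (N := ψ.smulRight w) (t := dtv w ψ)
    ⟨b1.2, fun v => by rw [dtv_apply b1.1]; simpa using Submodule.smul_mem _ _ m2⟩
    (dtv_apply b1.1) (fun v _ => by simp [b1.1]) (by simp) (a := φ w * ψ (jv K u))
    (mul_ne_zero a4 b2) a5 (by
      have k : ∀ χ, Rt K χ → χ (jv K u) = 0 → ∃ s ∈ M ⊓ cong (Submodule.span F {jv K u, w}),
          (∀ r ∈ (⊥ : Submodule F (ι → F)), s r = r) ∧ ∀ v ∈ Submodule.span F {jv K u}, s v = v ∧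
          s (ψ.smulRight w v) - (χ w * ψ (jv K u)) • v - ψ.smulRight w v ∈
            (⊥ : Submodule F (ι → F)) := fun χ p q => by
        refine ⟨dtv (jv K u) χ, ⟨(hM u χ p q).2, fun v => by
          rw [dtv_apply q]; simpa using Submodule.smul_mem _ _ m1⟩, by simp, fun v hv => ?_⟩
        obtain ⟨t, rfl⟩ := Submodule.mem_span_singleton.mp hv
        simp [dtv_apply q, q]; module
      rintro _ (rfl | rfl)
      · exact k φ a1 a3.1
      · convert k φ' a2 a3.2 using 8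
        field_simp)
  obtain ⟨p1, p2⟩ := p _ (Submodule.mem_span_singleton_self _)
  rw [Submodule.mem_bot, sub_eq_zero] at p1 p2
  obtain ⟨x, hx⟩ : ∃ x, h (jv K x) - jv K x ∉ Submodule.span F {jv K u} := by
    by_contra hx
    push Not at hx
    have := ext_le (S := ⊤) (T := (Submodule.span F {jv K u}).comap
      ((h : (ι → F) →ₗ[F] (ι → F)) - LinearMap.id)) (fun x _ => by simpa using hx x)
      (mem_ext_top K (ψ (jv K u) • w))
    obtain ⟨t, ht⟩ := Submodule.mem_span_singleton.mp this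
    have h1 : l⁻¹ - 1 ≠ 0 := by rwa [sub_ne_zero, Ne, inv_eq_one]
    refine hc ((t - c) / ((l⁻¹ - 1) * ψ (jv K u))) u ?_
    rw [div_eq_inv_mul, mul_smul, eq_inv_smul_iff₀ (mul_ne_zero h1 b2)]
    simp only [LinearMap.smulRight_apply, LinearMap.sub_apply, LinearEquiv.coe_coe,
      LinearMap.id_apply] at p2 ht
    linear_combination (norm := module) -p2 - ht
  obtain ⟨α, β, hαβ⟩ := Submodule.mem_span_pair.mp (hP (jv K x))
  have hβ : β ≠ 0 := by
    rintro rfl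
    exact hx (by rw [← hαβ]; simpa using Submodule.smul_mem _ α (Submodule.mem_span_singleton_self _))
  obtain ⟨χ, χ', c1, c2, c3, c4, c5⟩ := exists_rt_pair hw (Z := Submodule.span K {u, x})
    (by have := finrank_span_pair_le (F := K) u x; omega)
  have k : ∀ χ, Rt K χ → χ (jv K u) = 0 → χ (jv K x) = 0 → l⁻¹ * β * χ w ∈ K := fun χ p q s => by
    have t1 := conj_mem_Tr (M.inv_mem hh) (hM u χ p q)
    have e1 : h⁻¹ (jv K u) = l⁻¹ • jv K u := by
      rw [eq_inv_smul_iff₀ hl0, ← map_smul, ← p1]; simp [LinearEquiv.coe_inv]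
    have t2 := t1.2
    rw [e1, dtv_smul, inv_inv] at t2
    have := hb u hu _ ⟨by simp [p1, q], t2⟩ x
    rw [eq_sub_iff_add_eq] at hαβ
    simpa [← hαβ, q, s, mul_assoc] using this
  have u1 := c3 u (Submodule.subset_span (by simp))
  have u2 := c3 x (Submodule.subset_span (by simp))
  refine c5 ?_
  convert K.div_mem (k χ' c2 u1.2 u2.2) (k χ c1 u1.1 u2.1) using 1
  field_simp

omit hM in
theorem max_sub_SL (hθ : ∀ a, θ a = a ↔ a ∈ K) (hn : 4 ≤ Fintype.card ι) {r : ℕ} (hr : r.Prime)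
    (hc : Nat.card K ^ r = Nat.card F) :
    IsMaximalIn (SLv F (ι → F)) (ratG θ ι ⊓ SLv F (ι → F)) := by
  have hK : 1 < Nat.card K := Finite.one_lt_card
  obtain ⟨e, -, he0⟩ := exists_ne_zero_of_finrank (W := (⊤ : Submodule K (ι → K))) (by simp; omega)
  refine isMaximalIn_inf (fun hle => ?_) fun M h1 h2 g hg hgS => ?_
  · obtain ⟨l, hl⟩ : ∃ l : F, l ∉ K := by
      by_contra hc'
      push Not at hc'
      rw [(eq_top_iff.mpr fun x _ => hc' x : K = ⊤), card_top_subfield] at hc hK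
      exact hr.ne_one (Nat.pow_right_injective hK (hc.trans (pow_one _).symm))
    obtain ⟨y, -, q⟩ := exists_mem_notMem (W := ⊤) (Z := Submodule.span K {e})
      (by have := finrank_span_one_le (F := K) e; simp; omega)
    obtain ⟨φ, -, a2, a3⟩ := exists_rt q
    have p : (l • φ) (jv K e) = 0 := by simp [a2 e (Submodule.mem_span_singleton_self e)]
    obtain ⟨μ, -, hμ⟩ := hle (dtv_mem_SLv p)
    have k1 := hμ (jv K e)
    rw [th_jv hθ, dtv_fix _ p, th_jv hθ] at k1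
    obtain rfl : 1 = μ := smul_left_injective F (jv_ne he0) (by simpa using k1)
    have k2 := hμ (jv K y)
    rw [th_jv hθ, dtv_apply p, map_add, th_smul, th_jv hθ, th_jv hθ, one_smul, add_right_inj] at k2
    exact hl ((hθ l).mp (by simpa [a3] using smul_left_injective F (jv_ne he0) k2))
  have hM : ∀ u φ, Rt K φ → φ (jv K u) = 0 → φ ∈ Tr M (jv K u) := fun u φ p q =>
    ⟨q, h1 ⟨mem_ratG_of_jv hθ fun x => ⟨x + (⟨_, p x⟩ : K) • u, by
      rw [dtv_apply q, map_add, jv_smul]⟩, dtv_mem_SLv q⟩⟩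
  by_contra hle
  have k1 : ∀ x, th θ (g (jv K x)) ∈ Submodule.span F {g (jv K x)} := fun x => by
    obtain ⟨a, y, hy⟩ := rat_point hM hn (fun u hu χ hχ x => by
      by_contra hx; exact hle (SLv_le_of_tr hM hn hr hc hu hχ hx)) hg x
    by_cases ha : a = 0
    · simp [hy, ha]
    rw [hy, th_smul, th_jv hθ, Submodule.span_singleton_smul_eq (IsUnit.mk0 a ha)]
    exact Submodule.smul_mem _ _ (Submodule.mem_span_singleton_self _)
  obtain ⟨μ, hμ⟩ := Submodule.mem_span_singleton.mp (k1 e)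
  refine hgS (mem_ratG hθ (μ := μ) ?_ fun x => ?_)
  · rintro rfl
    exact th_ne (v := g (jv K e)) (by simpa using jv_ne he0) (by simpa using hμ.symm)
  · by_cases h0 : x = 0
    · simp [h0]
    obtain ⟨ν, hν⟩ := Submodule.mem_span_singleton.mp (k1 x)
    rw [eig_eq hθ he0 h0 hμ.symm hν.symm (k1 _)]
    exact hν.symm

end linear

end Cfsg.Agent.H10
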