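import Mathlib
import Cfsg.Agent.H10.Mx10

/-!
Subfield subgroups of symplectic, unitary and orthogonal groups in dimension at least seven.
-/

set_option autoImplicit false

namespace Cfsg.Agent.H10

open Module H11 Cfsg.Geo

variable {F : Type*} [Field F] {K : Subfield F} {θ : F ≃+* F} {ι : Type} {σ : F →+* F}
  {σ₀ : K →+* K}

theorem Cl.exists_sing_perp_notMem {V : Type*} [AddCommGroup V] [Module F V] {ε κ : F}
    {τ : F →+ F} {B : V →ₛₗ[σ] V →ₗ[F] F} {Q : V → F} (h : Cl ε κ τ B Q) [FiniteDimensional F V]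
    [Finite F] {T Z : Submodule F V} (hT : TotSing B Q T)
    (hb : 2 * finrank F T + 3 ≤ finrank F V ∨ NQ τ ∧ 2 * finrank F T + 2 ≤ finrank F V)
    (hZ : ¬ perp B T ≤ Z) : ∃ z ∈ perp B T, z ∉ Z ∧ Q z = 0 := by
  by_contra hc
  push Not at hc
  have hTT : T ≤ perp B T := fun x hx y hy => hT.2 y hy x hx
  obtain ⟨W, a1, a2, a3⟩ := exists_le_disjoint (perp B T) T
  have d := h.form.finrank_perp h.sep T
  have d2 := Submodule.finrank_sup_add_finrank_inf_eq W T
  rw [a2.eq_bot, finrank_bot] at d2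
  have e : W ⊔ T = perp B T := Submodule.eq_of_le_of_finrank_le (sup_le a1 hTT) (by omega)
  have hW : NondegOn B W := fun x hx hx' => a2.le_bot ⟨hx, h.form.mem_of_perp h.sep fun y hy => by
    obtain ⟨p, hp, q, hq, rfl⟩ := Submodule.mem_sup.mp (e.ge hy)
    rw [map_add, hx' p hp, h.refl (a1 hx q hq), add_zero]⟩
  refine hZ (e ▸ sup_le (fun x hx => by_contra fun hxZ => ?_) fun x hx => by_contra fun hxZ =>
    hc x (hTT hx) hxZ (hT.1 x hx))
  obtain ⟨y, p, q⟩ := h.form.exists_perp_not h.sep hxZ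
  obtain ⟨u, b1, b2, b3⟩ := h.exists_sing_not_perp hW (hb.imp (by omega) fun k => ⟨by omega, k.1⟩)
    (s := y) ⟨x, hx, by simp [q]⟩
  exact b3 (p u (by_contra fun k => hc u (a1 b1) k b2))

theorem finrank_le_of_th [Finite F] [Fintype ι] {S T : Submodule F (ι → F)}
    (h : ∀ v ∈ S, th θ v ∈ T) : finrank F S ≤ finrank F T := by
  have := Nat.card_le_card_of_injective (fun v : S => (⟨_, h v v.2⟩ : T)) fun a b e => Subtype.ext
    (sub_eq_zero.mp (by_contra fun k => th_ne (θ := θ) k (by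
      rw [map_sub]; exact sub_eq_zero.mpr (congrArg Subtype.val e))))
  rw [Module.natCard_eq_pow_finrank (K := F), Module.natCard_eq_pow_finrank (K := F) (V := T)] at this
  exact (Nat.pow_le_pow_iff_right Finite.one_lt_card).mp this

namespace Rat

variable {ε κ : F} {τ : F →+ F} {B : (ι → F) →ₛₗ[σ] (ι → F) →ₗ[F] F} {Q : (ι → F) → F}
  {ε₀ κ₀ : K} {τ₀ : K →+ K} {B₀ : (ι → K) →ₛₗ[σ₀] (ι → K) →ₗ[K] K} {Q₀ : (ι → K) → K} {ζ : F}
  [Fintype ι] [DecidableEq ι]

/-- An overgroup which is not the whole group. -/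
structure Bad7 (R : Rat θ ε κ τ B Q ε₀ κ₀ τ₀ B₀ Q₀ ζ) (M : Subgroup ((ι → F) ≃ₗ[F] (ι → F))) :
    Prop where
  o : R.Ov M
  hn : 7 ≤ Fintype.card ι
  hL : ∀ e, e ≠ 0 → Q₀ e = 0 → ∀ l : F,
    (∀ y, B₀ e y = 0 → (l * σ ζ) • jv K y ∈ R.cl.Ar M (jv K e)) → l ∈ K

/-- Three independent rational singular vectors are perpendicular to `w` and `y`. -/
def Many (_R : Rat θ ε κ τ B Q ε₀ κ₀ τ₀ B₀ Q₀ ζ) (w y : ι → F) : Prop :=
  ∀ Z : Submodule K (ι → K), finrank K Z ≤ 2 →
    ∃ e, e ∉ Z ∧ Q₀ e = 0 ∧ B w (jv K e) = 0 ∧ B y (jv K e) = 0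

variable {R : Rat θ ε κ τ B Q ε₀ κ₀ τ₀ B₀ Q₀ ζ} {M : Subgroup ((ι → F) ≃ₗ[F] (ι → F))}
  (b : R.Bad7 M) [Finite F]
include b

theorem Bad7.nr_sing {e u : ι → K} (he0 : e ≠ 0) (he : Q₀ e = 0) (hu : Q₀ u = 0)
    (heu : B₀ e u = 0) {a : ι → F} (ha : a ∈ R.cl.Ar M (jv K e)) : B (jv K u) a ∈ K := by
  have hn := b.hn
  obtain ⟨f, hf, hef, huf, hfe⟩ := R.exists_cfg (by omega) (e := e) (u := u)
  obtain ⟨y', y, h1, h2, h3⟩ := R.exists_pair (by omega)
    (Z := Submodule.span K {e, u} ⊔ Submodule.span K {f})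
    ((finrank_sup_span_le _ _).trans (by have := finrank_span_pair_le (F := K) e u; omega))
  have p : e ∈ Submodule.span K {e, u} ⊔ Submodule.span K {f} :=
    Submodule.mem_sup_left (Submodule.subset_span (by simp))
  have q : u ∈ Submodule.span K {e, u} ⊔ Submodule.span K {f} :=
    Submodule.mem_sup_left (Submodule.subset_span (by simp))
  have s : f ∈ Submodule.span K {e, u} ⊔ Submodule.span K {f} :=
    Submodule.mem_sup_right (Submodule.subset_span (by simp))
  obtain ⟨c, hc⟩ := R.cl₀.exists_tau y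
  have k1 := AddSubgroup.sub_mem _ (R.cl.map_mem_ar_fix b.o.1 (b.o.2 u y c hu (h2 u q) hc)
    (R.E_fix c (R.cl₀.refl heu) (R.cl₀.refl (h2 e p))) ha) ha
  rw [E, R.cl.eich_apply (R.sing hu) (R.perp' (h2 u q) _)] at k1
  have k2 := R.cl.ar_move b.o.1 (R.sing hf) (R.perp (R.cl₀.refl hef)) k1 (b.o.mem_ar hf (h1 f s))
    (R.perp'' (R.cl₀.refl (h1 e p)) _) (by simp [R.perp (R.cl₀.refl huf), R.perp (h2 f s)])
  have k3 := R.hB y' y
  rw [h3, OneMemClass.coe_one] at k3
  have k4 : -(ε * B (jv K u) a) ∈ K := b.hL e he0 he _ fun z hz => b.o.spread (by omega) he0 he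
    (fun hc => hfe (Submodule.span_mono (by simp) hc)) (by
      convert k2 using 2
      simp [R.perp (R.cl₀.refl (h1 u q)), R.cl.invol]
      linear_combination (ε * B (jv K u) a * σ ζ) * k3) hz
  rcases R.cl.eps_or with h | h <;> simpa [h] using k4

theorem Bad7.nr {e u : ι → K} (he0 : e ≠ 0) (he : Q₀ e = 0) (heu : B₀ e u = 0) {a : ι → F}
    (ha : a ∈ R.cl.Ar M (jv K e)) : B (jv K u) a ∈ K := by
  have hn := b.hn
  obtain ⟨f, hf, hef, -, hfe⟩ := R.exists_cfg (by omega) (e := e) (u := e)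
  rw [Set.pair_eq_singleton] at hfe
  let A : AddSubgroup (ι → K) :=
    { carrier := {u | ∀ a ∈ R.cl.Ar M (jv K e), B (jv K u) a ∈ K}
      add_mem' := fun p q a ha => by simpa using K.add_mem (p a ha) (q a ha)
      zero_mem' := fun a _ => by simp
      neg_mem' := fun p a ha => by simpa using p a ha }
  refine R.cl₀.perp_irr (A := A) (by simp; omega) he0 (Or.inl he) (fun u x c p q r s t z hz a ha => ?_)
    (fun a ha => b.nr_sing he0 he hf hef ha) hef hfe heu a ha
  have m := b.o.2 _ _ _ p q r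
  have := hz _ (R.cl.map_mem_ar_fix b.o.1 (M.inv_mem m) (by
    conv_lhs => rw [← R.E_fix c s t]
    simp [LinearEquiv.coe_inv]) ha)
  rw [← (b.o.1 m).1, R.E_apply p q] at this
  simpa [LinearEquiv.coe_inv] using this

theorem Bad7.key {t : (ι → F) ≃ₗ[F] (ι → F)} (ht : t ∈ M) {e : ι → K} (he0 : e ≠ 0)
    (he : Q₀ e = 0) (hte : t (jv K e) = jv K e) {v : ι → F} (hv : B (jv K e) v = 0) :
    th θ (t v) - t (th θ v) ∈ Submodule.span F {jv K e} := by
  refine ext_induction (p := fun v => th θ (t v) - t (th θ v) ∈ Submodule.span F {jv K e})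
    (fun x hx => ?_) (fun v w p q => ?_) (fun c v p => ?_) (R.mem_ext_perp hv)
  · refine R.cl.form.mem_of_perp R.cl.sep fun y hy => ?_
    refine ext_le (T := LinearMap.ker (B _)) (fun u hu => R.cl.refl ?_)
      (R.mem_ext_perp (hy _ (Submodule.mem_span_singleton_self _)))
    have k := b.nr he0 he hu (R.cl.map_mem_ar_fix b.o.1 ht hte (b.o.mem_ar he hx))
    have k' : ζ * B (jv K u) (t (jv K x)) ∈ K := by
      rcases R.sz_or with h | h <;> simpa [h] using k
    have := R.B_th (jv K u) (t (jv K x))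
    rw [(R.fix _).mpr k', th_jv R.fix] at this
    rw [map_sub, th_jv R.fix, mul_left_cancel₀ R.ne this, sub_self]
  · convert Submodule.add_mem _ p q using 1
    simp only [map_add]; abel
  · convert Submodule.smul_mem _ (θ c) p using 1
    rw [map_smul, th_smul, th_smul, map_smul, smul_sub]

theorem Bad7.key3 {t : (ι → F) ≃ₗ[F] (ι → F)} (ht : t ∈ M)
    (H : ∀ Z : Submodule K (ι → K), finrank K Z ≤ 2 → ∃ e, e ∉ Z ∧ Q₀ e = 0 ∧ t (jv K e) = jv K e)
    (v : ι → F) : th θ (t v) = t (th θ v) := by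
  obtain ⟨e, a1, a2, a3⟩ := H ⊥ (by simp)
  obtain ⟨f, b1, b2, b3⟩ := H (Submodule.span K {e}) ((finrank_span_one_le e).trans (by omega))
  obtain ⟨z, c1, c2, c3⟩ := H (Submodule.span K {e, f}) (finrank_span_pair_le e f)
  have ne : ∀ {s : Set (ι → K)} {x}, x ∉ Submodule.span K s → x ≠ 0 := fun h e => h (by simp [e])
  have two : ∀ {p q : ι → K}, p ≠ 0 → q ∉ Submodule.span K {p} → Q₀ p = 0 → Q₀ q = 0 →
      t (jv K p) = jv K p → t (jv K q) = jv K q → ∀ v, B (jv K p) v = 0 → B (jv K q) v = 0 →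
      th θ (t v) = t (th θ v) := fun {p q} p0 hq p1 q1 p2 q2 v p3 q3 => by
    have := mem_of_two (S := ⊥) (e := jv K p) (f := jv K q)
      (by simpa using fun hc => hq (mem_span_of_jv (by simpa using hc)))
      (by simpa using b.key ht p0 p1 p2 p3) (by simpa using b.key ht (ne hq) q1 q2 q3)
    simpa [sub_eq_zero] using this
  have sp : ∀ x (c : F), (∀ d : F, th θ (t (d • x)) = t (th θ (d • x))) →
      ∀ v, th θ (t (v - c • x)) = t (th θ (v - c • x)) → th θ (t v) = t (th θ v) :=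
    fun x c hx v hv => by
      rw [← sub_add_cancel v (c • x), map_add, map_add, hv, hx, map_add, map_add]
  have e0 : e ≠ 0 := by simpa using a1
  obtain ⟨x, p, q⟩ := R.cl.form.exists_perp_not R.cl.sep (x := jv K z)
    (W := Submodule.span F {jv K e, jv K f}) fun hc => c1 (mem_span_of_jv (by simpa [Set.image_pair]))
  have pe := p _ (Submodule.subset_span (Set.mem_insert _ _))
  have pf := p (jv K f) (Submodule.subset_span (by simp))
  have hx := fun d : F => two e0 b1 a2 b2 a3 b3 (d • x) (by simp [pe]) (by simp [pf])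
  have k1 : ∀ v, B (jv K e) v = 0 → th θ (t v) = t (th θ v) := fun v hv =>
    sp x (B (jv K z) v) hx v (two e0 (fun hc => c1 (Submodule.span_mono (by simp) hc)) a2 c2 a3 c3 _
      (by simp [hv, pe]) (by simp [q]))
  have k2 : ∀ v, B (jv K f) v = 0 → th θ (t v) = t (th θ v) := fun v hv =>
    sp x (B (jv K z) v) hx v (two (ne b1) (fun hc => c1 (Submodule.span_mono (by simp) hc)) b2 c2 b3
      c3 _ (by simp [hv, pf]) (by simp [q]))
  obtain ⟨y, p', q'⟩ := R.cl.form.exists_perp_not R.cl.sep (x := jv K f)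
    (W := Submodule.span F {jv K e}) fun hc => b1 (mem_span_of_jv (by simpa))
  have pe' := p' _ (Submodule.mem_span_singleton_self _)
  exact sp y (B (jv K f) v) (fun d => k1 _ (by simp [pe'])) v (k2 _ (by simp [q']))

theorem Bad7.key2 {w y : ι → F} {c : F} (ht : R.cl.eich w y c ∈ M) (hw : Q w = 0) (hwy : B w y = 0)
    (H : R.Many w y) (v : ι → F) : th θ (R.cl.eich w y c v - v) ∈ Submodule.span F {w, y} := by
  rw [map_sub, b.key3 ht fun Z hZ => (H Z hZ).imp fun e he =>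
    ⟨he.1, he.2.1, R.cl.eich_fix c he.2.2.1 he.2.2.2⟩, R.cl.eich_apply hw hwy,
    Submodule.mem_span_pair]
  exact ⟨B y (th θ v) - c * B w (th θ v), -(ε * B w (th θ v)), by module⟩

theorem Bad7.line {w y : ι → F} {c : F} (ht : R.cl.eich w y c ∈ M) (hw : Q w = 0) (hwy : B w y = 0)
    (H : R.Many w y) (hy : y ∉ Submodule.span F {w}) : th θ w ∈ Submodule.span F {w, y} := by
  obtain ⟨v, p, q⟩ := R.cl.form.exists_perp_not R.cl.sep hy
  have := b.key2 ht hw hwy H v
  rwa [R.cl.eich_of_perp hw hwy c (p w (Submodule.mem_span_singleton_self w)), q, one_smul,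
    add_sub_cancel_left] at this

theorem Bad7.point {w : ι → F} {c : F} (ht : R.cl.eich w 0 c ∈ M) (hw : Q w = 0) (hc : c ≠ 0)
    (H : R.Many w 0) : th θ w ∈ Submodule.span F {w} := by
  by_cases hw0 : w = 0
  · simp [hw0]
  obtain ⟨v, hv⟩ := R.cl.exists_ne hw0
  have := b.key2 ht hw (by simp) H v
  rw [R.cl.eich_apply hw (by simp)] at this
  simp only [map_zero, LinearMap.zero_apply, zero_smul, add_zero, smul_zero, sub_zero,
    sub_sub_cancel_left, map_neg, neg_mem_iff, th_smul] at this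
  rw [Submodule.smul_mem_iff _ (by simp [hc, hv])] at this
  simpa [Set.pair_comm] using this

omit [Finite F] [DecidableEq ι] in
theorem Bad7.conj {g : (ι → F) ≃ₗ[F] (ι → F)} (hg : g ∈ M) {u x : ι → K} {c : K} (hu : Q₀ u = 0)
    (hx : B₀ u x = 0) (hc : τ₀ c = Q₀ x) :
    R.cl.eich (g (jv K u)) (σ ζ • g (jv K x)) (c * ζ) ∈ M := by
  have := M.mul_mem (M.mul_mem hg (b.o.2 _ _ _ hu hx hc)) (M.inv_mem hg)
  rwa [E, R.cl.conj_eich (b.o.1 hg), map_smul] at this


theorem Bad7.point_of_lines {g : (ι → F) ≃ₗ[F] (ι → F)} (hg : g ∈ M) {T : Submodule K (ι → K)}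
    (hT : TotSing B₀ Q₀ T) (h3 : 3 ≤ finrank K T) {e : ι → K} (he : e ∈ T)
    (H : ∀ x ∈ T, x ∉ Submodule.span K {e} → R.Many (g (jv K e)) (g (jv K x))) :
    th θ (g (jv K e)) ∈ Submodule.span F {g (jv K e)} := by
  have k : ∀ x ∈ T, x ∉ Submodule.span K {e} →
      th θ (g (jv K e)) ∈ Submodule.span F {g (jv K e), g (jv K x)} := fun x hx hxe => by
    have := b.line (b.conj hg (c := 0) (hT.1 e he) (hT.2 e he x hx) (by simp [hT.1 x hx]))
      (by rw [(b.o.1 hg).2, R.sing (hT.1 e he)])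
      (by simp [(b.o.1 hg).1, R.perp (hT.2 e he x hx)])
      (fun Z hZ => (H x hx hxe Z hZ).imp fun z hz => ⟨hz.1, hz.2.1, hz.2.2.1, by simp [hz.2.2.2]⟩) (by
        rw [Submodule.smul_mem_iff _ R.sz_ne]
        simpa using notMem_span_map g (s := {jv K e}) fun hc => hxe (mem_span_of_jv (by simpa)))
    obtain ⟨p, q, hpq⟩ := Submodule.mem_span_pair.mp this
    exact Submodule.mem_span_pair.mpr ⟨p, q * σ ζ, by rw [← hpq, smul_smul]⟩
  obtain ⟨x, p, q⟩ := exists_mem_notMem (W := T) (Z := Submodule.span K {e})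
    (by have := finrank_span_one_le (F := K) e; omega)
  obtain ⟨x', p', q'⟩ := exists_mem_notMem (W := T) (Z := Submodule.span K {e, x})
    (by have := finrank_span_pair_le (F := K) e x; omega)
  refine mem_span_of_lines ?_ (k x p q) (k x' p' fun hc => q' (Submodule.span_mono (by simp) hc))
  simpa [Set.image_pair] using notMem_span_map g (s := {jv K e, jv K x})
    fun hc => q' (mem_span_of_jv (by simpa [Set.image_pair]))

theorem Bad7.homology {U : Submodule K (ι → K)} (hU : TotSing B₀ Q₀ U) (h3 : finrank K U = 3)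
    {g : (ι → F) ≃ₗ[F] (ι → F)} (hg : g ∈ M) {S : Submodule F (ι → F)} (hS : S ≤ ext U) {l : F}
    (hl : l ≠ 1) (h1 : ∀ v ∈ S, g v = v) (h2 : ∀ v ∈ ext U, g v - l • v ∈ S) :
    finrank K (pre K S) = finrank F S := by
  have gU : ∀ v ∈ ext U, g v ∈ ext U := fun v hv => by
    simpa using Submodule.add_mem _ (hS (h2 v hv)) (Submodule.smul_mem _ l hv)
  have k1 : ∀ e ∈ U, th θ (g (jv K e)) ∈ Submodule.span F {g (jv K e)} := fun e he =>
    b.point_of_lines hg hU h3.ge he fun x hx _ Z hZ => by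
      obtain ⟨z, p, q⟩ := exists_mem_notMem (W := U) (Z := Z) (by omega)
      exact ⟨z, q, hU.1 z p, R.cl.refl (R.ext_perp hU p (gU _ (mem_ext he))),
        R.cl.refl (R.ext_perp hU p (gU _ (mem_ext hx)))⟩
  obtain ⟨e, he, he0⟩ := exists_ne_zero_of_finrank (W := U) (by omega)
  obtain ⟨μ, hμ⟩ := Submodule.mem_span_singleton.mp (k1 e he)
  have k2 : ∀ v ∈ ext U, th θ (g v) = μ • g (th θ v) := fun v hv =>
    th_comm R.fix (g := (g : (ι → F) →ₗ[F] (ι → F))) (fun x hx => by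
      by_cases h0 : x = 0
      · simp [h0]
      obtain ⟨ν, hν⟩ := Submodule.mem_span_singleton.mp (k1 x hx)
      rw [eig_eq R.fix he0 h0 hμ.symm hν.symm (k1 _ (U.add_mem he hx))]
      exact hν.symm) hv
  refine finrank_pre R.fix fun s hs => ?_
  by_cases hm : μ * l = 1
  · exfalso
    let T := ext U ⊓ LinearMap.ker ((g : (ι → F) →ₗ[F] (ι → F)) - l • LinearMap.id)
    have mT : ∀ v, v ∈ T ↔ v ∈ ext U ∧ g v = l • v := fun v => by simp [T, sub_eq_zero]
    have l1 := sub_ne_zero.mpr hl.symm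
    have d1 : finrank F S ≤ finrank F T := finrank_le_of_th (θ := θ) fun v hv =>
      (mT _).mpr ⟨th_mem_ext R.fix (hS hv), by
        have := k2 v (hS hv)
        rw [h1 v hv] at this
        conv_rhs => rw [this, smul_smul, mul_comm, hm, one_smul]⟩
    have d2 : finrank F T ≤ finrank F S := finrank_le_of_th (θ := θ) fun v hv => by
      obtain ⟨p, q⟩ := (mT v).mp hv
      have k := k2 v p
      have k' := S.smul_mem μ (h2 _ (th_mem_ext R.fix p))
      rw [smul_sub, ← k, q, th_smul, smul_smul, hm, ← sub_smul] at k'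
      exact (S.smul_mem_iff (by simpa [sub_eq_zero] using hl)).mp k'
    have d3 := Submodule.finrank_sup_add_finrank_inf_eq S T
    rw [show S ⊓ T = ⊥ from eq_bot_iff.mpr fun v hv => by
      have := ((mT v).mp hv.2).2
      rw [h1 v hv.1] at this
      exact (smul_eq_zero.mp (show (1 - l) • v = 0 by rw [sub_smul, ← this]; simp)).resolve_left l1,
      show S ⊔ T = ext U from le_antisymm (sup_le hS inf_le_left) fun v hv => by
        rw [← Submodule.smul_mem_iff _ l1, show (1 - l) • v = (g v - l • v) - (g v - v) by module]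
        refine sub_mem (Submodule.mem_sup_left (h2 v hv)) (Submodule.mem_sup_right ((mT _).mpr
          ⟨sub_mem (gU v hv) hv, ?_⟩))
        have := h1 _ (h2 v hv)
        simp only [map_sub, map_smul] at this ⊢
        linear_combination (norm := module) this,
      finrank_ext, finrank_bot] at d3
    omega
  · have k := k2 s (hS hs)
    have k' := S.smul_mem μ (h2 _ (th_mem_ext R.fix (hS hs)))
    rw [smul_sub, ← k, h1 s hs, smul_smul] at k'
    rw [← S.smul_mem_iff (sub_ne_zero.mpr (Ne.symm hm)), sub_smul, one_smul]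
    exact k'

omit b in
theorem many_of (R : Rat θ ε κ τ B Q ε₀ κ₀ τ₀ B₀ Q₀ ζ) (hn : 7 ≤ Fintype.card ι)
    {T : Submodule K (ι → K)} (hT : TotSing B₀ Q₀ T) (h2 : finrank K T = 2) {w y : ι → F}
    (H : ∀ U, TotSing B₀ Q₀ U → T ≤ U → finrank K U = 3 →
      ∃ s ∈ U, s ∉ T ∧ B w (jv K s) = 0 ∧ B y (jv K s) = 0) : R.Many w y := fun Z hZ => by
  have d := R.cl₀.form.finrank_perp R.cl₀.sep T
  have d2 := Submodule.finrank_sup_add_finrank_inf_eq Z T
  obtain ⟨z, a1, a2, a3⟩ := R.cl₀.exists_sing_perp_notMem (Z := Z ⊔ T) hT (Or.inl (by simp; omega))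
    fun hc => by have := Submodule.finrank_mono hc; simp at d; omega
  have d3 := finrank_sup_span_le T z
  have d4 := Submodule.finrank_lt_finrank_of_lt (s := T) (t := T ⊔ Submodule.span K {z})
    (left_lt_sup.mpr (by simpa using fun hc => a2 (Submodule.mem_sup_right hc)))
  have hU := R.cl₀.form.totSing_sup_span hT a3 a1
  obtain ⟨s, p1, p2, p3⟩ := H _ hU le_sup_left (by omega)
  refine ⟨s, fun hc => ?_, hU.1 s p1, p3⟩
  exact p2 (mem_of_two (S := T) (e := s) (f := z) (fun k => a2 ((sup_le le_sup_right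
    (by simpa using Submodule.mem_sup_left hc) : _ ≤ Z ⊔ T) k))
    (Submodule.mem_sup_right (Submodule.mem_span_singleton_self s)) p1)

end Rat

end Cfsg.Agent.H10
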