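import Mathlib
import Cfsg.Agent.H10.Mx10

/-!
Stabilisers of orthogonal decompositions of symplectic and orthogonal spaces.
-/

set_option autoImplicit false

namespace Cfsg.Agent.H10

open Module H11 Cfsg.Geo

variable {F : Type*} [Field F] {V : Type*} [AddCommGroup V] [Module F V] {σ : F →+* F}

/-- An orthogonal decomposition into isometric members, with its projections. -/
structure Dec (B : V →ₛₗ[σ] V →ₗ[F] F) (Q : V → F) {t : ℕ} (D : Fin t → Submodule F V)
    (p : Fin t → V →ₗ[F] V) : Prop where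
  nd : ∀ i, NondegOn B (D i)
  ne : ∀ i, D i ≠ ⊥
  orth : ∀ i j, i ≠ j → ∀ x ∈ D i, ∀ y ∈ D j, B x y = 0
  iso : ∀ i j, ∃ φ : D i ≃ₗ[F] D j, (∀ x y, B (φ x) (φ y) = B x y) ∧ ∀ x, Q (φ x) = Q x
  mem : ∀ i v, p i v ∈ D i
  self : ∀ i, ∀ x ∈ D i, p i x = x
  zero : ∀ i j, i ≠ j → ∀ x ∈ D j, p i x = 0
  sum : ∀ v, ∑ i, p i v = v

variable {ε κ : F} {τ : F →+ F} {B : V →ₛₗ[σ] V →ₗ[F] F} {Q : V → F} {t : ℕ}
  {D : Fin t → Submodule F V} {p : Fin t → V →ₗ[F] V}

theorem Cl.exists_dec [FiniteDimensional F V] (h : Cl ε κ τ B Q) (nd : ∀ i, NondegOn B (D i))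
    (ne : ∀ i, D i ≠ ⊥) (orth : ∀ i j, i ≠ j → ∀ x ∈ D i, ∀ y ∈ D j, B x y = 0) (top : iSup D = ⊤)
    (iso : ∀ i j, ∃ φ : D i ≃ₗ[F] D j, (∀ x y, B (φ x) (φ y) = B x y) ∧ ∀ x, Q (φ x) = Q x) :
    ∃ p, Dec B Q D p := by
  let p := fun i => (D i).projection _ (h.form.isCompl_perp h.sep (nd i))
  have a : ∀ i, ∀ x ∈ D i, p i x = x := fun i x hx => Submodule.projection_apply_of_mem_left _ hx
  have b : ∀ i j, i ≠ j → ∀ x ∈ D j, p i x = 0 := fun i j hij x hx =>
    Submodule.projection_apply_of_mem_right _ fun y hy => orth i j hij y hy x hx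
  refine ⟨p, nd, ne, orth, iso, fun i v => Submodule.projection_apply_mem _ v, a, b, fun v => ?_⟩
  have : iSup D ≤ LinearMap.eqLocus (∑ i, p i) LinearMap.id := iSup_le fun j x hx => by
    change (∑ i, p i) x = x
    rw [LinearMap.sum_apply, Finset.sum_eq_single j (fun i _ hi => b i j hi x hx) (by simp), a j x hx]
  simpa using (this (top ▸ trivial) : (∑ i, p i) v = v)

namespace Dec

variable (d : Dec B Q D p)
include d

theorem B_p {i : Fin t} {x : V} (hx : x ∈ D i) (v : V) : B x (p i v) = B x v := by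
  conv_rhs => rw [← d.sum v, map_sum]
  rw [Finset.sum_eq_single i (fun j _ hj => d.orth i j hj.symm x hx _ (d.mem j v)) (by simp)]

theorem B_p' {i : Fin t} {x : V} (hx : x ∈ D i) (v : V) : B (p i v) x = B v x := by
  conv_rhs => rw [← d.sum v, map_sum, LinearMap.sum_apply]
  rw [Finset.sum_eq_single i (fun j _ hj => d.orth j i hj _ (d.mem j v) x hx) (by simp)]

theorem p_p (i : Fin t) (v : V) : p i (p i v) = p i v := d.self i _ (d.mem i v)

theorem p_p' {i j : Fin t} (h : i ≠ j) (v : V) : p i (p j v) = 0 := d.zero i j h _ (d.mem j v)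

theorem mem_of {i : Fin t} {v : V} (h : ∀ j, j ≠ i → p j v = 0) : v ∈ D i := by
  rw [← d.sum v, Finset.sum_eq_single i (fun j _ hj => h j hj) (by simp)]; exact d.mem i v

theorem notMem {i j : Fin t} (hij : i ≠ j) {v : V} (hi : p i v ≠ 0) (hj : p j v ≠ 0) (l : Fin t) :
    v ∉ D l := fun hv => by
  by_cases h : i = l
  · exact hj (d.zero j l (h ▸ hij.symm) v hv)
  · exact hi (d.zero i l h v hv)

theorem exists_two (i₀ : Fin t) {v : V} (hv : ∀ l, v ∉ D l) :
    ∃ i j, i ≠ j ∧ p i v ≠ 0 ∧ p j v ≠ 0 := by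
  have k : ∀ i, ∃ j, j ≠ i ∧ p j v ≠ 0 := fun i => by
    by_contra hc; push Not at hc; exact hv i (d.mem_of hc)
  obtain ⟨i, -, hi⟩ := k i₀
  obtain ⟨j, a, hj⟩ := k i
  exact ⟨i, j, a.symm, hi, hj⟩

theorem eq_of_mem {i j : Fin t} {x : V} (hx : x ≠ 0) (hi : x ∈ D i) (hj : x ∈ D j) : i = j := by
  by_contra h; exact hx ((d.self i x hi).symm.trans (d.zero i j h x hj))

theorem p_comm {g : V ≃ₗ[F] V} (hg : ∀ i, ∀ x ∈ D i, g x ∈ D i) (i : Fin t) (v : V) :
    p i (g v) = g (p i v) := by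
  conv_lhs => rw [← d.sum v, map_sum, map_sum]
  rw [Finset.sum_eq_single i (fun j _ hj => d.zero i j hj.symm _ (hg j _ (d.mem j v))) (by simp),
    d.self i _ (hg i _ (d.mem i v))]

theorem finrank_eq (i j : Fin t) : finrank F (D i) = finrank F (D j) :=
  (d.iso i j).elim fun φ _ => φ.finrank_eq

theorem exists_ne {i : Fin t} {x : V} (hx : x ∈ D i) (h0 : x ≠ 0) : ∃ y ∈ D i, B x y ≠ 0 := by
  by_contra hc; push Not at hc; exact h0 (d.nd i x hx hc)

variable [FiniteDimensional F V]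

theorem mem_dstab {g : V ≃ₗ[F] V} (hg : ∀ i, ∃ j, ∀ x ∈ D i, g x ∈ D j) : g ∈ dstab D := by
  choose s hs using hg
  have k : ∀ i, (D i).map (g : V →ₗ[F] V) = D (s i) := fun i =>
    map_eq_of_le' (d.finrank_eq _ _) (by rintro _ ⟨x, hx, rfl⟩; exact hs i x hx)
  have inj : Function.Injective s := fun i j hij => by
    obtain ⟨x, hx, hx0⟩ := (Submodule.ne_bot_iff _).mp (d.ne i)
    obtain ⟨y, hy, e⟩ : g x ∈ (D j).map (g : V →ₗ[F] V) := by rw [k, ← hij]; exact hs i x hx
    exact d.eq_of_mem hx0 hx (g.injective e ▸ hy)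
  exact ⟨Equiv.ofBijective s (Finite.injective_iff_bijective.mp inj), k⟩

theorem mem_dstab_union {g : V ≃ₗ[F] V} (hg : ∀ i, ∀ x ∈ D i, ∃ j, g x ∈ D j) : g ∈ dstab D := by
  refine d.mem_dstab fun i => ?_
  obtain ⟨x, hx, hx0⟩ := (Submodule.ne_bot_iff _).mp (d.ne i)
  obtain ⟨j, hj⟩ := hg i x hx
  refine ⟨j, fun y hy => ?_⟩
  obtain ⟨l, hl⟩ := hg i y hy
  obtain ⟨m, hm⟩ := hg i _ ((D i).add_mem hx hy)
  by_contra hc
  have hlj : l ≠ j := by rintro rfl; exact hc hl
  refine d.notMem hlj ?_ ?_ m hm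
  · rw [map_add, map_add, d.zero l j hlj _ hj, d.self l _ hl, zero_add]
    intro e; exact hc (e ▸ (D j).zero_mem)
  · rw [map_add, map_add, d.zero j l hlj.symm _ hl, d.self j _ hj, add_zero]; simpa using hx0

/-- `s` interchanges two members and fixes the others. -/
def IsSwap (D : Fin t → Submodule F V) (i j : Fin t) (s : V ≃ₗ[F] V) : Prop :=
  (∀ x ∈ D i, s x ∈ D j) ∧ (∀ x ∈ D j, s x ∈ D i) ∧ ∀ l, l ≠ i → l ≠ j → ∀ x ∈ D l, s x = x

theorem swap_mem {i j : Fin t} {s : V ≃ₗ[F] V} (hs : IsSwap D i j s) : s ∈ dstab D :=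
  d.mem_dstab fun l => by
    by_cases a : l = i
    · exact ⟨j, a ▸ hs.1⟩
    by_cases b : l = j
    · exact ⟨i, b ▸ hs.2.1⟩
    exact ⟨l, fun x hx => by rwa [hs.2.2 l a b x hx]⟩

theorem exists_swap (h : Cl ε κ τ B Q) {i j : Fin t} (hij : i ≠ j) :
    ∃ s ∈ Isom B Q, IsSwap D i j s := by
  obtain ⟨φ, h1, h2⟩ := d.iso i j
  let a : V →ₗ[F] V := (D j).subtype ∘ₗ φ.toLinearMap ∘ₗ (p i).codRestrict _ (d.mem i)
  let b : V →ₗ[F] V := (D i).subtype ∘ₗ φ.symm.toLinearMap ∘ₗ (p j).codRestrict _ (d.mem j)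
  let c : V →ₗ[F] V := LinearMap.id - p i - p j
  have ma : ∀ v, a v ∈ D j := fun v => Subtype.property _
  have mb : ∀ v, b v ∈ D i := fun v => Subtype.property _
  have ci : ∀ x ∈ D i, ∀ v, B x (c v) = 0 := fun x hx v => by
    simp [c, d.B_p hx, d.orth i j hij x hx _ (d.mem j v)]
  have cj : ∀ x ∈ D j, ∀ v, B x (c v) = 0 := fun x hx v => by
    simp [c, d.B_p hx, d.orth j i hij.symm x hx _ (d.mem i v)]
  have dec : ∀ v, v = c v + p i v + p j v := fun v => by
    change v = v - p i v - p j v + p i v + p j v; abel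
  have aa : ∀ v w, B (a v) (a w) = B (p i v) (p i w) := fun v w => h1 _ _
  have bb : ∀ v w, B (b v) (b w) = B (p j v) (p j w) := fun v w => by
    have := h1 (φ.symm ⟨_, d.mem j v⟩) (φ.symm ⟨_, d.mem j w⟩)
    simp only [LinearEquiv.apply_symm_apply] at this
    exact this.symm
  have qa : ∀ v, Q (a v) = Q (p i v) := fun v => h2 _
  have qb : ∀ v, Q (b v) = Q (p j v) := fun v => by
    have := h2 (φ.symm ⟨_, d.mem j v⟩)
    simp only [LinearEquiv.apply_symm_apply] at this
    exact this.symm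
  have o := d.orth i j hij
  have o' := d.orth j i hij.symm
  obtain ⟨s, hs, e⟩ := IsForm.exists_isom_of_linear (Q := Q) h.sep (c + b + a) (fun x y => by
    conv_rhs => rw [dec x, dec y]
    simp only [LinearMap.add_apply, map_add, aa, bb, ci _ (mb _), cj _ (ma _), ci _ (d.mem _ _),
      cj _ (d.mem _ _), h.refl (ci _ (mb _) _), h.refl (cj _ (ma _) _),
      h.refl (ci _ (d.mem _ _) _), h.refl (cj _ (d.mem _ _) _), o _ (mb _) _ (ma _),
      o' _ (ma _) _ (mb _), o _ (d.mem _ _) _ (d.mem _ _), o' _ (d.mem _ _) _ (d.mem _ _)]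
    ring) (fun x => by
    conv_rhs => rw [dec x]
    simp only [LinearMap.add_apply, h.Q_add, map_add, qa, qb, h.refl (ci _ (mb _) _),
      h.refl (cj _ (ma _) _), h.refl (ci _ (d.mem _ _) _), h.refl (cj _ (d.mem _ _) _),
      o _ (mb _) _ (ma _), o _ (d.mem _ _) _ (d.mem _ _)]
    ring)
  have a0 : ∀ x, p i x = 0 → a x = 0 := fun x hx => by
    have : (p i).codRestrict _ (d.mem i) x = 0 := Subtype.ext hx
    simp [a, this]
  have b0 : ∀ x, p j x = 0 → b x = 0 := fun x hx => by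
    have : (p j).codRestrict _ (d.mem j) x = 0 := Subtype.ext hx
    simp [b, this]
  refine ⟨s, hs, fun x hx => ?_, fun x hx => ?_, fun l p q x hx => ?_⟩
  · have := d.zero j i hij.symm x hx
    simpa [e, c, d.self i x hx, this, b0 x this] using ma x
  · have := d.zero i j hij x hx
    simpa [e, c, d.self j x hx, this, a0 x this] using mb x
  · have u := d.zero i l p.symm x hx
    have v := d.zero j l q.symm x hx
    simp [e, c, u, v, a0 x u, b0 x v]

end Dec

section alt

variable {B : V →ₗ[F] V →ₗ[F] F} (h : Cl (σ := RingHom.id F) (-1) 0 0 B Q)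
include h

theorem alt_Q (x : V) : Q x = 0 := by obtain ⟨t, ht⟩ := h.form.tv x; simpa using ht

theorem alt_self (x : V) : B x x = 0 := h.diag0 (alt_Q h x)

theorem om_le_of_tv {M : Subgroup (V ≃ₗ[F] V)} (hM : ∀ v c, h.eich v 0 c ∈ M) : h.Om ≤ M :=
  h.om_le fun u w c a b _ => by
    have : h.eich u w c = h.eich (u + w) 0 (-1) * (h.eich u 0 (c + 1) * h.eich w 0 1) := by
      ext x
      simp only [LinearEquiv.mul_apply, h.eich_apply (alt_Q h _) (map_zero _), h.eich_apply a b]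
      simp [b, h.refl b, alt_self h]; module
    rw [this]; exact M.mul_mem (hM _ _) (M.mul_mem (hM _ _) (hM _ _))

theorem tv_map {M : Subgroup (V ≃ₗ[F] V)} (hM : M ≤ Isom B Q) {g : V ≃ₗ[F] V} (hg : g ∈ M) {v : V}
    (hv : ∀ c, h.eich v 0 c ∈ M) (c : F) : h.eich (g v) 0 c ∈ M := by
  have := M.mul_mem (M.mul_mem hg (hv c)) (M.inv_mem hg)
  rwa [h.conj_eich (hM hg), map_zero] at this

theorem tv_line {M : Subgroup (V ≃ₗ[F] V)} (hM : M ≤ Isom B Q) {u v : V}
    (hu : ∀ c, h.eich u 0 c ∈ M) (hv : ∀ c, h.eich v 0 c ∈ M) (huv : B u v ≠ 0) (a c : F) :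
    h.eich (v + a • u) 0 c ∈ M := by
  convert tv_map h hM (hu (-a / B u v)) hv c using 2
  rw [h.eich_apply (alt_Q h _) (map_zero _)]
  simp only [map_zero, LinearMap.zero_apply, zero_smul, add_zero, smul_zero, sub_zero]
  rw [div_mul_cancel₀ _ huv]; module

theorem max_dec_alt [FiniteDimensional F V] (d : Dec B Q D p) (ht : 2 ≤ t)
    (hex : (∀ i, 3 ≤ finrank F (D i)) ∨ ∃ a : F, a ≠ 0 ∧ a ≠ 1) :
    IsMaximalIn h.Om (dstab D ⊓ h.Om) := by
  classical
  have tv := fun v c => h.eich_mem_om (u := v) (w := 0) (c := c) (alt_Q h v) (map_zero _)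
    (alt_Q h 0).symm
  refine isMaximalIn_inf (fun hle => ?_) fun M h1 h2 g hg hgS => om_le_of_tv h ?_
  · let i : Fin t := ⟨0, by omega⟩
    let j : Fin t := ⟨1, by omega⟩
    have hij : i ≠ j := by simp [i, j]
    obtain ⟨x, hx, hx0⟩ := (Submodule.ne_bot_iff _).mp (d.ne i)
    obtain ⟨y, hy, hy0⟩ := (Submodule.ne_bot_iff _).mp (d.ne j)
    obtain ⟨z, hz, hxz⟩ := d.exists_ne hx hx0
    obtain ⟨s, hs⟩ := hle (tv (x + y) 1)
    refine d.notMem hij ?_ ?_ (s i) (hs i ▸ Submodule.mem_map_of_mem hz) <;>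
      rw [LinearEquiv.coe_coe, h.eich_apply (alt_Q h _) (map_zero _)]
    · intro e
      have := congrArg (B x) e
      simp [d.B_p hx, alt_self h, hxz, d.orth i j hij x hx y hy] at this
    · simp [d.zero j i hij.symm z hz, d.zero j i hij.symm x hx, d.self j y hy, hy0,
        d.orth j i hij.symm y hy z hz, hxz]
  have hM := h2.trans h.om_le_isom
  let T : V → Prop := fun v => ∀ c, h.eich v 0 c ∈ M
  have TD : ∀ i, ∀ x ∈ D i, T x := fun i x hx c => h1 ⟨d.mem_dstab fun j => ⟨j, fun y hy => by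
    by_cases e : i = j
    · exact h.eich_apply_mem c (e ▸ hx) (D j).zero_mem hy
    · rwa [h.eich_fix c (d.orth i j e x hx y hy) (by simp)]⟩, tv x c⟩
  have chg : ∀ w, T w → ∀ i, p i w ≠ 0 → ∀ y ∈ D i, y ≠ 0 → T (w - p i w + y) := by
    have k : ∀ w, T w → ∀ i, ∀ y ∈ D i, B y w ≠ 0 → T (w - p i w + y) := fun w hw i y hy a c => by
      convert tv_line h hM (TD i _ ((D i).sub_mem hy (d.mem i w))) hw (by
        rwa [map_sub, LinearMap.sub_apply, ← d.B_p (d.mem i w), alt_self h, sub_zero]) 1 c using 2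
      module
    intro w hw i hi y hy hy0
    obtain ⟨z, hz, a, b⟩ := exists_mem_ne_ne (U := D i) (B (p i w)) (B y)
      (d.exists_ne (d.mem i w) hi) (d.exists_ne hy hy0)
    have := k _ (k w hw i z hz (by rw [← d.B_p hz]; exact h.refl_ne a)) i y hy
      (by simpa [d.B_p hy] using b)
    simpa [d.p_p, d.self i z hz] using this
  let P : Fin t → Fin t → Prop := fun i j => ∀ x ∈ D i, ∀ y ∈ D j, T (x + y)
  have sy : ∀ i j, P i j → P j i := fun i j a x hx y hy => add_comm x y ▸ a y hy x hx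
  have mv : ∀ i j, i ≠ j → P i j → ∀ l, l ≠ j → P l j := fun i j hij a l hl x hx y hy => by
    by_cases e : l = i
    · exact a x (e ▸ hx) y hy
    obtain ⟨s, s1, s2⟩ := d.exists_swap h e
    have m : s ∈ M := h1 ⟨d.swap_mem s2, (mem_om_alt h).mpr s1.1⟩
    have := tv_map h hM (M.inv_mem m) (a _ (s2.1 x hx) y hy)
    rw [← s2.2.2 j hl.symm hij.symm y hy, ← map_add] at this
    simpa [LinearEquiv.coe_inv] using this
  obtain ⟨i, x, hx, hgx⟩ : ∃ i, ∃ x ∈ D i, ∀ j, g x ∉ D j := by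
    by_contra hc; push Not at hc; exact hgS (d.mem_dstab_union hc)
  have hw : T (g x) := tv_map h hM hg (TD i x hx)
  generalize g x = w at hgx hw
  obtain ⟨i, j, hij, hi, hj⟩ := d.exists_two i hgx
  have Pij : P i j := by
    obtain ⟨a, ha, hb⟩ := d.exists_ne (d.mem i w) hi
    obtain ⟨b, b1, b2, b3, b4⟩ : ∃ b ∈ D j, b ≠ 0 ∧ b ≠ p j w ∧ B b w = 0 := by
      rcases hex with e | ⟨c, c0, c1⟩
      · have := finrank_le_inf_ker (D j) (B w)
        obtain ⟨b, q1, q2⟩ := exists_mem_notMem (W := D j ⊓ LinearMap.ker (B w))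
          (Z := Submodule.span F {p j w}) (by
            have := finrank_span_one_le (F := F) (p j w); have := e j; omega)
        exact ⟨b, q1.1, by rintro rfl; simp at q2,
          by rintro rfl; exact q2 (Submodule.mem_span_singleton_self _), h.refl q1.2⟩
      · refine ⟨c • p j w, (D j).smul_mem _ (d.mem j w), by simp [c0, hj], fun e => c1 ?_, ?_⟩
        · exact smul_left_injective F hj (by simpa using e)
        · rw [← d.B_p ((D j).smul_mem _ (d.mem j w))]; simp [alt_self h]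
    have a0 : a ≠ 0 := by rintro rfl; simp at hb
    have k1 := chg _ (chg w hw i hi a ha a0) j
      (by simpa [d.p_p' hij.symm, d.zero j i hij.symm a ha]) b b1 b2
    have k2 := tv_line h hM k1 hw (by
      simp only [map_add, map_sub, LinearMap.add_apply, LinearMap.sub_apply, d.p_p' hij.symm,
        d.zero j i hij.symm a ha, alt_self h, b4, ← d.B_p (d.mem _ w) w, ← d.B_p ha w]
      simpa using h.refl_ne hb) (-1)
    have e : w + (-1 : F) • (w - p i w + a - p j (w - p i w + a) + b) = (p i w - a) + (p j w - b) := by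
      simp only [map_add, map_sub, d.p_p' hij.symm, d.zero j i hij.symm a ha]; module
    rw [e] at k2
    have m1 := (D i).sub_mem (d.mem i w) ha
    have m2 := (D j).sub_mem (d.mem j w) b1
    have n1 : p i w - a ≠ 0 := fun e => hb (by rw [← sub_eq_zero.mp e, alt_self h])
    have n2 : p j w - b ≠ 0 := sub_ne_zero.mpr b3.symm
    generalize p i w - a = u at *
    generalize p j w - b = u' at *
    intro x hx y hy
    by_cases x0 : x = 0
    · simpa [x0] using TD j y hy
    by_cases y0 : y = 0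
    · simpa [y0] using TD i x hx
    have k3 := chg _ k2 i (by simpa [d.self i u m1, d.zero i j hij u' m2]) x hx x0
    have e3 : u + u' - p i (u + u') + x = x + u' := by
      simp [d.self i u m1, d.zero i j hij u' m2, add_comm]
    rw [e3] at k3
    simpa [d.self j u' m2, d.zero j i hij.symm x hx] using
      chg _ k3 j (by simpa [d.self j u' m2, d.zero j i hij.symm x hx]) y hy y0
  have PP : ∀ l m, l ≠ m → P l m := fun l m hlm => by
    by_cases e : l = j
    · exact sy _ _ (mv i l (e ▸ hij) (e ▸ Pij) m hlm.symm)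
    · exact sy _ _ (mv j l (Ne.symm e) (sy _ _ (mv i j hij Pij l e)) m hlm.symm)
  have all : ∀ s : Finset (Fin t), ∀ v, (∀ l ∉ s, p l v = 0) → T v := fun s => by
    induction s using Finset.induction_on with
    | empty => intro v hv; exact TD i v (d.mem_of fun l _ => hv l (by simp))
    | insert a s ha ih =>
      intro v hv
      by_cases e : ∀ l, l ≠ a → p l v = 0
      · exact TD a v (d.mem_of e)
      push Not at e
      obtain ⟨l, hl, hl'⟩ := e
      have hls : l ∈ s := by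
        by_contra hc; exact hl' (hv l (by simp [hl, hc]))
      obtain ⟨x, hx, hx'⟩ := d.exists_ne (d.mem l v) hl'
      have k := ih (v - p a v - x) fun m hm => by
        have ml : m ≠ l := by rintro rfl; exact hm hls
        by_cases ma : m = a
        · simp [ma, d.p_p, d.zero a l hl.symm x hx]
        · simp [d.p_p' ma, d.zero m l ml x hx, hv m (by simp [ma, hm])]
      intro c
      convert tv_line h hM (PP l a hl x hx _ (d.mem a v)) k (by
        simp only [map_add, map_sub, LinearMap.add_apply, alt_self h, ← d.B_p (d.mem a v) v,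
          d.orth l a hl x hx _ (d.mem a v), d.orth a l hl.symm _ (d.mem a v) x hx, ← d.B_p hx v]
        simpa using h.refl_ne hx') 1 c using 2
      module
  exact fun v => all Finset.univ v (by simp)

end alt

end Cfsg.Agent.H10
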