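import Mathlib
import Cfsg.Agent.H26.F3d

/-!
# Compatible involutions of a tower of finite fields
-/

set_option autoImplicit false
set_option linter.unusedSectionVars false

namespace Cfsg.Agent.H10.Ag

open Module H11 H26 H26.MX

variable {F : Type*} [Field F] {E : Type*} [Field E] [Algebra F E] {σ : F →+* F} {ρ : E →+* E}

local notation "𝔱" => Algebra.trace F E

theorem exists_root_fixed [Finite F] (hσ : σ ≠ RingHom.id F) (h2 : ∀ a, σ (σ a) = a) {ι : Type*}
    [Fintype ι] (p : MvPolynomial ι F) (hd : p.totalDegree < Fintype.card ι)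
    (h0 : MvPolynomial.eval 0 p = 0) (hp : ∀ x : ι → F, (∀ i, σ (x i) = x i) →
      σ (MvPolynomial.eval x p) = MvPolynomial.eval x p) :
    ∃ x : ι → F, x ≠ 0 ∧ (∀ i, σ (x i) = x i) ∧ MvPolynomial.eval x p = 0 := by
  classical
  let K := σ.eqLocusField (RingHom.id F)
  have := Fintype.ofFinite K
  obtain ⟨θ, hθ⟩ := H11.exists_trace_eq hσ h2 (map_one σ)
  let π : F → K := fun a => ⟨θ * a + σ (θ * a), by simp [K, h2, add_comm]⟩
  let p0 : MvPolynomial ι K := ∑ d ∈ p.support, MvPolynomial.monomial d (π (p.coeff d))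
  have hd0 : p0.totalDegree ≤ p.totalDegree := MvPolynomial.totalDegree_finsetSum_le fun d hd =>
    (MvPolynomial.totalDegree_monomial_le _ _).trans (MvPolynomial.le_totalDegree hd)
  have he : ∀ x : ι → K, (MvPolynomial.eval x p0 : F) = MvPolynomial.eval (fun i => (x i : F)) p :=
    fun x => by
    have hx : ∀ i, σ (x i) = x i := fun i => (x i).2
    have k := hp _ hx
    have : ∀ y : F, σ y = y → y = θ * y + σ (θ * y) := fun y hy => by
      rw [map_mul, hy, ← add_mul, hθ, one_mul]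
    rw [this _ k, MvPolynomial.eval_eq' _ p]
    simp only [p0, map_sum, MvPolynomial.eval_monomial, Finset.mul_sum, ← Finset.sum_add_distrib]
    push_cast
    refine Finset.sum_congr rfl fun d _ => ?_
    rw [Finsupp.prod_fintype _ _ (by simp)]
    simp only [π, map_mul, map_prod, map_pow, hx]
    push_cast; ring
  obtain ⟨q, hq⟩ := CharP.exists K
  have hprime : q.Prime := CharP.char_is_prime K q
  have hdvd := char_dvd_card_solutions q (f := p0) (hd0.trans_lt hd)
  by_contra hne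
  push Not at hne
  have : Fintype.card {x : ι → K // MvPolynomial.eval x p0 = 0} = 1 := by
    rw [Fintype.card_eq_one_iff]
    refine ⟨⟨0, Subtype.ext (by rw [he]; exact h0)⟩, fun x => Subtype.ext ?_⟩
    by_contra h1
    refine hne (fun i => (x.1 i : F)) (fun e => h1 (funext fun i => Subtype.ext (congrFun e i)))
      (fun i => (x.1 i).2) (by rw [← he, x.2]; rfl)
  rw [this] at hdvd
  exact hprime.one_lt.ne' (Nat.dvd_one.mp hdvd)

/-- Compatible involutions. -/
structure Cj (σ : F →+* F) (ρ : E →+* E) : Prop where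
  ne : σ ≠ RingHom.id F
  inv : ∀ a, σ (σ a) = a
  inv' : ∀ a, ρ (ρ a) = a
  alg : ∀ c, ρ (algebraMap F E c) = algebraMap F E (σ c)

namespace Cj

variable (j : Cj σ ρ)
include j

theorem smul (c : F) (k : E) : ρ (c • k) = σ c • ρ k := by
  simp [Algebra.smul_def, j.alg]

theorem ne' : ρ ≠ RingHom.id E := fun h => j.ne (RingHom.ext fun c =>
  (algebraMap F E).injective (by rw [← j.alg, h]; rfl))

theorem tr [Finite E] (k : E) : 𝔱 (ρ k) = σ (𝔱 k) := by
  have := finite_of_algebra F E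
  let e₁ : F ≃+* F := RingEquiv.ofBijective σ (Finite.injective_iff_bijective.1 σ.injective)
  let e₂ : E ≃+* E := RingEquiv.ofBijective ρ (Finite.injective_iff_bijective.1 ρ.injective)
  have := Algebra.trace_eq_of_equiv_equiv e₁ e₂ (RingHom.ext fun c => (j.alg c).symm) k
  rw [this]; exact (e₁.apply_symm_apply _).symm

theorem nrm [Finite E] (k : E) : Algebra.norm F (ρ k) = σ (Algebra.norm F k) := by
  have := finite_of_algebra F E
  let e₁ : F ≃+* F := RingEquiv.ofBijective σ (Finite.injective_iff_bijective.1 σ.injective)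
  let e₂ : E ≃+* E := RingEquiv.ofBijective ρ (Finite.injective_iff_bijective.1 ρ.injective)
  have := Algebra.norm_eq_of_equiv_equiv e₁ e₂ (RingHom.ext fun c => (j.alg c).symm) k
  rw [this]; exact (e₁.apply_symm_apply _).symm

theorem decomp {θ : F} (hθ : σ θ ≠ θ) (a : E) :
    ∃ c c', ρ c = -c ∧ ρ c' = -c' ∧ a = c + θ • c' := by
  have h0 : θ - σ θ ≠ 0 := sub_ne_zero.2 hθ.symm
  have h1 : σ θ - θ ≠ 0 := sub_ne_zero.2 hθ
  refine ⟨a - θ • (θ - σ θ)⁻¹ • (a + ρ a), (θ - σ θ)⁻¹ • (a + ρ a), ?_, ?_, by simp⟩ <;>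
    simp only [map_sub, j.smul, map_add, j.inv', map_inv₀, j.inv] <;> match_scalars <;>
    field_simp <;> ring

theorem ind {θ : F} (hθ : σ θ ≠ θ) {c c' : E} (h : ρ c = -c) (h' : ρ c' = -c')
    (k : ρ (c + θ • c') = -(c + θ • c')) : c' = 0 := by
  rw [map_add, j.smul, h, h'] at k
  have : (θ - σ θ) • c' = 0 := by linear_combination (norm := module) k
  exact (smul_eq_zero.mp this).resolve_left (sub_ne_zero.2 hθ.symm)

omit j in
theorem indF {θ : F} (hθ : σ θ ≠ θ) {c c' : F} (h : σ c = -c) (h' : σ c' = -c')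
    (k : c + θ * c' = 0) : c = 0 ∧ c' = 0 := by
  have k' := congrArg σ k
  rw [map_add, map_mul, h, h', map_zero] at k'
  have : c' = 0 := mul_left_cancel₀ (sub_ne_zero.2 hθ.symm) (by linear_combination k + k')
  exact ⟨by simpa [this] using k, this⟩

theorem mem_of_neg {S : Submodule F E} (h : ∀ c, ρ c = -c → c ∈ S) (k : E) : k ∈ S := by
  obtain ⟨θ, hθ⟩ := exists_ne_conj j.ne
  obtain ⟨c, c', a, b, rfl⟩ := j.decomp hθ k
  exact add_mem (h c a) (S.smul_mem _ (h c' b))

theorem exists_neg : ∃ δ : F, δ ≠ 0 ∧ σ δ = -δ :=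
  (exists_trace_zero j.ne j.inv).imp fun _ h => ⟨h.1, by linear_combination h.2⟩

theorem mem_of_fix {S : Submodule F E} (h : ∀ c, ρ c = c → c ∈ S) (k : E) : k ∈ S := by
  obtain ⟨δ, h0, hδ⟩ := j.exists_neg
  exact j.mem_of_neg (fun c hc => (S.smul_mem_iff h0).mp (h _ (by simp [j.smul, hδ, hc]))) k

variable [Finite E] [Module.Finite F E]

theorem exists_two (hr : 3 ≤ finrank F E) {a b : E}
    (h : ∀ n, 𝔱 (a * n) = 0 → 𝔱 (b * n) = 0 → 𝔱 (a * ρ n) = 0 ∧ 𝔱 (b * ρ n) = 0) :
    ∃ n, n ≠ 0 ∧ ρ n = n ∧ 𝔱 (a * n) = 0 ∧ 𝔱 (b * n) = 0 := by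
  obtain ⟨n, h1, h0⟩ := (Submodule.ne_bot_iff _).1 (LinearMap.ker_ne_bot_of_finrank_lt
    (f := (Algebra.traceForm F E a).prod (Algebra.traceForm F E b)) (by simp; omega))
  simp only [LinearMap.mem_ker, LinearMap.prod_apply, Function.prod, Prod.mk_eq_zero,
    Algebra.traceForm_apply] at h1
  obtain ⟨θ, hθ⟩ := exists_ne_conj j.ne
  have h2 := h n h1.1 h1.2
  by_cases k : n + ρ n = 0
  · refine ⟨θ • n + ρ (θ • n), fun c => h0 ?_, by simp [j.inv', add_comm], by
      simp [j.smul, mul_add, h1, h2], by simp [j.smul, mul_add, h1, h2]⟩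
    rw [j.smul, show ρ n = -n by linear_combination k, smul_neg, ← sub_eq_add_neg, ← sub_smul] at c
    exact (smul_eq_zero.mp c).resolve_left (sub_ne_zero.2 hθ.symm)
  · exact ⟨_, k, by simp [j.inv', add_comm], by simp [mul_add, h1, h2], by simp [mul_add, h1, h2]⟩

theorem exists_tr {a : E} (ha : ∀ c : F, a ≠ c • ρ a) (s : F) : ∃ k, ρ k = k ∧ 𝔱 (k * a) = s := by
  obtain ⟨φ, h1, h2⟩ := exists_dual_pair (F := F) (x := a) (u := ρ a) (by simpa using ha)
  obtain ⟨k, hk⟩ := exists_trace_eq (F := F) (E := E) (s • φ)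
  refine ⟨k + ρ k, by simp [j.inv', add_comm], ?_⟩
  have := j.tr (ρ a * k)
  rw [map_mul, j.inv', hk] at this
  rw [add_mul, map_add, mul_comm k, hk, mul_comm, this]; simp [h1, h2]

theorem exists_tr' {a : E} (ha : a ≠ 0) (ha' : ρ a = -a) {s : F} (hs : σ s = -s) :
    ∃ k, ρ k = k ∧ 𝔱 (k * a) = s := by
  obtain ⟨θ, hθ⟩ := H11.exists_trace_eq j.ne j.inv (map_one σ)
  obtain ⟨k, hk⟩ := exists_trace_one (F := F) (E := E)
  refine ⟨(θ * s) • k / a + ρ ((θ * s) • k / a), by simp [j.inv', add_comm], ?_⟩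
  rw [add_mul, div_mul_cancel₀ _ ha, map_div₀, ha', div_neg, neg_mul, div_mul_cancel₀ _ ha, map_add,
    map_neg, j.tr, map_smul, hk]
  simp [hs]; linear_combination s * hθ

theorem exists_deg {Y K : Submodule F E} (h0 : Y ≠ ⊥) (hK : finrank F K + finrank F Y < finrank F E) :
    ∃ c, ρ c = c ∧ c ∉ K ∧ ∃ y ∈ Y, y ≠ 0 ∧ ∀ y' ∈ Y, 𝔱 (c * ρ y' * y) = 0 := by
  classical
  have := finite_of_algebra F E
  obtain ⟨s, hs, h1, h2⟩ := exists_linearIndependent F (K.mkQ '' {c | ρ c = c})
  have h3 : Submodule.span F s = ⊤ := by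
    rw [h1, ← Submodule.map_span, show Submodule.span F {c | ρ c = c} = ⊤ from
      eq_top_iff.2 fun k _ => j.mem_of_fix (fun c hc => Submodule.subset_span hc) k,
      Submodule.map_top, Submodule.range_mkQ]
  have : Finite (E ⧸ K) := Finite.of_surjective _ K.mkQ_surjective
  have := Fintype.ofFinite s
  have h4 : finrank F (E ⧸ K) = Fintype.card s :=
    finrank_eq_card_basis (Basis.mk h2 (by simpa using h3.ge))
  have h5 := K.finrank_quotient_add_finrank
  choose c hc hc' using fun i : s => hs i.2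
  let u := finBasis F Y
  let G : Matrix (Fin (finrank F Y)) (Fin (finrank F Y)) (MvPolynomial s F) := Matrix.of fun a b =>
    ∑ i, MvPolynomial.C (𝔱 (c i * ρ (u a) * u b)) * MvPolynomial.X i
  have he : ∀ x : s → F, MvPolynomial.eval x G.det =
      (Matrix.of fun a b => 𝔱 ((∑ i, x i • c i) * ρ (u a) * u b)).det := fun x => by
    rw [RingHom.map_det]; congr 1; ext a b
    simp [G, Finset.sum_mul, mul_comm (x _)]
  have : Nonempty (Fin (finrank F Y)) := ⟨⟨0, Submodule.one_le_finrank_iff.mpr h0⟩⟩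
  have hx : ∀ x : s → F, (∀ i, σ (x i) = x i) → ρ (∑ i, x i • c i) = ∑ i, x i • c i := fun x hx => by
    simp only [map_sum, j.smul, hx]; exact Finset.sum_congr rfl fun i _ => by rw [hc i]
  obtain ⟨x, x0, x1, x2⟩ := exists_root_fixed j.ne j.inv G.det (by
    refine lt_of_le_of_lt (b := finrank F Y) ?_ (by omega)
    rw [Matrix.det_apply]
    refine MvPolynomial.totalDegree_finsetSum_le fun π _ => ?_
    refine (MvPolynomial.totalDegree_smul_le _ _).trans ((MvPolynomial.totalDegree_finsetProd _ _).trans ?_)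
    refine (Finset.sum_le_card_nsmul _ _ 1 fun a _ => ?_).trans (by simp)
    exact MvPolynomial.totalDegree_finsetSum_le fun i _ => (MvPolynomial.totalDegree_mul _ _).trans
      (by simp)) (by rw [he]; simp; exact Matrix.det_zero) fun x h => by
    rw [he, RingHom.map_det, ← Matrix.det_transpose]; congr 1; ext a b
    simp only [RingHom.mapMatrix_apply, Matrix.transpose_apply, Matrix.map_apply, Matrix.of_apply, ← j.tr,
      map_mul, hx x h, j.inv']
    rw [mul_right_comm]
  rw [he, ← Matrix.exists_mulVec_eq_zero_iff] at x2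
  obtain ⟨v, v0, hv⟩ := x2
  refine ⟨_, hx x x1, fun k => x0 (funext (Fintype.linearIndependent_iff.mp h2 x (by
    simpa only [← hc', map_sum, map_smul] using show K.mkQ _ = 0 from
      (Submodule.Quotient.mk_eq_zero K).mpr k))), (∑ b, v b • u b : Y), Subtype.prop _,
    fun k => v0 (funext (Fintype.linearIndependent_iff.mp u.linearIndependent v (Subtype.ext k))),
    fun y hy => ?_⟩
  obtain ⟨w, hw⟩ : ∃ w : Fin (finrank F Y) → F, y = ∑ a, w a • (u a : E) :=
    ⟨u.repr ⟨y, hy⟩, by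
      simpa only [Submodule.coe_sum, Submodule.coe_smul] using
        congrArg Subtype.val (u.sum_repr ⟨y, hy⟩).symm⟩
  generalize ∑ i, x i • c i = d at hv
  rw [hw, map_sum, Finset.mul_sum, Finset.sum_mul, map_sum]
  refine Finset.sum_eq_zero fun a _ => ?_
  have := congrFun hv a
  simp only [Matrix.mulVec, dotProduct, Matrix.of_apply, Pi.zero_apply] at this
  rw [j.smul, mul_smul_comm, smul_mul_assoc, map_smul, show 𝔱 _ = 0 from ?_, smul_zero]
  simpa [Finset.mul_sum, mul_comm] using this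

theorem line_of (hr : (finrank F E).Prime) {Y : Submodule F E} (h1 : Y ≠ ⊤)
    (H : ∀ c, ρ c = c → ∀ y ∈ Y, y ≠ 0 → (∀ y' ∈ Y, 𝔱 (c * ρ y' * y) = 0) →
      ∀ y ∈ Y, ∀ y' ∈ Y, 𝔱 (c * ρ y' * y) = 0) {x y : E} (hx : x ∈ Y) (x0 : x ≠ 0) (hy : y ∈ Y) :
    ∃ a : F, y = a • x := by
  have := finite_of_algebra F E
  let K : Submodule F E :=
    { carrier := {c | ∀ y ∈ Y, ∀ y' ∈ Y, 𝔱 (c * ρ y' * y) = 0}
      zero_mem' := by simp
      add_mem' := fun a b y hy y' hy' => by simp [add_mul, a y hy y' hy', b y hy y' hy']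
      smul_mem' := fun c _ a y hy y' hy' => by simp [a y hy y' hy'] }
  have h2 : finrank F E ≤ finrank F K + finrank F Y := by
    by_contra k
    obtain ⟨c, a, b, y, d, e, f⟩ := j.exists_deg (K := K) ((Submodule.ne_bot_iff _).2 ⟨x, hx, x0⟩)
      (not_le.1 k)
    exact b (H c a y d e f)
  let Z := (Algebra.traceForm F E).orthogonal Y
  have h3 : finrank F Z = finrank F E - finrank F Y :=
    LinearMap.BilinForm.finrank_orthogonal (traceForm_nondegenerate F E) Y
  have h4 : ∀ x ∈ Y, ∀ c ∈ K, ρ x * c ∈ Z := fun x hx c hc y hy => by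
    have := hc y hy x hx
    rwa [mul_comm, mul_comm c] at this
  have x1 : ρ x ≠ 0 := by simpa
  have h5 : K.map (LinearMap.mulLeft F (ρ x)) = Z := Submodule.eq_of_le_of_finrank_le
    (by rintro _ ⟨c, hc, rfl⟩; exact h4 x hx c hc) (by
      rw [← (Submodule.equivMapOfInjective (LinearMap.mulLeft F (ρ x)) (mul_right_injective₀ x1)
        K).finrank_eq]; omega)
  have h6 := Submodule.finrank_lt h1
  obtain ⟨s, hs, s0⟩ := exists_ne_zero_of_finrank (W := Z) (by omega)
  by_contra! k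
  have := eq_top_of_mul hr (S := Z) (β := ρ y / ρ x) (fun s hs => by
    obtain ⟨c, hc, rfl⟩ := h5.ge hs
    simpa [← mul_assoc, x1] using h4 y hy c hc) (fun ⟨a, ha⟩ => k (σ a) (by
      have := congrArg ρ (show algebraMap F E a = _ from ha)
      rw [j.alg, map_div₀, j.inv', j.inv', eq_div_iff x0] at this
      rw [Algebra.smul_def, this])) hs s0
  exact x0 ((traceForm_nondegenerate F E).1 x fun k => this k x hx)

theorem exists_beta {q : ℕ} (hσ : QConj σ q) (hr : 3 ≤ finrank F E)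
    (hq : ¬ (q = 2 ∧ finrank F E = 3)) :
    ∃ β : E, ρ β * β = 1 ∧ Algebra.norm F β = 1 ∧ β ∉ (⊥ : Subalgebra F E) := by
  classical
  have := finite_of_algebra F E
  have q2 := hσ.two_le
  by_contra! h
  have h1 : ∀ a : normOne ρ, a ^ ((q + 1) * (q + 1)) = 1 := fun a => by
    have ha : ρ a.1 * a.1 = 1 := a.2
    obtain ⟨c, hc⟩ := h ((a.1 : E) ^ (q + 1)) (by rw [map_pow, ← mul_pow, ha, one_pow]) (by
      rw [map_pow, pow_succ, ← hσ.eq, ← j.nrm, ← map_mul, ha, map_one])
    replace hc : algebraMap F E c = _ := hc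
    ext
    simp only [pow_mul, SubmonoidClass.coe_pow, Units.val_pow_eq_pow_val, OneMemClass.coe_one, Units.val_one]
    rw [← hc, ← map_pow, pow_succ, ← hσ.eq, map_mul, ← j.alg, hc, map_pow, ← mul_pow, ha, one_pow]
  have h2 := Nat.le_of_dvd (by positivity) (Monoid.exponent_dvd_of_forall_pow_eq_one h1)
  rw [IsCyclic.exponent_eq_card] at h2
  let K := ρ.eqLocusField (RingHom.id E)
  let N : Eˣ →* Kˣ := Units.map
    { toFun := fun a => ⟨ρ a * a, by simp [K, j.inv', mul_comm]⟩
      map_one' := by ext; simp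
      map_mul' := fun a b => by ext; simp; ring : E →* K }
  have h3 : N.ker = normOne ρ := by
    ext a; rw [MonoidHom.mem_ker, Units.ext_iff, Subtype.ext_iff]; rfl
  have h4 := N.ker.card_mul_index
  have h5 : N.ker.index ≤ Nat.card Kˣ := by
    rw [Subgroup.index_ker]; exact Subgroup.card_le_card_group _
  obtain ⟨θ, hθ⟩ := exists_ne_conj j.ne'
  have h6 : Nat.card (K × K) ≤ Nat.card E := Nat.card_le_card_of_injective
    (fun p => (p.1 : E) + θ * p.2) fun a b hab => by
      have e := congrArg ρ hab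
      simp only [map_add, map_mul, show ∀ x : K, ρ x = x from fun x => x.2] at e hab
      have : (a.2 : E) = b.2 := mul_left_cancel₀ (sub_ne_zero.2 hθ) (by linear_combination e - hab)
      exact Prod.ext (Subtype.ext (by rw [this] at hab; linear_combination hab)) (Subtype.ext this)
  have h7 : Nat.card E = q ^ finrank F E * q ^ finrank F E := by
    rw [Module.natCard_eq_pow_finrank (K := F), hσ.card, sq, mul_pow]
  rw [Nat.card_prod, h7] at h6
  rw [h3, Nat.card_units, h7] at h4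
  rw [h3, Nat.card_units] at h5
  have h8 := Nat.mul_self_le_mul_self_iff.mp h6
  have h9 : (q + 1) * (q + 1) < q ^ finrank F E + 1 := by
    by_cases k : q = 2
    · subst k
      have := Nat.pow_le_pow_right (show 0 < 2 by omega) (show 4 ≤ finrank F E by omega)
      omega
    · have := Nat.pow_le_pow_right (show 0 < q by omega) hr
      have : 3 ≤ q := by omega
      nlinarith
  obtain ⟨Q, hQ⟩ : ∃ Q, q ^ finrank F E = Q + 1 := ⟨_, (Nat.sub_add_cancel (Nat.one_le_pow _ _ (by omega))).symm⟩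
  rw [hQ] at h4 h8 h9
  have := Nat.mul_le_mul h2 (h5.trans (Nat.sub_le_sub_right h8 1))
  rw [h4, show (Q + 1) * (Q + 1) - 1 = (Q + 2) * Q from Nat.sub_eq_of_eq_add (by ring),
    Nat.add_sub_cancel] at this
  have := Nat.le_of_mul_le_mul_right this (by nlinarith)
  omega

end Cj

end Cfsg.Agent.H10.Ag
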