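import Mathlib
import Cfsg.Agent.H10.Ag10

/-!
# Unitary groups over extension fields inside unitary groups
-/

set_option autoImplicit false
set_option linter.unusedSectionVars false

namespace Cfsg.Agent.H10.Ag

open Module H11 H26 H26.MX

variable {F : Type*} [Field F] {V : Type*} [AddCommGroup V] [Module F V]
  {E : Type*} [Field E] [Algebra F E] [Module E V] [IsScalarTower F E V] {σ : F →+* F} {ρ : E →+* E}
  {B : V →ₛₗ[σ] V →ₗ[F] F} {b : V →ₛₗ[ρ] V →ₗ[E] E} {M : Subgroup (V ≃ₗ[F] V)}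
  [Finite E] [Module.Finite F E] [Module.Finite E V]

local notation "𝔱" => Algebra.trace F E

theorem nrmE_of_sing2 (j : Cj σ ρ) (hE : Cl 1 1 (trHom ρ) b fun x => b x x) (hm : 2 ≤ finrank E V)
    {y : V ≃ₗ[F] V} (h : ∀ v, b v v = 0 → ∀ k : E, y (k • v) ∈ Ln F E (y v)) : NrmE E y := fun k => by
  have : Module.Finite F V := Module.Finite.trans E V
  choose! l hl using fun v hv k => mem_Ln.1 (h v hv k)
  have key : ∀ u v, u ≠ 0 → b u u = 0 → b v v = 0 → b (u + v) (u + v) = 0 → v ∉ E ∙ u →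
      l u k = l v k := fun u v hu h1 h2 h3 hv => by
    have h4 := hl (u + v) h3 k
    rw [smul_add, map_add, map_add, ← hl u h1, ← hl v h2, smul_add] at h4
    have h5 : (l (u + v) k - l v k) • y v = (l u k - l (u + v) k) • y u := by
      rw [sub_smul, sub_smul, sub_eq_sub_iff_add_eq_add, add_comm, h4]
    by_cases h6 : l (u + v) k - l v k = 0
    · rw [h6, zero_smul, eq_comm, smul_eq_zero_iff_left (app_ne_zero y hu)] at h5
      linear_combination h5 + h6
    have h7 : y v ∈ Ln F E (y u) := (Submodule.smul_mem_iff (E ∙ y u) h6).1 (h5 ▸ smul_mem_Ln (F := F) _ _)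
    rw [← MX.map_eq_of_le (W := Ln F E u) (g := y) ((finrank_Ln hu).trans (finrank_Ln (app_ne_zero y hu)).symm)
      (fun x hx => by obtain ⟨j, rfl⟩ := mem_Ln.1 hx; exact h u h1 j), mem_map_iff, inv_app] at h7
    exact absurd h7 hv
  have k2 : ∀ z v, b z z = 0 → b v v = 0 → b z v ≠ 0 → y (k • v) = l z k • y v := fun z v hz hv h0 => by
    let S : Submodule F E :=
      { carrier := {c | y (k • (c / b z v) • v) = l z k • y ((c / b z v) • v)}
        zero_mem' := by simp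
        add_mem' := fun ha hb => by simp_all [add_div, add_smul]
        smul_mem' := fun c x hx => by
          simp only [Set.mem_ofPred_eq, smul_div_assoc, smul_assoc, smul_comm k c, map_smul] at hx ⊢
          rw [hx, smul_comm] }
    have : b z v ∈ S := j.mem_of_neg (fun c hc => by
      by_cases c0 : c = 0
      · exact c0 ▸ S.zero_mem
      have q1 := hE.sing_smul hv (c / b z v)
      change y _ = _
      rw [← hl _ q1, key z _ (by rintro rfl; simp at h0) hz q1 (by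
        have := hE.Q_add z ((c / b z v) • v)
        simp only [hz, q1, map_smul, smul_eq_mul, div_mul_cancel₀ _ h0, trHom_apply, hc] at this
        simpa using this) fun k => by
        obtain ⟨a, ha⟩ := Submodule.mem_span_singleton.1 k
        exact c0 (by simpa [hz, h0] using (congrArg (b z) ha).symm)]) _
    simpa [S, h0] using this
  have hb : hE.Big ⊤ := Or.inr ⟨by simpa, exists_trace_zero j.ne' j.inv'⟩
  obtain ⟨u, -, hu0, hu⟩ := hE.exists_sing hb
  have h1 : ∀ v, b v v = 0 → y (k • v) = l u k • y v := fun v hv => by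
    by_cases h0 : v = 0
    · simp [h0]
    obtain ⟨z, -, a1, a2⟩ := exists_mem_ne_ne (U := ⊤) (b u) (b v)
      ((hE.exists_ne hu0).imp fun _ h => ⟨trivial, h⟩) ((hE.exists_ne h0).imp fun _ h => ⟨trivial, h⟩)
    obtain ⟨z, hz, a1, a2⟩ : ∃ z, b z z = 0 ∧ b u z ≠ 0 ∧ b v z ≠ 0 := by
      by_cases k : b u v = 0
      · obtain ⟨c, hc⟩ := hE.form.exists_add_smul_singular hu a1
        exact ⟨_, hc, by simpa [hu], by simpa [hE.refl k]⟩
      · obtain ⟨c, c0, hc⟩ := exists_trace_zero j.ne' j.inv'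
        refine ⟨u + (c / b u v) • v, ?_, by simp [hu, k, c0], by simpa [hv] using hE.refl_ne k⟩
        have := hE.Q_add u ((c / b u v) • v)
        simpa only [hu, hE.sing_smul hv, map_smul, smul_eq_mul, div_mul_cancel₀ _ k, trHom_apply, hc,
          add_zero] using this
    rw [k2 z v hz hv (hE.refl_ne a2), smul_left_injective E (app_ne_zero y hu0)
      ((hl u hu k).trans (k2 z u hz hu (hE.refl_ne a1)))]
  let S : Submodule E V :=
    { carrier := {v | ∀ j : E, y (k • j • v) = l u k • y (j • v)}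
      zero_mem' := by simp
      add_mem' := fun ha hb j => by simp [ha j, hb j]
      smul_mem' := fun c x hx j => by simpa only [smul_smul j c] using hx (j * c) }
  refine ⟨l u k, fun v => by_contra fun hc => ?_⟩
  obtain ⟨z, a1, a2⟩ := hE.form.exists_perp_not hE.sep (W := S) (x := v) fun k => hc (by simpa using k 1)
  obtain ⟨x, -, qx, hx⟩ := hE.exists_sing_not_perp (Cl.nondegOn_top hE.sep) hb (s := z)
    ⟨v, trivial, by simp [a2]⟩
  exact hx (a1 x fun j => h1 _ (hE.sing_smul qx j))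

/-- An overgroup of the unitary group over the extension field. -/
structure OvU (B : V →ₛₗ[σ] V →ₗ[F] F) (b : V →ₛₗ[ρ] V →ₗ[E] E) (M : Subgroup (V ≃ₗ[F] V)) :
    Prop where
  j : Cj σ ρ
  cl : Cl 1 1 (trHom σ) B fun x => B x x
  cl' : Cl 1 1 (trHom ρ) b fun x => b x x
  tr : ∀ x y, Algebra.trace F E (b x y) = B x y
  le : M ≤ Isom B fun x => B x x
  ov : ∀ s ∈ Isom b fun x => b x x, Algebra.norm F (LinearMap.det (s : V →ₗ[E] V)) = 1 → rs F s ∈ M

namespace OvU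

variable (o : OvU B b M)
include o

theorem hH : IsHerm b := ⟨o.j.ne', o.j.inv', fun x y => by rw [o.cl'.symm x y, one_mul]⟩

theorem ovO {s : V ≃ₗ[E] V} (hs : s ∈ o.cl'.Om) : rs F s ∈ M :=
  o.ov s (o.cl'.om_le_isom hs) (by rw [((mem_om_herm o.hH o.cl').1 hs).2, map_one])

theorem ovS {s : UIsom b} (hs : s ∈ o.hH.eichSub) : rs F s.1 ∈ M := by
  rw [o.hH.eichSub_eq o.cl'.sep] at hs
  exact o.ov _ s.2 (by rw [mem_sisom.1 hs, map_one])

theorem tE {u : V} (hu : b u u = 0) {c : E} (hc : ρ c = -c) : rs F (o.cl'.eich u 0 c) ∈ M :=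
  o.ovO (o.cl'.eich_mem_om hu (map_zero _) (by simp [hc]))

theorem tE_apply {u : V} (hu : b u u = 0) (c : E) (x : V) :
    o.cl'.eich u 0 c x = x - (c * b u x) • u := by
  simp [o.cl'.eich_apply hu (map_zero _)]

theorem BR (k : E) (x y : V) : B x (k • y) = 𝔱 (k * b x y) := by simp [← o.tr]

theorem BL (k : E) (x y : V) : B (k • x) y = 𝔱 (ρ k * b x y) := by simp [← o.tr]

theorem b_zero {x y : V} (h : ∀ k : E, B x (k • y) = 0) : b x y = 0 :=
  trace_ext (F := F) fun k => by simp [← o.BR, h]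

theorem not_sing (hr : (finrank F E).Prime) (hm : 2 ≤ finrank E V) (hβ : 3 ≤ finrank E V ∨
    ∃ β : E, ρ β * β = 1 ∧ Algebra.norm F β = 1 ∧ β ∉ (⊥ : Subalgebra F E)) {W : Submodule F V}
    (hd : finrank F W = finrank F E) (hW : ∀ x ∈ W, ∀ y ∈ W, B x y = 0) {x : V} (hx : x ∈ W)
    (hs : ∀ s ∈ M, s x = x → ∀ y ∈ W, s y ∈ W) : b x x = 0 := by
  have : Module.Finite F V := Module.Finite.trans E V
  by_contra q
  have k0 : ∀ y, (∀ k : E, k • y ∈ W) → b y y = 0 := fun y h =>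
    o.b_zero fun k => hW _ (by simpa using h 1) _ (h k)
  have x0 : x ≠ 0 := by rintro rfl; simp at q
  obtain ⟨w, hw, hw'⟩ := SetLike.not_le_iff_exists.1 fun h : W ≤ Ln F E x => q (k0 x fun k =>
    (Submodule.eq_of_le_of_finrank_eq h (hd.trans (finrank_Ln x0).symm)).ge (smul_mem_Ln k x))
  have hU : NondegOn b (perp b (E ∙ x)) := o.cl'.form.nondegOn_perp o.cl'.sep fun y hy h => by
    obtain ⟨a, rfl⟩ := Submodule.mem_span_singleton.1 hy
    simpa [q, x0] using h x (Submodule.mem_span_singleton_self x)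
  have d1 := o.cl'.form.finrank_perp o.cl'.sep (E ∙ x)
  rw [finrank_span_singleton x0] at d1
  have m1 : w - (b x w / b x x) • x ∈ perp b (E ∙ x) := by rw [mem_perp_span]; simp [q]
  have m0 : w - (b x w / b x x) • x ≠ 0 := fun h => hw' (mem_Ln.2 ⟨_, (sub_eq_zero.1 h).symm⟩)
  have m2 : ∀ y ∈ perp b (E ∙ x), b y (w - (b x w / b x x) • x) = b y w := fun y hy => by
    simp [o.cl'.refl (hy x (Submodule.mem_span_singleton_self x))]
  by_cases h3 : 3 ≤ finrank E V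
  · obtain ⟨u, hu, qu, uw⟩ := o.cl'.exists_sing_not_perp hU
      (Or.inr ⟨by omega, exists_trace_zero o.j.ne' o.j.inv'⟩) (s := w) (by
        by_contra! h; exact m0 (hU _ m1 fun y hy => o.cl'.refl (by rw [m2 y hy, h y hy])))
    have ux := o.cl'.refl (hu x (Submodule.mem_span_singleton_self x))
    have k1 : ∀ k : E, k • u ∈ W := fun k => by
      simpa [mem_coefs, uw] using o.j.mem_of_neg (S := (coefs E u W).comap (LinearMap.mulRight F (b u w)))
        (fun c hc => by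
          simpa [o.tE_apply qu, mem_coefs] using sub_mem hw (hs _ (o.tE qu hc)
            (by simp [o.tE_apply qu, ux]) w hw)) (k / b u w)
    have u0 : u ≠ 0 := by rintro rfl; simp at uw
    obtain ⟨a, rfl⟩ := mem_Ln.1 ((Submodule.eq_of_le_of_finrank_eq (show Ln F E u ≤ W from fun y hy => by
      obtain ⟨k, rfl⟩ := mem_Ln.1 hy; exact k1 k) ((finrank_Ln u0).trans hd.symm)).ge hx)
    exact q (o.cl'.sing_smul qu a)
  obtain ⟨β, b1, b2, b3⟩ := hβ.resolve_left h3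
  generalize w - (b x w / b x x) • x = y at m0 m1 m2
  have qy : b y y ≠ 0 := fun h => m0 (hU y m1 fun z hz => by
    obtain ⟨a, rfl⟩ := Submodule.mem_span_singleton.1 ((Submodule.eq_of_le_of_finrank_le
      ((Submodule.span_singleton_le_iff_mem _ _).2 m1) (by rw [finrank_span_singleton m0]; omega)).ge hz)
    simp [h])
  have k1 := hs _ (o.ov _ (o.hH.qref qy b1).2 (by rw [o.hH.det_qref, b2])) (o.hH.qref_of_perp qy b1
    (o.cl'.refl (m1 x (Submodule.mem_span_singleton_self x))))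
  refine qy (k0 y (eq_top_of_mul hr (S := coefs E y W) (β := β) (s := β - 1) (fun s hs => ?_) b3 ?_
    (sub_ne_zero.2 fun h => b3 (h ▸ one_mem _))))
  · simpa [mem_coefs, o.hH.qref_self, smul_smul, mul_comm] using k1 _ hs
  · simpa [mem_coefs, o.hH.qref_apply, ← m2 y m1, qy] using sub_mem (k1 w hw) hw

theorem adj (hr : (finrank F E).Prime) {S : Set (Submodule F V)} {v : V} (hv : v ≠ 0) (qv : b v v = 0)
    {W : Submodule F V} (hd : finrank F W = finrank F E) (hW : ∀ x ∈ W, ∀ y ∈ W, B x y = 0)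
    (hP : MaxPr M S (Ln F E v) W) {θ : F} (hθ : σ θ ≠ θ) :
    ∃ ν : Dual F V, (∃ x ∈ W, ν x = 1) ∧ ∃ T : V → Prop, (∀ z, T z → z ∈ W ∧ ν z = 0 ∧
      ∀ a, σ a = a → ∃ t ∈ M, ∀ y ∈ W, t y = y + ν y • a • z) ∧
      ∀ z ∈ W, ν z = 0 → ∃ z₁ z₂, T z₁ ∧ T z₂ ∧ z = z₁ + θ • z₂ := by
  have : Module.Finite F V := Module.Finite.trans E V
  have h1 := not_Ln_le hP.ne ((finrank_Ln hv).trans hd.symm)
  have e0 : ∀ {u c}, b v u = 0 → trHom ρ c = b u u → rs F (o.cl'.eich v u c) ∈ M := fun h h' =>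
    o.ovO (o.cl'.eich_mem_om qv h h')
  have e2 : ∀ {u}, b v u = 0 → ∀ c, ∀ y ∈ Ln F E v, rs F (o.cl'.eich v u c) y = y := fun hu c y hy => by
    obtain ⟨k, rfl⟩ := mem_Ln.1 hy
    exact o.cl'.eich_fix _ (by simp [qv]) (by simp [o.cl'.refl hu])
  have e3 : ∀ {u c}, b v u = 0 → trHom ρ c = b u u → ∀ x ∈ W, x ∉ Ln F E v → o.cl'.eich v u c x ∈ W →
      ∀ y ∈ W, o.cl'.eich v u c y ∈ W := fun hu hc x hx hx' h => hP.stab (e0 hu hc)
    (fun y hy _ => e2 hu _ y hy) hx (fun h2 => hx' ((rs F _).injective (e2 hu _ _ h2) ▸ h2)) h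
  suffices ∃ x ∈ W, x ∉ Ln F E v ∧ (∀ y ∈ W, ∃ c : F, y - c • x ∈ Ln F E v) ∧ ∃ P : E → Prop,
      (∀ k, P k → k • v ∈ W ∧ ∀ a, σ a = a → ∃ u c, b v u = 0 ∧ trHom ρ c = b u u ∧
        o.cl'.eich v u c x = x + a • k • v) ∧ ∀ k, k • v ∈ W → ∃ k₁ k₂, P k₁ ∧ P k₂ ∧ k = k₁ + θ • k₂ by
    obtain ⟨x, hx, hx', h2, P, h3, h3'⟩ := this
    obtain ⟨ν, h4, h5⟩ := exists_dual hx'
    have h6 : ∀ y ∈ W, y - ν y • x ∈ Ln F E v := fun y hy => by
      obtain ⟨c, hc⟩ := h2 y hy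
      rwa [show ν y = c by simpa [h4, sub_eq_zero] using h5 _ hc]
    refine ⟨ν, ⟨x, hx, h4⟩, fun z => ∃ k, P k ∧ z = k • v, ?_, fun z hz h7 => ?_⟩
    · rintro _ ⟨k, hk, rfl⟩
      refine ⟨(h3 k hk).1, h5 _ (smul_mem_Ln k v), fun a ha => ?_⟩
      obtain ⟨u, c, h8, h8', h9⟩ := (h3 k hk).2 a ha
      refine ⟨_, e0 h8 h8', fun y hy => ?_⟩
      have := e2 h8 c _ (h6 y hy)
      rw [map_sub, map_smul, rs_apply _ x, h9] at this
      linear_combination (norm := module) this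
    obtain ⟨k, rfl⟩ := mem_Ln.1 (show z ∈ Ln F E v by simpa [h7] using h6 z hz)
    obtain ⟨k₁, k₂, a1, a2, rfl⟩ := h3' k hz
    exact ⟨_, _, ⟨k₁, a1, rfl⟩, ⟨k₂, a2, rfl⟩, by rw [add_smul, smul_assoc]⟩
  by_cases h2 : ∀ y ∈ W, b v y = 0
  · obtain ⟨x, hx, hx'⟩ := SetLike.not_le_iff_exists.1 fun h => hP.ne.symm
      (Submodule.eq_of_le_of_finrank_eq h (hd.trans (finrank_Ln hv).symm))
    have h3 : ∀ u c, b v u = 0 → ∀ y ∈ W, o.cl'.eich v u c y = y + b u y • v := fun u c hu y hy =>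
      o.cl'.eich_of_perp qv hu _ (h2 y hy)
    refine ⟨x, hx, hx', hyper_of_key hr hP.inf h1 hx' fun φ h4 h5 y hy => ?_, fun k => k • v ∈ W,
      fun k hk => ⟨hk, fun a _ => ?_⟩, fun k hk => ⟨k, 0, hk, by simp, by simp⟩⟩
    · obtain ⟨u, rfl⟩ := o.cl'.exists_B φ
      obtain ⟨c, hc⟩ := o.cl'.exists_tau u
      have h6 := o.cl'.refl h4
      simpa [h3 u c h6 y hy, W.add_mem_iff_right hy] using
        e3 h6 hc x hx hx' (h3 u c h6 x hx ▸ add_mem hx h5) y hy
    · obtain ⟨u, h4, h5⟩ := o.cl'.form.exists_perp_not o.cl'.sep (W := E ∙ v) hx'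
      have h6 : b v (ρ (a • k) • u) = 0 := by simp [h4 v (Submodule.mem_span_singleton_self v)]
      obtain ⟨c, hc⟩ := o.cl'.exists_tau (ρ (a • k) • u)
      exact ⟨_, c, h6, hc, by rw [h3 _ _ h6 x hx]; simp [o.cl'.flip_one h5, o.j.inv']⟩
  push Not at h2
  obtain ⟨x, hx, h2⟩ := h2
  have h3 : ∀ y ∈ Ln F E v, b v y = 0 := fun y hy => by
    obtain ⟨k, rfl⟩ := mem_Ln.1 hy; simp [qv]
  have e4 : ∀ c, ρ c = -c → ∀ x ∈ W, x ∉ Ln F E v → (c * b v x) • v ∈ W → ∀ y ∈ W,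
      (c * b v y) • v ∈ W := fun c hc x hx hx' h y hy => by
    simpa [o.tE_apply qv] using sub_mem hy (e3 (c := c) (map_zero _) (by simp [hc]) x hx hx'
      (o.tE_apply qv c x ▸ sub_mem hx h) y hy)
  have inj : ∀ y ∈ W, b v y = 0 → y ∈ Ln F E v := fun y hy h => by_contra fun h' => h1 fun k => by
    simpa [mem_coefs, h2] using o.j.mem_of_neg (S := (coefs E v W).comap (LinearMap.mulRight F (b v x)))
      (fun c hc => e4 c hc y hy h' (by simp [h]) x hx) (k / b v x)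
  have hZ : ∀ k : E, (∀ y ∈ W, 𝔱 (k * ρ (b v y)) = 0) → k • v ∈ W := fun k hk => by
    have d1 := o.cl.form.finrank_perp o.cl.sep (W ⊔ perp B (Ln F E v))
    have d2 := o.cl.form.finrank_perp o.cl.sep (Ln F E v)
    have d3 := Submodule.finrank_sup_add_finrank_inf_eq W (perp B (Ln F E v))
    have d4 := Submodule.finrank_mono (show W ⊓ perp B (Ln F E v) ≤ W ⊓ Ln F E v from fun y hy =>
      ⟨hy.1, inj y hy.1 (o.cl'.refl (o.b_zero fun k => o.cl.refl (hy.2 _ (smul_mem_Ln k v))))⟩)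
    have d5 := finrank_Ln (F := F) (E := E) hv
    have k1 : ∀ z ∈ Ln F E v, (∀ y ∈ W, B y z = 0) → z ∈ perp B (W ⊔ perp B (Ln F E v)) :=
      fun z hz h y hy => by
      obtain ⟨a, ha, c, hc, rfl⟩ := Submodule.mem_sup.1 hy
      simp [h a ha, o.cl.refl (hc z hz)]
    exact ((Submodule.eq_of_le_of_finrank_le (show W ⊓ Ln F E v ≤ _ from fun z hz =>
      k1 z hz.2 fun y hy => hW y hy z hz.1) (by omega)).ge (k1 _ (smul_mem_Ln k v) fun y hy => by
        rw [o.BR, o.cl'.symm v y, one_mul, hk y hy])).1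
  have hZ' : ∀ k : E, k • v ∈ W → ∀ y ∈ W, 𝔱 (k * ρ (b v y)) = 0 := fun k hk y hy => by
    have := hW y hy _ hk
    rwa [o.BR, o.cl'.symm v y, one_mul] at this
  obtain ⟨δ, δ0, hδ⟩ := o.j.exists_neg
  have h4 : ∀ y ∈ W, ∃ a : F, b v y = a • b v x := fun y hy => o.j.line_of hr
    (Y := W.map ((b v).restrictScalars F)) (fun h => by
      obtain ⟨_, ⟨h5, h6⟩, h7⟩ := (Submodule.ne_bot_iff _).1 hP.inf
      obtain ⟨k, rfl⟩ := mem_Ln.1 h5
      refine h7 (by
        rw [show k = 0 from trace_ext (F := F) fun i => by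
          obtain ⟨y, hy, e⟩ := h.ge (Submodule.mem_top (x := ρ i))
          simpa [show b v y = _ from e, o.j.inv', mul_comm] using hZ' k h6 y hy, zero_smul]))
    (by
      rintro c hc _ ⟨w, hw, rfl⟩ w0 h _ ⟨y, hy, rfl⟩ _ ⟨y', hy', rfl⟩
      have := hZ' _ (e4 (δ • c) (by simp [o.j.smul, hδ, hc]) w hw (fun k => w0 (h3 w k))
        (hZ _ fun y hy => by simpa [δ0, mul_right_comm] using h _ ⟨y, hy, rfl⟩) y hy) y' hy'
      simpa [δ0, mul_right_comm] using this) ⟨x, hx, rfl⟩ h2 ⟨y, hy, rfl⟩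
  refine ⟨x, hx, fun h => h2 (h3 x h), fun y hy => (h4 y hy).imp fun a ha => inj _
    (sub_mem hy (W.smul_mem a hx)) (by
      rw [map_sub, ha, ← algebraMap_smul E a x, map_smul, algebraMap_smul, sub_self]),
    fun k => ∃ c, ρ c = -c ∧ k = c * b v x ∧ 𝔱 (k * ρ (b v x)) = 0, ?_, fun k hk => ?_⟩
  · rintro _ ⟨c, hc, rfl, h⟩
    refine ⟨hZ _ fun y hy => ?_, fun a ha => ⟨0, -(a • c), map_zero _, by simp [o.j.smul, ha, hc], ?_⟩⟩
    · obtain ⟨a, ha⟩ := h4 y hy
      rw [ha, o.j.smul, mul_smul_comm, map_smul, h, smul_zero]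
    · simp [o.tE_apply qv]
  obtain ⟨c, c', a1, a2, a3⟩ := o.j.decomp hθ (k / b v x)
  rw [div_eq_iff h2, add_mul, smul_mul_assoc] at a3
  have a4 : ∀ c, ρ c = -c → σ (𝔱 (c * b v x * ρ (b v x))) = -𝔱 (c * b v x * ρ (b v x)) := fun c hc => by
    rw [← o.j.tr, ← map_neg]; congr 1; simp [hc, o.j.inv']; ring
  obtain ⟨a5, a6⟩ := Cj.indF hθ (a4 c a1) (a4 c' a2) (by
    simpa [a3, add_mul] using hZ' k hk x hx)
  exact ⟨_, _, ⟨c, a1, rfl, a5⟩, ⟨c', a2, rfl, a6⟩, a3⟩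

end OvU

end Cfsg.Agent.H10.Ag
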