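import Mathlib
import Cfsg.Agent.H10.Ag11

/-!
# Unitary groups over extension fields are maximal in unitary groups
-/

set_option autoImplicit false
set_option linter.unusedSectionVars false

namespace Cfsg.Agent.H10.Ag

open Module H11 H26 H26.MX

variable {F : Type*} [Field F] {V : Type*} [AddCommGroup V] [Module F V]
  {E : Type*} [Field E] [Algebra F E] [Module E V] [IsScalarTower F E V] {σ : F →+* F} {ρ : E →+* E}
  {B : V →ₛₗ[σ] V →ₗ[F] F} {b : V →ₛₗ[ρ] V →ₗ[E] E} {M : Subgroup (V ≃ₗ[F] V)}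
  [Finite E] [Module.Finite F E] [Module.Finite E V]

local notation "𝔱" => Algebra.trace F E

namespace OvU

variable (o : OvU B b M)
include o

theorem B0 {x y : V} (h : b x y = 0) : B x y = 0 := by rw [← o.tr, h, map_zero]

theorem B00 {w : V} (qw : b w w = 0) (i j : E) : B (i • w) (j • w) = 0 := o.B0 (by simp [qw])

theorem eich_mem {w : V} (qw : b w w = 0) {m k : E} {t : V ≃ₗ[F] V} (ht : t ∈ M)
    (h : ∀ j : E, t (j • w) = j • w + 𝔱 (m * j) • k • w) {c : E} (hc : ρ c = -c) :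
    o.cl.eich (k • w) ((c * ρ m) • w) (𝔱 (m * (c * ρ m))) ∈ M := by
  have h1 : ∀ x, b w (t⁻¹ x) = b w x + B (k • w) x • ρ m := fun x => trace_ext (F := F) fun i => by
    rw [← o.j.inv' i, ← o.BL, ← (o.le ht).1, app_inv, h, mul_add, map_add, map_add 𝔱, ← o.BL,
      mul_smul_comm, map_smulₛₗ B, map_smul 𝔱, ← map_mul, o.j.tr, mul_comm m]
    simp [mul_comm]
  convert mul_mem (o.tE qw (c := -c) (by simp [hc])) (mul_mem (mul_mem ht (o.tE qw hc)) (inv_mem ht))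
    using 1
  ext x
  rw [mul_app, mul_app, mul_app, rs_apply, rs_apply, o.tE_apply qw c (t⁻¹ x), map_sub t, app_inv, h, h1,
    o.tE_apply qw, o.cl.eich_apply (o.B00 qw _ _) (o.B00 qw _ _), o.BL (c * ρ m),
    show m * (c * (b w x + B (k • w) x • ρ m)) = -(ρ (c * ρ m) * b w x) + B (k • w) x • (m * (c * ρ m)) by
      simp only [Algebra.smul_def, map_mul, hc, o.j.inv']; ring, map_add 𝔱, map_neg, map_smul 𝔱]
  simp only [← algebraMap_smul E (_ : F) (_ : V), Algebra.smul_def, map_mul, map_neg, map_sub, map_one,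
    map_add, map_smul, qw, Algebra.algebraMap_self_apply]
  match_scalars <;> ring

/-- the centres of the full groups of transvections in `M` -/
def TT (y : V) : Prop := ∀ c, σ c = -c → o.cl.eich y 0 c ∈ M

theorem TT.map {y : V} (h : o.TT y) {g : V ≃ₗ[F] V} (hg : g ∈ M) : o.TT (g y) := fun c hc => by
  simpa [o.cl.conj_eich (o.le hg)] using mul_mem (mul_mem hg (h c hc)) (inv_mem hg)

theorem TT.smul {y : V} (qy : B y y = 0) (h : o.TT y) (a : F) : o.TT (a • y) := fun c hc => by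
  rw [o.cl.eich_smul_left qy (map_zero _), smul_zero]
  exact h _ (by simp only [map_mul, o.j.inv, hc]; ring)

theorem eich_add {y z : V} (qy : B y y = 0) (qz : B z z = 0) (h : B y z = 0) {c : F} (hc : σ c = -c) :
    o.cl.eich (y + z) 0 c = o.cl.eich y (c • z) c * o.cl.eich z 0 c := by
  ext x
  have h' := o.cl.refl h
  rw [mul_app, o.cl.eich_apply (by simp [qy, qz, h, h']) (map_zero _), o.cl.eich_apply qz (map_zero _),
    o.cl.eich_apply qy (by simp [h])]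
  simp [h, qz, hc]
  module

theorem ar_of_TT {y z : V} (qy : B y y = 0) (qz : B z z = 0) (h : B y z = 0) (h1 : o.TT z)
    (h2 : o.TT (y + z)) {c : F} (hc : σ c = -c) : c • z ∈ o.cl.Ar M y :=
  (o.cl.mem_ar qy).2 ⟨by simp [h], c, by simp [hc, qz], by
    simpa [o.eich_add qy qz h hc] using mul_mem (h2 c hc) (inv_mem (h1 c hc))⟩

theorem TT_add {y z : V} (qy : B y y = 0) (qz : B z z = 0) (h : B y z = 0) (h1 : o.TT y) (h2 : o.TT z)
    (h3 : z ∈ o.cl.Arm M y) : o.TT (y + z) := fun c hc => by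
  obtain ⟨h4, d, h5, h6⟩ := (o.cl.mem_ar qy).1 (h3 c)
  rw [o.eich_add qy qz h hc]
  refine mul_mem ?_ (h2 c hc)
  simpa [o.cl.eich_mul qy h4 (map_zero _)] using mul_mem h6 (h1 (c - d) (by
    simp [qz] at h5; simp [hc]; linear_combination -h5))

theorem arm_of_TT {v y x : V} (qy : B y y = 0) (h : B y v = 0) (h1 : o.TT y)
    (hx : ∀ a : F, ∃ x ∈ o.cl.Ar M v, B y x = a) : y ∈ o.cl.Arm M v := fun a => by
  obtain ⟨δ, δ0, hδ⟩ := o.j.exists_neg
  obtain ⟨x, h2, h3⟩ := hx (a / δ)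
  have := sub_mem h2 (o.cl.map_mem_ar_fix o.le (h1 δ hδ) (o.cl.eich_fix _ h (by simp)) h2)
  simpa [o.cl.eich_apply qy (map_zero _), h3, mul_div_cancel₀ _ δ0] using this

theorem exists_smul {v : V} (qv : b v v = 0) (hv : v ≠ 0) {a : E} (ha : a ≠ 0)
    (h : 3 ≤ finrank E V ∨ ρ a = a) : ∃ g ∈ M, ∀ k : E, g (k • v) = (k * a) • v := by
  obtain ⟨f, hf, h1⟩ := o.cl'.form.exists_partner o.cl'.sep qv hv
  obtain ⟨s, h2, h3⟩ := o.hH.exists_eichSub_smul o.cl'.sep qv hf h1 ha h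
  exact ⟨_, o.ovS h2, fun k => by simp [h3, smul_smul]⟩

theorem TT_fix {v : V} (qv : b v v = 0) (h : o.TT v) {a : E} (h' : 3 ≤ finrank E V ∨ ρ a = a) :
    o.TT (a • v) := by
  by_cases h0 : a • v = 0
  · exact fun c _ => by rw [h0, o.cl.eich_zero_left]; exact one_mem M
  obtain ⟨g, hg, h1⟩ := o.exists_smul qv (right_ne_zero_of_smul h0) (left_ne_zero_of_smul h0) h'
  simpa [show g v = a • v by simpa using h1 1] using h.map o hg

theorem TT_all (hr : 3 ≤ finrank F E) (hβ : 3 ≤ finrank E V ∨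
    ∃ β : E, ρ β * β = 1 ∧ Algebra.norm F β = 1 ∧ β ∉ (⊥ : Subalgebra F E)) {v : V} (qv : b v v = 0)
    (hv : v ≠ 0) (h : o.TT v) {y : V} (qy : b y y = 0) : o.TT y := by
  suffices ∀ a : E, o.TT (a • v) by
    by_cases h0 : y = 0
    · exact fun c _ => by rw [h0, o.cl.eich_zero_left]; exact one_mem M
    obtain ⟨s, h1, c, c0, h2⟩ := o.hH.exists_eichSub_point o.cl'.sep qv hv qy h0
    simpa [h2, c0] using (this c⁻¹).map o (o.ovS h1)
  by_cases h3 : 3 ≤ finrank E V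
  · exact fun a => o.TT_fix qv h (Or.inl h3)
  obtain ⟨β, b1, b2, b3⟩ := hβ.resolve_left h3
  obtain ⟨a, a0, ha⟩ := exists_div_conj o.j.ne' o.j.inv' b1
  have a1 : ρ a ≠ 0 := by simpa
  obtain ⟨δ, δ0, hδ⟩ := o.j.exists_neg
  have key : ∀ v, b v v = 0 → v ≠ 0 → o.TT v → ∀ k : E, k • v ∈ o.cl.Arm M v := fun v qv hv h => by
    have h1 : ∀ k, ρ k = k → δ • k • v ∈ o.cl.Ar M v := fun k hk =>
      o.ar_of_TT (o.B0 qv) (o.B00 qv _ _) (o.B0 (by simp [qv])) (o.TT_fix qv h (Or.inr hk))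
        (by simpa [add_smul] using o.TT_fix qv h (a := 1 + k) (Or.inr (by simp [hk]))) hδ
    obtain ⟨f, hf, h2⟩ := o.cl'.form.exists_partner o.cl'.sep qv hv
    obtain ⟨n, n0, n1, n2, -⟩ := o.j.exists_two hr (a := a) (b := ρ a) fun n k1 k2 =>
      ⟨by rw [← o.j.inv' a, ← map_mul, o.j.tr, k2, map_zero], by rw [← map_mul, o.j.tr, k1, map_zero]⟩
    have h4 : o.TT ((a * δ • n) • f) := by
      obtain ⟨s, k1, k2⟩ := o.hH.exists_eichSub_partner qv hf h2 (w := 0) (map_zero _) (map_zero _)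
        (smul_ne_zero δ0 n0) (by simp [o.j.smul, hδ, n1])
      have := (h.map o (o.ov _ (o.hH.dil qv hf h2 a0).2 (by
        rw [o.hH.det_dil, mul_inv_eq_iff_eq_mul₀ a1 |>.2 ha.symm, b2]))).map o (o.ovS k1)
      convert this using 1
      simp only [rs_apply, o.hH.dil_apply, o.cl'.flip_one h2, qv, map_add, map_smul, k2]
      module
    have h5 : (a * δ • n) • f ∈ o.cl.Arm M v := o.arm_of_TT (x := v) (o.B00 hf _ _) (o.cl.refl (by
      simp [o.BR, h2, n2])) h4 fun s => by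
      obtain ⟨k, k1, k2⟩ := o.j.exists_tr (a := ρ a * n) (fun c hc => b3 ⟨c⁻¹, by
        rw [map_mul, o.j.inv', n1, ← smul_mul_assoc, mul_left_inj' n0, Algebra.smul_def] at hc
        have : algebraMap F E c * β = 1 := mul_right_cancel₀ a1 (by rw [mul_assoc, ha, ← hc, one_mul])
        simpa using (eq_inv_of_mul_eq_one_right this).symm⟩) (-s / (δ * δ))
      refine ⟨_, h1 k k1, ?_⟩
      rw [map_smul, o.BR, map_smulₛₗ, LinearMap.smul_apply, o.cl'.flip_one h2, map_mul ρ, o.j.smul, n1, hδ]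
      simp [k2]; field_simp
    have h6 := mul_ne_zero a0 (smul_ne_zero δ0 n0)
    generalize a * δ • n = κ at h5 h6
    intro k
    simpa [mem_coefs, h6] using o.j.mem_of_neg (S := (coefs E v (o.cl.Arm M v)).comap
      (LinearMap.mulRight F κ)) (fun c hc => by
        have := sub_mem h5 (o.cl.map_mem_arm o.le (o.tE qv hc) (by simp [o.tE_apply qv, qv]) h5)
        rwa [rs_apply, o.tE_apply qv, sub_sub_cancel, map_smul, h2, smul_eq_mul, mul_one] at this)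
        (k / κ)
  let S : Submodule F E :=
    { carrier := {a | o.TT (a • v)}
      zero_mem' := by simpa using o.TT_fix qv h (a := 0) (Or.inr (map_zero _))
      add_mem' := fun {i j} hi hj => by
        by_cases i0 : i = 0
        · simpa [i0] using hj
        simpa [add_smul] using o.TT_add (o.B00 qv i i) (o.B00 qv j j) (o.B00 qv i j) hi hj (by
          simpa [smul_smul, i0] using key _ (o.cl'.sing_smul qv i) (smul_ne_zero i0 hv) hi (j / i))
      smul_mem' := fun c x hx => by simpa using TT.smul o (o.B00 qv x x) hx c }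
  exact o.j.mem_of_fix (S := S) fun c hc => o.TT_fix qv h (Or.inr hc)

theorem om_le_of_TT (hr : 2 ≤ finrank F E) {v : V} (qv : b v v = 0) (hv : v ≠ 0)
    (h : ∀ y, b y y = 0 → o.TT y) : o.cl.Om ≤ M := by
  have : Module.Finite F V := Module.Finite.trans E V
  obtain ⟨δ, δ0, hδ⟩ := o.j.exists_neg
  have key : ∀ v, b v v = 0 → v ≠ 0 → o.cl.Full M v := fun v qv hv => by
    have h1 : ∀ k : E, k • v ∈ o.cl.Ar M v := fun k => by
      simpa [δ0] using o.ar_of_TT (z := δ⁻¹ • k • v) (o.B0 qv) (by simp [o.B00 qv]) (by simp [o.BR, qv])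
        (TT.smul o (o.B00 qv k k) (h _ (o.cl'.sing_smul qv k)) _) (h _ (by
          simpa [add_smul] using o.cl'.sing_smul qv (1 + δ⁻¹ • k))) hδ
    have h2 : ∀ y, B v y = 0 → b v y ≠ 0 → y ∈ o.cl.Ar M v := fun y k1 k2 => by
      obtain ⟨c, hc⟩ := o.cl'.form.exists_add_smul_singular qv k2
      obtain ⟨i, hi⟩ := exists_trace_one (F := F) (E := E)
      have k3 : b (y + c • v) v ≠ 0 := o.cl'.refl_ne (by simpa [qv])
      simpa using sub_mem (o.cl.ar_of_arm (o.arm_of_TT (x := v) (o.B0 hc) (o.cl.refl (by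
        simp [k1, o.BR, qv])) (h _ hc) fun s => ⟨_, h1 (s • i / b (y + c • v) v), by
          rw [o.BR, div_mul_cancel₀ _ k3]; simp [hi]⟩)) (h1 c)
    refine o.cl.full_of_ar (o.B0 qv) (fun y hy => ?_) fun c hc => h v qv c (by
      simp at hc; linear_combination hc)
    by_cases k : b v y = 0
    swap
    · exact h2 y hy k
    obtain ⟨f, hf, h3⟩ := o.cl'.form.exists_partner o.cl'.sep qv hv
    obtain ⟨l, h4, l0⟩ := (Submodule.ne_bot_iff _).1 (LinearMap.ker_ne_bot_of_finrank_lt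
      (f := Algebra.trace F E) (by simp; omega))
    replace h4 : 𝔱 l = 0 := h4
    simpa using sub_mem (h2 (y + l • f) (by simp [hy, o.BR, h3, h4]) (by simpa [k, h3]))
      (h2 (l • f) (by simp [o.BR, h3, h4]) (by simpa [h3]))
  obtain ⟨f, hf, h3⟩ := o.cl'.form.exists_partner o.cl'.sep qv hv
  obtain ⟨i, hi⟩ := exists_trace_one (F := F) (E := E)
  have : B v (i • f) ≠ 0 := by simp [o.BR, h3, hi]
  exact o.cl.om_le_of_full o.le (key v qv hv) (key _ (o.cl'.sing_smul hf i) fun k => by simp [k] at this) this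

theorem exists_TT (hr : 3 ≤ finrank F E) {w : V} (qw : b w w = 0) (hw : w ≠ 0) {m : E} (m0 : m ≠ 0)
    {θ : F} (hθ : σ θ ≠ θ) {T : E → Prop} (h1 : ∀ k, T k → 𝔱 (m * k) = 0 ∧
      ∃ t ∈ M, ∀ j : E, t (j • w) = j • w + 𝔱 (m * j) • k • w)
    (h2 : ∀ k, 𝔱 (m * k) = 0 → ∃ k₁ k₂, T k₁ ∧ T k₂ ∧ k = k₁ + θ • k₂) :
    ∃ y, y ≠ 0 ∧ b y y = 0 ∧ o.TT y := by
  have m1 : ρ m ≠ 0 := by simpa
  have h0 := o.B00 qw
  have e1 : ∀ k, T k → ∀ c, ρ c = -c → _ := fun k hk c hc =>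
    let ⟨_, ht, h⟩ := (h1 k hk).2; o.eich_mem qw ht h hc
  have ml : ∀ i j j' c c', o.cl.eich (i • w) (j • w) c ∈ M → o.cl.eich (i • w) (j' • w) c' ∈ M →
      o.cl.eich (i • w) ((j - j') • w) (c - c') ∈ M := fun (i j j' : E) c c' k1 k2 => by
    simpa [o.cl.eich_inv (h0 i i) (h0 i j'), o.cl.eich_mul (h0 i i) (h0 i j) (w' := -(j' • w))
      (by simp [h0]), h0, add_smul, sub_eq_add_neg] using mul_mem k1 (inv_mem k2)
  have tr : ∀ d, σ d = -d → ∃ c, ρ c = -c ∧ 𝔱 (m * (c * ρ m)) = d := fun d hd => by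
    obtain ⟨δ, δ0, hδ⟩ := o.j.exists_neg
    obtain ⟨k, k1, k2⟩ := o.j.exists_tr' (a := δ • (m * ρ m)) (by simp [*]) (by
      simp [o.j.smul, hδ, o.j.inv', mul_comm]) hd
    exact ⟨δ • k, by simp [o.j.smul, hδ, k1], by rw [← k2]; congr 1; simp; ring⟩
  have a4 : ∀ c, ρ c = -c → σ (𝔱 (m * (c * ρ m))) = -𝔱 (m * (c * ρ m)) := fun c hc => by
    rw [← o.j.tr, ← map_neg]; congr 1; simp [hc, o.j.inv']; ring
  by_cases hα : ∀ k, T k → ρ (k / ρ m) = k / ρ m
  · have h3 : ∀ κ, ρ κ = κ → 𝔱 (m * (κ * ρ m)) = 0 → T (κ * ρ m) := fun κ k1 k2 => by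
      obtain ⟨k₁, k₂, a1, a2, a3⟩ := h2 _ k2
      have a5 : κ = k₁ / ρ m + θ • (k₂ / ρ m) := by rw [← smul_div_assoc, ← add_div, ← a3]; simp [m1]
      have a6 := k1
      rw [a5, map_add, o.j.smul, hα _ a1, hα _ a2, add_right_inj, ← sub_eq_zero, ← sub_smul,
        smul_eq_zero_iff_right (sub_ne_zero.2 hθ), div_eq_zero_iff, or_iff_left m1] at a6
      simpa [a3, a6] using a1
    have hN : ∀ n, 𝔱 (m * ρ m * n) = 0 → 𝔱 (m * ρ m * ρ n) = 0 := fun n h => by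
      have := o.j.tr (m * ρ m * n)
      rwa [h, map_zero, map_mul ρ, map_mul ρ, o.j.inv', mul_comm (ρ m)] at this
    obtain ⟨κ, κ0, κ1, κ2, -⟩ := o.j.exists_two hr (a := m * ρ m) (b := 0) fun n k _ => ⟨hN n k, by simp⟩
    refine ⟨(κ * ρ m) • w, smul_ne_zero (mul_ne_zero κ0 m1) hw, o.cl'.sing_smul qw _, fun d hd => ?_⟩
    obtain ⟨c, hc, rfl⟩ := tr d hd
    obtain ⟨n, n0, n1, n2, n3⟩ := o.j.exists_two hr (a := m * (κ * ρ m)) (b := m * (c * ρ m))
      fun n k k' => ⟨by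
        have := hN (κ * n) (by rw [← k]; congr 1; ring)
        rw [← this, map_mul ρ, κ1]; congr 1; ring, by
        have := hN (c * n) (by rw [← k']; congr 1; ring)
        rw [← neg_eq_zero, ← map_neg, ← this, map_mul ρ, hc]; congr 1; ring⟩
    obtain ⟨g, hg, h4⟩ := o.exists_smul qw hw (inv_ne_zero n0) (Or.inr (by simp [n1]))
    have h5 := mul_mem (mul_mem hg (e1 _ (h3 (κ * n) (by simp [κ1, n1]) (by rw [← n2]; congr 1; ring))
      (c * n) (by simp [hc, n1]))) (inv_mem hg)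
    rw [o.cl.conj_eich (o.le hg), h4, h4, show m * (c * n * ρ m) = m * (c * ρ m) * n by ring, n3,
      show κ * n * ρ m * n⁻¹ = κ * ρ m by field_simp, show c * n * ρ m * n⁻¹ = c * ρ m by field_simp] at h5
    simpa using ml _ _ _ _ _ (e1 _ (h3 κ κ1 (by rw [← κ2]; congr 1; ring)) c hc) h5
  push Not at hα
  obtain ⟨l, hl, hα⟩ := hα
  obtain ⟨δ, δ0, hδ⟩ := o.j.exists_neg
  have e2 : ∀ k, T k → o.cl.eich (k • w) ((δ • l) • w) 0 ∈ M := fun k hk => by
    obtain ⟨c, hc, h3⟩ := tr δ hδ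
    obtain ⟨t, ht, h4⟩ := (h1 l hl).2
    have h5 := mul_mem (mul_mem ht (e1 k hk c hc)) (inv_mem ht)
    rw [o.cl.conj_eich (o.le ht), h4, h4, (h1 k hk).1, zero_smul, add_zero, ← smul_assoc, ← add_smul] at h5
    simpa [h3] using ml _ _ _ _ _ h5 (e1 k hk c hc)
  have hθ' : σ (σ θ) ≠ σ θ := by rw [o.j.inv]; exact hθ.symm
  obtain ⟨c, c', a1, a2, a3⟩ := o.j.decomp hθ' (δ • l / ρ m)
  have c0 : c' ≠ 0 := by
    rintro rfl
    rw [smul_zero, add_zero] at a3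
    rw [← a3, smul_div_assoc, o.j.smul, hδ, neg_smul, neg_inj, smul_right_inj δ0] at a1
    exact hα a1
  rw [div_eq_iff m1, add_mul, smul_mul_assoc] at a3
  obtain ⟨a5, a6⟩ := Cj.indF hθ' (a4 c a1) (a4 c' a2) (by
    simpa [mul_add, (h1 l hl).1] using (congrArg (fun x => 𝔱 (m * x)) a3).symm)
  generalize hy : c' * ρ m = y at a3 a6
  have y0 : y ≠ 0 := hy ▸ mul_ne_zero c0 m1
  have sw : ∀ i j : E, o.cl.eich (i • w) (j • w) 0 ∈ M → o.cl.eich (j • w) (i • w) 0 ∈ M := fun i j h => by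
    have := inv_mem h
    rwa [o.cl.eich_swap (h0 _ _) (h0 _ _) (h0 _ _), o.cl.eich_inv (h0 _ _) (by simp [h0]), neg_one_smul,
      neg_neg, map_neg, map_neg, LinearMap.neg_apply, h0, neg_zero, neg_zero, mul_zero, sub_zero] at this
  have e3 : ∀ k, 𝔱 (m * k) = 0 → o.cl.eich (y • w) (k • w) 0 ∈ M := fun k hk => by
    obtain ⟨k₁, k₂, b1, b2, rfl⟩ := h2 k hk
    have b3 := sw _ _ (by simpa [hy, a6] using e1 k₁ b1 c' a2)
    have b4 := ml _ _ _ _ _ (e2 k₂ b2) (e1 k₂ b2 c a1)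
    rw [a5, sub_zero] at b4
    replace b4 := sw _ _ b4
    rw [a3, add_sub_cancel_left, smul_assoc, o.cl.eich_smul_left (h0 _ _) (h0 _ _), o.j.inv, mul_zero,
      ← smul_assoc] at b4
    have := mul_mem b3 b4
    rwa [o.cl.eich_mul (h0 _ _) (h0 _ _) (h0 _ _), h0, mul_zero, add_zero, add_zero, ← add_smul] at this
  refine ⟨y • w, smul_ne_zero y0 hw, o.cl'.sing_smul qw _, fun d hd => ?_⟩
  obtain ⟨a, rfl⟩ := exists_sub_conj o.j.ne o.j.inv (c := d) (by simp [hd])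
  have := e3 (a • y) (by simp [a6])
  rwa [smul_assoc, ← zero_add (a • y • w), o.cl.eich_add_smul (h0 _ _) (map_zero _), zero_add,
    one_mul] at this

theorem om_le_of_not (hr : (finrank F E).Prime) (hr3 : 3 ≤ finrank F E) (hm : 2 ≤ finrank E V)
    (hβ : 3 ≤ finrank E V ∨ ∃ β : E, ρ β * β = 1 ∧ Algebra.norm F β = 1 ∧ β ∉ (⊥ : Subalgebra F E))
    {g : V ≃ₗ[F] V} (hg : g ∈ M) (hg' : ¬ NrmE E g) : o.cl.Om ≤ M := by
  have : Module.Finite F V := Module.Finite.trans E V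
  have : Finite V := Module.finite_of_finite E
  let S : Set (Submodule F V) :=
    {W | ∃ y ∈ M, ∃ v, v ≠ 0 ∧ b v v = 0 ∧ W = (Ln F E v).map y.toLinearMap}
  have hS : ∀ g ∈ M, ∀ U ∈ S, U.map (g : V →ₗ[F] V) ∈ S := by
    rintro g hg _ ⟨y, hy, β, hβ, h, rfl⟩
    exact ⟨g * y, mul_mem hg hy, β, hβ, h, map_map' _ _ _⟩
  have hW : ∀ s ∈ M, ∀ v, b v v = 0 → ∀ x ∈ (Ln F E v).map s.toLinearMap,
      ∀ y ∈ (Ln F E v).map s.toLinearMap, B x y = 0 := by
    rintro s hs v hv _ ⟨x, hx, rfl⟩ _ ⟨y, hy, rfl⟩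
    obtain ⟨i, rfl⟩ := mem_Ln.1 hx
    obtain ⟨j, rfl⟩ := mem_Ln.1 hy
    exact ((o.le hs).1 _ _).trans (o.B00 hv i j)
  obtain ⟨U, U', hP⟩ : ∃ U U', MaxPr M S U U' := by
    by_contra! h
    have h1 : ∀ U ∈ S, ∀ U' ∈ S, ∀ x, x ≠ 0 → x ∈ U → x ∈ U' → U = U' := fun U hU U' hU' x h0 a a' =>
      by_contra fun k => let ⟨_, _, k⟩ := exists_maxPr hS hU hU' k ((Submodule.ne_bot_iff _).2
        ⟨x, ⟨a, a'⟩, h0⟩); h _ _ k
    refine hg' (nrmE_of_sing2 o.j o.cl' hm fun v hv k => ?_)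
    by_cases v0 : v = 0
    · simp [v0]
    have h2 : _ ∈ S := ⟨g, hg, v, v0, hv, rfl⟩
    have h3 : g v ∈ (Ln F E v).map g.toLinearMap := ⟨v, self_mem_Ln v, rfl⟩
    have h4 := o.not_sing hr hm hβ ((finrank_map _ g).trans (finrank_Ln v0)) (hW g hg v hv) h3
      fun s hs h5 y hy => (h1 _ (hS s hs _ h2) _ h2 _ (app_ne_zero g v0) ⟨_, h3, h5⟩ h3).le ⟨y, hy, rfl⟩
    exact (h1 _ h2 _ ⟨1, one_mem M, _, app_ne_zero g v0, h4, (Submodule.map_id _).symm⟩ _
      (app_ne_zero g v0) h3 (self_mem_Ln _)).le ⟨_, smul_mem_Ln k v, rfl⟩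
  obtain ⟨y, hy, u, hu, qu, rfl⟩ := hP.left
  obtain ⟨y', hy', w, hw, qw, rfl⟩ := hP.right
  have h4 := hP.map (inv_mem hy)
  rw [map_map', map_map', inv_mul_cancel, show (Ln F E u).map (1 : V ≃ₗ[F] _).toLinearMap = _ from
    Submodule.map_id _] at h4
  have h5 := mul_mem (inv_mem hy) hy'
  generalize y⁻¹ * y' = s at h4 h5
  obtain ⟨θ, hθ⟩ := exists_ne_conj o.j.ne
  obtain ⟨ν, ⟨_, ⟨x, hx, rfl⟩, h6⟩, T, h7, h7'⟩ := o.adj hr hu qu ((finrank_map _ s).trans (finrank_Ln hw))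
    (hW s h5 w qw) h4 hθ
  obtain ⟨m, h8⟩ := exists_trace_eq (F := F) (E := E)
    (dc ν s ∘ₗ (LinearMap.toSpanSingleton E V w).restrictScalars F)
  replace h8 : ∀ j, 𝔱 (m * j) = ν (s (j • w)) := fun j => by rw [mul_comm]; exact h8 j
  obtain ⟨i, rfl⟩ := mem_Ln.1 hx
  replace h6 : 𝔱 (m * i) = 1 := (h8 i).trans h6
  obtain ⟨z, z0, qz, hz⟩ := o.exists_TT hr3 qw hw (m := m) (by rintro rfl; simp at h6) hθ
    (T := fun k => T (s (k • w))) (fun k hk => by
      obtain ⟨-, a1, a2⟩ := h7 _ hk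
      obtain ⟨t, ht, h9⟩ := a2 1 (map_one σ)
      exact ⟨h8 k ▸ a1, _, mul_mem (mul_mem (inv_mem h5) ht) h5, fun j => by
        rw [mul_app, mul_app, h9 (s _) ⟨_, smul_mem_Ln j w, rfl⟩, h8]; exact inv_eq_of (by simp)⟩)
    fun k hk => by
      obtain ⟨z₁, z₂, a1, a2, a3⟩ := h7' _ ⟨_, smul_mem_Ln k w, rfl⟩ (h8 k ▸ hk)
      obtain ⟨_, b1, rfl⟩ := (h7 _ a1).1
      obtain ⟨_, b2, rfl⟩ := (h7 _ a2).1
      obtain ⟨k₁, rfl⟩ := mem_Ln.1 b1
      obtain ⟨k₂, rfl⟩ := mem_Ln.1 b2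
      exact ⟨k₁, k₂, a1, a2, smul_left_injective E hw (s.injective (by simpa [add_smul] using a3))⟩
  exact o.om_le_of_TT (by omega) qz z0 fun y qy => o.TT_all hr3 hβ qz z0 hz qy

end OvU

theorem su_fld_max {q : ℕ} (hσ : QConj σ q) (hH : IsHerm B) (h : Cl 1 1 (trHom σ) B fun x => B x x)
    (hr : (finrank F E).Prime) (hr3 : 3 ≤ finrank F E) (hm : 2 ≤ finrank E V)
    (hq : 3 ≤ finrank E V ∨ ¬ (q = 2 ∧ finrank F E = 3))
    (ha : ∀ k : E, ∃ k' : E, ∀ u v, B (k • u) v = B u (k' • v)) :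
    (∃ g ∈ h.Om, ¬ NrmE E g) ∧ ∀ M ≤ h.Om, (∀ g ∈ h.Om, NrmE E g → g ∈ M) → ∀ g ∈ M,
      ¬ NrmE E g → h.Om ≤ M := by
  have : Module.Finite F V := Module.Finite.trans E V
  have := finite_of_algebra F E
  have : Nontrivial V := Module.nontrivial_of_finrank_pos (R := E) (by omega)
  choose s hs using ha
  obtain ⟨v, hv⟩ := exists_ne (0 : V)
  have h1 : ∀ k k' : E, (∀ u, B (k • u) v = B u (k' • v)) → s k = k' := fun k k' h1 =>
    smul_left_injective E hv (sub_eq_zero.1 (h.form.separatingRight h.sep fun u => by simp [← hs, h1]))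
  let ρ : E →+* E := ⟨⟨⟨s, h1 _ _ (by simp)⟩, fun a b => h1 _ _ fun u => by
    rw [mul_smul, hs, hs, smul_smul, mul_comm]⟩, h1 _ _ (by simp), fun a b => h1 _ _ fun u => by
      simp [add_smul, hs]⟩
  replace hs : ∀ k u v, B (k • u) v = B u (ρ k • v) := hs
  have j : Cj σ ρ := ⟨hH.ne, hH.invol, fun k => h1 _ _ fun u => by
    rw [h.symm, ← hs, h.symm u]; simp [hH.invol], fun c => h1 _ _ (by simp)⟩
  clear_value ρ
  obtain ⟨b, h2⟩ : ∃ b : V →ₛₗ[ρ] V →ₗ[E] E, ∀ x y k, 𝔱 (k * b x y) = B x (k • y) := by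
    choose b hb using fun x y : V => exists_trace_eq (F := F) (E := E)
      (B x ∘ₗ (LinearMap.toSpanSingleton E V y).restrictScalars F)
    replace hb : ∀ x y k, 𝔱 (k * b x y) = B x (k • y) := hb
    refine ⟨LinearMap.mk₂'ₛₗ ρ (RingHom.id E) b (fun x y z => ?_) (fun c x y => ?_) (fun x y z => ?_)
      fun c x y => ?_, hb⟩ <;> refine trace_ext (F := F) fun k => ?_
    · simp [mul_add, hb]
    · rw [smul_eq_mul, ← mul_assoc, hb, hb, hs, smul_smul, mul_comm]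
    · simp [mul_add, hb]
    · rw [smul_eq_mul, ← mul_assoc, hb, hb, smul_smul]; rfl
  have h3 : ∀ x y, 𝔱 (b x y) = B x y := fun x y => by simpa using h2 x y 1
  have hE := clHerm (B := b) ⟨j.ne', j.inv', fun x y => trace_ext (F := F) fun k => by
    rw [h2, h.symm, hs, ← h2, ← j.tr]; simp [j.inv']⟩ fun x hx => h.sep x fun y => by
      rw [← h3, hx, map_zero]
  refine ⟨?_, fun M hM hN g hg hg' => OvU.om_le_of_not ⟨j, h, hE, h3, hM.trans h.om_le_isom,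
    fun s hs hd => hN _ ((mem_om_herm hH h).2 ⟨fun x y => by simp [← h3, hs.1], by
      rw [← hd, ← LinearMap.det_restrictScalars]; rfl⟩) (nrmE_rs s)⟩ hr hr3 hm
        (hq.imp_right (j.exists_beta hσ hr3)) hg hg'⟩
  obtain ⟨v, -, v0, qv⟩ := hE.exists_sing (W := ⊤) (Or.inr ⟨by simpa, exists_trace_zero j.ne' j.inv'⟩)
  obtain ⟨f, hf, h4⟩ := hE.form.exists_partner hE.sep qv v0
  obtain ⟨l, h5, l0⟩ := (Submodule.ne_bot_iff _).1 (LinearMap.ker_ne_bot_of_finrank_lt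
    (f := Algebra.trace F E) (by simp; omega))
  replace h5 : 𝔱 l = 0 := h5
  obtain ⟨i, hi⟩ := exists_trace_one (F := F) (E := E)
  obtain ⟨δ, δ0, hδ⟩ := j.exists_neg
  have h6 : B (ρ l • f) (ρ l • f) = 0 := by simp [← h3, hf]
  refine ⟨h.eich (ρ l • f) 0 δ, h.eich_mem_om h6 (map_zero _) (by simp [hδ]), not_nrmE (v := v) (k := i / l)
    (h.eich_fix _ (by simp [← h3, hE.flip_one h4, j.inv', h5]) (by simp)) fun h7 => ?_⟩
  obtain ⟨a, ha⟩ := Submodule.mem_span_singleton.1 h7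
  have := congrArg (b v) ha
  rw [h.eich_apply h6 (map_zero _), show B (ρ l • f) ((i / l) • v) = 1 by
    simp [← h3, hE.flip_one h4, j.inv', l0, hi]] at this
  rw [mul_one δ, ← algebraMap_smul E δ] at this
  simp [qv, h4, δ0, l0, -algebraMap_smul] at this

open Matrix Geo in
theorem su_fld {F : Type*} [Field F] [Fintype F] {n q : ℕ} (hF : Fintype.card F = q ^ 2) {r : ℕ}
    (hr : r.Prime) (hr3 : 3 ≤ r) (hn : r < n) (hq : 2 * r < n ∨ ¬ (q = 2 ∧ r = 3))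
    (K : Subalgebra F (Matrix (Fin n) (Fin n) F)) (hK : IsFieldSubalgebra r K)
    (hac : IsAdjointClosedFor (hermForm n F q) K) :
    IsMaximalIn (GU n F q ⊓ specialLinear (Fin n) F)
      (subalgebraNormalizer K ⊓ (GU n F q ⊓ specialLinear (Fin n) F)) := by
  have : Nonempty (Fin n) := ⟨⟨0, by omega⟩⟩
  let := (H26.isField_of_isFieldSubalgebra hK).toField
  have h1 := EV.finrank_mul K.val
  have h2 := hK.finrank_eq
  have hH := (qConj_conjQ hF).isHerm (Fin n)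
  obtain ⟨h3, h4⟩ := su_fld_max (E := K) (qConj_conjQ hF) (hH.pull (EV.eq K.val).toLinearMap)
    ((clSU hF n).pullback (EV.eq K.val)) (h2 ▸ hr) (h2 ▸ hr3)
    (two_le_finrank_EV (by simpa [h2])) (hq.imp (fun h => by
      rw [h2, Fintype.card_fin] at h1; by_contra k; nlinarith) (h2 ▸ id)) fun k => by
      obtain ⟨k', h5, h6⟩ := hac _ k.2
      refine ⟨⟨k', h5⟩, fun u v => ?_⟩
      have := h6 (EV.eq _ u) (EV.eq _ v)
      rw [hermForm_eq hF, hermForm_eq hF, ← hH.symm, ← hH.symm (EV.eq K.val u)] at this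
      exact (conjQ hF).injective this
  have := fld_max_of (fun g => (mem_SU_iff hF g).trans (mem_om_cjE _ (EV.eq K.val) _)) h3 h4
  rwa [Subalgebra.range_val] at this

end Cfsg.Agent.H10.Ag
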