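import Mathlib
import Cfsg.Agent.H11.Im11
import Cfsg.Agent.H11.Im16

/-!
Stabilisers of orthogonal decompositions of unitary spaces of dimension at least ten.
-/

set_option autoImplicit false
set_option linter.unusedSectionVars false

namespace Cfsg.Agent.H10.Ag

open Module H10 H11 H11.Im Cfsg.Geo

variable {F : Type*} [Field F] {σ : F →+* F} {q : ℕ}
  {V : Type*} [AddCommGroup V] [Module F V] [FiniteDimensional F V]
  {t : ℕ} {D : Fin t → Submodule F V} {p : Fin t → V →ₗ[F] V} {B : V →ₛₗ[σ] V →ₗ[F] F}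
  [Fintype F] (hq : QConj σ q) (hH : IsHerm B) (h : Cl 1 1 (trHom σ) B (fun x => B x x))
  (d : Dec B (fun x => B x x) D p)
include hq hH h d

theorem rt_herm9 (hn : 9 ≤ finrank F V) (ht : 2 ≤ t) : RT h D := fun N NI hK a ha out => by
  have G := gen_herm hq hH h d
  let i : Fin t := ⟨0, by omega⟩
  have e := finrank_eq_mul d i
  by_cases h4 : 4 ≤ finrank F (D i)
  · obtain ⟨c, c0, hc⟩ := G.adm a ha.1
    exact Ov.direct d (fun g x => hK g (h.om_le_isom x)) NI (fun j => d.finrank_eq i j ▸ h4)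
      (adj_blk hq hH h d) ha.1 hc c0 (ha.2 _) out
  by_cases h1 : finrank F (D i) ≤ 1
  · have : t * finrank F (D i) ≤ t * 1 := Nat.mul_le_mul_left _ h1
    exact G.main d hK NI (sumP_four hq hH h d fun j => d.finrank_eq i j ▸ h1) (by omega) ha out
  · have : t * finrank F (D i) ≤ t * 3 := Nat.mul_le_mul_left _ (by omega)
    exact G.main d hK NI (sumP_one d h fun j x hx x0 => ts_herm hH h (d.nd j)
      (by rw [← d.finrank_eq i j]; omega) hx x0) (by omega) ha out

theorem star_herm9 (hn : 9 ≤ finrank F V) (ht : 2 ≤ t) (hex : ∀ i, ¬ (finrank F (D i) = 2 ∧ q = 2))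
    {M : Subgroup (V ≃ₗ[F] V)} (hO : Ov h D M) (hM : M ≤ h.Om) (hc : ¬ h.Om ≤ M) :
    ∀ x ∈ M, ∀ i, ∀ v ∈ D i, B v v ≠ 0 → x v = v → x ∈ dstab D := fun x hx i v hv q e =>
  by_contra fun hx' => hc (hO.np d hM (rt_herm9 hq hH h d hn ht) (fun i => conn_herm hq hH h (d.nd i)
    (Submodule.one_le_finrank_iff.mpr (d.ne i)) (hex i)) (X := Submodule.span F {v})
    (by simpa using hv) (adj_herm hH h (Submodule.mem_span_singleton_self _) q) hx (fun y hy => by
      obtain ⟨s, rfl⟩ := Submodule.mem_span_singleton.mp hy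
      rwa [map_smul, e]) hx')

variable {M : Subgroup (V ≃ₗ[F] V)} (hO : Ov h D M) (hM : M ≤ h.Om)
  (star : ∀ x ∈ M, ∀ i, ∀ v ∈ D i, B v v ≠ 0 → x v = v → x ∈ dstab D)
  (h1 : ∀ i, finrank F (D i) ≤ 1) (ht : 10 ≤ t) {e : Fin t → V} (he : ∀ i, e i ∈ D i)
  (e1 : ∀ i, B (e i) (e i) = 1)
include hO hM star h1 ht he e1

theorem herm_c10 {m : V ≃ₗ[F] V} (hm : m ∈ M) (J : Finset (Fin t)) (hJ : 5 ≤ J.card)
    (hs : ∀ s ∈ M, s ∈ dstab D → (∀ i ∉ J, ∀ x ∈ D i, s x = x) → m * s * m⁻¹ ∈ dstab D) :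
    m ∈ dstab D := by
  have MI := hM.trans h.om_le_isom
  have mI := MI hm
  by_contra hc
  have e0 : ∀ i, B (e i) (e i) ≠ 0 := fun i => by simp [e1]
  have out : ∀ j l, m (e j) ∉ D l := fun j l c => hc
    (star_to d hO MI star (by omega) (adj_blk hq hH h d) hm (he j) (e0 j) c)
  obtain ⟨z, z1, z2⟩ := exists_zeta hq
  have z1' : σ (σ z) * σ z = 1 := by rw [hH.invol, mul_comm, z1]
  have a1 : ∀ j, B (m (e j)) (m (e j)) = 1 := fun j => by rw [mI.1, e1]
  have ad : ∀ j z, σ z * z = 1 → Adm h (m (e j)) (1 - z) := fun j z hz => by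
    simpa [a1] using adm_herm (h := h) (a := m (e j)) (by simp [a1]) hz
  have hy : ∀ j ∈ J, ∀ k ∈ J, rf h (m (e j)) (1 - z) * rf h (m (e k)) (1 - σ z) ∈ dstab D :=
    fun j hj k hk => by
    have s1 := mul_mem (rf_dstab h d (he j) (1 - z)) (rf_dstab h d (he k) (1 - σ z))
    have := hs _ (hO _ (by simpa [e1] using pair_om hH h (e0 j) (e0 k) z1) s1) s1 fun i hi x hx => by
      rw [LinearEquiv.mul_apply, rf_fix h _ _ (d.orth k i (by rintro rfl; exact hi hk) _ (he k) x hx),
        rf_fix h _ _ (d.orth j i (by rintro rfl; exact hi hj) _ (he j) x hx)]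
    rwa [show ∀ x y : V ≃ₗ[F] V, m * (x * y) * m⁻¹ = m * x * m⁻¹ * (m * y * m⁻¹) from
      fun x y => by group, conj_rf h mI, conj_rf h mI] at this
  have n3 : 1 - z ≠ 0 := sub_ne_zero.mpr (by rintro rfl; simp at z2)
  have pe : ∀ a i, p i a = B (e i) a • e i := fun a i => by simpa [e1] using p_line d (h1 i) (he i) (e0 i) a
  have ne : ∀ i, e i ≠ 0 := fun i c => e0 i (by simp [c])
  have sub : ∀ j ∈ J, ∀ k ∈ J, ∀ i, p i (m (e k)) = 0 → p i (m (e j)) = 0 := fun j hj k hk i hi => by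
    by_contra hc
    obtain ⟨π, hπ⟩ := dstab_perm (hy j hj k hk)
    have k1 := hπ i _ (he i)
    rw [LinearEquiv.mul_apply, rf_fix h _ _ (h.refl ((p_eq_zero h d).mp hi _ (he i))),
      (ad j z z1).apply] at k1
    have b0 : B (m (e j)) (e i) ≠ 0 := h.refl_ne fun c => hc (by simp [pe, c])
    by_cases c : i = π i
    · rw [← c] at k1
      exact out j i (((D i).smul_mem_iff (mul_ne_zero n3 b0)).mp
        (by simpa using (D i).sub_mem (he i) k1))
    have k2 := d.zero i _ c _ k1
    rw [map_sub, map_smul, d.self i _ (he i), pe, ← hH.symm (m (e j)), smul_smul, sub_eq_zero] at k2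
    have k3 := smul_left_injective F (ne i) ((one_smul F _).trans k2)
    have k4 := congrArg σ k3
    simp only [map_one, map_mul, map_sub, hH.invol] at k3 k4
    refine z2 (mul_left_cancel₀ (mul_ne_zero b0 ((map_ne_zero σ).mpr b0)) ?_)
    linear_combination k4 - k3
  obtain ⟨j, hj, k, hk, hjk⟩ := Finset.one_lt_card.mp (show 1 < J.card by omega)
  have o := (mI.1 (e j) (e k)).trans (d.orth j k hjk _ (he j) _ (he k))
  obtain ⟨S, c, hS⟩ := supp_four d (hy j hj k hk) (finrank_span_pair_le (m (e j)) (m (e k)))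
    (loc_sub_mem h (mul_mem (rf_mem_loc h (Submodule.subset_span (by simp)) _)
      (rf_mem_loc h (Submodule.subset_span (by simp)) _))) (a := m (e j))
    (Submodule.subset_span (by simp)) fun i hi c => by
      have := congrArg (B (m (e j))) c
      rw [LinearEquiv.mul_apply, (ad k _ z1').apply, (ad j z z1).apply] at this
      have b0 : B (m (e j)) (p i (m (e j))) ≠ 0 := by
        rw [← d.B_p' (d.mem i _)]; exact line_ns h d (h1 i) (d.mem i _) hi
      simp [o, a1, n3, b0] at this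
  have := card_le_of_supp d m J S fun l hl x hx i hi => by
    obtain ⟨s, rfl⟩ := line_mem d (h1 l) (he l) (ne l) hx
    rw [map_smul, map_smul, sub l hl j hj i (hS i hi), smul_zero]
  omega

theorem herm_odd10 (t2 : (2 : F) ≠ 0) : M ≤ dstab D := by
  have e0 : ∀ i, B (e i) (e i) ≠ 0 := fun i => by simp [e1]
  have ad : ∀ j, Adm h (e j) 2 := fun j => by
    simpa [e1, one_add_one_eq_two] using adm_herm (h := h) (e0 j) (ζ := -1) (by simp)
  refine stepB d h (hM.trans h.om_le_isom) (κ₀ := 5) star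
    (fun m => herm_c10 hq hH h d hO hM star h1 ht he e1) (fun y b y1 => ?_)
    (by omega) (by omega) (Or.inl (by omega)) (fun w b w2 k => ?_)
    (fun i => rf h (e i) 2) (fun i => blk_of_loc d h le_rfl (rf_mem_loc h (he i) _)) (fun i => ?_)
    (fun i => rk_rf h _ _) (fun i => ⟨e i, he i, ?_⟩) fun i j => hO _ ?_
      (mul_mem (rf_dstab h d (he i) _) (rf_dstab h d (he j) _))
  · obtain ⟨i, x, hx, c⟩ := exists_blk_ne d y1
    exact ⟨i, x, hx, line_ns h d (h1 i) ((D i).sub_mem (b.blk i x hx) hx) (sub_ne_zero.mpr c)⟩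
  · obtain ⟨J, e', α, β, c1, c2, c3⟩ := rk_count d k w2 (π := 1) b.blk
      fun i => Submodule.one_le_finrank_iff.mpr (d.ne i)
    have := c3 fun _ => rfl
    obtain ⟨i, hi⟩ := Finset.card_pos.mp (show 0 < J.card by omega)
    exact ⟨i, _, he i, e0 i, e' i hi _ (he i)⟩
  · rw [mul_eq_one_iff_eq_inv, (ad i).inv, map_ofNat]
  · simp [(ad i).apply, e1, t2, ne_zero_of_Q h (e0 i)]
  · simpa [e1, one_add_one_eq_two] using pair_om hH h (e0 i) (e0 j) (z := -1) (by simp)

theorem herm_even10 (t2 : (2 : F) = 0) : M ≤ dstab D := fun g hg => by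
  classical
  by_contra hg'
  have MI := hM.trans h.om_le_isom
  have e0 : ∀ i, B (e i) (e i) ≠ 0 := fun i => by simp [e1]
  have ne : ∀ i, e i ≠ 0 := fun i => ne_zero_of_Q h (e0 i)
  have t2' : (1 : F) + 1 = 0 := by rw [one_add_one_eq_two, t2]
  have ad : ∀ v, B v v = 0 → Adm h v 1 := fun v e => by simp [Adm, e, t2']
  have ee : ∀ i j, i ≠ j → B (e i) (e j) = 0 := fun i j c => d.orth i j c _ (he i) _ (he j)
  have q0 : ∀ i j z, i ≠ j → σ z * z = 1 → B (e i + z • e j) (e i + z • e j) = 0 := fun i j z c hz => by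
    simp only [map_add, LinearMap.add_apply, map_smulₛₗ, LinearMap.smul_apply, e1, ee i j c,
      ee j i c.symm, smul_eq_mul, RingHom.id_apply]
    linear_combination hz + t2'
  have root : ∀ i j z, i ≠ j → σ z * z = 1 → rf h (e i + z • e j) 1 ∈ M := fun i j z c hz => by
    refine hO _ (rf_eq_eich h (q0 i j z c hz) (c := 1) (by simp [t2']) ▸
      h.eich_mem_om (q0 i j z c hz) (by simp) (by simp [t2'])) (d.mem_dstab fun l => ?_)
    by_cases a : l = i
    · refine ⟨j, fun x hx => ?_⟩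
      obtain ⟨s, rfl⟩ := line_mem d (h1 i) (he i) (ne i) (a ▸ hx)
      simpa [(ad _ (q0 i j z c hz)).apply, e1, ee j i c.symm, smul_smul] using
        (D j).smul_mem _ (he j)
    by_cases b : l = j
    · refine ⟨i, fun x hx => ?_⟩
      obtain ⟨s, rfl⟩ := line_mem d (h1 j) (he j) (ne j) (b ▸ hx)
      simpa [(ad _ (q0 i j z c hz)).apply, e1, ee i j c, smul_smul, mul_assoc, hz] using
        (D i).smul_mem _ (he i)
    · exact ⟨l, fun x hx => by
        rwa [rf_fix h _ _ (by simp [d.orth i l (Ne.symm a) _ (he i) x hx,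
          d.orth j l (Ne.symm b) _ (he j) x hx])]⟩
  have full : ∀ v, B v v = 0 → rf h v 1 ∈ M → ∀ i j l, i ≠ j → i ≠ l → j ≠ l → p i v ≠ 0 →
      p j v ≠ 0 → p l v ≠ 0 → ∀ o, p o v ≠ 0 := fun v qv m i j l a1 a2 a3 b1 b2 b3 o ho =>
    rf_not_three d (ad v qv) one_ne_zero a1 a2 a3 b1 b2 b3 (star _ m o _ (he o) (e0 o)
      (rf_fix h _ _ (h.refl ((p_eq_zero h d).mp ho _ (he o)))))
  let f : Fin 7 ↪ Fin t := Fin.castLEEmb (by omega)
  have fi : ∀ a b, f a = f b ↔ a = b := fun a b => f.injective.eq_iff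
  obtain ⟨z, z1, z2⟩ := exists_zeta hq
  have z1' : σ (σ z) * σ z = 1 := by rw [hH.invol, mul_comm, z1]
  have n3 : 1 - z ≠ 0 := sub_ne_zero.mpr (by rintro rfl; simp at z2)
  obtain ⟨v, qv, m, fv⟩ : ∃ v, B v v = 0 ∧ rf h v 1 ∈ M ∧ ∀ o, p o v ≠ 0 := by
    by_contra hc
    have k : ∀ z, σ z * z = 1 → (Finset.univ.filter (p · (g (e (f 0) + z • e (f 1))) ≠ 0)).card ≤ 2 :=
      fun z hz => by
      by_contra c
      obtain ⟨i, hi, j, hj, l, hl, a1, a2, a3⟩ := Finset.two_lt_card.mp (not_le.mp c)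
      have a := ((MI hg).1 _ _).trans (q0 (f 0) (f 1) z (by simp [fi]) hz)
      have b := rf_map MI hg (root (f 0) (f 1) z (by simp [fi]) hz)
      exact hc ⟨_, a, b, full _ a b i j l a1 a2 a3 (by simpa using hi) (by simpa using hj)
        (by simpa using hl)⟩
    have k1 := k 1 (by simp)
    have k2 := k z z1
    refine hg' (inv_mem_iff.mp (herm_c10 hq hH h d hO hM star h1 ht he e1 (inv_mem hg)
      (Finset.univ.filter (p · (g (e (f 0) + (1 : F) • e (f 1))) ≠ 0) ∪
        Finset.univ.filter (p · (g (e (f 0) + z • e (f 1))) ≠ 0))ᶜ ?_ fun s hs _ fs =>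
      star _ (mul_mem (mul_mem (inv_mem hg) hs) (inv_mem (inv_mem hg))) _ _ (he (f 1)) (e0 _) ?_))
    · have := Finset.card_union_le (Finset.univ.filter (p · (g (e (f 0) + (1 : F) • e (f 1))) ≠ 0))
        (Finset.univ.filter (p · (g (e (f 0) + z • e (f 1))) ≠ 0))
      rw [Finset.card_compl, Fintype.card_fin]; omega
    · rw [inv_inv, LinearEquiv.mul_apply, LinearEquiv.mul_apply, fix_of_p d fs, inv_app]
      intro i hi
      simp only [Finset.mem_compl, Finset.mem_union, Finset.mem_filter, Finset.mem_univ, true_and,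
        not_or, not_not, map_add, map_smul] at hi
      refine (smul_eq_zero.mp (show (1 - z) • p i (g (e (f 1))) = 0 from ?_)).resolve_left n3
      rw [sub_smul, eq_neg_of_add_eq_zero_right hi.1, eq_neg_of_add_eq_zero_right hi.2, sub_self]
  have pe : ∀ a i, p i a = B (e i) a • e i := fun a i => by
    simpa [e1] using p_line d (h1 i) (he i) (e0 i) a
  have bv : ∀ i, B (e i) v ≠ 0 := fun i c => fv i (by simp [pe, c])
  have ef : ∀ a b, B (e (f a)) (e (f b)) = if a = b then 1 else 0 := fun a b => by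
    split_ifs with c
    · rw [c, e1]
    · exact ee _ _ (by simpa [fi] using c)
  by_cases q2 : q = 2
  · have N : ∀ x : F, x ≠ 0 → σ x * x = 1 := fun x hx => by
      have := FiniteField.pow_card_sub_one_eq_one x hx
      rw [← Nat.card_eq_fintype_card, hq.card, q2] at this
      rw [hq.eq, q2, ← pow_succ]; exact this
    have tr : z + σ z = 1 := by
      have := N (z + σ z) fun c => z2 (by linear_combination c - z * t2)
      rw [map_add, hH.invol] at this
      exact sub_eq_zero.mp (pow_eq_zero_iff (n := 2) (by simp) |>.mp (by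
        linear_combination this + (1 - z - σ z) * t2))
    have a1 : ∀ j z, σ z * z = 1 → Adm h (e j) (1 - z) := fun j z hz => by
      simpa [e1] using adm_herm (h := h) (e0 j) hz
    let δ := fun a b => rf h (e (f a)) (1 - z) * rf h (e (f b)) (1 - σ z)
    have mδ : ∀ a b, δ a b ∈ M := fun a b => hO _ (by simpa [e1] using pair_om hH h (e0 _) (e0 _) z1)
      (mul_mem (rf_dstab h d (he _) _) (rf_dstab h d (he _) _))
    have k0 := mul_mem (mδ 0 1) (mul_mem (mδ 2 3) (mδ 4 5))
    have k1 : ∀ a, B (e (f a)) ((δ 0 1 * (δ 2 3 * δ 4 5)) v) =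
        ![z, σ z, z, σ z, z, σ z, 1] a * B (e (f a)) v := fun a => by
      fin_cases a <;>
        simp [δ, (a1 _ _ z1).apply, (a1 _ _ z1').apply, ef, sub_mul]
    have k2 : B v ((δ 0 1 * (δ 2 3 * δ 4 5)) v) = 1 := by
      have n : ∀ i, B (e i) v * B v (e i) = 1 := fun i => by
        rw [← hH.symm (e i) v, mul_comm, N _ (bv i)]
      simp only [δ, LinearEquiv.mul_apply, (a1 _ _ z1).apply, (a1 _ _ z1').apply, map_sub, map_smul,
        ef, qv, smul_eq_mul, Fin.reduceEq, if_false, mul_zero, sub_zero, mul_assoc, n]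
      linear_combination 3 * tr - 2 * t2
    generalize δ 0 1 * (δ 2 3 * δ 4 5) = k at k0 k1 k2
    have k3 : ∀ a, p (f a) (rf h v 1 (k v)) =
        ((![z, σ z, z, σ z, z, σ z, 1] a - 1) * B (e (f a)) v) • e (f a) := fun a => by
      rw [pe, (ad v qv).apply, k2, map_sub, k1]; simp [sub_mul]
    have n4 := sub_ne_zero.mpr (sub_ne_zero.mp n3).symm
    refine full _ (((MI (mul_mem m k0)).1 v v).trans qv) (rf_map MI (mul_mem m k0) m) (f 0) (f 2) (f 4)
      (by simp [fi]) (by simp [fi]) (by simp [fi]) ?_ ?_ ?_ (f 6) ?_ <;>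
      simp [k3, n4, bv, ne]
  have h4 : 4 ≤ q := by
    have := hq.two_le
    have := (FiniteField.even_card_iff_char_two (F := F)).mp
      (CharP.ringChar_of_prime_eq_zero Nat.prime_two (by simpa using t2))
    rw [← Nat.card_eq_fintype_card, hq.card] at this
    by_contra c
    obtain rfl : q = 3 := by omega
    simp at this
  have bv' := fun i => h.refl_ne (bv i)
  obtain ⟨x, x1, x2, -⟩ := exists_norm_avoid hq h4 (bv' (f 0)) (bv' (f 1)) 0
  obtain ⟨y, y1, y2, y3⟩ := exists_norm_avoid hq h4 (bv' (f 2)) (bv' (f 3))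
    (σ (B v (e (f 0)) + x * B v (e (f 1))) * (B v (e (f 0)) + x * B v (e (f 1))))
  have qu := q0 (f 0) (f 1) x (by simp [fi]) x1
  have qw := q0 (f 2) (f 3) y (by simp [fi]) y1
  have mu := root (f 0) (f 1) x (by simp [fi]) x1
  have mw := root (f 2) (f 3) y (by simp [fi]) y1
  have x0 : x ≠ 0 := by rintro rfl; simp at x1
  have y0 : y ≠ 0 := by rintro rfl; simp at y1
  have eu : ∀ a, B (e (f a)) (e (f 0) + x • e (f 1)) = ![1, x, 0, 0, 0, 0, 0] a := fun a => by
    fin_cases a <;> simp [ef]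
  have ew : ∀ a, B (e (f a)) (e (f 2) + y • e (f 3)) = ![0, 0, 1, y, 0, 0, 0] a := fun a => by
    fin_cases a <;> simp [ef]
  have uw : B (e (f 0) + x • e (f 1)) (e (f 2) + y • e (f 3)) = 0 := by simp [ef]
  rw [← smul_eq_mul x, ← map_smul, ← map_add] at x2 y3
  rw [← smul_eq_mul y, ← map_smul, ← map_add] at y2 y3
  generalize e (f 0) + x • e (f 1) = u at *
  generalize e (f 2) + y • e (f 3) = w at *
  have wu := h.refl uw
  have b1 : B v u ≠ 0 := right_ne_zero_of_mul x2
  have b2 : B v w ≠ 0 := right_ne_zero_of_mul y2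
  have inv : ∀ v, B v v = 0 → rf h v 1 * rf h v 1 = 1 := fun v e => by
    rw [mul_eq_one_iff_eq_inv, (ad v e).inv, map_one]
  have ea : ∀ r, (rf h u 1 * rf h w 1) r = r - B u r • u - B w r • w := fun r => by
    rw [LinearEquiv.mul_apply, (ad u qu).apply, (ad w qw).apply]; simp [uw]; abel
  let W := Submodule.span F {u, w, v}
  have l1 : ∀ r ∈ ({u, w, v} : Set V), rf h r 1 ∈ Loc B (fun x => B x x) W := fun r hr =>
    rf_mem_loc h (Submodule.subset_span hr) _
  have u0 : B u (e (f 0)) = 1 := by rw [← hH.symm, eu]; simp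
  have u2 : B u (e (f 2)) = 0 := by rw [← hH.symm, eu]; simp
  have w0 : B w (e (f 0)) = 0 := by rw [← hH.symm, ew]; simp
  have w2 : B w (e (f 2)) = 1 := by rw [← hH.symm, ew]; simp
  have : Finite V := Module.finite_of_finite F
  have : Finite (V ≃ₗ[F] V) := DFunLike.finite _
  rcases dihedral (M := M ⊓ Loc B (fun x => B x x) W) (a := rf h u 1 * rf h w 1) (b := rf h v 1)
    (mul_mem ⟨mu, l1 u (by simp)⟩ ⟨mw, l1 w (by simp)⟩) ⟨m, l1 v (by simp)⟩ (by
      ext r; rw [LinearEquiv.mul_apply, ea, ea]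
      simp only [map_sub, map_smul, qu, qw, uw, wu, smul_zero, sub_zero, LinearEquiv.coe_one, id]
      rw [← sub_eq_zero, ← show (-(B u r) * 2) • u + (-(B w r) * 2) • w = 0 by simp [t2]]
      module) (inv v qv) with ⟨n, -, c⟩ | ⟨s, ⟨hs, ls⟩, s1, s2, sa, sb, -⟩
  · obtain ⟨Y, a, b⟩ := (rk_rf h v 1).conj n⁻¹
    rw [← c, show n⁻¹ * (n * (rf h u 1 * rf h w 1) * n⁻¹) * n⁻¹⁻¹ = rf h u 1 * rf h w 1 by group] at b
    obtain ⟨r, hr⟩ := finrank_le_one_iff.mp a
    obtain ⟨α, c1⟩ := hr ⟨_, b (e (f 0))⟩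
    obtain ⟨β, c2⟩ := hr ⟨_, b (e (f 2))⟩
    have c1 := congrArg (B (e (f 0))) (congrArg Subtype.val c1)
    have c3 := congrArg (B (e (f 0))) (congrArg Subtype.val c2)
    have c2 := congrArg (B (e (f 2))) (congrArg Subtype.val c2)
    simp [ea, u0, u2, w0, w2, eu, ew] at c1 c2 c3
    rcases c3 with c3 | c3 <;> simp [c3] at c1 c2
  have sI := MI hs
  have si : s⁻¹ = s := inv_eq_of_mul_eq_one_right s2
  have ss : ∀ r, s (s r) = r := fun r => by rw [← LinearEquiv.mul_apply, s2]; rfl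
  have sB : ∀ a b, B a (s b) = B (s a) b := fun a b => by rw [← isom_inv sI, si]
  have sv : s v = v := by
    have k := congrArg (· (e (f 0))) sb
    simp only [LinearEquiv.mul_apply, (ad v qv).apply, one_mul, map_sub, map_smul, sub_right_inj] at k
    have k1 : s v = (B v (s (e (f 0))) / B v (e (f 0))) • v := by
      rw [div_eq_inv_mul, mul_smul, ← k, smul_smul, inv_mul_cancel₀ (bv' _), one_smul]
    generalize B v (s (e (f 0))) / B v (e (f 0)) = c at k1
    have k2 := ss v
    rw [k1, map_smul, k1, smul_smul] at k2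
    have := smul_left_injective F (fun c => bv (f 0) (by simp [c])) (k2.trans (one_smul F v).symm)
    rw [k1, show c = 1 from sub_eq_zero.mp (pow_eq_zero_iff (n := 2) (by simp) |>.mp (by
      linear_combination this + (1 - c) * t2)), one_smul]
  have k : ∀ r, B u r • s u + B w r • s w = B u (s r) • u + B w (s r) • w := fun r => by
    have k := congrArg (· r) sa
    simp only [LinearEquiv.mul_apply s, LinearEquiv.mul_apply _ s, ea, map_sub, map_smul, sub_sub,
      sub_right_inj] at k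
    simpa using k
  have k0 := k (e (f 0))
  have k2 := k (e (f 2))
  simp only [u0, u2, w0, w2, one_smul, zero_smul, add_zero, zero_add] at k0 k2
  have c1 : σ (B u (s (e (f 0)))) = B u (s (e (f 0))) := by
    nth_rewrite 2 [sB]; rw [k0]; simp [u0, w0]
  have c2 : σ (B u (s (e (f 2)))) = B w (s (e (f 0))) := by
    rw [sB w, k2]; simp [u0, w0]
  generalize B u (s (e (f 0))) = A at *
  generalize B w (s (e (f 0))) = C at *
  generalize B u (s (e (f 2))) = E at *
  generalize B w (s (e (f 2))) = G at *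
  have c3 : A * A + C * E = 1 := by
    have := congrArg (B (e (f 0))) (ss u)
    rw [k0, map_add, map_smul, map_smul, k0, k2] at this
    simpa [eu, ew] using this
  have c4 : A * B v u + C * B v w = B v u := by simpa [k0, sv] using sB v u
  have c5 : E * B v u + G * B v w = B v w := by simpa [k2, sv] using sB v w
  have c6 := congrArg σ c4
  simp only [map_add, map_mul, c1, ← c2, hH.invol] at c6
  have C0 : C * E = 0 := mul_right_cancel₀ (sub_ne_zero.mpr y3) (by
    have a1 : C * B v w = (1 - A) * B v u := by linear_combination c4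
    have a2 : E * σ (B v w) = (1 - A) * σ (B v u) := by linear_combination c6
    linear_combination (E * σ (B v w)) * a1 + ((1 - A) * B v u) * a2 -
      σ (B v u) * B v u * c3 + (σ (B v u) * B v u * (A * A - A)) * t2)
  have E0 : E = 0 := by
    rw [← c2] at C0; simpa using C0
  have su : s u = u := by
    rw [E0, map_zero] at c2
    rw [k0, ← c2, mul_right_cancel₀ b1 (show A * B v u = 1 * B v u by
      linear_combination c4 + B v w * c2)]
    simp
  have sw : s w = w := by
    rw [k2, E0, mul_right_cancel₀ b2 (show G * B v w = 1 * B v w by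
      linear_combination c5 - B v u * E0)]
    simp
  have im : ∀ r, ∃ α β : F, s r - r = α • u + β • w ∧ α * B v u + β * B v w = 0 := fun r => by
    obtain ⟨α, β, γ, c⟩ := Submodule.mem_span_triple.mp (loc_sub_mem h ls r)
    have a := congrArg (B u) c
    have b := congrArg (B v) c
    simp only [map_add, map_smul, map_sub, qu, uw, qv, sB, su, sv, sub_self, smul_eq_mul, mul_zero,
      zero_add, add_zero] at a b
    rw [(mul_eq_zero.mp a).resolve_right (h.refl_ne b1), zero_smul, add_zero] at c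
    exact ⟨α, β, c.symm, b⟩
  obtain ⟨π, hπ⟩ := dstab_perm (star s hs _ _ (he (f 4)) (e0 _) (by
    by_contra c
    obtain ⟨r, hr⟩ := h.exists_ne (sub_ne_zero.mpr c)
    obtain ⟨α, β, c, -⟩ := im r
    refine hr ?_
    rw [map_sub, LinearMap.sub_apply, ← sB, ← map_sub, c]
    simp [eu, ew]))
  obtain ⟨i, r, hr, c⟩ := exists_blk_ne d s1
  obtain ⟨α, β, c1, c2⟩ := im r
  have α0 : α ≠ 0 := by
    rintro rfl
    rw [show β = 0 by simpa [b2] using c2] at c1
    exact c (by simpa [sub_eq_zero] using c1)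
  have β0 : β ≠ 0 := by rintro rfl; simp [α0, b1] at c2
  have k5 : ∀ a, f a ≠ i → p (f a) (s r) =
      (α * ![1, x, 0, 0, 0, 0, 0] a + β * ![0, 0, 1, y, 0, 0, 0] a) • e (f a) := fun a ha => by
    rw [pe, eq_add_of_sub_eq c1]
    simp only [map_add, map_smul, eu, ew, d.orth _ i ha _ (he _) r hr, smul_eq_mul, add_zero]
  by_cases c : f 0 = i ∨ f 1 = i
  · have a : f 2 ≠ i ∧ f 3 ≠ i := by rcases c with rfl | rfl <;> simp [fi]
    exact d.notMem (i := f 2) (j := f 3) (by simp [fi]) (by simp [k5 _ a.1, β0, ne])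
      (by simp [k5 _ a.2, β0, y0, ne]) _ (hπ i r hr)
  · push Not at c
    exact d.notMem (i := f 0) (j := f 1) (by simp [fi]) (by simp [k5 _ c.1, α0, ne])
      (by simp [k5 _ c.2, α0, x0, ne]) _ (hπ i r hr)

omit hO hM star h1 ht he e1 in
/-- Maximality of stabilisers of orthogonal decompositions of unitary spaces. -/
theorem max_herm10 (hn : 10 ≤ finrank F V) (ht : 2 ≤ t) (hex : ∀ i, ¬ (finrank F (D i) = 2 ∧ q = 2)) :
    IsMaximalIn h.Om (dstab D ⊓ h.Om) := by
  refine max_of d h (by omega) ht fun M hO hM g hg hg' => by_contra fun hc => hg' ?_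
  have star := star_herm9 hq hH h d (by omega) ht hex hO hM hc
  let i : Fin t := ⟨0, by omega⟩
  by_cases h1 : finrank F (D i) ≤ 1
  swap
  · exact herm_two hq hH h d hO hM star ht (fun j => by rw [← d.finrank_eq i j]; omega) hg
  have := finrank_eq_mul d i
  have : t * finrank F (D i) ≤ t * 1 := Nat.mul_le_mul_left _ h1
  have h1' : ∀ j, finrank F (D j) ≤ 1 := fun j => d.finrank_eq i j ▸ h1
  choose e he e1 using fun j => herm_val hH h (d.nd j)
    (Submodule.one_le_finrank_iff.mpr (d.ne j)) (map_one σ)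
  by_cases t2 : (2 : F) = 0
  · exact herm_even10 hq hH h d hO hM star h1' (by omega) he e1 t2 hg
  · exact herm_odd10 hq hH h d hO hM star h1' (by omega) he e1 t2 hg

end Cfsg.Agent.H10.Ag
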