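import Mathlib
import Cfsg.Agent.H10.Ag1

/-!
Subfield subgroups in dimension at least seven: the types of form.
-/

set_option autoImplicit false

namespace Cfsg.Agent.H10

open Module H11 Cfsg.Geo

variable {F : Type*} [Field F] {K : Subfield F} {θ : F ≃+* F} {ι : Type} {σ : F →+* F}
  {σ₀ : K →+* K}

namespace Rat

variable {ε κ : F} {τ : F →+ F} {B : (ι → F) →ₛₗ[σ] (ι → F) →ₗ[F] F} {Q : (ι → F) → F}
  {ε₀ κ₀ : K} {τ₀ : K →+ K} {B₀ : (ι → K) →ₛₗ[σ₀] (ι → K) →ₗ[K] K} {Q₀ : (ι → K) → K} {ζ : F}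
  [Fintype ι] [DecidableEq ι]
  {R : Rat θ ε κ τ B Q ε₀ κ₀ τ₀ B₀ Q₀ ζ} {M : Subgroup ((ι → F) ≃ₗ[F] (ι → F))}
  (b : R.Bad7 M) [Finite F]
include b

omit b in
theorem exists_ts3 (R : Rat θ ε κ τ B Q ε₀ κ₀ τ₀ B₀ Q₀ ζ) (hn : 7 ≤ Fintype.card ι) {u : ι → K}
    (hu : Q₀ u = 0) : ∃ T, TotSing B₀ Q₀ T ∧ u ∈ T ∧ 3 ≤ finrank K T := by
  obtain ⟨T, a, p, -, q⟩ := R.cl₀.exists_totSing_ge (Z := ⊤) (k := 3)
    (R.cl₀.form.totSing_span (s := {u}) (by rintro _ rfl; exact hu) (by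
      rintro _ rfl _ rfl; exact R.cl₀.diag0 hu)) le_top (by simpa using hn)
  exact ⟨T, a, p (Submodule.subset_span (by simp)), q⟩

omit b [DecidableEq ι] [Finite F] in
theorem ts_pair (R : Rat θ ε κ τ B Q ε₀ κ₀ τ₀ B₀ Q₀ ζ) {u v : ι → K} (hu : Q₀ u = 0) (hv : Q₀ v = 0)
    (huv : B₀ u v = 0) (h0 : u ≠ 0) (h1 : v ∉ Submodule.span K {u}) :
    TotSing B₀ Q₀ (Submodule.span K {u, v}) ∧ finrank K (Submodule.span K {u, v}) = 2 := by
  refine ⟨R.cl₀.form.totSing_span (by rintro _ (rfl | rfl) <;> assumption) (by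
      rintro _ (rfl | rfl) _ (rfl | rfl)
      exacts [R.cl₀.diag0 hu, huv, R.cl₀.refl huv, R.cl₀.diag0 hv]), ?_⟩
  have := Submodule.finrank_lt_finrank_of_lt (s := Submodule.span K {u})
    (t := Submodule.span K {u, v}) (lt_of_le_of_ne (Submodule.span_mono (by simp))
      fun e => h1 (e ▸ Submodule.subset_span (by simp)))
  have := finrank_span_pair_le (F := K) u v
  rw [finrank_span_singleton h0] at *
  omega

theorem Bad7.type2 (h2 : finrank K F = 2) (h9 : 9 ≤ Fintype.card ι ∨ ∀ x, Q₀ x = 0)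
    {g : (ι → F) ≃ₗ[F] (ι → F)} (hg : g ∈ M) {e : ι → K}
    (he : Q₀ e = 0) : th θ (g (jv K e)) ∈ Submodule.span F {g (jv K e)} := by
  have hn := b.hn
  obtain ⟨T, a1, a2, a3⟩ := R.exists_ts3 hn he
  refine b.point_of_lines hg a1 a3 a2 fun x _ _ Z hZ => ?_
  have d1 := finrank_le_inf_ker_add ⊤ (resJ K (B (g (jv K e))))
  have d2 := finrank_le_inf_ker_add (⊤ ⊓ LinearMap.ker (resJ K (B (g (jv K e)))))
    (resJ K (B (g (jv K x))))
  have d3 : ∀ S : Submodule K F, finrank K S ≤ 2 := fun S => h2 ▸ Submodule.finrank_le S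
  have d4 : finrank K (⊤ : Submodule K (ι → K)) = Fintype.card ι := by simp
  have d5 := d3 (Submodule.map (resJ K (B (g (jv K e)))) ⊤)
  have d6 := d3 (Submodule.map (resJ K (B (g (jv K x))))
    (⊤ ⊓ LinearMap.ker (resJ K (B (g (jv K e))))))
  rcases h9 with h9 | h9
  · obtain ⟨z, p, q, s⟩ := R.cl₀.exists_sing_notMem (Z := Z) (W := ⊤ ⊓ LinearMap.ker
      (resJ K (B (g (jv K e)))) ⊓ LinearMap.ker (resJ K (B (g (jv K x))))) (by omega)
    exact ⟨z, q, s, p.1.2, p.2⟩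
  · obtain ⟨z, p, q⟩ := exists_mem_notMem (Z := Z) (W := ⊤ ⊓ LinearMap.ker
      (resJ K (B (g (jv K e)))) ⊓ LinearMap.ker (resJ K (B (g (jv K x))))) (by omega)
    exact ⟨z, q, h9 z, p.1.2, p.2⟩

theorem Bad7.typeT (hq : NQ τ₀) (hσ : σ = RingHom.id F ∨ ∃ t ∈ K, σ t ≠ t)
    {g : (ι → F) ≃ₗ[F] (ι → F)} (hg : g ∈ M) {e : ι → K} (he : Q₀ e = 0) :
    th θ (g (jv K e)) ∈ Submodule.span F {g (jv K e)} := by
  have hn := b.hn
  obtain ⟨c₀, hc₀, hc⟩ := hq
  have hc' : τ₀ c₀ = Q₀ 0 := by rw [hc, R.cl₀.Q_zero]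
  have ht := b.conj hg he (x := 0) (by simp) hc'
  have hw : Q (g (jv K e)) = 0 := by rw [(b.o.1 hg).2, R.sing he]
  rw [map_zero, map_zero, smul_zero] at ht
  generalize g (jv K e) = w at ht hw
  set c : F := c₀ * ζ with hcd
  have c0 : c ≠ 0 := by simp [hcd, hc₀, R.ne]
  by_cases hw0 : w = 0
  · simp [hw0]
  obtain ⟨u, hu, huw⟩ := R.exists_sing_ne (by omega) hw0
  obtain ⟨u', hu', huu', -, hne⟩ := R.exists_cfg hn (e := u) (u := u)
  obtain ⟨t1, t2⟩ := R.ts_pair hu hu' huu' (by rintro rfl; simp at huw) (by simpa using hne)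
  refine b.point ht hw c0 (R.many_of hn t1 t2 fun U a1 a0 a3 => ?_)
  have a2 : u ∈ U := a0 (Submodule.subset_span (by simp))
  suffices H : ∃ S ≤ U, 2 ≤ finrank K S ∧ ∀ x ∈ S, B w (jv K x) = 0 by
    obtain ⟨S, p, q, s⟩ := H
    by_contra hc
    push Not at hc
    have := Submodule.eq_of_le_of_finrank_le (S₁ := S) (S₂ := Submodule.span K {u, u'})
      (fun x hx => by_contra fun k => hc x (p hx) k (s x hx) (by simp)) (by omega)
    exact huw (s u (this ▸ Submodule.subset_span (by simp)))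
  by_cases hA : ∀ x ∈ U, B w (jv K x) / B w (jv K u) ∈ K
  · have := finrank_le_of_prop U (B w) (a := B w (jv K u))
      fun x hx => ⟨_, hA x hx, by field_simp⟩
    exact ⟨U ⊓ LinearMap.ker (resJ K (B w)), inf_le_left, by omega, fun x hx => hx.2⟩
  obtain ⟨x, hx, hxK⟩ : ∃ x ∈ U, σ (B w (jv K x) / B w (jv K u)) * (B w (jv K x) / B w (jv K u))
      ∉ K := by
    by_contra hc
    push Not at hc hA
    obtain ⟨x, hx, hxK⟩ := hA
    refine hxK (mem_of_norms R.fix R.comm hσ (hc x hx) fun t ht => ?_)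
    have e : B w (jv K (u + (⟨t, ht⟩ : K) • x)) / B w (jv K u) =
        1 + t * (B w (jv K x) / B w (jv K u)) := by
      rw [map_add, jv_smul, map_add, map_smul, smul_eq_mul]; field_simp
    rw [← e]; exact hc _ (U.add_mem a2 (U.smul_mem _ hx))
  have s0 := R.cl.sigma_ne huw
  obtain ⟨h, hh, l, _, hl, -, p1, p2⟩ := dickson2 (U := ext U)
    (R := ext U ⊓ LinearMap.ker (B w) ⊓ LinearMap.ker (B 0)) (N := (B w).smulRight (-c • w)) ht
    (fun v => by rw [R.cl.eich_apply hw (by simp)]; simp; module)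
    (fun v _ => by simp [R.cl.diag0 hw]) (fun v hv => by simp [show B w v = 0 from hv.1.2])
    (a := c * c * B (jv K u) w * B w (jv K u)) (by simp [c0, huw, R.cl.refl_ne huw]) hxK (by
      have k : ∀ z ∈ U, ∃ s ∈ M, (∀ r ∈ ext U ⊓ LinearMap.ker (B w) ⊓ LinearMap.ker (B 0), s r = r) ∧
          ∀ v ∈ ext U, s v = v ∧ s ((B w).smulRight (-c • w) v) -
            (c * c * B (jv K z) w * B w (jv K z)) • v - (B w).smulRight (-c • w) v ∈
            ext U ⊓ LinearMap.ker (B w) ⊓ LinearMap.ker (B 0) := fun z hz => by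
        have f : ∀ v ∈ ext U, R.E z 0 c₀ v = v := fun v hv =>
          R.cl.eich_fix _ (R.ext_perp a1 hz hv) (by simp)
        refine ⟨_, b.o.2 z 0 c₀ (a1.1 z hz) (by simp) hc', fun r hr => f r hr.1.1,
          fun v hv => ⟨f v hv, ?_⟩⟩
        have : R.E z 0 c₀ ((B w).smulRight (-c • w) v) - (c * c * B (jv K z) w * B w (jv K z)) • v -
            (B w).smulRight (-c • w) v = (c * c * B w v * B (jv K z) w) • jv K z -
              (c * c * B (jv K z) w * B w (jv K z)) • v := by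
          rw [E, R.cl.eich_apply (R.sing (a1.1 z hz)) (by simp), ← hcd]; simp; module
        rw [this]
        exact ⟨⟨Submodule.sub_mem _ (Submodule.smul_mem _ _ (mem_ext hz)) (Submodule.smul_mem _ _ hv),
          by simp; ring⟩, by simp⟩
      rintro _ (rfl | rfl)
      · exact k u a2
      · convert k x hx using 8
        rw [R.cl.symm w (jv K x), R.cl.symm w (jv K u), map_div₀]; field_simp)
  have := b.homology a1 a3 hh (inf_le_left.trans inf_le_left) hl p1 fun v hv => (p2 v hv).1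
  have d0 := finrank_ext U
  have d1 := finrank_le_inf_ker (ext U) (B w)
  rw [show B 0 = 0 from map_zero _, LinearMap.ker_zero, inf_top_eq] at this
  exact ⟨pre K (ext U ⊓ LinearMap.ker (B w)), fun x hx => pre_ext U ▸ (hx.1 : x ∈ pre K (ext U)),
    by omega, fun x hx => hx.2⟩

theorem Bad7.typeO (hσ : σ = RingHom.id F) (hε : ε = 1) {g : (ι → F) ≃ₗ[F] (ι → F)} (hg : g ∈ M)
    {e : ι → K} (he0 : e ≠ 0) (he : Q₀ e = 0) :
    th θ (g (jv K e)) ∈ Submodule.span F {g (jv K e)} := by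
  have hn := b.hn
  subst hσ hε
  have sy : ∀ x y, B x y = B y x := fun x y => by rw [R.cl.symm]; simp
  obtain ⟨T, t1, t2, t3⟩ := R.exists_ts3 hn he
  refine b.point_of_lines hg t1 t3 t2 fun x hx hxe => ?_
  have ht := b.conj hg he (c := 0) (t1.2 e t2 x hx) (by simp [t1.1 x hx])
  have hw : Q (g (jv K e)) = 0 := by rw [(b.o.1 hg).2, R.sing he]
  have hy : B (g (jv K x)) (g (jv K x)) = 0 := by rw [(b.o.1 hg).1, R.perp (t1.2 x hx x hx)]
  have hwy : B (g (jv K e)) (g (jv K x)) = 0 := by rw [(b.o.1 hg).1, R.perp (t1.2 e t2 x hx)]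
  have hw0 : g (jv K e) ≠ 0 := by simpa using jv_ne he0
  have hyw : g (jv K x) ∉ Submodule.span F {g (jv K e)} := by
    simpa using notMem_span_map g (s := {jv K e}) fun hc => hxe (mem_span_of_jv (by simpa))
  generalize g (jv K e) = w at *
  generalize g (jv K x) = y at *
  have hww := R.cl.diag0 hw
  have z0 := R.ne
  let N : (ι → F) →ₗ[F] (ι → F) := (B y).smulRight (ζ • w) - (B w).smulRight (ζ • y)
  have hN : ∀ v, N v = (B y v * ζ) • w - (B w v * ζ) • y := fun v => by simp [N, smul_smul]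
  have N0 : ∀ v, N v = 0 → B w v = 0 ∧ B y v = 0 := fun v hv => by
    rw [hN, sub_eq_zero] at hv
    have : B w v = 0 := by
      by_contra hc
      exact hyw ((Submodule.smul_mem_iff _ (mul_ne_zero hc z0)).mp
        (hv ▸ Submodule.smul_mem _ _ (Submodule.mem_span_singleton_self w)))
    simpa [this, z0, hw0] using hv
  obtain ⟨u, hu, huw⟩ := R.exists_sing_ne (by omega) hw0
  obtain ⟨u', hu', huu', ha⟩ := R.exists_sing_perp_ne (by omega) (e := u)
    (by rintro rfl; simp at huw) hu (w := N (jv K u)) fun hc => by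
      obtain ⟨t, ht⟩ := Submodule.mem_span_singleton.mp hc
      have := congrArg (B w) ht
      rw [hN] at this
      simp [hww, hwy, huw] at this
      exact huw (N0 _ (by rw [← ht, this, zero_smul])).1
  have sk : ∀ v, B (N v) v = 0 := fun v => by simp [hN]; ring
  obtain ⟨s1, s2⟩ := R.ts_pair hu hu' huu' (by rintro rfl; simp at huw) fun hc => by
    obtain ⟨t, rfl⟩ := Submodule.mem_span_singleton.mp hc
    exact ha (by rw [jv_smul, map_smul, sk, smul_zero])
  refine R.many_of hn s1 s2 fun U a1 a0 a3 => ?_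
  have a2 : u ∈ U := a0 (Submodule.subset_span (by simp))
  have a2' : u' ∈ U := a0 (Submodule.subset_span (by simp))
  suffices H : ∃ S ≤ U, 1 ≤ finrank K S ∧ ∀ x ∈ S, B w (jv K x) = 0 ∧ B y (jv K x) = 0 by
    obtain ⟨S, p, q, s⟩ := H
    obtain ⟨z, z1, z0⟩ := exists_ne_zero_of_finrank q
    refine ⟨z, p z1, fun hc => z0 ?_, s z z1⟩
    obtain ⟨α, β, rfl⟩ := Submodule.mem_span_pair.mp hc
    have k : N (jv K (α • u + β • u')) = 0 := by rw [hN, (s _ z1).1, (s _ z1).2]; simp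
    rw [map_add, jv_smul, jv_smul, map_add, map_smul, map_smul] at k
    have k1 := congrArg (B · (jv K u')) k
    have k2 := congrArg (B · (jv K u)) k
    have k3 : B (N (jv K u')) (jv K u) = -B (N (jv K u)) (jv K u') := by simp [hN]; ring
    simp [sk, k3, ha] at k1 k2
    simp [k1, k2]
  by_cases hA : ∀ z ∈ U, ∀ z' ∈ U, B (N (jv K z)) (jv K z') / B (N (jv K u)) (jv K u') ∈ K
  · have d1 := finrank_le_of_prop U (B (N (jv K u))) (a := B (N (jv K u)) (jv K u'))
      fun z hz => ⟨_, hA u a2 z hz, by field_simp⟩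
    have d2 := finrank_le_of_prop (U ⊓ LinearMap.ker (resJ K (B (N (jv K u))))) (B (N (jv K u')))
      (a := B (N (jv K u)) (jv K u')) fun z hz => ⟨_, hA u' a2' z hz.1, by field_simp⟩
    refine ⟨U ⊓ LinearMap.ker (resJ K (B (N (jv K u)))) ⊓ LinearMap.ker (resJ K (B (N (jv K u')))),
      inf_le_left.trans inf_le_left, by omega, fun z hz => N0 _ ?_⟩
    have p : B (N (jv K u)) (jv K z) = 0 := hz.1.2
    have q : B (N (jv K u')) (jv K z) = 0 := hz.2
    refine (smul_eq_zero.mp ?_).resolve_left ha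
    have : B (N (jv K u)) (jv K u') • N (jv K z) = B (N (jv K u)) (jv K z) • N (jv K u') -
        B (N (jv K u')) (jv K z) • N (jv K u) := by
      simp only [hN]; simp; module
    rw [this, p, q]; simp
  push Not at hA
  obtain ⟨z, hz, z', hz', hK⟩ := hA
  obtain ⟨h, hh, l, _, hl, -, p1, p2⟩ := dickson2 (U := ext U)
    (R := ext U ⊓ LinearMap.ker (B w) ⊓ LinearMap.ker (B y)) (N := N) ht
    (fun v => by rw [R.cl.eich_apply hw (by simp [hwy]), hN]; simp; module)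
    (fun v _ => by simp [hN, hww, hwy, hy, sy y w])
    (fun v hv => by simp [hN, show B w v = 0 from hv.1.2, show B y v = 0 from hv.2])
    (a := ζ * B (N (jv K u)) (jv K u')) (mul_ne_zero z0 ha) hK (by
      have k : ∀ z ∈ U, ∀ z' ∈ U, ∃ s ∈ M,
          (∀ r ∈ ext U ⊓ LinearMap.ker (B w) ⊓ LinearMap.ker (B y), s r = r) ∧
          ∀ v ∈ ext U, s v = v ∧ s (N v) - (ζ * B (N (jv K z)) (jv K z')) • v - N v ∈
            ext U ⊓ LinearMap.ker (B w) ⊓ LinearMap.ker (B y) := fun z hz z' hz' => by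
        have f : ∀ v ∈ ext U, R.E z z' 0 v = v := fun v hv =>
          R.cl.eich_fix _ (R.ext_perp a1 hz hv) (by simp [R.ext_perp a1 hz' hv])
        refine ⟨_, b.o.2 z z' 0 (a1.1 z hz) (a1.2 z hz z' hz') (by simp [a1.1 z' hz']),
          fun r hr => f r hr.1.1, fun v hv => ⟨f v hv, ?_⟩⟩
        have : R.E z z' 0 (N v) - (ζ * B (N (jv K z)) (jv K z')) • v - N v =
            (ζ * B (jv K z') (N v)) • jv K z - (ζ * B (jv K z) (N v)) • jv K z' -
              (ζ * B (N (jv K z)) (jv K z')) • v := by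
          rw [E, R.cl.eich_apply (R.sing (a1.1 z hz)) (R.perp' (a1.2 z hz z' hz') _)]
          simp; module
        rw [this]
        refine ⟨⟨Submodule.sub_mem _ (Submodule.sub_mem _ (Submodule.smul_mem _ _ (mem_ext hz))
          (Submodule.smul_mem _ _ (mem_ext hz'))) (Submodule.smul_mem _ _ hv), ?_⟩, ?_⟩ <;>
        · simp [hN, sy (jv K z) w, sy (jv K z) y, sy (jv K z') w, sy (jv K z') y]; ring
      rintro _ (rfl | rfl)
      · exact k u a2 u' a2'
      · convert k z hz z' hz' using 8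
        field_simp)
  have := b.homology a1 a3 hh (inf_le_left.trans inf_le_left) hl p1 fun v hv => (p2 v hv).1
  have d0 := finrank_ext U
  have d1 := finrank_le_inf_ker (ext U) (B w)
  have d2 := finrank_le_inf_ker (ext U ⊓ LinearMap.ker (B w)) (B y)
  exact ⟨pre K (ext U ⊓ LinearMap.ker (B w) ⊓ LinearMap.ker (B y)),
    fun x hx => pre_ext U ▸ (hx.1.1 : x ∈ pre K (ext U)), by omega, fun x hx => ⟨hx.1.2, hx.2⟩⟩

omit b in
/-- Subfield subgroups are maximal. -/
theorem max_sub7 (R : Rat θ ε κ τ B Q ε₀ κ₀ τ₀ B₀ Q₀ ζ) (hn : 7 ≤ Fintype.card ι) {r : ℕ}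
    (hr : r.Prime) (hc : Nat.card K ^ r = Nat.card F) (hτ : τ = 0 → NQ τ₀)
    (hty : (r = 2 ∧ (9 ≤ Fintype.card ι ∨ ∀ x, Q₀ x = 0)) ∨
      (NQ τ₀ ∧ (σ = RingHom.id F ∨ ∃ t ∈ K, σ t ≠ t)) ∨ (σ = RingHom.id F ∧ ε = 1)) :
    IsMaximalIn R.cl.Om (ratG θ ι ⊓ R.cl.Om) := by
  have hK : 1 < Nat.card K := Finite.one_lt_card
  have hrk : finrank K F = r := Nat.pow_right_injective hK
    ((Module.natCard_eq_pow_finrank (K := K) (V := F)).symm.trans hc.symm)
  obtain ⟨e, he, -, -, he0⟩ := R.exists_cfg (by omega) (e := 0) (u := 0)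
  replace he0 : e ≠ 0 := by rintro rfl; exact he0 (Submodule.zero_mem _)
  refine isMaximalIn_inf (fun hle => ?_) fun M h1 h2 g hg hgS => ?_
  · obtain ⟨l, hl⟩ : ∃ l : F, l ∉ K := by
      by_contra hc'
      push Not at hc'
      rw [(eq_top_iff.mpr fun x _ => hc' x : K = ⊤), card_top_subfield] at hc hK
      exact hr.ne_one (Nat.pow_right_injective hK (hc.trans (pow_one _).symm))
    obtain ⟨y, x, p, q, s⟩ := R.exists_pair (by omega) (Z := Submodule.span K {e})
      ((finrank_span_one_le _).trans (by omega))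
    replace p := p e (Submodule.mem_span_singleton_self e)
    replace q := q e (Submodule.mem_span_singleton_self e)
    obtain ⟨c, hc⟩ := R.cl.exists_tau ((σ l * σ ζ) • jv K y)
    obtain ⟨μ, -, hμ⟩ := hle (R.cl.eich_mem_om (R.sing he) (R.perp' p _) hc)
    have k1 := hμ (jv K e)
    rw [th_jv R.fix, R.cl.eich_fix c (R.cl.diag0 (R.sing he)) (R.perp'' (R.cl₀.refl p) _),
      th_jv R.fix] at k1
    obtain rfl : 1 = μ := smul_left_injective F (jv_ne he0) (by simpa using k1)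
    have k2 := hμ (jv K x)
    have k3 := R.hB y x
    rw [s, OneMemClass.coe_one] at k3
    have k4 : B ((σ l * σ ζ) • jv K y) (jv K x) = l := by
      simp [R.cl.invol]; linear_combination (-l) * k3
    rw [th_jv R.fix, R.cl.eich_of_perp (R.sing he) (R.perp' p _) c (R.perp q), k4, map_add, th_smul,
      th_jv R.fix, th_jv R.fix, one_smul, add_right_inj] at k2
    exact hl ((R.fix l).mp (smul_left_injective F (jv_ne he0) k2))
  have o : R.Ov M := ⟨h2.trans R.cl.om_le_isom, fun u x c p q s =>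
    h1 ⟨R.E_mem_rat p q c, R.E_mem_om p q s⟩⟩
  by_contra hM
  have b : R.Bad7 M := ⟨o, hn, fun e he0 he l hl => by
    by_contra hlK; exact hM (o.om_le (by omega) hr hc hτ he0 he hlK hl)⟩
  have k1 : ∀ x, Q₀ x = 0 → th θ (g (jv K x)) ∈ Submodule.span F {g (jv K x)} := fun x hx => by
    by_cases h0 : x = 0
    · simp [h0]
    rcases hty with h | h | h
    · exact b.type2 (hrk.trans h.1) h.2 hg hx
    · exact b.typeT h.1 h.2 hg hx
    · exact b.typeO h.1 h.2 hg h0 hx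
  obtain ⟨μ, hμ⟩ := Submodule.mem_span_singleton.mp (k1 e he)
  have k2 : ∀ x, Q₀ x = 0 → th θ (g (jv K x)) = μ • g (jv K x) := fun x hx => by
    by_cases h0 : x = 0
    · simp [h0]
    obtain ⟨f, hf, p, q, s⟩ := R.exists_cfg (by omega) (e := e) (u := x)
    have f0 : f ≠ 0 := by rintro rfl; exact s (Submodule.zero_mem _)
    obtain ⟨ν, hν⟩ := Submodule.mem_span_singleton.mp (k1 x hx)
    obtain ⟨ν', hν'⟩ := Submodule.mem_span_singleton.mp (k1 f hf)
    rw [eig_eq R.fix he0 f0 hμ.symm hν'.symm (k1 _ (by simp [R.cl₀.Q_add, he, hf, p])),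
      ← eig_eq R.fix h0 f0 hν.symm hν'.symm (k1 _ (by simp [R.cl₀.Q_add, hx, hf, q]))]
    exact hν.symm
  let S : Submodule K (ι → K) :=
    { carrier := {x | th θ (g (jv K x)) = μ • g (jv K x)}
      add_mem' := fun {x y} (p : _ = _) (q : _ = _) => by
        change _ = _; simp only [map_add, p, q, smul_add]
      zero_mem' := by simp
      smul_mem' := fun c x (p : _ = _) => by
        change _ = _
        rw [jv_smul, map_smul, th_smul, p, (R.fix _).mpr c.2, smul_comm] }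
  have := R.cl₀.eq_top_of_sing (by simp; omega) (S := S) k2
  refine hgS (mem_ratG R.fix (μ := μ) ?_ fun x => (this ▸ trivial : x ∈ S))
  rintro rfl
  exact th_ne (v := g (jv K e)) (by simpa using jv_ne he0) (by simpa using hμ.symm)

end Rat

variable [Fintype ι] [DecidableEq ι]

section types

variable [Finite F] (hθ : ∀ a, θ a = a ↔ a ∈ K) (hn : 7 ≤ Fintype.card ι) {r : ℕ} (hr : r.Prime)
  (hc : Nat.card K ^ r = Nat.card F) {Q : (ι → F) → F} {ζ : F}
include hθ hn hr hc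

theorem max_sub_alt7 {B : (ι → F) →ₗ[F] (ι → F) →ₗ[F] F}
    (h : Cl (σ := RingHom.id F) (-1) 0 0 B Q) (hζ : ζ ≠ 0)
    (hP : ∀ x y, ζ * B (jv K x) (jv K y) ∈ K) : IsMaximalIn h.Om (ratG θ ι ⊓ h.Om) := by
  have h0 := clAlt (B := descB (σ₀ := RingHom.id K) B ζ (fun _ => rfl) hP)
    (fun x => Subtype.ext (by simp [descB_apply, h.form.diag])) (descB_sep h.sep hζ _ hP)
  refine Rat.max_sub7 ⟨h, h0, hθ, fun _ => rfl, hζ, fun _ _ => rfl, by simp, fun x c _ => ?_⟩ hn hr hc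
    (fun _ => nq_zero) (Or.inr (Or.inl ⟨nq_zero, Or.inl rfl⟩))
  exact h.form.tv _ |>.elim fun t ht => by rw [ht]; rfl

theorem max_sub_quad7 {B : (ι → F) →ₗ[F] (ι → F) →ₗ[F] F}
    (h : Cl (σ := RingHom.id F) 1 2 (AddMonoidHom.id F) B Q) (hζ : ζ ≠ 0)
    (hP : ∀ x, ζ * Q (jv K x) ∈ K) : IsMaximalIn h.Om (ratG θ ι ⊓ h.Om) := by
  have hP' : ∀ x y, ζ * B (jv K x) (jv K y) ∈ K := fun x y => by
    convert K.sub_mem (K.sub_mem (hP (x + y)) (hP x)) (hP y) using 1
    rw [map_add, h.Q_add]; simp; ring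
  have h0 := clQuad (B := descB (σ₀ := RingHom.id K) B ζ (fun _ => rfl) hP')
    (Q := fun x => ⟨_, hP x⟩) (IsQuad.of_add_smul
      (fun x y => Subtype.ext (by simp [descB_apply, h.Q_add]; ring))
      fun c x => Subtype.ext (by
        change ζ * Q ((c : F) • jv K x) = (c : F) * c * (ζ * Q (jv K x))
        simp [h.Q_smul]; ring)) (descB_sep h.sep hζ _ hP')
  refine Rat.max_sub7 ⟨h, h0, hθ, fun _ => rfl, hζ, fun _ _ => rfl, by simp, fun x c e => ?_⟩ hn hr hc
    (fun e => by simpa using DFunLike.congr_fun e 1) (Or.inr (Or.inr ⟨rfl, rfl⟩))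
  have : (c : F) = ζ * Q (jv K x) := congrArg Subtype.val e
  simp [h.Q_smul, this]; ring

variable {B : (ι → F) →ₛₗ[σ] (ι → F) →ₗ[F] F} (h : Cl 1 1 (trHom σ) B Q) (hσ : σ ≠ RingHom.id F)
  (hσθ : ∀ a, σ (θ a) = θ (σ a))
include h hσ hσθ

theorem max_sub_herm7 (ht : ∃ t ∈ K, σ t ≠ t) (hP : ∀ x y, B (jv K x) (jv K y) ∈ K) :
    IsMaximalIn h.Om (ratG θ ι ⊓ h.Om) := by
  let s : K →+* K := σ.restrict K K fun a ha => (hθ _).mp (by rw [← hσθ, (hθ a).mpr ha])
  have hP' : ∀ x y, 1 * B (jv K x) (jv K y) ∈ K := by simpa using hP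
  have hH : IsHerm (descB (σ₀ := s) B 1 (fun _ => rfl) hP') := ⟨fun e => by
      obtain ⟨t, a, b⟩ := ht
      exact b (congrArg Subtype.val (DFunLike.congr_fun e (⟨t, a⟩ : K)) :),
    fun a => Subtype.ext (h.invol a), fun x y => Subtype.ext (by
      change σ (1 * _) = 1 * _
      rw [h.symm (jv K x)]; simp)⟩
  refine Rat.max_sub7 ⟨h, clHerm hH (descB_sep h.sep one_ne_zero _ hP'), hθ, hσθ, one_ne_zero,
    fun _ _ => rfl, by simp, fun x c e => ?_⟩ hn hr hc (fun e => (trHom_ne h hσ e).elim)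
    (Or.inr (Or.inl ⟨IsHerm.nq hH, Or.inr ht⟩))
  have : (c : F) + σ c = 1 * B (jv K x) (jv K x) := congrArg Subtype.val e
  simp [this, h.form.diag]

omit hr in
theorem max_sub_herm_quad7 (h9 : 9 ≤ Fintype.card ι) (hr : r = 2) (h2 : (2 : F) ≠ 0) (ht : ∀ t : K, (t : F) = σ t)
    (hP : ∀ x y, B (jv K x) (jv K y) ∈ K) : IsMaximalIn h.Om (ratG θ ι ⊓ h.Om) := by
  have hP' : ∀ x y, 1 * B (jv K x) (jv K y) ∈ K := by simpa using hP
  have sy : ∀ x y, B (jv K x) (jv K y) = B (jv K y) (jv K x) := fun x y => by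
    rw [h.symm (jv K x), one_mul]; exact ht ⟨_, hP x y⟩
  have h0 := clQuad (B := descB (σ₀ := RingHom.id K) B 1 ht hP')
    (Q := fun x => ⟨B (jv K x) (jv K x) / 2, K.div_mem (hP x x) (by norm_num)⟩) (IsQuad.of_add_smul
      (fun x y => Subtype.ext (by simp [descB_apply, sy y x]; field_simp; ring))
      fun c x => Subtype.ext (by
        change B ((c : F) • jv K x) ((c : F) • jv K x) / 2 =
          (c : F) * c * (B (jv K x) (jv K x) / 2)
        simp [← ht]; ring)) (descB_sep h.sep one_ne_zero _ hP')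
  refine Rat.max_sub7 ⟨h, h0, hθ, hσθ, one_ne_zero, fun _ _ => rfl, by simp, fun x c e => ?_⟩ hn
    (hr ▸ Nat.prime_two) hc (fun e => (trHom_ne h hσ e).elim) (Or.inl ⟨hr, Or.inl h9⟩)
  have : (c : F) = B (jv K x) (jv K x) / 2 := congrArg Subtype.val e
  rw [mul_one, trHom_apply, ← ht, this]
  simp [h.form.diag]; field_simp; ring

omit hr in
theorem max_sub_herm_alt7 (hr : r = 2) (ht : ∀ t : K, (t : F) = σ t) (hζ : ζ ≠ 0)
    (hζ' : ζ + σ ζ = 0) (hP : ∀ x y, ζ * B (jv K x) (jv K y) ∈ K)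
    (hA : ∀ x, B (jv K x) (jv K x) = 0) : IsMaximalIn h.Om (ratG θ ι ⊓ h.Om) := by
  have h0 := clAlt (B := descB (σ₀ := RingHom.id K) B ζ ht hP)
    (fun x => Subtype.ext (by simp [descB_apply, hA])) (descB_sep h.sep hζ _ hP)
  refine Rat.max_sub7 ⟨h, h0, hθ, hσθ, hζ, fun _ _ => rfl, by simp; linear_combination hζ',
    fun x c e => ?_⟩ hn (hr ▸ Nat.prime_two) hc (fun e => (trHom_ne h hσ e).elim) (Or.inl ⟨hr, Or.inr fun _ => rfl⟩)
  have := h.form.diag (jv K x)
  rw [hA, one_mul] at this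
  rw [h.Q_smul, ← this, trHom_apply, map_mul, ← ht]
  linear_combination (c : F) * hζ'

end types

end Cfsg.Agent.H10
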