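import Mathlib
import Cfsg.Agent.H10.MxB

/-!
# Stabilisers of non-degenerate subspaces in small dimension
-/

set_option autoImplicit false
set_option linter.unusedSectionVars false

namespace Cfsg.Agent.H10

open Module H11 Cfsg.Geo

variable {F : Type*} [Field F] {V : Type*} [AddCommGroup V] [Module F V] {σ : F →+* F}

namespace Cl

variable {ε κ : F} {τ : F →+ F} {B : V →ₛₗ[σ] V →ₗ[F] F} {Q : V → F} (h : Cl ε κ τ B Q)
  [FiniteDimensional F V] [Finite F] {M : Subgroup (V ≃ₗ[F] V)}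
include h

theorem map_mem_arm' (hM : M ≤ Isom B Q) {g : V ≃ₗ[F] V} (hg : g ∈ M) {e y : V}
    (hy : y ∈ h.Arm M e) : g y ∈ h.Arm M (g e) := fun a => by
  rw [← map_smul]; exact h.map_mem_ar hM hg (hy a)

theorem eich_of_stab {W : Submodule F V} (hHM : stabS F (W : Set V) ⊓ h.Om ≤ M) :
    ∀ u ∈ perp B W, ∀ w ∈ perp B W, ∀ c, Q u = 0 → B u w = 0 → τ c = Q w → h.eich u w c ∈ M :=
  fun u hu w hw c a b d => hHM (h.eich_mem_stab a b d fun v hv => by
    rwa [h.eich_fix c (h.refl (hu v hv)) (h.refl (hw v hv))])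

theorem arm_of_stab {W : Submodule F V} (hHM : stabS F (W : Set V) ⊓ h.Om ≤ M) {e y : V}
    (heU : e ∈ perp B W) (he : Q e = 0) (hy : y ∈ perp B W) (hey : B e y = 0) : y ∈ h.Arm M e :=
  h.le_arm he (fun y hy c => h.eich_of_stab hHM e heU y hy c he) hy hey

theorem om_le_of_arm {W : Submodule F V} (hW : NondegOn B W) (hb : h.Big (perp B W))
    (hok : h.Big W ∨ finrank F W = 1 ∨ (h.SmallOk W ∧ 5 ≤ finrank F (perp B W)))
    (hHM : stabS F (W : Set V) ⊓ h.Om ≤ M) (hM : M ≤ h.Om) {e y : V} (heU : e ∈ perp B W)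
    (he0 : e ≠ 0) (he : Q e = 0) (hy : y ∈ h.Arm M e) (hy' : y ∉ perp B W) : h.Om ≤ M := by
  have hU : NondegOn B (perp B W) := h.form.nondegOn_perp h.sep hW
  have hMI := hM.trans h.om_le_isom
  have hUa := fun y => h.arm_of_stab hHM (y := y) heU he
  have hc := h.form.isCompl_perp h.sep hW
  have hdec : ∀ x, B e x = 0 → ∃ a ∈ W, ∃ b ∈ perp B W, B e b = 0 ∧ a + b = x := fun x hx => by
    obtain ⟨a, ha, b, hb, rfl⟩ := Submodule.mem_sup.mp (hc.sup_eq_top ▸ Submodule.mem_top (x := x))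
    exact ⟨a, ha, b, hb, by simpa [h.refl (heU a ha)] using hx, rfl⟩
  obtain ⟨a, ha, b, hb', heb, hab⟩ := hdec _ (h.ar_perp (h.ar_of_arm hy))
  have a1 : a ∈ h.Arm M e := by simpa [← hab] using (h.Arm M e).sub_mem hy (hUa b hb' heb)
  have a0 : a ≠ 0 := by rintro rfl; exact hy' (by simpa [← hab] using hb')
  have k2 : W ≤ h.Arm M e := by
    rcases hok with k | k | k
    · refine h.irr hW k (fun u hu w hw c a b d s hs => h.map_mem_arm hMI (hHM (h.eich_mem_stab a b d
        fun x hx => h.eich_apply_mem c hu hw hx)) (h.eich_fix c (heU u hu) (heU w hw)) hs) a1 ?_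
      by_contra hc; push Not at hc
      exact a0 (hW a ha fun z hz => h.refl (hc z hz))
    · have : Submodule.span F {a} = W := Submodule.eq_of_le_of_finrank_eq (by simpa)
        (by rw [k, finrank_span_singleton a0])
      rw [← this]; simpa
    · exact h.small_irr hW k.1 hU k.2 (fun x hx y hy => hy x hx) heU
        (fun g hg a _ _ d s hs => h.map_mem_arm hMI (hHM ⟨mem_stabS_of_le a, hg⟩) d hs) a1 ha a0
  refine h.om_le_of_full_mem hU hb (h.eich_of_stab hHM) hMI heU he0 (h.full_of_ar he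
    (fun x hx => ?_) fun c hc => h.eich_of_stab hHM e heU 0 (zero_mem _) c he (by simp)
      (by rw [hc, h.Q_zero]))
  obtain ⟨a, ha, b, hb', heb, rfl⟩ := hdec x hx
  exact h.ar_of_arm ((h.Arm M e).add_mem (k2 ha) (hUa b hb' heb))

theorem exists_sing_escape {U Y : Submodule F V} (hU : NondegOn B U) (hY : Y ≤ U) (hY' : ¬ U ≤ Y)
    (hb : h.Big Y) (h5 : 5 ≤ finrank F U ∨ (4 ≤ finrank F U ∧ NQ τ)) :
    ∃ e ∈ Y, e ≠ 0 ∧ Q e = 0 ∧ ∃ y ∈ U, B e y = 0 ∧ y ∉ Y := by
  by_contra hc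
  push Not at hc
  obtain ⟨e, he, e0, qe⟩ := h.exists_sing hb
  have d1 := finrank_le_inf_ker U (B e)
  have d2 := Submodule.finrank_mono (show U ⊓ LinearMap.ker (B e) ≤ Y from
    fun y hy => hc e he e0 qe y hy.1 hy.2)
  obtain ⟨Y', a1, a2, a3⟩ := exists_le_disjoint Y (Submodule.span F {e})
  have d3 := finrank_span_one_le (F := F) e
  obtain ⟨e', he', e0', qe'⟩ := h.exists_sing (W := Y') (h5.imp (by omega) fun k => ⟨by omega, k.2⟩)
  obtain ⟨y, hy, b1, b2⟩ := h.exists_perp_not_in hU (Z := Submodule.span F {e})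
    (by simpa using hY he) (hY (a1 he')) fun k => e0' (Submodule.disjoint_def.mp a2 _ he' k)
  refine hY' fun z hz => ?_
  have := add_mem (hc e' (a1 he') e0' qe' (z - B e' z • y) (sub_mem hz (U.smul_mem _ hy))
    (by simp [b2])) (Y.smul_mem (B e' z) (hc e he e0 qe y hy
      (b1 e (Submodule.mem_span_singleton_self e))))
  simpa using this

theorem max_nondeg5 {W : Submodule F V} (hW : NondegOn B W) (hW0 : W ≠ ⊥) (hok : h.SmallOk W)
    (h5 : 5 ≤ finrank F (perp B W) ∨ (4 ≤ finrank F (perp B W) ∧ NQ τ))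
    (hni : ∀ g ∈ Isom B Q, ¬ (perp B W).map (g : V →ₗ[F] V) ≤ W) :
    IsMaximalIn h.Om (stabS F (W : Set V) ⊓ h.Om) := by
  have hU : NondegOn B (perp B W) := h.form.nondegOn_perp h.sep hW
  have h4 : 4 ≤ finrank F (perp B W) := by omega
  have hdim := h.form.finrank_perp h.sep W
  refine isMaximalIn_inf (h.not_om_le_stabS (by omega) hW0 fun e => by
    rw [e, finrank_top] at hdim; rw [← e] at hdim; omega) fun M hHM hM g hg hgW => ?_
  have hMI := hM.trans h.om_le_isom
  have hb : h.Big (perp B W) := Or.inl (by omega)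
  obtain ⟨u, w, c, hτ, y, hy, hy'⟩ := h.exists_eich_move hU hb (h.eich_of_stab hHM) hMI hg
    (X := perp B W) (fun hc => hgW (by
      have := h.stab_perp (hMI hg) (mem_stabS_of_le (W := perp B W) fun v hv => hc ⟨v, hv, rfl⟩)
      rwa [h.form.perp_perp h.sep] at this)) (by rw [h.form.perp_perp h.sep]; exact hni g (hMI hg))
  have d1 := finrank_le_inf_ker (perp B W) (B u)
  have d2 := finrank_le_inf_ker (perp B W ⊓ LinearMap.ker (B u)) (B w)
  have d3 := Submodule.finrank_mono (show perp B W ⊓ LinearMap.ker (B u) ⊓ LinearMap.ker (B w) ≤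
      perp B W ⊓ (perp B W).comap (h.eich u w c : V →ₗ[F] V) from fun x hx =>
    ⟨hx.1.1, show h.eich u w c x ∈ perp B W by rw [h.eich_fix c hx.1.2 hx.2]; exact hx.1.1⟩)
  obtain ⟨e, he, e0, qe, z, hz, ez, hz'⟩ := h.exists_sing_escape hU (Y := perp B W ⊓
    (perp B W).comap (h.eich u w c : V →ₗ[F] V)) inf_le_left (fun k => hy' (k hy).2)
    (h5.imp (by omega) fun k => ⟨by omega, k.2⟩) h5
  refine h.om_le_of_arm hW hb ?_ hHM hM he.2 (by simpa using e0) (by rw [← qe]; exact (hMI hτ).2 e)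
    (h.map_mem_arm' hMI hτ (h.arm_of_stab hHM he.1 qe hz ez)) fun k => hz' ⟨hz, k⟩
  rcases h5 with k | k
  · exact Or.inr (Or.inr ⟨hok, k⟩)
  · have := Submodule.one_le_finrank_iff.mpr hW0
    by_cases k1 : finrank F W = 1
    · exact Or.inr (Or.inl k1)
    · exact Or.inl (Or.inr ⟨by omega, k.2⟩)

theorem mem_span_of_perp {U : Submodule F V} (hU : NondegOn B U) {e x : V} (he : e ∈ U) (hx : x ∈ U)
    (k : ∀ y ∈ U, B e y = 0 → B x y = 0) : x ∈ Submodule.span F {e} := by
  by_contra hc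
  obtain ⟨y, hy, b1, b2⟩ := h.exists_perp_not_in hU (Z := Submodule.span F {e}) (by simpa) hx hc
  simpa [b2] using k y hy (b1 e (Submodule.mem_span_singleton_self e))

theorem exists_sing_out {X U W : Submodule F V} (hX : NondegOn B X) (hb : h.Big X)
    (hd : Disjoint U W) (ho : ∀ x ∈ U, ∀ y ∈ W, B x y = 0) (h1 : ¬ X ≤ U) (h2 : ¬ X ≤ W) :
    ∃ e ∈ X, Q e = 0 ∧ e ∉ U ∧ e ∉ W := by
  have key : ∀ Z : Submodule F V, ¬ X ≤ Z → ∃ e ∈ X, Q e = 0 ∧ e ∉ Z := fun Z hZ => by
    obtain ⟨x, hx, hx'⟩ := SetLike.not_le_iff_exists.mp hZ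
    obtain ⟨y, a, b⟩ := h.form.exists_perp_not h.sep hx'
    obtain ⟨u, hu, qu, uy⟩ := h.exists_sing_not_perp hX hb (s := y) ⟨x, hx, by simp [b]⟩
    exact ⟨u, hu, qu, fun k => uy (a u k)⟩
  obtain ⟨a, ha, qa, a1⟩ := key U h1
  obtain ⟨b, hb, qb, b1⟩ := key W h2
  by_cases a2 : a ∈ W
  · by_cases b2 : b ∈ U
    · refine ⟨b + a, add_mem hb ha, by simp [h.Q_add, qa, qb, ho b b2 a a2], fun k => a1 ?_,
        fun k => b1 ?_⟩
      · simpa using sub_mem k b2
      · simpa using sub_mem k a2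
    · exact ⟨b, hb, qb, b2, b1⟩
  · exact ⟨a, ha, qa, a1, a2⟩

end Cl

section quad

variable {B : V →ₗ[F] V →ₗ[F] F} {Q : V → F} [FiniteDimensional F V] [Finite F]
  (h : Cl (σ := RingHom.id F) 1 2 (AddMonoidHom.id F) B Q) {M : Subgroup (V ≃ₗ[F] V)}
include h

theorem arm_swap {e e' : V} (he : Q e = 0) (he' : Q e' = 0) (k : e ∈ h.Arm M e') :
    e' ∈ h.Arm M e := fun a => by
  obtain ⟨b, c, hc, hm⟩ := (h.mem_ar he').mp (k (-a))
  have b' : B e e' = 0 := h.refl (h.ar_perp (h.ar_of_arm k))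
  refine (h.mem_ar he).mpr ⟨by simp [b'], 0, (h.sing_smul he' a).symm, ?_⟩
  convert hm using 1
  have : c = 0 := hc.trans (h.sing_smul he _)
  ext x
  rw [h.eich_apply he (by simp [b']), h.eich_apply he' b, this]
  simp; module

theorem arm_step (hM : M ≤ Isom B Q) {e e' y y' : V} (he' : Q e' = 0) (h1 : B e' e = 0)
    (hy : y ∈ h.Arm M e) (hy' : y' ∈ h.Arm M e') (h2 : B y' e = 0) (s : F) :
    (s * B y' y - s * s * Q y' * B e' y) • e' - (s * B e' y) • y' ∈ h.Arm M e := by
  obtain ⟨b, c, hc, hm⟩ := (h.mem_ar he').mp (hy' s)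
  have := sub_mem (h.map_mem_arm hM hm (h.eich_fix c h1 (by simp [h2])) hy) hy
  rw [h.eich_apply he' b, show c = s * s * Q y' from hc.trans (h.Q_smul s y')] at this
  convert this using 1
  simp; module

theorem max_nondeg4 (hq : 2 < Nat.card F) {W : Submodule F V} (hW : NondegOn B W)
    (h3 : 3 ≤ finrank F W) (h4 : 4 ≤ finrank F (perp B W))
    (hni : ∀ g ∈ Isom B Q, ¬ (perp B W).map (g : V →ₗ[F] V) ≤ W) :
    IsMaximalIn h.Om (stabS F (W : Set V) ⊓ h.Om) := by
  have hQ : IsQuad B Q := h.form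
  have hU : NondegOn B (perp B W) := h.form.nondegOn_perp h.sep hW
  have hdim := h.form.finrank_perp h.sep W
  have pp := h.form.perp_perp h.sep W
  refine isMaximalIn_inf (h.not_om_le_stabS (by omega) (by rintro rfl; simp at h3) fun e => by
    rw [e, finrank_top] at hdim; rw [← e] at hdim; omega) fun M hHM hM g hg hgW => ?_
  have hMI := hM.trans h.om_le_isom
  have hb : h.Big (perp B W) := Or.inl (by omega)
  have hb' : h.Big W := Or.inl h3
  by_contra hc
  have A1 : ∀ e ∈ perp B W, e ≠ 0 → Q e = 0 → h.Arm M e ≤ perp B W := fun e a b c y hy => by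
    by_contra k; exact hc (h.om_le_of_arm hW hb (Or.inl hb') hHM hM a b c hy k)
  have hHM' : stabS F (perp B W : Set V) ⊓ h.Om ≤ M := h.stab_perp_inf W ▸ hHM
  have A2 : ∀ e ∈ W, e ≠ 0 → Q e = 0 → h.Arm M e ≤ W := fun e a b c y hy => by
    by_contra k
    exact hc (h.om_le_of_arm hU (by rwa [pp]) (Or.inl hb) hHM' hM (by rwa [pp]) b c hy (by rwa [pp]))
  have gI := hMI hg
  have hc' := h.form.isCompl_perp h.sep hW
  obtain ⟨_, ⟨x, hx, rfl⟩, qx, x1, x2⟩ := h.exists_sing_out (X := (perp B W).map (g : V →ₗ[F] V))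
    (U := W) (W := perp B W) (by
      rintro _ ⟨x, hx, rfl⟩ h0
      have := hU x hx fun y hy => by rw [← gI.1]; exact h0 _ ⟨y, hy, rfl⟩
      simp [this]) (Or.inl (by rw [LinearEquiv.finrank_map_eq]; omega)) hc'.disjoint
    (fun x hx y hy => hy x hx) (hni g gI) fun hc => hgW (by
      have := h.stab_perp gI (mem_stabS_of_le (W := perp B W) fun v hv => hc ⟨v, hv, rfl⟩)
      rwa [pp] at this)
  simp only [LinearEquiv.coe_coe] at qx x1 x2
  have d1 := finrank_le_inf_ker (perp B W) (B (g x))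
  obtain ⟨e, ⟨heU, xe⟩, e0, qe⟩ := h.exists_sing3 (W := perp B W ⊓ LinearMap.ker (B (g x))) (by omega)
  replace xe : B (g x) e = 0 := xe
  have d2 := finrank_le_inf_ker (perp B W) (B x)
  have d3 := finrank_le_inf_ker (perp B W ⊓ LinearMap.ker (B x)) (B (g⁻¹ e))
  have d4 := finrank_span_one_le (F := F) x
  obtain ⟨z, ⟨⟨z1, z2⟩, z3⟩, z4⟩ := exists_mem_notMem (W := perp B W ⊓ LinearMap.ker (B x) ⊓
    LinearMap.ker (B (g⁻¹ e))) (Z := Submodule.span F {x}) (by omega)
  have y1 := h.map_mem_arm' hMI hg (h.arm_of_stab hHM hx (by rw [← gI.2, qx]) z1 z2)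
  have y2 : B (g z) e = 0 := by
    rw [hQ.comm, ← show B (g⁻¹ e) z = 0 from z3, ← gI.1 _ z]; simp [LinearEquiv.coe_inv]
  have y3 : g z ∉ Submodule.span F {g x} := fun k => z4 (by
    obtain ⟨a, k⟩ := Submodule.mem_span_singleton.mp k
    exact Submodule.mem_span_singleton.mpr ⟨a, g.injective (by rw [map_smul, k])⟩)
  generalize g z = y' at y1 y2 y3
  generalize g x = e' at y1 y3 qx x1 x2 xe
  have fin : ∀ a b : F, y' + a • e' = b • e → False := fun a b k => by
    have b0 : b ≠ 0 := by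
      rintro rfl
      exact y3 (Submodule.mem_span_singleton.mpr ⟨-a, by
        rw [neg_smul, eq_comm, eq_neg_iff_add_eq_zero, k, zero_smul]⟩)
    have := add_mem y1 (Submodule.smul_mem _ a (h.self_mem_arm (M := M) qx))
    rw [k, Submodule.smul_mem_iff _ b0] at this
    exact x2 (A1 e heU e0 qe (arm_swap h qe qx this))
  have st := fun y hy ey => fun s => A1 e heU e0 qe
    (arm_step h hMI qx xe (h.arm_of_stab hHM (y := y) heU qe hy ey) y1 y2 s)
  by_cases k : ∃ y ∈ perp B W, B e y = 0 ∧ B e' y ≠ 0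
  · obtain ⟨y, hy, ey, k⟩ := k
    obtain ⟨a, ha⟩ : ∃ a : F, y' + a • e' ∈ perp B W := ⟨-(B y' y - Q y' * B e' y) / B e' y, by
      have := Submodule.smul_mem _ (-(B e' y)⁻¹) (st y hy ey 1)
      convert this using 1
      match_scalars <;> field_simp⟩
    have y1' := add_mem y1 (Submodule.smul_mem _ a (h.self_mem_arm (M := M) qx))
    have st' : ∀ y ∈ perp B W, B e y = 0 → ∀ s, s * B (y' + a • e') y -
        s * s * Q (y' + a • e') * B e' y = 0 := fun y hy ey s => by
      by_contra k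
      have := add_mem (A1 e heU e0 qe (arm_step h hMI qx xe (h.arm_of_stab hHM heU qe hy ey) y1'
        (by simp [y2, xe]) s)) (Submodule.smul_mem _ (s * B e' y) ha)
      rw [sub_add_cancel, Submodule.smul_mem_iff _ k] at this
      exact x2 this
    classical
    have := Fintype.ofFinite F
    obtain ⟨s, -, hs⟩ := Finset.exists_mem_notMem_of_card_lt_card (s := ({0, 1} : Finset F))
      (t := Finset.univ) (Finset.card_le_two.trans_lt (by simpa using hq))
    simp only [Finset.mem_insert, Finset.mem_singleton, not_or] at hs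
    obtain ⟨b, hb⟩ := Submodule.mem_span_singleton.mp (h.mem_span_of_perp hU heU ha fun y hy ey =>
      mul_left_cancel₀ (mul_ne_zero hs.1 (sub_ne_zero.mpr hs.2)) (by
        linear_combination s * s * st' y hy ey 1 - st' y hy ey s))
    exact fin a b hb.symm
  push Not at k
  obtain ⟨f, hf, u, hu, rfl⟩ := Submodule.mem_sup.mp (hc'.sup_eq_top ▸ Submodule.mem_top (x := e'))
  obtain ⟨v, hv, w, hw, rfl⟩ := Submodule.mem_sup.mp (hc'.sup_eq_top ▸ Submodule.mem_top (x := y'))
  obtain ⟨a, rfl⟩ := Submodule.mem_span_singleton.mp (h.mem_span_of_perp hU heU hu fun y hy ey => by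
    simpa [hy f hf] using k y hy ey)
  obtain ⟨b, rfl⟩ := Submodule.mem_span_singleton.mp (h.mem_span_of_perp hU heU hw fun y hy ey => by
    by_contra k'
    have := st y hy ey 1
    rw [k y hy ey] at this
    simp only [mul_zero, sub_zero, zero_smul, one_mul, map_add, LinearMap.add_apply,
      hy v hv, zero_add] at this
    exact x2 ((Submodule.smul_mem_iff _ k').mp this))
  have f0 : f ≠ 0 := by rintro rfl; exact x2 (by simpa using hu)
  have qf : Q f = 0 := by simpa [hQ.add', hQ.smul', qe, heU f hf] using qx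
  have fv : B f v = 0 := by
    simpa [heU f hf, h.diag0 qe, h.refl (heU v hv)] using h.ar_perp (h.ar_of_arm y1)
  obtain ⟨c, rfl⟩ := Submodule.mem_span_singleton.mp (h.mem_span_of_perp hW hf hv fun y hy fy => by
    by_contra k'
    have := A2 f hf f0 qf (arm_step h hMI qx (by simp [h.diag0 qf, h.refl (heU f hf)])
      (h.arm_of_stab hHM' (by rwa [pp]) qf (by rwa [pp]) fy) y1
      (by simp [h.refl fv, h.refl (heU f hf)]) 1)
    simp only [map_add, map_smul, LinearMap.add_apply, LinearMap.smul_apply, fy, h.refl (heU y hy),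
      smul_zero, add_zero, mul_zero, sub_zero, zero_smul, one_mul] at this
    exact x1 ((Submodule.smul_mem_iff _ k').mp this))
  exact fin (-c) (b - c * a) (by module)

/-- The stabiliser of a non-degenerate subspace of a quadratic space of dimension at least `7`. -/
theorem max_nondeg_quad7 (hn : 9 ≤ finrank F V ∨ (7 ≤ finrank F V ∧ 2 < Nat.card F))
    {W : Submodule F V} (hW : NondegOn B W) (h0 : W ≠ ⊥) (h1 : W ≠ ⊤)
    (hni : 2 * finrank F W = finrank F V → ∀ g ∈ Isom B Q, ¬ W.map (g : V →ₗ[F] V) ≤ perp B W)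
    (hex : ∀ U, U = W ∨ U = perp B W → finrank F U = 2 → Nat.card F ≤ 3 →
      ∀ x ∈ U, Q x = 0 → x = 0) : IsMaximalIn h.Om (stabS F (W : Set V) ⊓ h.Om) := by
  have hd := h.form.finrank_perp h.sep W
  have ok : ∀ U, U = W ∨ U = perp B W → U ≠ ⊥ → h.SmallOk U := fun U hU hU0 => by
    have : 1 ≤ finrank F U := Submodule.one_le_finrank_iff.mpr hU0
    by_cases a : finrank F U = 1
    · exact Or.inr (Or.inl a)
    by_cases b : finrank F U = 2
    · exact Or.inr (Or.inr ⟨b, (lt_or_ge 3 (Nat.card F)).imp_right (hex U hU b)⟩)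
    · exact Or.inl (Or.inl (by omega))
  by_cases hlt : finrank F W < finrank F (perp B W)
  · by_cases h5 : 5 ≤ finrank F (perp B W)
    · exact h.max_nondeg5 hW h0 (ok W (Or.inl rfl) h0) (Or.inl h5) fun g _ => not_map_le_of_lt hlt g
    · exact max_nondeg4 h (by omega) hW (by omega) (by omega) fun g _ => not_map_le_of_lt hlt g
  · have hp0 : perp B W ≠ ⊥ := fun e => h1 (Submodule.eq_top_of_finrank_eq (by
      rw [e, finrank_bot] at hd; omega))
    have ni : ∀ g ∈ Isom B Q, ¬ (perp B (perp B W)).map (g : V →ₗ[F] V) ≤ perp B W := by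
      rw [h.form.perp_perp h.sep]
      by_cases he : 2 * finrank F W = finrank F V
      · exact hni he
      · exact fun g _ => not_map_le_of_lt (by omega) g
    rw [← h.stab_perp_inf]
    by_cases h5 : 5 ≤ finrank F W
    · exact h.max_nondeg5 (h.form.nondegOn_perp h.sep hW) hp0 (ok _ (Or.inr rfl) hp0)
        (Or.inl (by rwa [h.form.perp_perp h.sep])) ni
    · exact max_nondeg4 h (by omega) (h.form.nondegOn_perp h.sep hW) (by omega)
        (by rw [h.form.perp_perp h.sep]; omega) ni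

end quad

end Cfsg.Agent.H10
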