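import Mathlib
import Cfsg.Agent.H10.Ag13
import Cfsg.Agent.H10.Ag12
import Cfsg.Agent.H10.Ag8
import Cfsg.Agent.H10.Ag2
import Cfsg.Agent.H10.Mx4

/-!
Geometric maximal subgroups of unitary groups in small dimensions, in matrices.
-/

set_option autoImplicit false

namespace Cfsg.Agent.H10.Ag

open Cfsg

theorem su_ts {F : Type*} [Field F] [Fintype F] (n q : ℕ) (hF : Fintype.card F = q ^ 2) (hn : 3 ≤ n) (W : Submodule F (Fin n → F)) (hW0 : W ≠ ⊥) (hW : Cfsg.Geo.IsTotallySingularFor (Cfsg.hermForm n F q) W) : Cfsg.Geo.IsMaximalIn (Cfsg.GU n F q ⊓ Cfsg.Geo.specialLinear (Fin n) F) (Cfsg.Geo.subspaceStabilizer W ⊓ (Cfsg.GU n F q ⊓ Cfsg.Geo.specialLinear (Fin n) F)) := by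
  refine H10.isMaximalIn_gl (H10.mem_SU_iff hF) (fun g _ => H10.mem_subspaceStabilizer_iff W g) ?_
  have h1 : ∀ x ∈ W, ∀ y ∈ W, H11.hermB (Fin n) (H11.conjQ hF) x y = 0 := fun x hx y hy => by
    rw [← H10.hermForm_eq hF]; exact hW y hy x hx
  exact (H10.clSU hF n).max_totSing (by simp; omega) ⟨fun x hx => h1 x hx x hx, h1⟩ hW0
    (Or.inl (H10.nq_SU hF))

theorem su_nd {F : Type*} [Field F] [Fintype F] (n q : ℕ) (hF : Fintype.card F = q ^ 2) (hn : 6 ≤ n) (W : Submodule F (Fin n → F)) (hW0 : W ≠ ⊥) (hW : Cfsg.Geo.IsNondegenerateOn (Cfsg.hermForm n F q) W) (hdim : 2 * Module.finrank F W < n) : Cfsg.Geo.IsMaximalIn (Cfsg.GU n F q ⊓ Cfsg.Geo.specialLinear (Fin n) F) (Cfsg.Geo.subspaceStabilizer W ⊓ (Cfsg.GU n F q ⊓ Cfsg.Geo.specialLinear (Fin n) F)) := by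
  refine H10.isMaximalIn_gl (H10.mem_SU_iff hF) (fun g _ => H10.mem_subspaceStabilizer_iff W g) ?_
  have h := H10.clSU hF n
  have hd := h.form.finrank_perp h.sep W
  simp only [Module.finrank_fintype_fun_eq_card, Fintype.card_fin] at hd
  exact h.max_nondeg5 (H10.nondegOn_of (Or.inr (H10.hermForm_eq hF)) hW) hW0
    (h.smallOk_of_nq (H10.nq_SU hF) (Submodule.one_le_finrank_iff.mpr hW0))
    (Or.inr ⟨by omega, H10.nq_SU hF⟩)
    fun g _ => H10.not_map_le_of_lt (by omega) g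

theorem su_dec {F : Type*} [Field F] [Fintype F] (n q : ℕ) (hF : Fintype.card F = q ^ 2) (hn : 10 ≤ n) {t : ℕ} (k : ℕ) (D : Fin t → Submodule F (Fin n → F)) (hD : Cfsg.Geo.IsNondegenerateMDecomposition (Cfsg.hermForm n F q) k D) (hex : ¬ (k = 2 ∧ q = 2)) : Cfsg.Geo.IsMaximalIn (Cfsg.GU n F q ⊓ Cfsg.Geo.specialLinear (Fin n) F) (Cfsg.Geo.decompositionStabilizer D ⊓ (Cfsg.GU n F q ⊓ Cfsg.Geo.specialLinear (Fin n) F)) := by
  refine H10.isMaximalIn_gl (H10.mem_SU_iff hF)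
    (fun g _ => H10.mem_decompositionStabilizer_iff D g) ?_
  have h := H10.clSU hF n
  have hq := H11.qConj_conjQ hF
  have hH := hq.isHerm (Fin n)
  have e := hD.decomp.finrank_eq
  have nd := fun i => H10.nondegOn_of (Or.inr (H10.hermForm_eq hF)) (hD.nondegenerate i)
  obtain ⟨p, d⟩ := h.exists_dec nd
    (fun i hi => by
      have h1 := e i
      have h2 := hD.decomp.pos
      rw [hi] at h1; simp at h1; omega)
    (fun i j hij x hx y hy => by
      rw [← H10.hermForm_eq hF]; exact hD.orthogonal j i hij.symm y hy x hx)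
    hD.decomp.iSup_eq_top
    (fun i j => by
      obtain ⟨g, hg⟩ := (hH.pull (D i).subtype).exists_equiv (H11.nondegOn_iff.mp (nd i))
        (hH.pull (D j).subtype) (H11.nondegOn_iff.mp (nd j)) (by rw [e, e])
      exact ⟨g, fun x y => hg x y, fun x => hg x x⟩)
  exact max_herm10 hq hH h d (by simpa using hn) hD.decomp.two_le fun i => by rwa [e]

theorem su_pair {F : Type*} [Field F] [Fintype F] (n q : ℕ) (hF : Fintype.card F = q ^ 2) (hn : 10 ≤ n) (k : ℕ) (hk : 2 * k = n) (D : Fin 2 → Submodule F (Fin n → F)) (hD : Cfsg.Geo.IsMDecomposition k D) (hts : ∀ i, Cfsg.Geo.IsTotallySingularFor (Cfsg.hermForm n F q) (D i)) : Cfsg.Geo.IsMaximalIn (Cfsg.GU n F q ⊓ Cfsg.Geo.specialLinear (Fin n) F) (Cfsg.Geo.decompositionStabilizer D ⊓ (Cfsg.GU n F q ⊓ Cfsg.Geo.specialLinear (Fin n) F)) := by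
  refine H10.isMaximalIn_gl (H10.mem_SU_iff hF)
    (fun g _ => H10.mem_decompositionStabilizer_iff D g) ?_
  have h := H10.clSU hF n
  have h0 : ∀ i, ∀ x ∈ D i, ∀ y ∈ D i, H11.hermB (Fin n) (H11.conjQ hF) x y = 0 :=
    fun i x hx y hy => by rw [← H10.hermForm_eq hF]; exact hts i y hy x hx
  have p : H10.SPair (H11.hermB (Fin n) (H11.conjQ hF))
      (fun x => H11.hermB (Fin n) (H11.conjQ hF) x x) (D 0) (D 1) :=
    ⟨⟨fun x hx => h0 0 x hx x hx, h0 0⟩, ⟨fun x hx => h0 1 x hx x hx, h0 1⟩,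
      H10.isCompl_of_two hD.indep hD.iSup_eq_top, by rw [hD.finrank_eq, hD.finrank_eq]⟩
  have hH := (H11.qConj_conjQ hF).isHerm (Fin n)
  refine h.max_pair p (by rw [hD.finrank_eq]; omega) (fun e => ?_)
    (H10.exists_swap_herm hH h p (by rw [hD.finrank_eq]; omega))
  obtain ⟨t, ht⟩ := H11.exists_trace_eq hH.ne hH.invol (a := 1) (map_one _)
  have := DFunLike.congr_fun e t
  simp [ht] at this

theorem su_sub {F : Type*} [Field F] [Fintype F] (n q : ℕ) (hF : Fintype.card F = q ^ 2) (hn : 7 ≤ n) (F₀ : Subfield F) (r : ℕ) (hr : r.Prime) (hro : Odd r) (hcard : Fintype.card F = Nat.card F₀ ^ r) (P : Matrix.GeneralLinearGroup (Fin n) F) (hP : Cfsg.Geo.IsFormRationalStructure (Cfsg.hermForm n F q) F₀ 1 P) : Cfsg.Geo.IsMaximalIn (Cfsg.GU n F q ⊓ Cfsg.Geo.specialLinear (Fin n) F) (Cfsg.Geo.subfieldSubgroup F₀ P ⊓ (Cfsg.GU n F q ⊓ Cfsg.Geo.specialLinear (Fin n) F)) := by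
  obtain ⟨θ, hθ, hc⟩ := H10.exists_frob F₀
  have hq := H11.two_le_of_card_eq_sq hF
  have hcard' : Nat.card F₀ ^ r = Nat.card F := by rw [← hcard, Nat.card_eq_fintype_card]
  refine H10.isMaximalIn_subfield hθ P
    (fun g => (H10.mem_SU_iff hF g).trans ((H10.clSU hF n).mem_om_pull (H11.glEquiv _ F P) _))
    (max_sub_herm7 hθ (by simp; omega) hr hcard' _ ((H11.qConj_conjQ hF).isHerm (Fin 0)).ne
      (hc _) ?_ fun x y => ?_)
  · by_contra ht
    push Not at ht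
    have h1 : Nat.card (H26.fixF (H11.conjQ hF)) = q :=
      H26.card_pow_eq_self (Nat.card_eq_fintype_card.trans hF)
    rcases H10.subfield_eq_or_of_prime (L := H26.fixF (H11.conjQ hF)) ht hr hcard' with h | h
    · rw [h] at h1
      rw [h1, hF] at hcard
      rw [← Nat.pow_right_injective hq hcard] at hro
      exact absurd hro (by decide)
    · rw [h, H10.card_top_subfield, Nat.card_eq_fintype_card, hF] at h1
      nlinarith
  · have := hP _ _ (fun i => (y i).2) fun i => (x i).2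
    rwa [H10.hermForm_eq hF, one_mul] at this

theorem su_subo {F : Type*} [Field F] [Fintype F] (n q : ℕ) (hF : Fintype.card F = q ^ 2) (hn : 9 ≤ n) (hodd : Odd q) (F₀ : Subfield F) (hcard : Fintype.card F = Nat.card F₀ ^ 2) (P : Matrix.GeneralLinearGroup (Fin n) F) (hP : Cfsg.Geo.IsFormRationalStructure (Cfsg.hermForm n F q) F₀ 1 P) : Cfsg.Geo.IsMaximalIn (Cfsg.GU n F q ⊓ Cfsg.Geo.specialLinear (Fin n) F) (Cfsg.Geo.subfieldSubgroup F₀ P ⊓ (Cfsg.GU n F q ⊓ Cfsg.Geo.specialLinear (Fin n) F)) := by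
  obtain ⟨θ, hθ, hc⟩ := H10.exists_frob F₀
  have hq : Nat.card F₀ = q := (Nat.pow_left_injective two_ne_zero (hF.symm.trans hcard)).symm
  refine H10.isMaximalIn_subfield hθ P
    (fun g => (H10.mem_SU_iff hF g).trans ((H10.clSU hF n).mem_om_pull (H11.glEquiv _ F P) _))
    (max_sub_herm_quad7 hθ (by simp; omega) (by rw [← hcard, Nat.card_eq_fintype_card]) _
      ((H11.qConj_conjQ hF).isHerm (Fin 0)).ne (hc _) (by simpa) rfl
      (H11.two_ne_zero_of_odd_card (hF ▸ hodd.pow))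
      (fun t => by rw [H11.conjQ_apply, ← hq]; exact (H26.mem_subfield_iff_pow_card.mp t.2).symm)
      fun x y => ?_)
  have := hP _ _ (fun i => (y i).2) fun i => (x i).2
  rwa [H10.hermForm_eq hF, one_mul] at this

theorem su_subs {F : Type*} [Field F] [Fintype F] (n q : ℕ) (hF : Fintype.card F = q ^ 2) (hn : 7 ≤ n) (F₀ : Subfield F) (hcard : Fintype.card F = Nat.card F₀ ^ 2) (ζ : F) (hζ0 : ζ ≠ 0) (hζ : ζ + ζ ^ q = 0) (P : Matrix.GeneralLinearGroup (Fin n) F) (hP : Cfsg.Geo.IsFormRationalStructure (Cfsg.hermForm n F q) F₀ ζ P) (halt : ∀ u : Fin n → F, (∀ i, u i ∈ F₀) → Cfsg.hermForm n F q (Matrix.mulVec (P : Matrix (Fin n) (Fin n) F) u) (Matrix.mulVec (P : Matrix (Fin n) (Fin n) F) u) = 0) : Cfsg.Geo.IsMaximalIn (Cfsg.GU n F q ⊓ Cfsg.Geo.specialLinear (Fin n) F) (Cfsg.Geo.subfieldSubgroup F₀ P ⊓ (Cfsg.GU n F q ⊓ Cfsg.Geo.specialLinear (Fin n) F)) := by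
  obtain ⟨θ, hθ, hc⟩ := H10.exists_frob F₀
  have hq : Nat.card F₀ = q := (Nat.pow_left_injective two_ne_zero (hF.symm.trans hcard)).symm
  refine H10.isMaximalIn_subfield hθ P
    (fun g => (H10.mem_SU_iff hF g).trans ((H10.clSU hF n).mem_om_pull (H11.glEquiv _ F P) _))
    (max_sub_herm_alt7 hθ (by simp; omega) (by rw [← hcard, Nat.card_eq_fintype_card]) _
      ((H11.qConj_conjQ hF).isHerm (Fin 0)).ne (hc _) rfl
      (fun t => by rw [H11.conjQ_apply, ← hq]; exact (H26.mem_subfield_iff_pow_card.mp t.2).symm)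
      hζ0 hζ (fun x y => ?_) fun x => ?_)
  · have := hP _ _ (fun i => (y i).2) fun i => (x i).2
    rwa [H10.hermForm_eq hF] at this
  · have := halt _ (fun i => (x i).2)
    rwa [H10.hermForm_eq hF] at this

end Cfsg.Agent.H10.Ag
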