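import Mathlib
import Cfsg.Agent.H10.Mx11
import Cfsg.Agent.H10.Mx9

/-!
Pairs of quadratic unipotent one-parameter groups in a symplectic 6-space.
-/

set_option autoImplicit false

namespace Cfsg.Agent.H10.Q6

open Module H11

variable {F : Type*} [Field F]

theorem ring_pow [Fintype F] (h2 : (2 : F) ≠ 0) {R : Type*} [Ring R] [Algebra F R] {n n' : R}
    (hn : n * n = 0) (hn' : n' * n' = 0) {α β : F}
    (hθ : (n * n' + n' * n) * (n * n' + n' * n) = α • (n * n' + n' * n) - β • (1 : R))
    (hr : ∀ l : F, l * l - α * l + β ≠ 0) :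
    ∃ m : ℕ, (m : F) ≠ 0 ∧ ((1 + n) * (1 + n')) ^ m = 1 := by
  rcases subsingleton_or_nontrivial R with hR | hR
  · exact ⟨1, by simp, Subsingleton.elim _ _⟩
  obtain ⟨p, hp, k, hp', hq⟩ := FiniteField.card' F
  have := Fact.mk hp'
  have := charP_of_injective_algebraMap (algebraMap F R).injective p
  have hc : ringChar F ≠ 2 := fun e => h2 (by
    have := ringChar.Nat.cast_ringChar (R := F); rw [e] at this; exact_mod_cast this)
  obtain ⟨j, hj⟩ : ∃ j, Fintype.card F = 2 * j + 1 :=
    ⟨Fintype.card F / 2, by have := FiniteField.odd_card_of_char_ne_two hc; omega⟩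
  have hj' : Fintype.card F / 2 = j := by omega
  have fr : ∀ x y : R, Commute x y → (x + y) ^ Fintype.card F = x ^ Fintype.card F + y ^ Fintype.card F :=
    fun x y h => by rw [hq]; exact add_pow_char_pow_of_commute _ _ h
  have frs : ∀ (c : F) (x : R), (c • x) ^ Fintype.card F = c • x ^ Fintype.card F := fun c x => by
    rw [smul_pow, FiniteField.pow_card]
  generalize hθ' : n * n' + n' * n = θ at hθ
  obtain ⟨Δ, hΔ⟩ : ∃ Δ : R, Δ = (2 : F) • θ - α • 1 := ⟨_, rfl⟩
  have hD : Δ * Δ = (α * α - 4 * β) • (1 : R) := by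
    rw [hΔ]; simp only [mul_sub, sub_mul, smul_mul_assoc, mul_smul_comm, hθ, mul_one, one_mul]; module
  have ns : ∀ s : F, s * s ≠ α * α - 4 * β := fun s hs => hr ((α + s) / 2) (by
    field_simp; linear_combination hs)
  have D0 : α * α - 4 * β ≠ 0 := fun e => ns 0 (by simp [e])
  have Dp : (α * α - 4 * β) ^ j = -1 := by
    refine ((FiniteField.pow_dichotomy hc D0).resolve_left fun e => ?_) |> (hj' ▸ ·)
    obtain ⟨s, hs⟩ := (FiniteField.isSquare_iff hc D0).2 e
    exact ns s hs.symm
  have Δq : Δ ^ Fintype.card F = -Δ := by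
    rw [hj, pow_succ, pow_mul, sq, hD, smul_pow, one_pow, Dp]; simp
  have fk : ∀ s t : F, (s • (1 : R) + t • Δ) ^ Fintype.card F = s • (1 : R) + (-t) • Δ := fun s t => by
    rw [fr _ _ (((Commute.one_left _).smul_left _)), frs, frs, one_pow, Δq]; simp
  have eθ : θ = (α / 2) • (1 : R) + (1 / 2 : F) • Δ := by
    rw [hΔ]; match_scalars <;> field_simp <;> ring
  have θQ : (θ ^ Fintype.card F) ^ Fintype.card F = θ := by
    conv_lhs => rw [eθ, fk, fk, neg_neg, ← eθ]
  obtain ⟨w, hw⟩ : ∃ w, w = (1 + n) * (1 + n') := ⟨_, rfl⟩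
  obtain ⟨w', hw'⟩ : ∃ w', w' = (1 - n') * (1 - n) := ⟨_, rfl⟩
  have a1 : w * w' = 1 := by
    rw [hw, hw', mul_assoc, ← mul_assoc (1 + n'), show (1 + n') * (1 - n') = 1 - n' * n' by noncomm_ring,
      hn', sub_zero, one_mul, show (1 + n) * (1 - n) = 1 - n * n by noncomm_ring, hn, sub_zero]
  have a2 : w' * w = 1 := by
    rw [hw, hw', mul_assoc, ← mul_assoc (1 - n), show (1 - n) * (1 + n) = 1 - n * n by noncomm_ring,
      hn, sub_zero, one_mul, show (1 - n') * (1 + n') = 1 - n' * n' by noncomm_ring, hn', sub_zero]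
  have a3 : w + w' = 1 + 1 + θ := by rw [hw, hw', ← hθ']; noncomm_ring
  have cw : Commute w w' := a1.trans a2.symm
  have a4 : (w - w') * (w - w') = ((α + 4) * α / 2 - β) • (1 : R) + ((α + 4) / 2) • Δ := by
    have : (w - w') * (w - w') = (w + w') * (w + w') - (w * w' + w * w' + w' * w + w' * w) := by
      noncomm_ring
    rw [this, a1, a2, a3, show (1 + 1 + θ) * (1 + 1 + θ) - (1 + 1 + 1 + 1) = θ * θ + (θ + θ + θ + θ) by
      noncomm_ring, hθ, hΔ]
    match_scalars <;> field_simp <;> ring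
  generalize hs : (α + 4) * α / 2 - β = s at a4
  generalize ht : (α + 4) / 2 = t at a4
  have ν0 : s * s - t * t * (α * α - 4 * β) ≠ 0 := fun e => by
    by_cases t0 : t = 0
    · have s0 : s = 0 := by simpa [t0] using e
      have : α + 4 = 0 := by simpa [t0, h2] using ht
      exact hr 0 (by rw [this, s0] at hs; simpa using hs)
    · exact ns (s / t) (by field_simp; linear_combination e)
  have a5 : ((w - w') * (w - w')) ^ (Fintype.card F + 1) = (s * s - t * t * (α * α - 4 * β)) • (1 : R) := by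
    rw [pow_succ, a4, fk]
    simp only [mul_add, add_mul, smul_mul_assoc, mul_smul_comm, hD, mul_one, one_mul]; module
  have a6 : ((w - w') ^ Fintype.card F) ^ Fintype.card F =
      (s * s - t * t * (α * α - 4 * β)) ^ j • (w - w') := by
    rw [← pow_mul, show Fintype.card F * Fintype.card F = 2 * ((Fintype.card F + 1) * j) + 1 by
      rw [hj]; ring, pow_succ, pow_mul, sq, pow_mul, a5, smul_pow, one_pow, smul_mul_assoc, one_mul]
  have a7 : (2 : F) • (w ^ Fintype.card F) ^ Fintype.card F =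
      w + w' + (s * s - t * t * (α * α - 4 * β)) ^ j • (w - w') := by
    have c1 : Commute (w + w') (w - w') :=
      ((Commute.refl w).sub_right cw).add_left (cw.symm.sub_right (Commute.refl _))
    have e1 : ((w + w') ^ Fintype.card F) ^ Fintype.card F = w + w' := by
      rw [a3, fr _ _ ((Commute.one_left _).add_left (Commute.one_left _)), fr _ _ (Commute.one_left _),
        one_pow, fr _ _ ((Commute.one_left _).add_left (Commute.one_left _)), fr _ _ (Commute.one_left _),
        one_pow, θQ]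
    rw [← frs, ← frs, show (2 : F) • w = (w + w') + (w - w') by module, fr _ _ c1,
      fr _ _ (c1.pow_pow _ _), e1, a6]
  have q0 : ((Fintype.card F : ℕ) : F) = 0 := FiniteField.cast_card_eq_zero F
  obtain ⟨N, hN⟩ : ∃ N, Fintype.card F * Fintype.card F = N + 1 := ⟨(2 * j + 1) * (2 * j + 1) - 1, by
    rw [hj]; have : 1 ≤ (2 * j + 1) * (2 * j + 1) := Nat.one_le_iff_ne_zero.2 (by positivity); omega⟩
  have hN' : (N : F) + 1 = 0 := by
    have := congrArg (Nat.cast : ℕ → F) hN; push_cast at this; rw [← this, q0, mul_zero]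
  rw [← pow_mul, hN] at a7
  rw [← hw]
  rcases FiniteField.pow_dichotomy hc ν0 with e | e <;> rw [hj'] at e <;> rw [e] at a7
  · refine ⟨N, fun e0 => by simp [e0] at hN', ?_⟩
    have : w ^ (N + 1) = w := smul_right_injective R h2 (by simp only; rw [a7]; module)
    rw [← mul_one (w ^ N), ← a1, ← mul_assoc, ← pow_succ, this]
  · refine ⟨N + 1 + 1, by push_cast; rw [hN']; simp, ?_⟩
    have : w ^ (N + 1) = w' := smul_right_injective R h2 (by simp only; rw [a7]; module)
    rw [pow_succ, this, a2]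

variable {V : Type*} [AddCommGroup V] [Module F V] {B : V →ₗ[F] V →ₗ[F] F} {Q : V → F}
  {M : Subgroup (V ≃ₗ[F] V)} {N N' : End F V}

/-- a rigid quadratic one-parameter subgroup -/
structure Qd (B : V →ₗ[F] V →ₗ[F] F) (M : Subgroup (V ≃ₗ[F] V)) (N : End F V) : Prop where
  sq : ∀ x, N (N x) = 0
  sym : ∀ x y, B (N x) y = B (N y) x
  ker : ∀ x, N x = 0 → ∃ y, x = N y
  rk : finrank F (LinearMap.range N) = 3
  mem : ∀ c : F, ∃ k ∈ M, ∀ v, k v = v + c • N v
  rig : ∀ n : End F V, (∃ k ∈ M, ∀ v, k v = v + n v) → (∀ x, n (N x) = 0) → (∀ x, N (n x) = 0) →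
    ∃ c : F, ∀ x, n x = c • N x

theorem Qd.conj (hM : M ≤ Isom B Q) (a : Qd B M N) {k : V ≃ₗ[F] V} (hk : k ∈ M)
    (e : ∀ v, N' (k v) = k (N v)) : Qd B M N' := by
  have e' : ∀ v, N' v = k (N (k.symm v)) := fun v => by rw [← e]; simp
  refine ⟨fun x => by simp [e', a.sq], fun x y => ?_, fun x hx => ?_, ?_, fun c => ?_, fun n ⟨j, hj, h1⟩ h2 h3 => ?_⟩
  · obtain ⟨x, rfl⟩ := k.surjective x
    obtain ⟨y, rfl⟩ := k.surjective y
    rw [e, e, (hM hk).1, (hM hk).1, a.sym]
  · obtain ⟨y, hy⟩ := a.ker (k.symm x) (by simpa [e'] using hx)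
    exact ⟨k y, by rw [e, ← hy]; simp⟩
  · have : LinearMap.range N' = (LinearMap.range N).map (k : V →ₗ[F] V) := by
      ext x; constructor
      · rintro ⟨y, rfl⟩; exact ⟨_, ⟨_, rfl⟩, (e' y).symm⟩
      · rintro ⟨_, ⟨y, rfl⟩, rfl⟩; exact ⟨_, e y⟩
    rw [this, LinearEquiv.finrank_map_eq, a.rk]
  · obtain ⟨j, hj, h1⟩ := a.mem c
    exact ⟨k * j * k⁻¹, M.mul_mem (M.mul_mem hk hj) (M.inv_mem hk), fun v => by
      simp [h1, e', LinearEquiv.coe_inv]⟩
  · obtain ⟨c, hc⟩ := a.rig (k.symm.toLinearMap * n * k.toLinearMap)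
      ⟨k⁻¹ * j * k, M.mul_mem (M.mul_mem (M.inv_mem hk) hj) hk, fun v => by
        simp [h1, LinearEquiv.coe_inv]⟩ (fun x => by simp [← e, h2])
      (fun x => k.injective (by rw [← e]; simp [h3]))
    refine ⟨c, fun x => ?_⟩
    have := congrArg k (hc (k.symm x))
    simpa [e'] using this

theorem Qd.cj (hM : M ≤ Isom B Q) (a : Qd B M N) (b : Qd B M N') (c : F) :
    Qd B M ((1 + c • N') * N * (1 - c • N')) := by
  obtain ⟨k, hk, h1⟩ := b.mem c
  exact a.conj hM hk fun v => by simp [h1, b.sq]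

variable (h : Cl (σ := RingHom.id F) (-1) 0 0 B Q) (hM : M ≤ Isom B Q) (h2 : (2 : F) ≠ 0)
include h

theorem as (x y : V) : B x y = -B y x := by simp [h.symm y x]

theorem Qd.adj (a : Qd B M N) (b : Qd B M N') (x y : V) : B (N (N' x)) y = -B (N' (N y)) x := by
  rw [a.sym, as h, b.sym]

theorem Qd.adj0 (a : Qd B M N) (b : Qd B M N') (e : ∀ x, N' (N x) = 0) (x : V) : N (N' x) = 0 :=
  h.sep _ fun y => by rw [a.adj h b, e]; simp

theorem Qd.rig' (a : Qd B M N) (b : Qd B M N') (e : ∀ x, N' (N x) = 0) : ∃ c : F, ∀ x, N' x = c • N x :=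
  a.rig N' (by simpa using b.mem 1) e (a.adj0 h b e)

variable [FiniteDimensional F V]
include h2

theorem Qd.comm (a : Qd B M N) (b : Qd B M N') (e : ∀ x, N' (N x) = N (N' x)) (v : V) : N' (N v) = 0 := by
  refine h.sep _ fun y => by_contra fun hy => ?_
  have s : ∀ x, B (N' (N x)) x = 0 := fun x => by
    have := a.adj h b x x
    rw [← e] at this
    exact (mul_eq_zero.1 (show 2 * B (N' (N x)) x = 0 by linear_combination this)).resolve_left h2
  have s' : B (N' (N y)) v = -B (N' (N v)) y := by rw [e, a.adj h b]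
  have k : ∀ r t : F, r • N' (N v) + t • N' (N y) = 0 → r = 0 ∧ t = 0 := fun r t hst => by
    have e1 := congrArg (B · y) hst
    have e2 := congrArg (B · v) hst
    simp only [map_add, map_smul, LinearMap.add_apply, LinearMap.smul_apply, s, s', smul_eq_mul,
      map_zero, LinearMap.zero_apply] at e1 e2
    exact ⟨by simpa [hy] using e1, by simpa [hy] using e2⟩
  have li : LinearIndependent F (![⟨_, v, rfl⟩, ⟨_, y, rfl⟩, ⟨_, N' v, rfl⟩, ⟨_, N' y, rfl⟩] :
      Fin 4 → LinearMap.range N) := by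
    refine Fintype.linearIndependent_iff.2 fun c hc => ?_
    replace hc := congrArg Subtype.val hc
    simp only [Fin.sum_univ_four, Submodule.coe_add, Submodule.coe_smul, Submodule.coe_zero,
      Matrix.cons_val] at hc
    have e1 := congrArg N' hc
    simp only [map_add, map_smul, ← e, b.sq, smul_zero, add_zero, map_zero] at e1
    obtain ⟨c0, c1⟩ := k _ _ e1
    rw [c0, c1, zero_smul, zero_smul, zero_add, zero_add, ← e, ← e] at hc
    obtain ⟨c2, c3⟩ := k _ _ hc
    intro i; fin_cases i <;> assumption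
  have := li.fintype_card_le_finrank
  rw [a.rk] at this; simp at this

include hM

theorem Qd.tri (a : Qd B M N) (b : Qd B M N') (e : ∀ x, N (N' (N x)) = 0) (v : V) : N' (N v) = 0 := by
  obtain ⟨c, hc⟩ := a.rig' h (a.cj hM b 1) fun x => by simp [a.sq, e]
  obtain ⟨d, hd⟩ := a.rig' h (a.cj hM b (-1)) fun x => by simp [a.sq, e]
  have k : ∀ x, (2 : F) • (N' (N x) - N (N' x)) = (c - d) • N x := fun x => by
    have e1 := hc x
    have e2 := hd x
    simp only [Module.End.mul_apply, LinearMap.add_apply, LinearMap.sub_apply, LinearMap.smul_apply,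
      Module.End.one_apply, map_sub, map_smul] at e1 e2
    rw [sub_smul, ← e1, ← e2]; module
  by_cases hcd : c - d = 0
  · exact a.comm h h2 b (fun x => by simpa [hcd, h2, sub_eq_zero] using k x) v
  have k1 : ∀ x, N (N' x) = -N' (N x) := fun x => by
    have e1 := k (N' x)
    have e2 := congrArg N' (k x)
    simp only [map_smul, map_sub, b.sq, map_zero, sub_zero, zero_sub] at e1 e2
    refine smul_right_injective V hcd ?_
    simp only [smul_neg]; rw [← e1, ← e2]; module
  have e2 := congrArg N' (k v)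
  rw [k1] at e2
  simpa [b.sq, hcd] using e2.symm

theorem Qd.mu (ht : ∃ t : F, t ≠ 0 ∧ t * t ≠ 1) (a : Qd B M N) (b : Qd B M N') {z v : V} {θ : F}
    (z0 : N z ≠ 0) (z1 : N' (N z) = 0) (z2 : N (N' z) = 0) (v0 : v ≠ 0) (v1 : N v = 0)
    (v2 : N (N' v) = θ • v) (θ0 : θ ≠ 0)
    (hh : ∀ c d : F, c * d * θ = -1 →
      Qd B M ((1 + d • N') * ((1 + c • N) * N' * (1 - c • N)) * (1 - d • N')) → ∀ x,
      ((1 + d • N') * ((1 + c • N) * N' * (1 - c • N)) * (1 - d • N')) (N x) = 0) : False := by
  have k : ∀ c : F, c ≠ 0 → N' z = (-(c * c * θ)) • N z := fun c hc => by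
    have e : c * (-1 / (c * θ)) * θ = -1 := by field_simp
    generalize -1 / (c * θ) = d at e
    have q := (b.cj hM a c).cj hM b d
    obtain ⟨m, hm⟩ := a.rig' h q (hh c d e q)
    have e1 := hm (v + d • N' v)
    have e2 := hm (z + c • N z + d • N' z)
    simp only [Module.End.mul_apply, LinearMap.add_apply, LinearMap.sub_apply, LinearMap.smul_apply,
      Module.End.one_apply, map_sub, map_smul, map_add, a.sq, b.sq, v1, v2, z1, z2, smul_zero, add_zero,
      zero_add, sub_zero, add_sub_cancel_right] at e1 e2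
    have e3 : (c * θ) • v = (m * d * θ) • v := by
      linear_combination (norm := module) e1 - e • (N' v)
    have e4 : m = -(c * c * θ) := by
      have := smul_left_injective F v0 e3
      linear_combination (c : F) * this + m * e
    rw [← e4, ← e2]; simp
  obtain ⟨t, t0, t1⟩ := ht
  have := smul_left_injective F z0 ((k 1 one_ne_zero).symm.trans (k t t0))
  exact t1 (mul_right_cancel₀ θ0 (by linear_combination this))

theorem Qd.two (ht : ∃ t : F, t ≠ 0 ∧ t * t ≠ 1) (hV : 6 ≤ finrank F V) (a : Qd B M N) (b : Qd B M N')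
    {z z' : V} (li : ∀ r t : F, r • z + t • z' = 0 → r = 0 ∧ t = 0) (z1 : N z = 0) (z2 : N z' = 0)
    (z3 : N' z = 0) (z4 : N' z' = 0) (v : V) : N' (N v) = 0 := by
  by_contra hv
  have d1 := finrank_le_inf_ker_add (LinearMap.range N) N'
  have m : ∀ z, N z = 0 → z ∈ LinearMap.range N := fun z hz => (a.ker z hz).imp fun _ => Eq.symm
  have d2 := (LinearIndependent.pair_iff.2 fun r t e => li r t (congrArg Subtype.val e) :
    LinearIndependent F (![⟨z, m z z1, z3⟩, ⟨z', m z' z2, z4⟩] :
      Fin 2 → ↥(LinearMap.range N ⊓ LinearMap.ker N'))).fintype_card_le_finrank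
  rw [a.rk] at d1
  obtain ⟨x', hx'⟩ := finrank_le_one_iff.1 (show finrank F ((LinearMap.range N).map N') ≤ 1 by
    simp only [Fintype.card_fin] at d2; omega)
  replace hx' : ∀ y, ∃ c : F, c • x'.1 = N' (N y) := fun y =>
    (hx' ⟨_, _, ⟨y, rfl⟩, rfl⟩).imp fun c => congrArg Subtype.val
  have n0 : N' x'.1 = 0 := by obtain ⟨_, y, -, rfl⟩ := x'; exact b.sq y
  generalize x'.1 = x' at hx' n0
  have x0 : x' ≠ 0 := by rintro rfl; obtain ⟨c, hc⟩ := hx' v; exact hv (by simpa using hc.symm)
  obtain ⟨y1, hy1⟩ := h.form.exists_right_eq_one h.sep x0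
  obtain ⟨x, hx⟩ : ∃ x, x = -N (N' y1) := ⟨_, rfl⟩
  have nx : N x = 0 := by simp [hx, a.sq]
  have f1 : ∀ y, N' (N y) = B x y • x' := fun y => by
    obtain ⟨c, hc⟩ := hx' y
    rw [hx, map_neg, LinearMap.neg_apply, a.adj h b, ← hc]; simp [hy1]
  have f2 : ∀ y, N (N' y) = -B x' y • x := fun y => sub_eq_zero.1 (h.sep _ fun w => by
    simp [a.adj h b, f1, mul_comm])
  by_cases γ : B x x' = 0
  · by_cases e : N x' = 0
    · exact hv (a.tri h hM h2 b (fun y => by simp [f1, e]) v)
    have e1 := congrArg N (f1 v)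
    have bv : B x v ≠ 0 := fun e => hv (by simp [f1, e])
    have e2 := congrArg N' e1
    rw [map_smul, map_smul, f1 x', γ, zero_smul, smul_zero, f2, map_smul] at e2
    rw [f2, map_smul] at e1
    have e3 : N' x = 0 := (smul_eq_zero.1 e2).resolve_left fun e3 => by
      rw [e3, zero_smul] at e1; exact e ((smul_eq_zero.1 e1.symm).resolve_left bv)
    exact hv (b.adj0 h a (b.tri h hM h2 a fun y => by simp [f2, e3]) v)
  obtain ⟨w, w1, w2⟩ : ∃ w ∈ (⊤ ⊓ LinearMap.ker (B x)) ⊓ LinearMap.ker (B x'), w ∉ LinearMap.range N := by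
    have e1 := finrank_le_inf_ker (⊤ : Submodule F V) (B x)
    have e2 := finrank_le_inf_ker (⊤ ⊓ LinearMap.ker (B x)) (B x')
    rw [finrank_top] at e1
    exact exists_mem_notMem (by rw [a.rk]; omega)
  refine a.mu h hM h2 ht b (z := w) (v := x) (θ := B x x') (fun e => w2 (m w e))
    (by rw [f1, show B x w = 0 from w1.1.2, zero_smul])
    (by rw [f2, show B x' w = 0 from w1.2]; simp) (by rintro rfl; simp at γ) nx
    (by rw [f2, ← as h]) γ fun c d e _ y => ?_
  have : N' ((1 - c • N : End F V) ((1 - d • N' : End F V) (N y))) = 0 := by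
    simp only [LinearMap.sub_apply, LinearMap.smul_apply, Module.End.one_apply, map_sub, map_smul,
      a.sq, f1, n0, map_zero]
    linear_combination (norm := module) (B x y * e) • x'
  simp only [Module.End.mul_apply, this, map_zero]

theorem Qd.one [Fintype F] (ht : ∃ t : F, t ≠ 0 ∧ t * t ≠ 1) (hV : 6 ≤ finrank F V) (a : Qd B M N)
    (b : Qd B M N') {E : End F V} (EE : ∀ x, E (E x) = E x) (c1 : ∀ x, E (N x) = N (E x))
    (c2 : ∀ x, E (N' x) = N' (E x)) (e1 : ∀ x, N (N' (E x)) = 0) (e2 : ∀ x, N' (N (E x)) = 0)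
    {z : V} (z1 : E z = z) (z2 : N z ≠ 0) (v : V) : N' (N v) = 0 := by
  by_contra hv
  have z3 : N' (N z) = 0 := by rw [← z1, e2]
  have z4 : N (N' z) = 0 := by rw [← z1, e1]
  have li : ∀ x, x ≠ 0 → E x = 0 → ∀ r t : F, r • N z + t • x = 0 → r = 0 ∧ t = 0 := fun x x0 hx r t e => by
    have := congrArg E e
    simp only [map_add, map_smul, c1, z1, hx, smul_zero, add_zero, map_zero] at this
    have r0 := (smul_eq_zero.1 this).resolve_right z2
    exact ⟨r0, by simpa [r0, x0] using e⟩
  have i1 : ∀ x, E x = 0 → N x = 0 → N' x = 0 → x = 0 := fun x p q r => by_contra fun x0 =>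
    hv (a.two h hM h2 ht hV b (li x x0 p) (a.sq z) q z3 r v)
  have i2 : ∀ x, E x = 0 → N x = 0 → N (N' x) = 0 → x = 0 := fun x p q r =>
    i1 x p q (i1 _ (by rw [c2, p, map_zero]) r (b.sq x))
  have ne : ∀ x, x ≠ 0 → E x = 0 → N x = 0 → ∀ l : F, N (N' x) ≠ l • x := fun x x0 p q l e => by
    have l0 : l ≠ 0 := by rintro rfl; exact x0 (i2 x p q (by simpa using e))
    refine a.mu h hM h2 ht b z2 z3 z4 x0 q e l0 fun c d hcd k => a.two h hM h2 ht hV k (li x x0 p)
      (a.sq z) q (by simp [a.sq, z3]) ?_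
    have : N' ((1 - c • N : End F V) ((1 - d • N' : End F V) x)) = 0 := by
      simp only [LinearMap.sub_apply, LinearMap.smul_apply, Module.End.one_apply, map_sub, map_smul,
        b.sq, q, e, map_zero]
      linear_combination (norm := module) hcd • N' x
    simp only [Module.End.mul_apply, this, map_zero]
  obtain ⟨u, hu⟩ : ∃ u, u = N (v - E v) := ⟨_, rfl⟩
  have u0 : u ≠ 0 := fun e => hv (by
    rw [hu, map_sub, sub_eq_zero] at e; rw [e, e2])
  have u1 : E u = 0 := by simp [hu, c1, EE]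
  have u2 : N u = 0 := by rw [hu, a.sq]
  have sp : ∀ x, E x = 0 → N x = 0 → ∃ r t : F, x = r • u + t • N (N' u) := fun x p q => by
    have m : ∀ z, N z = 0 → z ∈ LinearMap.range N := fun z hz => (a.ker z hz).imp fun _ => Eq.symm
    by_contra! hc
    have li : LinearIndependent F (![⟨_, z, rfl⟩, ⟨u, m u u2⟩, ⟨_, N' u, rfl⟩, ⟨x, m x q⟩] :
        Fin 4 → LinearMap.range N) := by
      refine Fintype.linearIndependent_iff.2 fun c e => ?_
      replace e := congrArg Subtype.val e
      simp only [Fin.sum_univ_four, Submodule.coe_add, Submodule.coe_smul, Submodule.coe_zero,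
        Matrix.cons_val] at e
      have e' := congrArg E e
      simp only [map_add, map_smul, c1, c2, z1, u1, p, smul_zero, add_zero, map_zero] at e'
      have r0 := (smul_eq_zero.1 e').resolve_right z2
      have r3 : c 3 = 0 := by_contra fun r3 => hc (-c 1 / c 3) (-c 2 / c 3) (smul_right_injective V r3 (by
        simp only [smul_add, smul_smul, mul_div_cancel₀ _ r3]
        rw [r0] at e; linear_combination (norm := module) e))
      have r2 : c 2 = 0 := by_contra fun r2 => ne u u0 u1 u2 (-c 1 / c 2) (smul_right_injective V r2 (by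
        simp only [smul_smul, mul_div_cancel₀ _ r2]
        rw [r0, r3] at e; linear_combination (norm := module) e))
      have r1 : c 1 = 0 := by simpa [r0, r2, r3, u0] using e
      intro i; fin_cases i <;> assumption
    have := li.fintype_card_le_finrank
    rw [a.rk] at this; simp at this
  have w1 : E (N (N' u)) = 0 := by simp [c1, c2, u1]
  obtain ⟨β', α, hab⟩ := sp (N (N' (N (N' u)))) (by simp [c1, c2, u1]) (a.sq _)
  have hr : ∀ l : F, l * l - α * l + -β' ≠ 0 := fun l e =>
    ne (N (N' u) - (α - l) • u) (sub_ne_zero.2 (ne u u0 u1 u2 _)) (by simp [w1, u1]) (by simp [a.sq, u2]) l (by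
      simp only [map_sub, map_smul, hab]; linear_combination (norm := module) (-e) • u)
  have β0 : β' ≠ 0 := fun e => hr 0 (by simp [e])
  have pX : ∀ x, E x = 0 → N x = 0 → N (N' (N (N' x))) = α • N (N' x) + β' • x := fun x p q => by
    obtain ⟨r, t, rfl⟩ := sp x p q
    simp only [map_add, map_smul, hab]; module
  have dec : ∀ y, E y = 0 → ∃ x x', E x = 0 ∧ N x = 0 ∧ E x' = 0 ∧ N x' = 0 ∧ y = x + N' x' := fun y p => by
    have q := pX (N y) (by rw [c1, p, map_zero]) (a.sq y)
    refine ⟨y - N' (β'⁻¹ • (N (N' (N y)) - α • N y)), β'⁻¹ • (N (N' (N y)) - α • N y),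
      by simp [c1, c2, p], ?_, by simp [c1, c2, p], by simp [a.sq], by simp⟩
    simp only [map_sub, map_smul, q, add_sub_cancel_left, smul_smul, inv_mul_cancel₀ β0, one_smul, sub_self]
  have key : ∀ c : F, c * c = 1 → N z + c • N' z = 0 := fun c hc => by
    have r1 : ∀ x ∈ LinearMap.ker E, N x ∈ LinearMap.ker E := fun x (hx : E x = 0) => by simp [c1, hx]
    have r2 : ∀ x ∈ LinearMap.ker E, (c • N') x ∈ LinearMap.ker E := fun x (hx : E x = 0) => by
      simp [c2, hx]
    obtain ⟨m, m0, hm⟩ := ring_pow h2 (n := N.restrict r1) (n' := (c • N').restrict r2) (α := c * α)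
      (β := -β') (by ext x; simp [a.sq]) (by ext x; simp [b.sq]) (by
        ext ⟨y, hy⟩
        obtain ⟨x, x', p, q, p', q', rfl⟩ := dec y hy
        simp only [Module.End.mul_apply, LinearMap.add_apply, LinearMap.sub_apply, LinearMap.smul_apply,
          Module.End.one_apply, Submodule.coe_add, Submodule.coe_sub, Submodule.coe_smul,
          LinearMap.coe_restrict_apply, map_add, map_smul, q, q', a.sq, b.sq, pX x p q, pX x' p' q',
          smul_zero, add_zero, zero_add, map_zero]
        linear_combination (norm := module) (β' * hc) • x + (β' * hc) • N' x')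
      fun l e => hr (c * l) (by linear_combination e + l * l * hc)
    obtain ⟨k, hk, k1⟩ := a.mem 1
    obtain ⟨k', hk', k2⟩ := b.mem c
    have p1 : ∀ (i : ℕ) (y : LinearMap.ker E), ((k * k') ^ i) y.1 =
        (((1 + N.restrict r1) * (1 + (c • N').restrict r2)) ^ i) y := fun i => by
      induction i with
      | zero => simp
      | succ i ih => intro y; rw [pow_succ', pow_succ', LinearEquiv.mul_apply, ih]; simp [k1, k2]
    have p2 : ∀ (i : ℕ) y, ((k * k') ^ i) (E y) = E y + (i : F) • (N (E y) + c • N' (E y)) := fun i y => by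
      induction i with
      | zero => simp
      | succ i ih =>
        rw [pow_succ', LinearEquiv.mul_apply, ih]
        simp only [LinearEquiv.mul_apply, k1, k2, map_add, map_smul, a.sq, b.sq, e1, e2, map_zero]
        push_cast; module
    obtain ⟨μ, hμ⟩ := a.rig ((m : F) • ((N + c • N') * E))
      ⟨_, M.pow_mem (M.mul_mem hk hk') m, fun y => by
        have := p1 m ⟨y - E y, by simp [EE]⟩
        rw [hm] at this
        rw [show y = (y - E y) + E y by simp, map_add, this, p2]; simp [EE, ← add_assoc]⟩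
      (fun x => by simp [c1, a.sq, e2]) (fun x => by simp [a.sq, e1])
    have μ0 : μ = 0 := by
      have := hμ (v - E v)
      rw [← hu] at this
      exact (smul_eq_zero.1 (this.symm.trans (by simp [EE]))).resolve_right u0
    have := hμ z
    rw [μ0, zero_smul, LinearMap.smul_apply, smul_eq_zero_iff_right m0] at this
    simpa [z1] using this
  have := key 1 (by simp)
  have := key (-1) (by simp)
  exact z2 (smul_right_injective V h2 (by simp only; linear_combination (norm := module) ‹N z + (1 : F) • _ = 0› + this))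

end Cfsg.Agent.H10.Q6
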