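import Mathlib
import Cfsg.Agent.H10.Ag15
import Cfsg.Agent.H19.TB6

/-!
The tensor product of a symplectic plane with an orthogonal 3-space.
-/

set_option autoImplicit false

namespace Cfsg.Agent.H10.Q6

open Module H11 H19.TA
open H26.MX (Tn Wt)

variable {F : Type*} [Field F]

theorem avoid [Finite F] {n : ℕ} (hn : n + 2 < Nat.card F) {a b c : F} (h : ¬ (a = 0 ∧ b = 0 ∧ c = 0))
    (s : Finset F) (hs : s.card ≤ n) : ∃ t, t ∉ s ∧ a + b * t + c * t * t ≠ 0 := by
  classical
  have p0 : (Polynomial.C c * Polynomial.X ^ 2 + Polynomial.C b * Polynomial.X + Polynomial.C a) ≠ 0 :=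
    fun e => h ⟨by simpa using congrArg (·.coeff 0) e, by simpa using congrArg (·.coeff 1) e,
      by simpa using congrArg (·.coeff 2) e⟩
  obtain ⟨t, ht⟩ := H26.MX.exists_not_mem_card hn (s ∪ (Polynomial.C c * Polynomial.X ^ 2 +
      Polynomial.C b * Polynomial.X + Polynomial.C a).roots.toFinset) (by
    refine (Finset.card_union_le _ _).trans (add_le_add hs ((Multiset.toFinset_card_le _).trans
      ((Polynomial.card_roots' _).trans Polynomial.natDegree_quadratic_le))))
  simp only [Finset.mem_union, Multiset.mem_toFinset, Polynomial.mem_roots p0, not_or] at ht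
  exact ⟨t, ht.1, fun e => ht.2 (by simp [← e]; ring)⟩

variable {W : Type*} [AddCommGroup W] [Module F W] {f : W →ₗ[F] W →ₗ[F] F} {q : W → F}

/-- symmetric products -/
def sy (f : W →ₗ[F] W →ₗ[F] F) (x y : W) : End F W := (f x).smulRight y + (f y).smulRight x

/-- reflections -/
def rf (f : W →ₗ[F] W →ₗ[F] F) (w : W) : End F W := 1 - (2 / f w w) • (f w).smulRight w

theorem sy_apply (x y z : W) : sy f x y z = f x z • y + f y z • x := rfl

theorem rf_apply (w z : W) : rf f w z = z - (2 / f w w * f w z) • w := by simp [rf, smul_smul]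

section orth
variable (h : Cl (σ := RingHom.id F) 1 2 (AddMonoidHom.id F) f q) (h2 : (2 : F) ≠ 0)
include h

theorem rf_iso {w : W} (hw : f w w ≠ 0) (x y : W) : f (rf f w x) (rf f w y) = f x y := by
  simp [rf_apply, qs h x w]; field_simp; ring

theorem rf_adj (w x y : W) : f (rf f w x) y = f x (rf f w y) := by
  simp [rf_apply, qs h x w]; ring

omit h in
theorem rf_rf {w : W} (hw : f w w ≠ 0) (x : W) : rf f w (rf f w x) = x := by
  simp only [rf_apply, map_sub, map_smul, smul_eq_mul]; match_scalars <;> field_simp <;> ring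

theorem rf_sy (w x y : W) : rf f w * sy f x y * rf f w = sy f (rf f w x) (rf f w y) := by
  ext z; simp [sy_apply, rf_adj h]

variable [FiniteDimensional F W] (dW : finrank F W = 3)
include dW

theorem perp2 {x y p z : W} (li : ∀ r t : F, r • x + t • y = 0 → r = 0 ∧ t = 0) (p0 : p ≠ 0)
    (p1 : f x p = 0) (p2 : f y p = 0) (z1 : f x z = 0) (z2 : f y z = 0) : ∃ c : F, z = c • p := by
  have e1 := h.form.finrank_perp h.sep (Submodule.span F {x, y})
  have e2 := finrank_span_eq_card (LinearIndependent.pair_iff.2 li)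
  rw [show Set.range ![x, y] = {x, y} by simp [Set.pair_comm y x]] at e2
  have m : ∀ p, f x p = 0 → f y p = 0 → p ∈ perp f (Submodule.span F {x, y}) := fun p a b =>
    mem_perp_span.2 (by simp [a, b])
  have e3 : finrank F (perp f (Submodule.span F {x, y})) = 1 := by rw [Fintype.card_fin] at e2; omega
  obtain ⟨c, hc⟩ := (finrank_eq_one_iff_of_nonzero' (⟨p, m p p1 p2⟩ : perp f (Submodule.span F {x, y}))
    (by simpa using p0)).1 e3 ⟨z, m z z1 z2⟩
  exact ⟨c, (congrArg Subtype.val hc).symm⟩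

theorem ex_perp (w : W) (x : W) : ∃ y, f w y = 0 ∧ ∀ c : F, y ≠ c • x := by
  have e1 := finrank_le_inf_ker (⊤ : Submodule F W) (f w)
  have := finrank_span_one_le (F := F) x
  obtain ⟨y, a, b⟩ := exists_mem_notMem (W := ⊤ ⊓ LinearMap.ker (f w)) (Z := Submodule.span F {x})
    (by rw [finrank_top] at e1; omega)
  exact ⟨y, a.2, fun c e => b (e ▸ Submodule.smul_mem _ _ (Submodule.mem_span_singleton_self _))⟩

include h2

theorem ex_ns : ∃ w, f w w ≠ 0 := by
  by_contra! hc
  have := Module.nontrivial_of_finrank_pos (R := F) (M := W) (by omega)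
  obtain ⟨x, hx⟩ := exists_ne (0 : W)
  obtain ⟨y, e⟩ := h.exists_ne hx
  have := hc (x + y)
  simp only [map_add, LinearMap.add_apply, hc, qs h y x] at this
  exact e ((mul_eq_zero.1 (show 2 * f x y = 0 by linear_combination this)).resolve_left h2)

variable [Finite F] (h5 : 4 < Nat.card F)
include h5

theorem ex_ns' {w : W} (hw : f w w ≠ 0) (y : W) (s : Finset F) (hs : s.card ≤ 2) :
    ∃ t, t ∉ s ∧ f (y + t • w) (y + t • w) ≠ 0 := by
  obtain ⟨t, a, b⟩ := avoid (n := 2) h5 (a := f y y) (b := 2 * f y w) (c := f w w) (by simp [hw]) s hs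
  exact ⟨t, a, by simp [qs h w y]; convert b using 1; ring⟩

theorem ex_ns_ne {U : Type*} [AddCommGroup U] [Module F U] {v : W →ₗ[F] U} (hv : v ≠ 0) :
    ∃ w, f w w ≠ 0 ∧ v w ≠ 0 := by
  obtain ⟨w, hw⟩ := ex_ns h h2 dW
  by_cases e : v w = 0
  · obtain ⟨y, hy⟩ := DFunLike.ne_iff.1 hv
    obtain ⟨t, -, ht⟩ := ex_ns' h h2 dW h5 hw y ∅ (by simp)
    exact ⟨_, ht, by simpa [e] using hy⟩
  · exact ⟨w, hw, e⟩

theorem scalar_of {σ : End F W} (hσ : ∀ w, f w w ≠ 0 → ∃ c : F, σ w = c • w) : ∃ c : F, ∀ w, σ w = c • w := by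
  classical
  obtain ⟨w, hw⟩ := ex_ns h h2 dW
  obtain ⟨c, hc⟩ := hσ w hw
  refine ⟨c, fun y => ?_⟩
  obtain ⟨t, -, ht⟩ := ex_ns' h h2 dW h5 hw y ∅ (by simp)
  obtain ⟨t', ht1, ht'⟩ := ex_ns' h h2 dW h5 hw y {t} (by simp)
  obtain ⟨d, hd⟩ := hσ _ ht
  obtain ⟨d', hd'⟩ := hσ _ ht'
  simp only [map_add, map_smul, hc] at hd hd'
  by_cases e : d = d'
  · have : ((t - t') * (c - d)) • w = 0 := by rw [← e] at hd'; linear_combination (norm := module) hd - hd'
    have w0 : w ≠ 0 := by rintro rfl; simp at hw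
    have : c = d := by
      have := (smul_eq_zero.1 this).resolve_right w0
      exact sub_eq_zero.1 ((mul_eq_zero.1 this).resolve_left (sub_ne_zero.2 (by simpa [eq_comm] using ht1)))
    rw [← this] at hd; linear_combination (norm := module) hd
  · have : y = ((t * c - d * t - t' * c + d' * t') / (d - d')) • w :=
      smul_right_injective W (sub_ne_zero.2 e) (by
        simp only [smul_smul, mul_div_cancel₀ _ (sub_ne_zero.2 e)]
        linear_combination (norm := module) hd' - hd)
    rw [this, map_smul, hc, smul_comm]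

variable {S : Submodule F (End F W)} (hS : ∀ σ ∈ S, ∀ w, f w w ≠ 0 → rf f w * σ * rf f w ∈ S)
include hS

theorem sy_irr {w u y : W} (hw : f w w ≠ 0) (u0 : u ≠ 0) (hu : f w u = 0) (m : sy f w u ∈ S)
    (hy : f w y = 0) : sy f w y ∈ S := by
  classical
  by_cases e : ∃ c : F, y = c • u
  · obtain ⟨c, rfl⟩ := e
    convert S.smul_mem c m using 1
    ext z; simp [sy_apply, smul_smul, mul_comm]
  push Not at e
  have nz : ¬ (f y u = 0 ∧ f u u = 0) := fun ⟨a, b⟩ => by
    obtain ⟨c, hc⟩ := perp2 h dW (x := y) (y := u) (p := u) (z := w) (fun r t k => by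
      by_cases r0 : r = 0
      · exact ⟨r0, by simpa [r0, u0] using k⟩
      · exact absurd (smul_right_injective W r0 (by
          simp only [smul_smul, mul_div_cancel₀ _ r0]; linear_combination (norm := module) k))
          (e (-t / r))) u0 a b (h.refl hy) (h.refl hu)
    simp [hc, b] at hw
  obtain ⟨t, a, b⟩ := avoid (n := 2) h5 (a := f y y) (b := 2 * f y u) (c := f u u) (by simp [h2]; tauto)
    {-f y u / f u u} (by simp)
  have x1 : f (y + t • u) (y + t • u) ≠ 0 := by simp [qs h u y]; convert b using 1; ring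
  have x2 : f (y + t • u) u ≠ 0 := fun k => by
    simp only [map_add, map_smul, LinearMap.add_apply, LinearMap.smul_apply, smul_eq_mul] at k
    by_cases uu : f u u = 0
    · exact nz ⟨by simpa [uu] using k, uu⟩
    · exact a (Finset.mem_singleton.2 (by field_simp; linear_combination k))
  have x3 : f (y + t • u) w = 0 := by simp [h.refl hy, h.refl hu]
  have k := hS _ m _ x1
  rw [rf_sy h, rf_apply, rf_apply, x3] at k
  have c0 : 2 / f (y + t • u) (y + t • u) * f (y + t • u) u ≠ 0 := mul_ne_zero (div_ne_zero h2 x1) x2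
  generalize 2 / f (y + t • u) (y + t • u) * f (y + t • u) u = c at k c0
  convert S.smul_mem c⁻¹ (S.sub_mem (S.smul_mem (1 - c * t) m) k) using 1
  ext z; simp [sy_apply]; match_scalars <;> field_simp <;> ring

theorem sy_sing {w u v : W} (hw : f w w ≠ 0) (u0 : u ≠ 0) (hu : f w u = 0) (m : sy f w u ∈ S)
    (hv : f v v = 0) : sy f v v ∈ S := by
  have k : ∀ x, f x x ≠ 0 → f x v = 0 → sy f x v ∈ S → sy f v v ∈ S := fun x a b c => by
    have e : f (x + v) (x + v) = f x x := by simp [b, h.refl b, hv]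
    have k := hS _ c (x + v) (by rwa [e])
    rw [rf_sy h, rf_apply, rf_apply, e] at k
    convert S.smul_mem (-2)⁻¹ (S.add_mem c k) using 1
    ext z; simp [sy_apply, b, h.refl b, hv]; match_scalars <;> field_simp <;> ring
  by_cases e : f w v = 0
  · exact k w hw e (sy_irr h h2 dW h5 hS hw u0 hu m e)
  obtain ⟨x, x0, x1, x2⟩ : ∃ x, x ≠ 0 ∧ f w x = 0 ∧ f v x = 0 := by
    have e1 := finrank_le_inf_ker (⊤ : Submodule F W) (f w)
    have e2 := finrank_le_inf_ker (⊤ ⊓ LinearMap.ker (f w)) (f v)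
    obtain ⟨y, a, b⟩ := exists_mem_notMem (W := (⊤ ⊓ LinearMap.ker (f w)) ⊓ LinearMap.ker (f v)) (Z := ⊥)
      (by rw [finrank_top] at e1; rw [finrank_bot]; omega)
    exact ⟨y, b, a.1.2, a.2⟩
  have xx : f x x ≠ 0 := fun xx => by
    obtain ⟨c, hc⟩ := perp2 h dW (x := x) (y := v) (p := x) (z := v) (fun r t k => by
      have := congrArg (f w) k
      have t0 : t = 0 := by simpa [x1, e] using this
      exact ⟨by simpa [t0, x0] using k, t0⟩) x0 xx x2 (h.refl x2) hv
    exact e (by simp [hc, x1])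
  refine k x xx (h.refl x2) (sy_irr h h2 dW h5 hS xx (u := w) (by rintro rfl; simp at hw) (h.refl x1) ?_
    (h.refl x2))
  convert sy_irr h h2 dW h5 hS hw u0 hu m x1 using 1
  exact add_comm _ _

theorem sy_of_mem {σ : End F W} (m : σ ∈ S) (ad : ∀ x y, f (σ x) y = f x (σ y))
    (ns : ¬ ∃ c : F, ∀ w, σ w = c • w) {v : W} (hv : f v v = 0) : sy f v v ∈ S := by
  obtain ⟨w, hw, e⟩ : ∃ w, f w w ≠ 0 ∧ ∀ c : F, σ w ≠ c • w := by
    by_contra! hc; exact ns (scalar_of h h2 dW h5 hc)
  refine sy_sing h h2 dW h5 hS hw (sub_ne_zero.2 (e (f w (σ w) / f w w))) (by simp [hw]) ?_ hv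
  convert S.smul_mem (f w w / 2) (S.sub_mem m (hS σ m w hw)) using 1
  ext z; simp [sy_apply, rf_apply, ad]; match_scalars <;> field_simp <;> ring

end orth

end Cfsg.Agent.H10.Q6
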