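import Mathlib
import Cfsg.Agent.H10.Ag16

/-!
Maximality of the tensor product of a symplectic plane with an orthogonal 3-space.
-/

set_option autoImplicit false

namespace Cfsg.Agent.H10.Q6

open Module H11 H19 H19.TA
open H26.MX (Tn Wt)

variable {F : Type*} [Field F] {U W : Type*} [AddCommGroup U] [Module F U] [AddCommGroup W] [Module F W]
  {g : U →ₗ[F] U →ₗ[F] F} {f : W →ₗ[F] W →ₗ[F] F} {q : W → F}
  {B : (W →ₗ[F] U) →ₗ[F] (W →ₗ[F] U) →ₗ[F] F} {Q : (W →ₗ[F] U) → F}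
  {M : Subgroup ((W →ₗ[F] U) ≃ₗ[F] (W →ₗ[F] U))}

/-- the root elements of the left factor -/
def Na (W : Type*) [AddCommGroup W] [Module F W] (g : U →ₗ[F] U →ₗ[F] F) (a : U) : End F (W →ₗ[F] U) :=
  LinearMap.llcomp F W U U ((g a).smulRight a)

@[simp] theorem Na_apply (a : U) (v : W →ₗ[F] U) (y : W) : Na W g a v y = g a (v y) • a := rfl

theorem Na_pt (a b : U) (w : W) : Na W g a (TA.pt U f b w) = g a b • TA.pt U f a w := by
  ext; simp [smul_smul, mul_comm]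

/-- an overgroup of the tensor product group -/
structure T23 (g : U →ₗ[F] U →ₗ[F] F) (f : W →ₗ[F] W →ₗ[F] F) (q : W → F)
    (B : (W →ₗ[F] U) →ₗ[F] (W →ₗ[F] U) →ₗ[F] F) (Q : (W →ₗ[F] U) → F)
    (M : Subgroup ((W →ₗ[F] U) ≃ₗ[F] (W →ₗ[F] U))) : Prop where
  hU : Cl (σ := RingHom.id F) (-1) 0 0 g fun _ => 0
  hW : Cl (σ := RingHom.id F) 1 2 (AddMonoidHom.id F) f q
  hV : Cl (σ := RingHom.id F) (-1) 0 0 B Q
  two : (2 : F) ≠ 0
  five : 4 < Nat.card F
  Bp : ∀ a w v, B (TA.pt U f a w) v = g a (v w)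
  dU : finrank F U = 2
  dW : finrank F W = 3
  le : M ≤ Isom B Q
  tn : ∀ k, (∀ x y, B (k x) (k y) = B x y) → Tn k → k ∈ M

variable [FiniteDimensional F U] [FiniteDimensional F W] [Fintype F]

namespace T23
variable (h : T23 g f q B Q M)
include h

theorem lm {s : U ≃ₗ[F] U} (hs : ∀ x y, g (s x) (s y) = g x y) : lf W s ∈ M :=
  h.tn _ (lf_iso h.hW h.Bp hs) ⟨s, 1, fun β z => by ext; simp⟩

theorem rm {w : W} (hw : f w w ≠ 0) : ∃ k ∈ M, (∀ a y, k (TA.pt U f a y) = TA.pt U f a (rf f w y)) ∧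
    (∀ v, k v = v - (2 / f w w) • TA.pt U f (v w) w) ∧ ∀ v, k (k v) = v := by
  let t : W ≃ₗ[F] W := LinearEquiv.ofInvolutive (rf f w) (rf_rf hw)
  have e : ∀ v y, rt U t v y = v (rf f w y) := fun v y => rfl
  refine ⟨rt U t, h.tn _ (rt_iso h.hW h.Bp (rf_iso h.hW hw)) ⟨1, t⁻¹.dualMap, fun β z => by ext; simp⟩,
    rt_pt (rf_iso h.hW hw), fun v => ?_, fun v => ?_⟩
  · ext y; simp [e, rf_apply, smul_smul, qs h.hW y w]
  · ext y; simp [e, rf_rf hw]

theorem gs (x y : U) : g x y = -g y x := as h.hU x y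

theorem perp1 {a x : U} (ha : a ≠ 0) (hx : g a x = 0) : ∃ c : F, x = c • a := by
  have e1 := h.hU.form.finrank_perp h.hU.sep (Submodule.span F {a})
  rw [finrank_span_singleton ha, h.dU] at e1
  have e3 : finrank F (perp g (Submodule.span F {a})) = 1 := by omega
  obtain ⟨c, hc⟩ := (finrank_eq_one_iff_of_nonzero' (⟨a, mem_perp_span.2 (by simp [alt_self h.hU])⟩ :
    perp g (Submodule.span F {a})) (by simpa using ha)).1 e3 ⟨x, mem_perp_span.2 (by simp [hx])⟩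
  exact ⟨c, (congrArg Subtype.val hc).symm⟩

theorem dec {a b : U} (hab : g a b = 1) (z : U) : z = g z b • a + g a z • b := by
  obtain ⟨c, hc⟩ := h.perp1 (a := a) (x := z - g a z • b) (by rintro rfl; simp at hab) (by simp [hab])
  have := congrArg (g · b) hc
  simp only [map_sub, map_smul, LinearMap.sub_apply, LinearMap.smul_apply, alt_self h.hU, hab] at this
  rw [show g z b = c by simpa using this, ← hc]; simp

theorem exr (a : U) (v : W →ₗ[F] U) : ∃ w, (∀ y, f y w = g a (v y)) ∧ Na W g a v = TA.pt U f a w := by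
  obtain ⟨w, hw⟩ := ex_flip h.hW (g a ∘ₗ v)
  have e : ∀ y, f y w = g a (v y) := LinearMap.congr_fun hw
  exact ⟨w, e, by ext; simp [e]⟩

theorem decv {a b : U} (hab : g a b = 1) (v : W →ₗ[F] U) : ∃ x y, v = TA.pt U f a x + TA.pt U f b y := by
  obtain ⟨x, hx, -⟩ := h.exr b v
  obtain ⟨y, hy, -⟩ := h.exr a v
  exact ⟨-x, y, by ext z; simpa [hx, hy, h.gs b] using h.dec hab (v z)⟩

theorem pt0 {a : U} (ha : a ≠ 0) {w : W} (e : TA.pt U f a w = 0) : w = 0 :=
  h.hW.sep w fun y => by simpa [ha, qs h.hW y w] using LinearMap.congr_fun e y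

theorem kerNa {a : U} (ha : a ≠ 0) {v : W →ₗ[F] U} (e : Na W g a v = 0) : ∃ w, v = TA.pt U f a w := by
  obtain ⟨b, hab⟩ := h.hU.form.exists_right_eq_one h.hU.sep ha
  obtain ⟨x, y, rfl⟩ := h.decv hab v
  simp only [map_add, Na_pt, hab, alt_self h.hU, zero_smul, zero_add, one_smul] at e
  exact ⟨x, by simp [h.pt0 ha e]⟩

theorem exN (a : U) (c : F) : ∃ s : U ≃ₗ[F] U, lf W s ∈ M ∧ (∀ x, s x = x + (c * g a x) • a) ∧
    ∀ v, lf W s v = v + c • Na W g a v := by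
  have e : ∀ x, h.hU.eich a 0 (-c) x = x + (c * g a x) • a := fun x => by
    simp [h.hU.eich_apply rfl (map_zero _)]
  exact ⟨_, h.lm (h.hU.eich_mem_isom (u := a) (w := 0) (c := -c) rfl (map_zero _) rfl).1, e,
    fun v => by ext; simp [e, smul_smul]⟩

theorem exD {a b : U} (hab : g a b = 1) {l : F} (hl : l ≠ 0) : ∃ k ∈ M,
    (∀ y, k (TA.pt U f a y) = l • TA.pt U f a y) ∧ ∀ y, k (TA.pt U f b y) = l⁻¹ • TA.pt U f b y := by
  have ba : g b a = -1 := by rw [h.gs, hab]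
  obtain ⟨s, h1, h2⟩ := IsForm.exists_isom_of_linear (Q := fun _ => (0 : F)) h.hU.sep
    (l • (g.flip b).smulRight a + l⁻¹ • (g a).smulRight b) (fun x y => by
      conv_rhs => rw [h.dec hab x, h.dec hab y]
      simp [hab, ba, alt_self h.hU]; field_simp) fun _ => rfl
  exact ⟨_, h.lm h1.1, fun y => by simp [lf_pt, h2, hab, alt_self h.hU],
    fun y => by simp [lf_pt, h2, hab, alt_self h.hU]⟩

theorem om_le {a : U} (ha : a ≠ 0) (hT : ∀ v, f v v = 0 → ∀ c, h.hV.eich (TA.pt U f a v) 0 c ∈ M) :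
    h.hV.Om ≤ M := by
  let T : (W →ₗ[F] U) → Prop := fun y => ∀ c, h.hV.eich y 0 c ∈ M
  have T0 : T 0 := fun c => by rw [h.hV.eich_zero_left]; exact M.one_mem
  have ln : ∀ u v, T u → T v → B u v ≠ 0 → ∀ t : F, T (v + t • u) := fun u v a b c t =>
    tv_line h.hV h.le a b c t
  obtain ⟨b, hab⟩ := h.hU.form.exists_right_eq_one h.hU.sep ha
  have mv : ∀ a b : U, g a b = 1 → ∀ w, T (TA.pt U f a w) → T (TA.pt U f b w) := fun a b hab w hw => by
    obtain ⟨s, s1, s2, -⟩ := h.exN (b - a) (-1)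
    have := tv_map h.hV h.le s1 hw
    rwa [lf_pt, s2, show a + (-1 * g (b - a) a) • (b - a) = b by
      simp [alt_self h.hU, h.gs b a, hab]] at this
  have Ta : ∀ w, T (TA.pt U f a w) := fun w => by
    by_cases w0 : w = 0
    · simpa [w0] using T0
    obtain ⟨v, -, v0, v1⟩ := h.hW.exists_sing3 (W := ⊤) (by simp [h.dW])
    obtain ⟨v, v1, v2⟩ : ∃ v, q v = 0 ∧ f w v ≠ 0 := by
      by_contra! hc
      exact w0 (h.hW.sep w fun y => eq_top_of_sing h.hW v0 v1 (S := LinearMap.ker (f w)) (hc v v1)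
        (fun b hb _ => hc b hb) y)
    have v0 : v ≠ 0 := by rintro rfl; simp at v2
    obtain ⟨u, u1, u2⟩ := h.hW.form.exists_partner h.hW.sep v1 v0
    have Tb := mv a b hab v (hT v (h.hW.diag0 v1))
    let A : Submodule F W :=
      { carrier := {x | ∀ y, T (TA.pt U f b v + TA.pt U f a y) → ∀ t : F, T (TA.pt U f b v + TA.pt U f a (y + t • x))}
        add_mem' := fun {x x'} hx hx' y hy t => by simpa [add_assoc] using hx' _ (hx y hy t) t
        zero_mem' := fun y hy t => by simpa using hy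
        smul_mem' := fun c x hx y hy t => by simpa [smul_smul] using hx y hy (t * c) }
    have mA : ∀ x, q x = 0 → f v x ≠ 0 → x ∈ A := fun x x1 x2 y hy t => by
      simpa [add_assoc] using ln _ _ (hT x (h.hW.diag0 x1)) hy (by
        simpa [h.Bp, hab, alt_self h.hU, qs h.hW x v] using x2) t
    have vA : v ∈ A := by
      obtain ⟨z, z0, z1, z2⟩ : ∃ z, z ≠ 0 ∧ f v z = 0 ∧ f u z = 0 := by
        have e1 := finrank_le_inf_ker (⊤ : Submodule F W) (f v)
        have e2 := finrank_le_inf_ker (⊤ ⊓ LinearMap.ker (f v)) (f u)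
        obtain ⟨y, a, b⟩ := exists_mem_notMem (W := (⊤ ⊓ LinearMap.ker (f v)) ⊓ LinearMap.ker (f u))
          (Z := ⊥) (by rw [finrank_top, h.dW] at e1; rw [finrank_bot]; omega)
        exact ⟨y, b, a.1.2, a.2⟩
      have zz : q z ≠ 0 := fun zz => by
        obtain ⟨c, hc⟩ := perp2 h.hW h.dW (x := z) (y := v) (p := z) (z := v) (fun r t k => by
          have := congrArg (f u) k
          have t0 : t = 0 := by simpa [z2, h.hW.flip_one u2] using this
          exact ⟨by simpa [t0, z0] using k, t0⟩) z0 (h.hW.diag0 zz) z1 (h.hW.refl z1) (h.hW.diag0 v1)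
        simp [hc, h.hW.refl z2] at u2
      have k : ∀ c : F, u + c • z + (-(c * c * q z)) • v ∈ A := fun c => mA _ (by
        simp [-neg_smul, h.hW.Q_add, h.hW.Q_smul, u1, v1, z2, h.hW.refl z1, h.hW.flip_one u2])
        (by simp [u2, z1, h.hW.diag0 v1])
      have := A.smul_mem (-(2 * q z))⁻¹ (A.sub_mem (A.add_mem (k 1) (k (-1))) (A.smul_mem 2 (k 0)))
      convert this using 1
      have := h.two
      match_scalars <;> field_simp <;> ring
    have := ln _ _ Tb (eq_top_of_sing h.hW v0 v1 vA mA w 0 (by simpa using Tb) 1) (by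
      simpa [h.Bp, h.gs b a, hab, alt_self h.hU, qs h.hW v w] using v2) (-1)
    simpa using this
  refine om_le_of_tv h.hV fun v => ?_
  obtain ⟨x, y, rfl⟩ := h.decv hab v
  by_cases y0 : y = 0
  · simpa [y0] using Ta x
  obtain ⟨z, hz⟩ := h.hW.exists_ne y0
  have k : ∀ z x', f y z ≠ 0 → T (TA.pt U f a x' + TA.pt U f b y) → T (TA.pt U f a (x' + z) + TA.pt U f b y) :=
    fun z x' hz hx => by
      convert ln _ _ (Ta z) hx (by simpa [h.Bp, hab, alt_self h.hU, qs h.hW z y] using hz) 1 using 1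
      simp; abel
  have k0 : T (TA.pt U f a 0 + TA.pt U f b y) := by simpa using mv a b hab y (Ta y)
  by_cases e : f y x = 0
  · simpa using k (x - z) _ (by simpa [e] using hz) (k z 0 hz k0)
  · simpa using k x 0 e k0

theorem qd (hn : ¬ h.hV.Om ≤ M) {a : U} (ha : a ≠ 0) : Qd B M (Na W g a) := by
  obtain ⟨b, hab⟩ := h.hU.form.exists_right_eq_one h.hU.sep ha
  have aa := alt_self h.hU a
  refine ⟨fun x => by ext; simp [aa], fun x y => ?_, fun x hx => ?_, ?_, fun c => ?_,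
    fun n ⟨k, hk, h1⟩ h2 h3 => ?_⟩
  · obtain ⟨u, u1, u2⟩ := h.exr a x
    obtain ⟨w, w1, w2⟩ := h.exr a y
    rw [u2, w2, h.Bp, h.Bp, ← u1, ← w1, qs h.hW]
  · obtain ⟨w, rfl⟩ := h.kerNa ha hx
    exact ⟨TA.pt U f b w, by simp [Na_pt, hab]⟩
  · have : LinearMap.range (Na W g a) = LinearMap.range (TA.pt U f a) := by
      ext x; constructor
      · rintro ⟨y, rfl⟩; obtain ⟨u, -, u2⟩ := h.exr a y; exact ⟨u, u2.symm⟩
      · rintro ⟨y, rfl⟩; exact ⟨TA.pt U f b y, by simp [Na_pt, hab]⟩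
    rw [this, LinearMap.finrank_range_of_inj ((injective_iff_map_eq_zero _).2 fun w => h.pt0 ha), h.dW]
  · obtain ⟨s, s1, -, s2⟩ := h.exN a c
    exact ⟨_, s1, s2⟩
  let P : End F W → Prop := fun σ => ∃ k ∈ M, ∀ y, k (TA.pt U f a y) = TA.pt U f a y ∧
    k (TA.pt U f b y) = TA.pt U f b y + TA.pt U f a (σ y)
  have P0 : P 0 := ⟨1, M.one_mem, by simp⟩
  have Pa : ∀ σ σ', P σ → P σ' → P (σ + σ') := fun σ σ' ⟨k, k1, k2⟩ ⟨j, j1, j2⟩ =>
    ⟨k * j, M.mul_mem k1 j1, fun y => by simp [k2, j2, add_assoc]⟩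
  have Pn : ∀ σ, P σ → P (-σ) := fun σ ⟨k, k1, k2⟩ => ⟨k⁻¹, M.inv_mem k1, fun y => by
    simp only [LinearEquiv.coe_inv, LinearEquiv.symm_apply_eq]; simp [k2]⟩
  have Ps : ∀ (l : F) σ, P σ → P ((l * l) • σ) := fun l σ ⟨k, k1, k2⟩ => by
    by_cases hl : l = 0
    · simpa [hl] using P0
    obtain ⟨d, d1, d2, d3⟩ := h.exD hab hl
    obtain ⟨d', d1', d2', d3'⟩ := h.exD hab (inv_ne_zero hl)
    exact ⟨d * k * d', M.mul_mem (M.mul_mem d1 k1) d1', fun y => by
      simp [k2, d2, d3, d2', d3', smul_smul, hl]⟩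
  let S : Submodule F (End F W) :=
    { carrier := {σ | P σ}
      add_mem' := Pa _ _
      zero_mem' := P0
      smul_mem' := fun c σ hσ => by
        have := Pa _ _ (Ps ((c + 1) / 2) σ hσ) (Pn _ (Ps ((c - 1) / 2) σ hσ))
        change P (c • σ)
        convert this using 1
        have := h.two
        match_scalars; field_simp; ring }
  have hS : ∀ σ ∈ S, ∀ w, f w w ≠ 0 → rf f w * σ * rf f w ∈ S := fun σ ⟨k, k1, k2⟩ w hw => by
    obtain ⟨r, r1, r2, -⟩ := h.rm hw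
    exact ⟨r * k * r, M.mul_mem (M.mul_mem r1 k1) r1, fun y => by simp [r2, k2, rf_rf hw]⟩
  obtain ⟨π, hπ⟩ := (TA.pt U f a).exists_leftInverse_of_injective (LinearMap.ker_eq_bot'.2 fun w => h.pt0 ha)
  replace hπ : ∀ w, π (TA.pt U f a w) = w := LinearMap.congr_fun hπ
  have e1 : ∀ y, n (TA.pt U f a y) = 0 := fun y => by simpa [Na_pt, hab] using h2 (TA.pt U f b y)
  obtain ⟨σ, e2⟩ : ∃ σ : End F W, ∀ y, n (TA.pt U f b y) = TA.pt U f a (σ y) := ⟨π ∘ₗ n ∘ₗ TA.pt U f b, fun y => by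
    obtain ⟨w, hw⟩ := h.kerNa ha (h3 (TA.pt U f b y))
    simp [hw, hπ]⟩
  by_cases ns : ∃ c : F, ∀ w, σ w = c • w
  · obtain ⟨c, hc⟩ := ns
    refine ⟨c, fun v => ?_⟩
    obtain ⟨x, y, rfl⟩ := h.decv hab v
    simp [e1, e2, hc, Na_pt, hab, aa]
  refine absurd (h.om_le ha fun v hv c => ?_) hn
  obtain ⟨j, j1, j2⟩ := S.smul_mem (-c / 2) (sy_of_mem h.hW h.two h.dW h.five hS (σ := σ)
    ⟨k, hk, fun y => by simp [h1, e1, e2]⟩ (fun x y => by
      have := (h.le hk).1 (TA.pt U f b x) (TA.pt U f b y)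
      simp only [h1, e2, map_add, LinearMap.add_apply, h.Bp, TA.pt_apply, map_smul, aa, alt_self h.hU b,
        h.gs b a, hab, smul_eq_mul] at this
      linear_combination this) ns hv)
  convert j1 using 1
  refine LinearEquiv.ext fun w => ?_
  obtain ⟨x, y, rfl⟩ := h.decv hab w
  have := h.two
  rw [h.hV.eich_apply (alt_Q h.hV _) (map_zero _), map_add j, (j2 x).1, (j2 y).2]
  simp [h.Bp, hab, aa, sy_apply]
  match_scalars <;> field_simp <;> ring

theorem sq1 : ∃ t : F, t ≠ 0 ∧ t * t ≠ 1 :=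
  exists_sq_ne h.two fun e => by have := h.five; rw [Nat.card_eq_fintype_card] at this; omega

theorem six : finrank F (W →ₗ[F] U) = 6 := by rw [finrank_linearMap, h.dU, h.dW]

theorem meet (hn : ¬ h.hV.Om ≤ M) {a : U} (ha : a ≠ 0) {N : End F (W →ₗ[F] U)} (n : Qd B M N)
    {z : W →ₗ[F] U} (z0 : z ≠ 0) (z1 : Na W g a z = 0) (z2 : N z = 0) (v : W →ₗ[F] U) :
    N (Na W g a v) = 0 := by
  have A := h.qd hn ha
  obtain ⟨w, rfl⟩ := h.kerNa ha z1
  have w0 : w ≠ 0 := by rintro rfl; simp at z0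
  have pz : ∀ y, g a (N y w) = 0 := fun y => by rw [← h.Bp, as h.hV, n.sym, z2]; simp
  by_cases ww : f w w = 0
  · obtain ⟨x, x1, x2⟩ := ex_perp h.hW h.dW w w
    have e1 := finrank_le_inf_ker (LinearMap.range N) (g a ∘ₗ LinearMap.applyₗ x)
    have := finrank_span_one_le (F := F) (TA.pt U f a w)
    obtain ⟨_, ⟨⟨y, rfl⟩, y1⟩, y2⟩ := exists_mem_notMem (W := LinearMap.range N ⊓
      LinearMap.ker (g a ∘ₗ LinearMap.applyₗ x)) (Z := Submodule.span F {TA.pt U f a w})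
      (by rw [n.rk] at e1; omega)
    obtain ⟨r, r1, r2⟩ := h.exr a (N y)
    obtain ⟨c, rfl⟩ := perp2 h.hW h.dW (x := x) (y := w) (p := w) (z := r) (fun s t k => by
      by_cases r0 : s = 0
      · exact ⟨r0, by simpa [r0, w0] using k⟩
      · exact absurd (smul_right_injective W r0 (by
          simp only [smul_smul, mul_div_cancel₀ _ r0]; linear_combination (norm := module) k))
          (x2 (-t / s))) w0 (h.hW.refl x1) ww (by rw [r1]; exact y1) (by rw [r1, pz])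
    rw [map_smul] at r2
    have k := n.two h.hV h.le h.two h.sq1 h.six.ge (n.cj h.le A 1) (z := TA.pt U f a w)
      (z' := N y + Na W g a (N y)) (fun s t k => by
        have t0 : t = 0 := by_contra fun t0 => y2 (Submodule.mem_span_singleton.2 ⟨-(s + t * c) / t,
          smul_right_injective _ t0 (by
            simp only [smul_smul, mul_div_cancel₀ _ t0]
            rw [r2] at k; linear_combination (norm := module) -k)⟩)
        exact ⟨by simpa [t0, z0] using k, t0⟩) z2 (by simp [n.sq, r2, z2]) (by simp [z1, z2])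
      (by simp [n.sq, A.sq])
    refine n.adj0 h.hV A (n.tri h.hV h.le h.two A fun y => ?_) v
    have e := k y
    simp only [Module.End.mul_apply, LinearMap.add_apply, LinearMap.sub_apply, one_smul,
      Module.End.one_apply, map_sub, n.sq, zero_sub, map_neg, map_zero] at e
    have e' := congrArg (Na W g a) e
    simp only [map_add, map_neg, A.sq, add_zero, map_zero, neg_eq_zero] at e' e
    simpa [e'] using e
  obtain ⟨b, hab⟩ := h.hU.form.exists_right_eq_one h.hU.sep ha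
  obtain ⟨ρ, r1, -, r2, r3⟩ := h.rm ww
  obtain ⟨E, hE⟩ : ∃ E : End F (W →ₗ[F] U), ∀ v, E v = (f w w)⁻¹ • TA.pt U f (v w) w :=
    ⟨(f w w)⁻¹ • (TA.pt U f).flip w ∘ₗ LinearMap.applyₗ w, fun v => rfl⟩
  have r4 : ∀ v, ρ v = v - (2 : F) • E v := fun v => by rw [r2, hE, smul_smul, div_eq_mul_inv]
  have EN : ∀ y, ∃ c : F, E (N y) = c • TA.pt U f a w := fun y => by
    obtain ⟨c, hc⟩ := h.perp1 ha (pz y)
    exact ⟨(f w w)⁻¹ * c, by simp [hE, hc, smul_smul]⟩
  have NEN : ∀ y, N (E (N y)) = 0 := fun y => by obtain ⟨c, hc⟩ := EN y; simp [hc, z2]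
  have c1 : ∀ x, E (Na W g a x) = Na W g a (E x) := fun x => by simp [hE, Na_pt]
  have q' : Qd B M (ρ.toLinearMap * N * ρ.toLinearMap) := n.conj h.le r1 fun v => by simp [r3]
  obtain ⟨μ, hμ⟩ := n.rig' h.hV q' fun x => by
    simp only [Module.End.mul_apply, LinearEquiv.coe_coe]
    rw [r4 (N x)]; simp [n.sq, NEN]
  simp only [Module.End.mul_apply, LinearEquiv.coe_coe] at hμ
  have μ1 : μ = 1 := by
    by_contra hc
    have : LinearMap.range N ≤ Submodule.span F {TA.pt U f a w, N (TA.pt U f b w)} := by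
      rintro _ ⟨x, rfl⟩
      have e := hμ x
      obtain ⟨c, e1⟩ := EN (ρ x)
      rw [r4, e1, r4, map_sub, map_smul, hE, h.dec hab (x w)] at e
      simp only [map_add, map_smul, LinearMap.add_apply, LinearMap.smul_apply, z2] at e
      refine (Submodule.smul_mem_iff _ (sub_ne_zero.2 hc)).1 (Submodule.mem_span_pair.2
        ⟨-2 * c, -2 * (f w w)⁻¹ * g a (x w), ?_⟩)
      linear_combination (norm := module) e
    have e1 := Submodule.finrank_mono this
    have := finrank_span_pair_le (F := F) (TA.pt U f a w) (N (TA.pt U f b w))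
    rw [n.rk] at e1; omega
  have c2 : ∀ x, E (N x) = N (E x) := fun x => by
    have e := congrArg ρ (hμ x)
    rw [r3, μ1, one_smul, r4, r4, map_sub, map_smul] at e
    exact smul_right_injective _ h.two (by simp only; linear_combination (norm := module) e)
  refine A.one h.hV h.le h.two h.sq1 h.six.ge n (E := E) (fun x => by simp [hE, ww]) c1 c2
    (fun x => ?_) (fun x => ?_) (z := TA.pt U f b w) (by simp [hE, ww]) (by simpa [Na_pt, hab]) v
  · obtain ⟨c, hc⟩ := EN x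
    rw [← c2, hc, map_smul, z1, smul_zero]
  · simp [hE, Na_pt, z2]

theorem norm (hn : ¬ h.hV.Om ≤ M) {k : (W →ₗ[F] U) ≃ₗ[F] (W →ₗ[F] U)} (hk : k ∈ M) {a : U} (ha : a ≠ 0) :
    ∃ (a' : U) (μ : F), ∀ v, k (Na W g a v) = μ • Na W g a' (k v) := by
  have A := h.qd hn ha
  obtain ⟨N, hN⟩ : ∃ N : End F (W →ₗ[F] U), ∀ v, N (k v) = k (Na W g a v) :=
    ⟨k.toLinearMap * Na W g a * k.symm.toLinearMap, fun v => by simp⟩
  have n : Qd B M N := A.conj h.le hk hN
  obtain ⟨_, ⟨y, rfl⟩, y0⟩ := exists_mem_notMem (W := LinearMap.range N) (Z := ⊥) (by simp [n.rk])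
  obtain ⟨w, ww, w1⟩ := ex_ns_ne h.hW h.two h.dW h.five (v := N y) y0
  obtain ⟨ρ, r1, -, r2, r3⟩ := h.rm ww
  obtain ⟨_, ⟨⟨z, rfl⟩, z1⟩, z0⟩ := exists_mem_notMem (W := LinearMap.range N ⊓
      LinearMap.ker (LinearMap.applyₗ w : (W →ₗ[F] U) →ₗ[F] U)) (Z := ⊥) (by
    have e1 := finrank_le_inf_ker_add (LinearMap.range N) (LinearMap.applyₗ w : (W →ₗ[F] U) →ₗ[F] U)
    have e2 := ((LinearMap.range N).map (LinearMap.applyₗ w : (W →ₗ[F] U) →ₗ[F] U)).finrank_le
    rw [n.rk] at e1; rw [h.dU] at e2; rw [finrank_bot]; omega)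
  replace z1 : N z w = 0 := z1
  have q' : Qd B M (k.symm.toLinearMap * ρ.toLinearMap * N * ρ.toLinearMap * k.toLinearMap) :=
    n.conj h.le (M.mul_mem (M.inv_mem hk) r1) fun v => by simp [r3, LinearEquiv.coe_inv]
  have e := h.meet hn ha q' (z := k.symm (N z)) (by simpa using z0)
    (k.injective (by rw [← hN]; simp [n.sq])) (by simp [r2 (N z), z1, n.sq]) (k.symm y)
  simp only [Module.End.mul_apply, LinearEquiv.coe_coe, ← hN, LinearEquiv.apply_symm_apply,
    EmbeddingLike.map_eq_zero_iff] at e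
  rw [r2, map_sub, n.sq, map_smul, zero_sub, neg_eq_zero, smul_eq_zero_iff_right (div_ne_zero h.two ww)] at e
  obtain ⟨μ, hμ⟩ := (h.qd hn w1).rig' h.hV n (h.meet hn w1 n (fun e => by
    rw [h.pt0 w1 e] at ww; simp at ww) (by simp [Na_pt, alt_self h.hU]) e)
  exact ⟨_, μ, fun v => by rw [← hN, hμ]⟩

theorem tn_mem (hn : ¬ h.hV.Om ≤ M) {k : (W →ₗ[F] U) ≃ₗ[F] (W →ₗ[F] U)} (hk : k ∈ M) : Tn k := by
  have := Module.nontrivial_of_finrank_pos (R := F) (M := U) (by rw [h.dU]; omega)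
  obtain ⟨a, ha⟩ := exists_ne (0 : U)
  obtain ⟨b, hab⟩ := h.hU.form.exists_right_eq_one h.hU.sep ha
  obtain ⟨a', μ, e1⟩ := h.norm hn hk ha
  obtain ⟨b', ν, e2⟩ := h.norm hn hk (a := b) (by rintro rfl; simp at hab)
  refine H26.MX.tn_of_Wt (by rw [h.dW]; omega) fun β _ => ?_
  obtain ⟨w, rfl⟩ := ex_flip h.hW β
  obtain ⟨x, -, hx⟩ := h.exr a' (k (TA.pt U f b w))
  have k1 : k (TA.pt U f a w) = μ • TA.pt U f a' x := by simpa [Na_pt, hab, hx] using e1 (TA.pt U f b w)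
  have k2 := e2 (TA.pt U f a w)
  rw [k1, Na_pt, h.gs, hab, map_smul, map_smul, Na_pt] at k2
  refine ⟨f.flip x, fun z => ⟨(g z b * μ) • a' - (g a z * ν * μ * g b' a') • b', ?_⟩⟩
  change TA.pt U f _ x = k (TA.pt U f z w)
  conv_rhs => rw [h.dec hab z]
  simp only [map_add, map_sub, map_smul, LinearMap.add_apply, LinearMap.sub_apply, LinearMap.smul_apply, k1]
  linear_combination (norm := module) g a z • k2

end T23

theorem max23 (hU : Cl (σ := RingHom.id F) (-1) 0 0 g fun _ => 0)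
    (hW : Cl (σ := RingHom.id F) 1 2 (AddMonoidHom.id F) f q) (hV : Cl (σ := RingHom.id F) (-1) 0 0 B Q)
    (h2 : (2 : F) ≠ 0) (h5 : 4 < Nat.card F) (Bp : ∀ a w v, B (TA.pt U f a w) v = g a (v w))
    (dU : finrank F U = 2) (dW : finrank F W = 3) :
    (∃ k ∈ hV.Om, ¬ Tn k) ∧ ∀ M ≤ hV.Om, (∀ k ∈ hV.Om, Tn k → k ∈ M) → ¬ hV.Om ≤ M → ∀ k ∈ M, Tn k := by
  refine ⟨?_, fun M h1 h3 h4 k hk => T23.tn_mem ⟨hU, hW, hV, h2, h5, Bp, dU, dW, h1.trans hV.om_le_isom,
    fun k a b => h3 k ((mem_om_alt hV).2 a) b⟩ h4 hk⟩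
  have := Module.nontrivial_of_finrank_pos (R := F) (M := U) (by rw [dU]; omega)
  obtain ⟨w, hw⟩ := ex_ns hW h2 dW
  obtain ⟨c, c1, c2⟩ := ex_perp hW dW w 0
  obtain ⟨c', c3⟩ := hW.exists_ne (x := c) (by simpa using c2 0)
  obtain ⟨a, ha⟩ := exists_ne (0 : U)
  obtain ⟨b, hb⟩ := hU.exists_ne ha
  exact not_tn_eich hV Bp (a := a) (b := b) (b' := b) (w := w) (x := w) (c := c) (c' := rf f w c' + c')
    (alt_Q hV _) (hW.refl c1) (hW.refl c1) c1 (by simp [rf_apply, qs hW c' w]; field_simp; ring) hw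
    (by simp [rf_apply, c1, ← two_mul, h2, qs hW c' c, c3]) (hU.refl_ne hb) fun e => by
      obtain ⟨d, rfl⟩ := Submodule.mem_span_singleton.1 e
      simp [alt_self hU] at hb

open Cfsg.Geo Matrix H26 H26.MX in
theorem sp2o3_max (h2 : (2 : F) ≠ 0) (h5 : 5 ≤ Fintype.card F)
    (e : Fin 3 ⊕ Fin 3 ≃ Fin 2 × Fin 3) (P : GL (Fin 3 ⊕ Fin 3) F)
    {f₁ : (Fin 2 → F) → (Fin 2 → F) → F} {f₂ : (Fin 3 → F) → (Fin 3 → F) → F} (h₁ : IsSymplecticForm f₁)
    (h₂ : IsSymmetricForm f₂) (hT : IsTensorFormStructure id (sympForm 3 F) f₁ f₂ e P) :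
    IsMaximalIn (spGL 3 F) (tensorProductSubgroup 2 3 e P ⊓ spGL 3 F) := by
  obtain ⟨c, hc, hT⟩ := hT
  have s₁ := sep_of h₁.bilinear h₁.nondegenerate
  have s₂ := sep_of h₂.bilinear h₂.nondegenerate
  obtain ⟨θ, hθ⟩ := exists_theta s₂
  have h1 := tensor_form h₁.bilinear h₂.bilinear hT hθ
  have hU := clAlt (B := c • bilinOf h₁.bilinear) (fun x => by simp [h₁.alternating])
    fun x hx => s₁ x fun y => by simpa [hc] using hx y
  exact ten_max_of (fun g => (mem_spGL_iff g).trans (mem_om_cjE _ _ _))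
    (max23 hU ((clSym h2 h₂.symm s₂).pullback θ) ((clSp 3 F).pullback (tenE e P)) h2
      (by rw [Nat.card_eq_fintype_card]; omega)
      (fun x w v => by simpa [spBilin_eq_sympForm] using (h1 x w v).2) (by simp) (by simp))

end Cfsg.Agent.H10.Q6
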