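import Mathlib
import Cfsg.Agent.H26.F3d
import Cfsg.Agent.H10.Ag2

/-! The unitary subgroups of symplectic and orthogonal groups in small dimension. -/

set_option autoImplicit false
set_option maxHeartbeats 400000

namespace Cfsg.Agent.H10

open Module H11

namespace Cl

variable {F : Type*} [Field F] {V : Type*} [AddCommGroup V] [Module F V] {σ : F →+* F}
  {ε κ : F} {τ : F →+ F} {B : V →ₛₗ[σ] V →ₗ[F] F} {Q : V → F} (h : Cl ε κ τ B Q)
  [FiniteDimensional F V] [Finite F]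
include h

theorem exists_sing_notMem2 (hq : NQ τ) {W Z : Submodule F V}
    (hW : finrank F ↥(W ⊓ Z) + 2 ≤ finrank F W) : ∃ x ∈ W, x ∉ Z ∧ Q x = 0 := by
  obtain ⟨W', a1, a2, a3⟩ := exists_le_disjoint W (W ⊓ Z)
  obtain ⟨x, p, q, s⟩ := h.exists_sing (W := W') (Or.inr ⟨by omega, hq⟩)
  exact ⟨x, a1 p, fun hc => q (a2.le_bot ⟨p, a1 p, hc⟩), s⟩

theorem perp_irr5 (hq : NQ τ) (hn : 5 ≤ finrank F V) {w : V} (hw0 : w ≠ 0) (hw : Q w = 0)
    {A : AddSubgroup V} (hA : ∀ u x c, Q u = 0 → B u x = 0 → τ c = Q x → B u w = 0 → B x w = 0 →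
      ∀ a ∈ A, h.eich u x c a ∈ A) {a : V} (haA : a ∈ A) (haw : B w a = 0)
    (ha : a ∉ Submodule.span F {w}) {y : V} (hy : B w y = 0) : y ∈ A := by
  let S : Submodule F V :=
    { carrier := {y | ∀ t : F, t • y ∈ A}
      zero_mem' := fun t => by simp
      add_mem' := fun hx hy t => by rw [smul_add]; exact A.add_mem (hx t) (hy t)
      smul_mem' := fun c x hx t => by rw [smul_smul]; exact hx _ }
  have hS : ∀ u x c, Q u = 0 → B u x = 0 → τ c = Q x → B u w = 0 → B x w = 0 →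
      ∀ s ∈ S, h.eich u x c s ∈ S := fun u x c a1 a2 a3 a4 a5 s hs t => by
    rw [← map_smul]; exact hA u x c a1 a2 a3 a4 a5 _ (hs t)
  suffices y ∈ S by simpa using this 1
  obtain ⟨f, hf, hwf⟩ := h.form.exists_partner h.sep hw hw0
  have hP := h.form.nondegOn_span_pair hw hf (by simp [hwf])
  have hU := h.form.nondegOn_perp h.sep hP
  have d5 := h.form.finrank_perp h.sep (Submodule.span F {w, f})
  have d6 := finrank_span_pair_le (F := F) w f
  have hm : ∀ x, x ∈ perp B (Submodule.span F {w, f}) ↔ B w x = 0 ∧ B f x = 0 := fun x => by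
    rw [mem_perp_span]; simp
  have pr : ∀ y, B w y = 0 → y - (ε * B f y) • w ∈ perp B (Submodule.span F {w, f}) := fun y hy =>
    (hm _).mpr ⟨by simp [hy, h.diag0 hw], by
      simp only [map_sub, map_smul, h.flip_one hwf, smul_eq_mul]
      linear_combination (-B f y) * h.eps_mul⟩
  obtain ⟨u, u1, u2, u3⟩ := h.exists_sing_not_perp hU (Or.inl (by omega)) (s := a) (by
    by_contra hc
    push Not at hc
    have := hU _ (pr a haw) fun x hx => h.refl (by simp [hc x hx, h.refl ((hm x).mp hx).1])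
    exact ha (sub_eq_zero.mp this ▸ Submodule.smul_mem _ _ (Submodule.mem_span_singleton_self w)))
  obtain ⟨c₀, hc₀, hc⟩ := hq
  have k0 := A.neg_mem (A.sub_mem (hA u 0 c₀ u2 (by simp) (by rw [hc, h.Q_zero])
    (h.refl ((hm u).mp u1).1) (by simp) a haA) haA)
  rw [h.eich_apply u2 (by simp)] at k0
  replace k0 : (c₀ * B u a) • u ∈ A := by simpa using k0
  obtain ⟨z, zU, hz, hzu⟩ := h.exists_partner_in' hU (Submodule.smul_mem _ (c₀ * B u a) u1)
    (h.sing_smul u2 _) (smul_ne_zero (mul_ne_zero hc₀ u3) (by rintro rfl; simp at u3))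
  generalize (c₀ * B u a) • u = v at k0 hzu
  have z0 : z ≠ 0 := by rintro rfl; simp at hzu
  have z1' := ((hm z).mp zU).1
  have zS : z ∈ S := fun t => by
    obtain ⟨x, x1, x', x2, p, q, s⟩ := h.exists_pair_perp hU (by omega) zU hz z0 t
    obtain ⟨c, hc⟩ := h.exists_tau x
    obtain ⟨c', hc'⟩ := h.exists_tau x'
    have e := fun x (hx : x ∈ perp B (Submodule.span F {w, f})) c p hc =>
      hA z x c hz p hc (h.refl z1') (h.refl ((hm x).mp hx).1) v k0
    have := A.sub_mem (A.sub_mem (A.add_mem (e x x1 c p hc) (e x' x2 c' q hc'))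
      (e (x + x') (add_mem x1 x2) (c + c' + ε * B x x') (by simp [p, q])
        (by rw [map_add, map_add, h.tau_eps, hc, hc', h.Q_add]))) k0
    rw [h.eich_apply hz p, h.eich_apply hz q, h.eich_apply hz (by simp [p, q]), h.flip_one hzu, s] at this
    convert this using 1
    simp only [map_add, LinearMap.add_apply]
    match_scalars <;> first | ring1 | linear_combination (-t) * h.eps_mul
  obtain ⟨x, hx, hxz⟩ : ∃ x ∈ perp B (Submodule.span F {w, f}), B x z ≠ 0 := by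
    by_contra hc; push Not at hc; exact z0 (hU z zU fun x hx => h.refl (hc x hx))
  have k1 := h.irr hU (Or.inl (by omega)) (S := S) (fun u hu x hx c a1 a2 a3 =>
    hS u x c a1 a2 a3 (h.refl ((hm u).mp hu).1) (h.refl ((hm x).mp hx).1)) zS ⟨x, hx, hxz⟩
  obtain ⟨c, hc⟩ := h.exists_tau x
  have k2 := hS w x c hw ((hm x).mp hx).1 hc (h.diag0 hw) (h.refl ((hm x).mp hx).1) z zS
  rw [h.eich_of_perp hw ((hm x).mp hx).1 c z1'] at k2
  have k3 : w ∈ S := by
    rw [← S.smul_mem_iff hxz]; simpa using S.sub_mem k2 zS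
  simpa using S.add_mem (k1 (pr y hy)) (S.smul_mem (ε * B f y) k3)

/-- A singular vector perpendicular to two given ones, in general position. -/
theorem exists_sing_two (hq : NQ τ) (hn : 5 ≤ finrank F V) {z x : V} (hz : z ≠ 0)
    (hx : x ∉ Submodule.span F {z}) :
    ∃ u, u ≠ 0 ∧ Q u = 0 ∧ B z u = 0 ∧ B x u = 0 ∧ x ∉ Submodule.span F {z, u} := by
  by_cases h1 : Q z = 0 ∧ B x z = 0
  · exact ⟨z, hz, h1.1, h.diag0 h1.1, h1.2, by simpa using hx⟩
  have h4 := h.form.finrank_perp h.sep (Submodule.span F {z, x})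
  have h5 := finrank_span_pair_le (F := F) z x
  have h6 := Submodule.finrank_lt_finrank_of_lt (s := perp B (Submodule.span F {z, x}) ⊓
    Submodule.span F {z, x}) (t := Submodule.span F {z, x}) (lt_of_le_of_ne inf_le_right fun e => by
      have := mem_perp_span.mp (e.ge (Submodule.subset_span (Set.mem_insert z {x}))).1
      exact h1 ⟨(h.anis_of_nq hq z).resolve_right (by simp [this z]), this x (by simp)⟩)
  obtain ⟨u, h6, h7, hu⟩ := h.exists_sing_notMem2 hq (W := perp B (Submodule.span F {z, x}))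
    (Z := Submodule.span F {z, x}) (by omega)
  rw [mem_perp_span] at h6
  refine ⟨u, by rintro rfl; simp at h7, hu, h6 z (by simp), h6 x (by simp), fun h => ?_⟩
  obtain ⟨a, c, rfl⟩ := Submodule.mem_span_pair.1 h
  have hc : c ≠ 0 := by
    rintro rfl; exact hx (by simp [Submodule.smul_mem, Submodule.mem_span_singleton_self])
  exact h7 (Submodule.mem_span_pair.2 ⟨-a / c, 1 / c, by match_scalars <;> field_simp <;> ring⟩)

end Cl

namespace Ag

open H26 H26.MX

variable {F : Type*} [Field F] {V : Type*} [AddCommGroup V] [Module F V]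
  {E : Type*} [Field E] [Algebra F E] [Module E V] [IsScalarTower F E V] {σ : E →+* E}
  {B : V →ₗ[F] V →ₗ[F] F} {M : Subgroup (V ≃ₗ[F] V)} {b : V →ₛₗ[σ] V →ₗ[E] E} {Q : V → F}
  [Finite E] [Module.Finite F E] [Module.Finite E V]

local notation "𝔱" => Algebra.trace F E

theorem nrmE_of_conn {ε κ : E} {τ : E →+ E}
    {q : V → E} (hE : Cl ε κ τ b q) (hm : 3 ≤ finrank E V)
    (hc : ∀ u v, u ≠ 0 → v ≠ 0 → q u = 0 → q v = 0 → (b u v = 0 ∧ v ∉ E ∙ u) ∨
      ∃ t, q t = 0 ∧ b u t = 0 ∧ b v t = 0 ∧ t ∉ E ∙ u ∧ t ∉ E ∙ v) {y : V ≃ₗ[F] V}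
    (h : ∀ v, q v = 0 → ∀ k : E, y (k • v) ∈ Ln F E (y v)) : NrmE E y := fun k => by
  have : Module.Finite F V := Module.Finite.trans E V
  choose! l hl using fun v hv => mem_Ln.1 (h v hv k)
  have key : ∀ u v, u ≠ 0 → q u = 0 → q v = 0 → b u v = 0 → v ∉ E ∙ u → l u = l v :=
    fun u v hu h1 h2 h3 hv => by
    have h4 := hl (u + v) (by simp [hE.Q_add, h1, h2, h3])
    rw [smul_add, map_add, map_add, ← hl u h1, ← hl v h2, smul_add] at h4
    have h5 : (l (u + v) - l v) • y v = (l u - l (u + v)) • y u := by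
      rw [sub_smul, sub_smul, sub_eq_sub_iff_add_eq_add, add_comm, h4]
    by_cases h6 : l (u + v) - l v = 0
    · rw [h6, zero_smul, eq_comm, smul_eq_zero_iff_left (app_ne_zero y hu)] at h5
      linear_combination h5 + h6
    have h7 : y v ∈ Ln F E (y u) := (Submodule.smul_mem_iff (E ∙ y u) h6).1 (h5 ▸ smul_mem_Ln (F := F) _ _)
    rw [← H26.MX.map_eq_of_le (W := Ln F E u) (g := y) ((finrank_Ln hu).trans (finrank_Ln (app_ne_zero y hu)).symm)
      (fun x hx => by obtain ⟨j, rfl⟩ := mem_Ln.1 hx; exact h u h1 j), mem_map_iff, inv_app] at h7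
    exact absurd h7 hv
  obtain ⟨u, -, hu0, hu⟩ := hE.exists_sing3 (W := ⊤) (by rw [finrank_top]; omega)
  have h1 : ∀ v, q v = 0 → y (k • v) = l u • y v := fun v hv => by
    by_cases h0 : v = 0
    · simp [h0]
    rcases hc u v hu0 h0 hu hv with h2 | ⟨t, h6, h4, h4', h5, h5'⟩
    · rw [← hl v hv, key u v hu0 hu hv h2.1 h2.2]
    · rw [← hl v hv, key u t hu0 hu h6 h4 h5, key v t h0 hv h6 h4' h5']
  let S : Submodule E V :=
    { carrier := {v | ∀ j : E, y (k • j • v) = l u • y (j • v)}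
      zero_mem' := by simp
      add_mem' := fun ha hb j => by simp [ha j, hb j]
      smul_mem' := fun c x hx j => by simpa only [smul_smul j c] using hx (j * c) }
  exact ⟨l u, fun v => by simpa using (hE.eq_top_of_sing (S := S) (by omega)
    fun x hx j => h1 _ (hE.sing_smul hx j)).ge (Submodule.mem_top (x := v)) 1⟩

theorem nrmE_of_sing5 {ε κ : E} {τ : E →+ E} {q : V → E} (hE : Cl ε κ τ b q)
    (hm : 5 ≤ finrank E V) {y : V ≃ₗ[F] V}
    (h : ∀ v, q v = 0 → ∀ k : E, y (k • v) ∈ Ln F E (y v)) : NrmE E y := by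
  refine nrmE_of_conn hE (by omega) (fun u v hu0 hv0 hu hv => ?_) h
  by_cases h1 : b u v = 0
  · by_cases h2 : v ∈ E ∙ u
    · have h3 := hE.form.finrank_perp hE.sep (E ∙ u)
      have h4 := finrank_span_one_le (F := E) u
      obtain ⟨t, p, q, s⟩ := hE.exists_sing_notMem (W := perp b (E ∙ u)) (Z := E ∙ u) (by omega)
      exact Or.inr ⟨t, s, p u (Submodule.mem_span_singleton_self u), p v h2, q,
        fun hc => q ((Submodule.span_singleton_le_iff_mem _ _).2 h2 hc)⟩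
    · exact Or.inl ⟨h1, h2⟩
  have h2 := hE.form.finrank_perp hE.sep (Submodule.span E {u, v})
  have h3 := finrank_span_pair_le (F := E) u v
  obtain ⟨t, p, q, s⟩ := hE.exists_sing3 (W := perp b (Submodule.span E {u, v})) (by omega)
  rw [mem_perp_span] at p
  have p1 := p u (by simp)
  have p2 := p v (by simp)
  refine Or.inr ⟨t, s, p1, p2, fun hc => ?_, fun hc => ?_⟩ <;>
    obtain ⟨a, rfl⟩ := Submodule.mem_span_singleton.1 hc
  · simp [hE.refl_ne h1] at p2; simp [p2] at q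
  · simp [h1] at p1; simp [p1] at q

theorem su_sp_le5 (h : Cl (σ := RingHom.id F) (-1) 0 0 B Q) (hq : Qd F σ)
    (hE : Cl 1 1 (trHom σ) b fun x => b x x) {δ : E} (hδ : σ δ = -δ) (hδ0 : δ ≠ 0) (h2 : (2 : F) ≠ 0)
    (ht : ∀ x y, 𝔱 (δ * b x y) = B x y) (hm : 5 ≤ finrank E V) (hM : M ≤ h.Om)
    (hH : ∀ g ∈ h.Om, NrmE E g → g ∈ M) {g : V ≃ₗ[F] V} (hg : g ∈ M) (hg' : ¬ NrmE E g) :
    h.Om ≤ M := by
  have : Module.Finite F V := Module.Finite.trans E V
  have hM' := hM.trans h.om_le_isom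
  have h2' : (2 : E) ≠ 0 := by rw [← map_ofNat (algebraMap F E)]; simpa using h2
  have hI : ∀ s ∈ Isom b fun x => b x x, rs F s ∈ M := fun s hs =>
    hH _ ((mem_om_alt h).2 fun x y => by simp [← ht, hs.1]) (nrmE_rs s)
  have h0 : ∀ {x y}, b x y = 0 → B x y = 0 := fun h => by rw [← ht, h]; simp
  obtain ⟨d, hd⟩ := hq.fixed (a := δ * δ) (by simp [hδ])
  have hd0 : d ≠ 0 := by rintro rfl; simp [hδ0, eq_comm] at hd
  have ea := fun v c x => h.eich_apply (alt_Q h v) (map_zero _) c x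
  have h1 : ∀ v, b v v = 0 → ∀ c, h.eich v 0 c * h.eich (δ • v) 0 (-c / d) ∈ M := fun v hv c => by
    convert hI _ (hE.eich_mem_isom (c := c • (2 * δ)) hv (map_zero _) (by
      simp [Algebra.smul_def, hq.alg, hδ, map_ofNat])) using 1
    ext y
    simp only [mul_app, rs_apply, ea, hE.eich_apply hv (map_zero _), map_zero, LinearMap.zero_apply,
      zero_smul, add_zero, smul_zero, sub_zero, map_sub, map_smul, h0 (x := v) (y := δ • v) (by simp [hv]),
      mul_smul]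
    simp only [← ht, hq.smul_tr, ← algebraMap_smul E c, ← algebraMap_smul E (-c / d), map_smulₛₗ,
      LinearMap.smul_apply, smul_eq_mul, map_mul, map_neg, hδ, map_div₀, hd, Algebra.smul_def]
    match_scalars <;> field_simp <;> ring
  obtain ⟨v, hv, k, hk⟩ : ∃ v, b v v = 0 ∧ ∃ k : E, g (k • v) ∉ Ln F E (g v) := by
    by_contra! h3; exact hg' (nrmE_of_sing5 hE hm h3)
  have h3 : g (δ • v) ∉ E ∙ g v := fun h3 => hk (by
    have h4 : k • v = (𝔱 k / 2) • v + (𝔱 (k / δ) / 2) • δ • v := by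
      simp only [← algebraMap_smul E (_ / 2 : F), map_div₀, hq.tr, hδ, map_ofNat]
      match_scalars; field_simp; ring
    rw [h4, map_add, map_smul, map_smul]
    exact add_mem (Submodule.smul_mem _ _ (self_mem_Ln _)) (Submodule.smul_mem (Ln F E (g v)) _ h3))
  replace h1 : ∀ c, h.eich (g v) 0 c * h.eich (g (δ • v)) 0 (-c / d) ∈ M := fun c => by
    have := mul_mem (mul_mem hg (h1 v hv c)) (inv_mem hg)
    rwa [← conj_mul, h.conj_eich (hM' hg), h.conj_eich (hM' hg), map_zero] at this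
  have hz0 : g v ≠ 0 := app_ne_zero g (by rintro rfl; simp at hk)
  generalize g v = z at h1 h3 hz0
  generalize g (δ • v) = x at h1 h3
  obtain ⟨u, hu0, hu, h6, h7, h7'⟩ := hE.exists_sing_two ⟨δ, hδ0, by simp [hδ]⟩ hm hz0 h3
  have h8 := hE.refl h6
  have h9 := hE.refl h7
  obtain ⟨w, h10, h11⟩ := hE.form.exists_perp_not hE.sep h7'
  have h12 := h10 u (Submodule.subset_span (by simp))
  have h13 := hE.refl (h10 z (Submodule.subset_span (by simp)))
  have h14 := hE.flip_one h11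
  have h15 : ∀ (a : E) (c : F), h.eich x 0 (-c) * h.eich (x + a • u) 0 c ∈ M := fun a c => by
    obtain ⟨e, he⟩ := hE.exists_tau (σ a • w)
    have h15 := hI _ (hE.eich_mem_isom hu (by simp [h12]) he)
    have := mul_mem (inv_mem (h1 (-c * d))) (mul_mem (mul_mem h15 (h1 (-c * d))) (inv_mem h15))
    rw [← conj_mul, h.conj_eich (hM' h15), h.conj_eich (hM' h15), map_zero, rs_apply, rs_apply,
      hE.eich_of_perp hu (by simp [h12]) _ h8, hE.eich_of_perp hu (by simp [h12]) _ h9, mul_inv_rev] at this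
    simpa [h13, h14, hq.invol, hd0, mul_assoc, inv_mul_cancel_left, h.eich_inv (alt_Q h x) (map_zero _)] using this
  have h16 : ∀ c, h.eich u 0 c ∈ M := fun c => by
    convert mul_mem (h15 1 (c / 2)) (h15 (-1) (c / 2)) using 1
    ext y
    simp [mul_app, ea, alt_self h, h0 h9, h.refl (h0 h9)]
    match_scalars <;> field_simp <;> ring
  have h17 : ∀ p, b p p = 0 → ∀ c, h.eich p 0 c ∈ M := fun p hp c => by
    by_cases hp0 : p = 0
    · rw [hp0, h.eich_zero_left]; exact one_mem _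
    obtain ⟨s, hs, rfl⟩ := hE.form.witt_one hE.sep hu0 hp0 (hp.trans hu.symm)
    exact tv_map h hM' (hI s hs) h16 c
  refine om_le_of_tv h fun v c => ?_
  by_cases hv0 : v = 0
  · rw [hv0, h.eich_zero_left]; exact one_mem _
  obtain ⟨p, -, hp, h18⟩ := hE.exists_sing_not_perp (Cl.nondegOn_top hE.sep)
    (Or.inl (by rw [finrank_top]; omega)) (s := v) (let ⟨y, hy⟩ := hE.exists_ne hv0; ⟨y, trivial, hE.refl_ne hy⟩)
  obtain ⟨p, hp, h19⟩ : ∃ p, b p p = 0 ∧ b p v = b v v / 2 + δ :=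
    ⟨σ ((b v v / 2 + δ) / b p v) • p, hE.sing_smul hp _, by
      rw [map_smulₛₗ, hq.invol, LinearMap.smul_apply, smul_eq_mul, div_mul_cancel₀ _ h18]⟩
  have h20 : σ (b v v) = b v v := by simpa using (hE.symm v v).symm
  simpa using tv_line h hM' (h17 p hp) (h17 (v - p) (by
    simp [hp, h19, hE.symm p v, h20, hδ, map_ofNat]; field_simp; ring)) (fun h21 => by
    have := congrArg (algebraMap F E) h21
    simp [← ht, hq.tr, hp, h19, hδ, h20, map_ofNat] at this
    exact mul_ne_zero h2' (mul_ne_zero hδ0 hδ0) (by linear_combination this)) 1 c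

theorem su_o_le5 (h : Cl (σ := RingHom.id F) 1 2 (AddMonoidHom.id F) B Q) (hq : Qd F σ) (hH : IsHerm b)
    (hE : Cl 1 1 (trHom σ) b fun x => b x x) (ht : ∀ x y, 𝔱 (b x y) = B x y)
    (hQ : ∀ x, algebraMap F E (Q x) = b x x) (hm : 5 ≤ finrank E V) (hM : M ≤ h.Om)
    (hN : ∀ g ∈ h.Om, NrmE E g → g ∈ M) {g : V ≃ₗ[F] V} (hg : g ∈ M) (hg' : ¬ NrmE E g) :
    h.Om ≤ M := by
  have : Module.Finite F V := Module.Finite.trans E V
  have := finite_of_algebra F E
  have hM' := hM.trans h.om_le_isom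
  have hn : 5 ≤ finrank F V := by
    rw [← finrank_mul_finrank F E V]; nlinarith [finrank_pos (R := F) (M := E)]
  have h0 : ∀ {x y}, b x y = 0 → B x y = 0 := fun h => by rw [← ht, h]; simp
  have hs : ∀ {x}, Q x = 0 ↔ b x x = 0 := by simp [← hQ]
  let f : UIsom b →* Isom B Q := ((rs F).comp (UIsom b).subtype).codRestrict _ fun s =>
    ⟨fun x y => by simp [← ht, s.2.1], fun x => (algebraMap F E).injective (by simp [hQ, s.2.1])⟩
  have hI : ∀ s ∈ hE.Om, rs F s ∈ M := fun s hs => hN _ ((mem_om_quad h (by omega)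
    (f ⟨s, hE.om_le_isom hs⟩)).2 (by
      have := Subgroup.mem_map_of_mem f (hH.sisom_perfect_aux hE.sep (Or.inl (by omega))
        (x := ⟨s, hE.om_le_isom hs⟩) (mem_sisom.2 ((mem_om_herm hH hE).1 hs).2))
      rw [Subgroup.map_commutator] at this
      exact Subgroup.commutator_mono le_top le_top this)) (nrmE_rs s)
  have h1 : ∀ v, b v v = 0 → ∀ k : E, h.eich v (k • v) 0 ∈ M := fun v hv k => by
    convert hI _ (hE.eich_mem_om (c := k - σ k) hv (map_zero _) (by simp [hq.invol])) using 1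
    ext y
    simp only [rs_apply, h.eich_apply (hs.2 hv) (h0 (x := v) (y := k • v) (by simp [hv])),
      hE.eich_apply hv (map_zero _), ← ht, hq.smul_tr, one_mul, zero_mul, zero_smul, map_smulₛₗ,
      LinearMap.smul_apply, smul_eq_mul, map_mul, hq.invol, map_zero, LinearMap.zero_apply]
    module
  have h2 : ∀ g ∈ M, ∀ v, b v v = 0 → ∀ k : E, g (k • v) ∈ h.Arm M (g v) := fun g hg v hv k a => by
    rw [← map_smul, ← smul_assoc]
    exact h.map_mem_ar hM' hg ((h.mem_ar (hs.2 hv)).2 ⟨h0 (by simp [hv]), 0,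
      (hs.2 (hE.sing_smul hv _)).symm, h1 v hv _⟩)
  have h3 : ∀ z, z ≠ 0 → b z z = 0 → ∀ x ∈ h.Arm M z, x ∉ E ∙ z → ∀ y, b z y = 0 → y ∈ h.Arm M z :=
    fun z hz0 hz x hx hx' y hy => by
    have h3 : ∀ u x c, b u u = 0 → b u x = 0 → trHom σ c = b x x → b u z = 0 → b x z = 0 →
        ∀ a ∈ (h.Arm M z).toAddSubgroup, hE.eich u x c a ∈ (h.Arm M z).toAddSubgroup :=
      fun u x c h3 h4 h5 h6 h7 a ha =>
        h.map_mem_arm hM' (hI _ (hE.eich_mem_om h3 h4 h5)) (hE.eich_fix c h6 h7) ha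
    by_cases h4 : b z x = 0
    · exact hE.perp_irr5 (IsHerm.nq hH) hm hz0 hz h3 hx h4 hx' hy
    have h5 := hE.form.finrank_perp hE.sep (E ∙ z)
    have h6 := finrank_span_one_le (F := E) z
    obtain ⟨w, h7, h8⟩ := exists_not_mem_of_lt (W := E ∙ z) (U := perp b (E ∙ z)) (by omega)
    replace h7 := h7 z (Submodule.mem_span_singleton_self z)
    obtain ⟨c, hc⟩ := hE.exists_tau w
    refine hE.perp_irr5 (IsHerm.nq hH) hm hz0 hz h3 (sub_mem (h3 z w c hz h7 hc hz (hE.refl h7) x hx) hx)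
      (by simp [hE.eich_apply hz h7, hz, h7]) (fun h9 => h8 ?_) hy
    obtain ⟨a, ha⟩ := Submodule.mem_span_singleton.1 h9
    rw [hE.eich_apply hz h7] at ha
    exact Submodule.mem_span_singleton.2 ⟨(b w x - c * b z x - a) / b z x, by
      rw [div_eq_inv_mul, mul_smul, inv_smul_eq_iff₀ h4]; linear_combination (norm := module) -ha⟩
  obtain ⟨v, hv, k, hk⟩ : ∃ v, b v v = 0 ∧ ∃ k : E, g (k • v) ∉ Ln F E (g v) := by
    by_contra! h3; exact hg' (nrmE_of_sing5 hE hm h3)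
  have hv0 : v ≠ 0 := by rintro rfl; simp at hk
  have h4 := h3 _ (app_ne_zero g hv0) (hs.1 (((hM' hg).2 v).trans (hs.2 hv))) _ (h2 g hg v hv k) hk
  obtain ⟨y, h5, h6⟩ : ∃ y, b (g v) y = 0 ∧ b v (g⁻¹ y) ≠ 0 := by
    by_contra! h5
    refine hk (hE.form.mem_of_perp hE.sep (W := E ∙ g v) fun y hy => eq_zero_of_lift one_ne_zero
      (by simpa using ht) fun j => ?_)
    rw [← app_inv g (j • y), (hM' hg).1]
    exact h0 (by rw [map_smulₛₗ, LinearMap.smul_apply,
      h5 (j • y) (by simp [hy _ (Submodule.mem_span_singleton_self _)]), smul_zero])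
  have h7 := h.map_mem_arm (e := v) hM' (one_mem M) rfl (y := g⁻¹ y) fun a => by
    simpa [← inv_app] using h.map_mem_ar hM' (inv_mem hg) (h4 y h5 a)
  rw [one_app] at h7
  have h8 : h.Full M v := h.full_of_ar (hs.2 hv) (fun t h8 => by
    have h9 : ∀ t, B v t = 0 → σ (b v t) = -b v t := fun t h => by
      have := hq.tr (b v t); rw [ht, h, map_zero] at this; linear_combination -this
    obtain ⟨c, hc⟩ := hq.fixed (a := b v t / b v (g⁻¹ y)) (by
      rw [map_div₀, h9 t h8, h9 _ (h.ar_perp (h.ar_of_arm h7)), neg_div_neg_eq])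
    simpa using h.ar_of_arm (add_mem (h3 v hv0 hv _ h7 (fun h => h6 (by
      obtain ⟨a, ha⟩ := Submodule.mem_span_singleton.1 h; simp [← ha, hv])) (t - c • g⁻¹ y) (by
      rw [map_sub, ← algebraMap_smul E, map_smul, hc, smul_eq_mul, div_mul_cancel₀ _ h6, sub_self]))
      (Submodule.smul_mem _ c h7))) fun c hc => by rw [show c = 0 from hc, h.eich_zero]; exact one_mem _
  obtain ⟨p, hp, h9⟩ := hE.form.exists_partner hE.sep hv hv0
  obtain ⟨m, h10, c, hc, h11⟩ := hH.exists_eichSub_point hE.sep hv hv0 hp (by rintro rfl; simp at h9)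
  obtain ⟨j, hj⟩ := exists_trace_one (F := F) (E := E)
  obtain ⟨m', h13, h14⟩ := hH.exists_eichSub_smul hE.sep (a := j / c) hp hv (hE.flip_one h9)
    (div_ne_zero (by rintro rfl; simp at hj) hc) (Or.inl (by omega))
  rw [hH.eichSub_eq hE.sep] at h10 h13
  refine h.om_le_of_full hM' h8 (h8.map hM' (hI _ (mul_mem ((mem_om_herm hH hE).2 ⟨m'.2.1, mem_sisom.1 h13⟩)
    ((mem_om_herm hH hE).2 ⟨m.2.1, mem_sisom.1 h10⟩)))) ?_
  simp [mul_app, h11, h14, ← ht, h9, mul_div_cancel₀ _ hc, hj]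

theorem su_sp_max5 (h : Cl (σ := RingHom.id F) (-1) 0 0 B Q) (hr : finrank F E = 2) (h2 : (2 : F) ≠ 0)
    (ha : ∀ k : E, ∃ k' : E, ∀ u v, B (k • u) v = B u (k' • v))
    (hb : ¬ ∀ (k : E) u v, B (k • u) v = B u (k • v)) (hm : 5 ≤ finrank E V) :
    (∃ g ∈ h.Om, ¬ NrmE E g) ∧ ∀ M ≤ h.Om, (∀ g ∈ h.Om, NrmE E g → g ∈ M) → ∀ g ∈ M,
      ¬ NrmE E g → h.Om ≤ M := by
  have : Module.Finite F V := Module.Finite.trans E V
  have : Nontrivial V := Module.nontrivial_of_finrank_pos (R := E) (by omega)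
  obtain ⟨σ, h3, h4⟩ := exists_adj_hom h ha
  have hq := qd_of hr (fun h => hb (by simpa [h] using h3)) h4
  obtain ⟨b, h5⟩ := exists_lift h3
  obtain ⟨k, hk⟩ := DFunLike.ne_iff.1 hq.ne
  have hδ0 : k - σ k ≠ 0 := sub_ne_zero.2 (Ne.symm hk)
  have hδ : σ (k - σ k) = -(k - σ k) := by simp [hq.invol]
  generalize k - σ k = δ at hδ hδ0
  have h6 : ∀ x y, 𝔱 (δ * (δ⁻¹ • b) x y) = B x y := by simp [hδ0, h5]
  have hE := clHerm (B := δ⁻¹ • b) ⟨hq.ne, hq.invol, fun x y => by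
    simp [lift_symm h5 hq.tr_sigma hq.invol h.symm x y, hδ]⟩ fun x hx => h.sep x fun y => by
      rw [← h6, hx]; simp
  obtain ⟨v, -, hv0, hv⟩ := hE.exists_sing3 (W := ⊤) (by rw [finrank_top]; omega)
  exact ⟨sp_not_nrmE h (smul_not_mem h4 hk hv0) fun j => by
    rw [← h6, map_smul, map_smulₛₗ, LinearMap.smul_apply, hv]; simp,
    fun M hM hH g hg hg' => su_sp_le5 h hq hE hδ hδ0 h2 h6 hm hM hH hg hg'⟩

theorem su_o_max5 (h : Cl (σ := RingHom.id F) 1 2 (AddMonoidHom.id F) B Q) (hr : finrank F E = 2)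
    (ha : ∀ k : E, ∃ k' : E, ∀ u v, B (k • u) v = B u (k' • v))
    (hb : ¬ ∀ (k : E) u v, B (k • u) v = B u (k • v)) (hc : ∀ k : E, ∃ c : F, ∀ v, Q (k • v) = c * Q v)
    (hm : 5 ≤ finrank E V) :
    (∃ g ∈ h.Om, ¬ NrmE E g) ∧ ∀ M ≤ h.Om, (∀ g ∈ h.Om, NrmE E g → g ∈ M) → ∀ g ∈ M,
      ¬ NrmE E g → h.Om ≤ M := by
  have : Module.Finite F V := Module.Finite.trans E V
  have : Nontrivial V := Module.nontrivial_of_finrank_pos (R := E) (by omega)
  obtain ⟨σ, h3, h4⟩ := exists_adj_hom h ha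
  have hq := qd_of hr (fun h => hb (by simpa [h] using h3)) h4
  obtain ⟨b, h5⟩ := exists_lift h3
  have hH : IsHerm b := ⟨hq.ne, hq.invol, fun x y => by
    simp [lift_symm h5 hq.tr_sigma hq.invol h.symm x y]⟩
  have hE := clHerm hH (lift_sep h5 h.sep)
  obtain ⟨j, hj⟩ := exists_trace_one (F := F) (E := E)
  obtain ⟨c, h6⟩ := hc j
  obtain ⟨c', h7⟩ := hc (1 + j)
  have h8 : ∀ x, b x x = algebraMap F E ((c' - 1 - c) * Q x) := fun x => by
    have h8 := h7 x
    rw [add_smul, one_smul, h.Q_add, h6] at h8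
    rw [show (c' - 1 - c) * Q x = B x (j • x) by simp at h8; linear_combination -h8, ← h5, hq.tr,
      map_smul, smul_eq_mul, map_mul, hH.symm, ← add_mul, ← hq.tr, hj, map_one, one_mul]
  have h9 : c' - 1 - c = 1 := by
    obtain ⟨x, hx⟩ := exists_ne (0 : V)
    obtain ⟨y, hy⟩ := h.form.exists_right_eq_one h.sep hx
    have h9 := h8 (x + y)
    rw [hE.Q_add, h.Q_add, h8, h8, trHom_apply, ← hq.tr, h5, hy, ← map_add, ← map_add,
      AddMonoidHom.id_apply] at h9
    linear_combination -(algebraMap F E).injective h9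
  simp only [h9, one_mul] at h8
  refine ⟨?_, fun M hM hN g hg hg' => su_o_le5 h hq hH hE h5 (fun x => (h8 x).symm) hm hM hN hg hg'⟩
  obtain ⟨k, hk⟩ := DFunLike.ne_iff.1 hq.ne
  obtain ⟨v, -, hv0, hv⟩ := hE.exists_sing3 (W := ⊤) (by rw [finrank_top]; omega)
  have h10 := hE.form.finrank_perp hE.sep (E ∙ v)
  have h11 := finrank_span_one_le (F := E) v
  obtain ⟨u, h12, h13, hu⟩ := hE.exists_sing_notMem (W := perp b (E ∙ v)) (Z := E ∙ v) (by omega)
  replace h12 := hE.refl (h12 v (Submodule.mem_span_singleton_self v))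
  have h14 : ∀ (c : F) (j : E), c • u = j • v → c = 0 := fun c j h => by_contra fun h0 => h13
    (Submodule.mem_span_singleton.2 ⟨c⁻¹ • j, by rw [smul_assoc, ← h, inv_smul_smul₀ h0]⟩)
  obtain ⟨w, h15, h16⟩ := h.form.exists_perp_not h.sep (W := Submodule.span F {u, v}) (x := k • v) fun h => by
    obtain ⟨a, c, h⟩ := Submodule.mem_span_pair.1 h
    rw [h14 a (k - algebraMap F E c) (by rw [sub_smul, ← h]; simp), zero_smul, zero_add] at h
    exact smul_not_mem h4 hk hv0 (Submodule.mem_span_singleton.2 ⟨c, h⟩)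
  have h17 : Q u = 0 := by simpa [h8] using hu
  have h18 := h15 u (Submodule.subset_span (by simp))
  refine ⟨h.eich u w (Q w), h.eich_mem_om h17 h18 rfl, not_nrmE (k := k) (h.eich_fix _ (by simp [← h5, h12])
    (h.refl (h15 v (Submodule.subset_span (by simp))))) fun h19 => ?_⟩
  obtain ⟨a, ha⟩ := Submodule.mem_span_singleton.1 h19
  rw [h.eich_of_perp h17 h18 _ (by simp [← h5, h12]), h.flip_one h16] at ha
  simpa using h14 1 (a - k) (by rw [sub_smul, ha]; simp)

open Matrix Geo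

theorem su_sp_mat5 {m : ℕ} (φ : E →ₐ[F] Matrix (Fin m ⊕ Fin m) (Fin m ⊕ Fin m) F) (hm : 5 ≤ m)
    (hr : finrank F E = 2) (h2 : (2 : F) ≠ 0) (ha : IsAdjointClosedFor (sympForm m F) φ.range)
    (hb : ¬ IsSelfAdjointFor (sympForm m F) φ.range) :
    IsMaximalIn (spGL m F) (subalgebraNormalizer φ.range ⊓ spGL m F) := by
  have h1 := EV.finrank_mul φ
  obtain ⟨h2, h3⟩ := su_sp_max5 (E := E) ((clSp m F).pullback (EV.eq φ)) hr h2 (fun k => by
      obtain ⟨_, ⟨k', rfl⟩, h3⟩ := ha _ ⟨k, rfl⟩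
      simp only [sympForm_eq_spBilin] at h3
      exact ⟨k', h3⟩)
    (fun h2 => hb (by rintro _ ⟨k, rfl⟩ u v; simp only [sympForm_eq_spBilin]; exact h2 k u v))
    (by rw [hr] at h1; simp at h1; omega)
  exact fld_max_of (fun g => (mem_spGL_iff g).trans (mem_om_gE φ _ g)) h2 h3

theorem su_o_mat5 {n : ℕ} (φ : E →ₐ[F] Matrix (Fin n) (Fin n) F) (hn : 9 ≤ n) {Q : (Fin n → F) → F}
    (hQ : IsNondegenerateQuadraticForm Q) (hr : finrank F E = 2)
    (ha : IsAdjointClosedFor (QuadraticMap.polar Q) φ.range)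
    (hb : ¬ IsSelfAdjointFor (QuadraticMap.polar Q) φ.range)
    (hc : ∀ k ∈ φ.range, ∃ c : F, ∀ v, Q (k *ᵥ v) = c * Q v) :
    IsMaximalIn (omegaGL Q) (subalgebraNormalizer φ.range ⊓ omegaGL Q) := by
  have h1 := EV.finrank_mul φ
  have := finite_of_algebra F E
  obtain ⟨h2, h3⟩ := su_o_max5 (E := E) ((clO hQ).pullback (EV.eq φ)) hr (fun k => by
      obtain ⟨_, ⟨k', rfl⟩, h3⟩ := ha _ ⟨k, rfl⟩
      exact ⟨k', fun u v => h3 _ _⟩) (fun h2 => hb (by rintro _ ⟨k, rfl⟩ u v; exact h2 k u v))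
    (fun k => hc _ ⟨k, rfl⟩) (by rw [hr] at h1; simp at h1; omega)
  exact fld_max_of (fun g => (mem_omegaGL_iff (clO hQ) (by simp; omega) g).trans (mem_om_gE φ _ g)) h2 h3

end Ag

end Cfsg.Agent.H10
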