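import Mathlib
import Cfsg.Agent.H10.Ag2
import Cfsg.Agent.H10.Mx11

/-! Subfield subgroups of symplectic groups of dimension at least four. -/

set_option autoImplicit false
set_option maxHeartbeats 400000

namespace Cfsg.Agent.H10

open Module H11 Cfsg.Geo

section field

variable {F : Type*} [Field F] [Finite F] {K : Subfield F} {r : ℕ} (hr : r.Prime)
  (hc : Nat.card K ^ r = Nat.card F)
include hr hc

theorem subring_top (A : Subring F) (hA : ∀ a ∈ K, a ∈ A) {l : F} (hl : l ∈ A) (hl' : l ∉ K) (x : F) :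
    x ∈ A := by
  let L : Subfield F := { A with
    inv_mem' := fun a ha => by
      by_cases h0 : a = 0
      · rw [h0, inv_zero]; exact A.zero_mem
      · have := Fintype.ofFinite F
        have e1 := FiniteField.pow_card_sub_one_eq_one a h0
        have e2 : 1 < Fintype.card F := Fintype.one_lt_card
        rw [show Fintype.card F - 1 = Fintype.card F - 2 + 1 by omega, pow_succ] at e1
        rw [← eq_inv_of_mul_eq_one_left e1]
        exact A.pow_mem ha _ }
  rcases subfield_eq_or_of_prime (L := L) hA hr hc with h | h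
  · exact (hl' (h ▸ (hl : l ∈ L))).elim
  · exact (h ▸ trivial : x ∈ L)

theorem quad_span {z s p : F} (hz : z ∉ K) (hs : s ∈ K) (hp : p ∈ K) (h : z * z = s * z + p) (x : F) :
    ∃ u ∈ K, ∃ v ∈ K, x = u + v * z :=
  subring_top hr hc
    { carrier := {x | ∃ u ∈ K, ∃ v ∈ K, x = u + v * z}
      mul_mem' := by
        rintro _ _ ⟨a, ha, b, hb, rfl⟩ ⟨c, hc, d, hd, rfl⟩
        exact ⟨a * c + b * d * p, K.add_mem (K.mul_mem ha hc) (K.mul_mem (K.mul_mem hb hd) hp),
          a * d + b * c + b * d * s, K.add_mem (K.add_mem (K.mul_mem ha hd) (K.mul_mem hb hc))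
            (K.mul_mem (K.mul_mem hb hd) hs), by linear_combination b * d * h⟩
      one_mem' := ⟨1, K.one_mem, 0, K.zero_mem, by simp⟩
      add_mem' := by
        rintro _ _ ⟨a, ha, b, hb, rfl⟩ ⟨c, hc, d, hd, rfl⟩
        exact ⟨a + c, K.add_mem ha hc, b + d, K.add_mem hb hd, by ring⟩
      zero_mem' := ⟨0, K.zero_mem, 0, K.zero_mem, by simp⟩
      neg_mem' := by
        rintro _ ⟨a, ha, b, hb, rfl⟩
        exact ⟨-a, K.neg_mem ha, -b, K.neg_mem hb, by ring⟩ }
    (fun a ha => ⟨a, ha, 0, K.zero_mem, by simp⟩) ⟨0, K.zero_mem, 1, K.one_mem, by simp⟩ hz x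

theorem carpet {N : AddSubgroup (F × F)} (h1 : ∀ x ∈ K, ∀ y ∈ K, (x, y) ∈ N)
    (h2 : ∀ k ∈ K, k ≠ 0 → ∀ x y, (x, y) ∈ N → (k * x, y) ∈ N)
    (h3 : ∀ x y x' y', (x, y) ∈ N → (x', y') ∈ N → (x * y', x * x * y' + 2 * x * x') ∈ N) :
    (∀ x y, (x, y) ∈ N → x ∈ K ∧ y ∈ K) ∨ ∀ x y, (x, y) ∈ N := by
  have o1 := h1 1 K.one_mem 0 K.zero_mem
  have o2 := h1 0 K.zero_mem 1 K.one_mem
  have LS : ∀ y, (0, y) ∈ N → (y, 0) ∈ N := fun y hy => by
    simpa using N.sub_mem (h3 _ _ _ _ o1 hy) hy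
  have SL : ∀ x, (x, 0) ∈ N → (0, x) ∈ N := fun x hx => by
    by_cases h : (2 : F) = 0
    · have sq : ∀ x, (x, 0) ∈ N → (0, x * x) ∈ N := fun x hx => by
        simpa using N.sub_mem (h3 _ _ _ _ hx o2) hx
      let f : {x // (x, (0 : F)) ∈ N} → {x // (x, (0 : F)) ∈ N} := fun x => ⟨_, LS _ (sq _ x.2)⟩
      obtain ⟨y, hy⟩ := Finite.surjective_of_injective (f := f) (fun a b e => Subtype.ext (by
        have e' : a.1 * a.1 = b.1 * b.1 := congrArg Subtype.val e
        refine sub_eq_zero.mp (pow_eq_zero_iff two_ne_zero |>.mp ?_)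
        linear_combination e' + (b.1 * b.1 - a.1 * b.1) * h)) ⟨x, hx⟩
      have e' : y.1 * y.1 = x := congrArg Subtype.val hy
      exact e' ▸ sq _ y.2
    · have := h3 _ _ _ _ hx (h1 2⁻¹ (K.inv_mem (by simpa [← two_mul] using K.add_mem K.one_mem K.one_mem))
        0 K.zero_mem)
      convert this using 2 <;> field_simp <;> simp
  have all : (∀ y, (0, y) ∈ N) → ∀ x y, (x, y) ∈ N := fun h x y => by
    simpa using N.add_mem (LS x (h x)) (h y)
  by_cases hk : ∃ k ∈ K, k ≠ 0 ∧ k ≠ 1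
  · obtain ⟨k, hk, k0, k1⟩ := hk
    have sp : ∀ x y, (x, y) ∈ N → (x, 0) ∈ N := fun x y h => by
      have k2 := sub_ne_zero.mpr k1
      have := h2 _ (K.inv_mem (K.sub_mem hk K.one_mem)) (inv_ne_zero k2) ((k - 1) * x) 0
        (by simpa [sub_mul] using N.sub_mem (h2 k hk k0 x y h) h)
      rwa [inv_mul_cancel_left₀ k2] at this
    let A : Subring F :=
      { carrier := {x | (x, 0) ∈ N}
        mul_mem' := fun ha hb => sp _ _ (h3 _ _ _ _ ha (SL _ hb))
        one_mem' := o1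
        add_mem' := fun ha hb => by simpa using N.add_mem ha hb
        zero_mem' := N.zero_mem
        neg_mem' := fun ha => by simpa using N.neg_mem ha }
    by_cases hA : ∀ x ∈ A, x ∈ K
    · exact Or.inl fun x y h => ⟨hA x (sp x y h), hA y (LS y (by simpa using N.sub_mem h (sp x y h)))⟩
    · push Not at hA
      obtain ⟨l, hl, hl'⟩ := hA
      exact Or.inr (all fun y => SL y (subring_top hr hc A (fun a ha => h1 a ha 0 K.zero_mem) hl hl' y))
  have hK : ∀ k ∈ K, k = 0 ∨ k = 1 := fun k h => by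
    by_contra hn; push Not at hn; exact hk ⟨k, h, hn⟩
  have h : (2 : F) = 0 := by
    have := (hK _ (K.neg_mem K.one_mem)).resolve_left (by simp)
    linear_combination -this
  have a1 : ∀ x y, (x, y) ∈ N → (0, x + y) ∈ N := fun x y hxy => SL _ (by
    have := N.add_mem hxy (h3 _ _ _ _ o1 hxy)
    simp only [Prod.mk_add_mk, one_mul, h, zero_mul, add_zero] at this
    rwa [← two_mul, h, zero_mul] at this)
  have a2 : ∀ x y, (x, y) ∈ N → (0, x + x * x) ∈ N := fun x y hxy => by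
    simpa using a1 _ _ (h3 _ _ _ _ hxy o2)
  by_cases hL : ∀ y, (0, y) ∈ N → y ∈ K
  · refine Or.inl fun x y hxy => ?_
    have b1 := hL _ (a1 _ _ hxy)
    have b2 := hL _ (a1 _ _ (h3 _ _ _ _ hxy hxy))
    have b3 : x ∈ K := by
      rcases hK _ (hL _ (a2 _ _ hxy)) with e | e
      · rcases mul_eq_zero.mp (show x * (1 + x) = 0 by linear_combination e) with e | e
        · exact e ▸ K.zero_mem
        · exact (show -1 = x by linear_combination -e) ▸ K.neg_mem K.one_mem
      · convert K.sub_mem b1 b2 using 1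
        linear_combination y * e + x * x * h
    exact ⟨b3, by simpa using K.sub_mem b1 b3⟩
  push Not at hL
  obtain ⟨a, ha, haK⟩ := hL
  refine Or.inr (all fun y => ?_)
  by_cases hb : a + a * a ∈ K
  · obtain ⟨u, hu, v, hv, rfl⟩ := quad_span hr hc haK (K.neg_mem K.one_mem) hb (by ring) y
    rcases hK v hv with rfl | rfl
    · simpa using h1 0 K.zero_mem u hu
    · simpa using N.add_mem (h1 0 K.zero_mem u hu) ha
  let A : Subring F :=
    { carrier := {m | ∀ c, (0, c) ∈ N → (0, m * c) ∈ N}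
      mul_mem' := fun ha hb c hc => by rw [mul_assoc]; exact ha _ (hb c hc)
      one_mem' := fun c hc => by rwa [one_mul]
      add_mem' := fun ha hb c hc => by simpa [add_mul] using N.add_mem (ha c hc) (hb c hc)
      zero_mem' := fun c _ => by rw [zero_mul]; exact N.zero_mem
      neg_mem' := fun ha c hc => by simpa using N.neg_mem (ha c hc) }
  simpa using subring_top hr hc A (fun k hk => by
    rcases hK k hk with rfl | rfl; exacts [A.zero_mem, A.one_mem]) (l := a + a * a)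
    (fun c hc => by simpa [add_mul] using a1 _ _ (h3 _ _ _ _ (LS a ha) hc)) hb y 1 o2

end field

namespace SubSp

variable {F : Type*} [Field F] {K : Subfield F} {θ : F ≃+* F} {ι : Type} [Fintype ι] [DecidableEq ι]
  {B : (ι → F) →ₗ[F] (ι → F) →ₗ[F] F} {Q : (ι → F) → F} {B₀ : (ι → K) →ₗ[K] (ι → K) →ₗ[K] K}
  {Q₀ : (ι → K) → K}
  {R : Rat (σ := RingHom.id F) (σ₀ := RingHom.id K) θ (-1) 0 0 B Q (-1) 0 0 B₀ Q₀ 1}
  {M : Subgroup ((ι → F) ≃ₗ[F] (ι → F))}

theorem ea {V : Type*} [AddCommGroup V] [Module F V] {B : V →ₗ[F] V →ₗ[F] F} {Q : V → F}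
    (h : Cl (σ := RingHom.id F) (-1) 0 0 B Q) {u w : V} (huw : B u w = 0) (c : F) (x : V) :
    h.eich u w c x = x + B w x • u + B u x • w - (c * B u x) • u := by
  rw [h.eich_apply (alt_Q h u) huw]; module

/-- an independent isotropic pair -/
def Pr (B₀ : (ι → K) →ₗ[K] (ι → K) →ₗ[K] K) (e f : ι → K) : Prop :=
  e ≠ 0 ∧ f ∉ Submodule.span K {e} ∧ B₀ e f = 0

omit [Fintype ι] [DecidableEq ι] in
theorem Pr.li {e f : ι → K} (p : Pr B₀ e f) : LinearIndependent K ![e, f] :=
  (LinearIndependent.pair_iff' p.1).2 fun a ha => p.2.1 (Submodule.mem_span_singleton.2 ⟨a, ha⟩)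

/-- the parameters of the elements in a product of a long and a short root group -/
def Nn (R : Rat (σ := RingHom.id F) (σ₀ := RingHom.id K) θ (-1) 0 0 B Q (-1) 0 0 B₀ Q₀ 1)
    (M : Subgroup ((ι → F) ≃ₗ[F] (ι → F))) {e f : ι → K} (p : Pr B₀ e f) : AddSubgroup (F × F) where
  carrier := {x | R.cl.eich (jv K e) (x.1 • jv K f) x.2 ∈ M}
  zero_mem' := by simpa [R.cl.eich_zero] using M.one_mem
  add_mem' := fun {x y} hx hy => by
    have := M.mul_mem hx hy
    rw [R.cl.eich_mul (alt_Q R.cl _) (R.perp' p.2.2 _) (R.perp' p.2.2 _)] at this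
    simpa [alt_self R.cl, add_smul] using this
  neg_mem' := fun {x} hx => by
    have := M.inv_mem hx
    rw [R.cl.eich_inv (alt_Q R.cl _) (R.perp' p.2.2 _)] at this
    simpa [alt_self R.cl] using this

omit [Fintype ι] [DecidableEq ι] in
theorem mem_Nn {e f : ι → K} {p : Pr B₀ e f} {x y : F} :
    (x, y) ∈ Nn R M p ↔ R.cl.eich (jv K e) (x • jv K f) y ∈ M := Iff.rfl

omit [Fintype ι] [DecidableEq ι] in
theorem hB1 (R : Rat (σ := RingHom.id F) (σ₀ := RingHom.id K) θ (-1) 0 0 B Q (-1) 0 0 B₀ Q₀ 1)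
    (x y : ι → K) : B (jv K x) (jv K y) = B₀ x y := by simp [R.hB]

variable (o : R.Ov M)
include o

omit [Fintype ι] [DecidableEq ι] in
theorem rat_mem {u x : ι → K} (h : B₀ u x = 0) (c : K) : R.cl.eich (jv K u) (jv K x) c ∈ M := by
  simpa [Rat.E] using o.2 u x c (alt_Q R.cl₀ u) h (alt_Q R.cl₀ x).symm

theorem lift4 {s : (ι → K) ≃ₗ[K] (ι → K)} (hs : s ∈ Isom B₀ Q₀) :
    ∃ g ∈ M, ∀ v, g (jv K v) = jv K (s v) := by
  let A : Subgroup ((ι → K) ≃ₗ[K] (ι → K)) :=
    { carrier := {s | ∃ g ∈ M, ∀ v, g (jv K v) = jv K (s v)}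
      one_mem' := ⟨1, M.one_mem, fun _ => rfl⟩
      mul_mem' := by
        rintro _ _ ⟨a, ha, h1⟩ ⟨b, hb, h2⟩
        exact ⟨a * b, M.mul_mem ha hb, fun v => by rw [LinearEquiv.mul_apply, h2, h1]; rfl⟩
      inv_mem' := by
        rintro s ⟨a, ha, h1⟩
        exact ⟨a⁻¹, M.inv_mem ha, fun v => a.injective (by rw [h1]; simp [LinearEquiv.coe_inv])⟩ }
  exact R.cl₀.om_le (M := A) (fun u w c a b d => ⟨_, o.2 u w c a b d, R.E_apply a b c⟩)
    ((mem_om_alt R.cl₀).2 hs.1)

theorem move {e f e' f' : ι → K} (p : Pr B₀ e f) (p' : Pr B₀ e' f') {x y : F}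
    (h : (x, y) ∈ Nn R M p) : (x, y) ∈ Nn R M p' := by
  obtain ⟨s, hs, h1⟩ := R.cl₀.form.witt_family R.cl₀.sep _ _ p.li p'.li (fun i j => by
    fin_cases i <;> fin_cases j <;>
      simp [alt_self R.cl₀, p.2.2, p'.2.2, R.cl₀.refl p.2.2, R.cl₀.refl p'.2.2])
    fun i => by simp [alt_Q R.cl₀]
  obtain ⟨g, hg, h2⟩ := lift4 o hs
  have := M.mul_mem (M.mul_mem hg h) (M.inv_mem hg)
  rwa [R.cl.conj_eich (o.1 hg), map_smul, h2, h2, show s e = e' from h1 0,
    show s f = f' from h1 1] at this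

variable [Finite F] {r : ℕ} (hr : r.Prime) (hc : Nat.card K ^ r = Nat.card F)

include hr hc in
theorem dich {e f : ι → K} (p : Pr B₀ e f) :
    (∀ x y, (x, y) ∈ Nn R M p → x ∈ K ∧ y ∈ K) ∨ ∀ x y, (x, y) ∈ Nn R M p := by
  refine carpet hr hc (fun x hx y hy => ?_) (fun k hk k0 x y h => ?_) fun x y x' y' h h' => ?_
  · exact rat_mem o (u := e) (x := (⟨x, hx⟩ : K) • f) (by simp [p.2.2]) ⟨y, hy⟩
  · have p' : Pr B₀ e ((⟨k, hk⟩ : K) • f) := ⟨p.1, by
      rw [Submodule.smul_mem_iff _ (fun e => k0 (congrArg Subtype.val e))]; exact p.2.1, by simp [p.2.2]⟩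
    have := move o p p' h
    rwa [mem_Nn, jv_smul, smul_smul, mul_comm] at this
  obtain ⟨f', a1, a2⟩ := R.cl₀.form.exists_perp_not R.cl₀.sep p.2.1
  replace a1 := a1 e (Submodule.mem_span_singleton_self e)
  have fe := R.cl₀.refl p.2.2
  have k1 := move o p (e' := e) (f' := f') ⟨p.1, fun hc => by
    obtain ⟨a, rfl⟩ := Submodule.mem_span_singleton.1 hc
    simp [fe] at a2, a1⟩ h
  have k2 := move o p (e' := f) (f' := e) ⟨by rintro rfl; simp at a2,
    notMem_span_symm p.1 p.2.1, fe⟩ h'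
  have k3 := M.mul_mem (M.mul_mem (M.mul_mem k2 k1) (M.inv_mem k2)) (M.inv_mem k1)
  have b1 := R.perp a1
  have b2 := R.perp fe
  have b3 := R.perp p.2.2
  have b4 : B (jv K f) (jv K f') = 1 := by rw [hB1 R, a2]; rfl
  rw [R.cl.conj_eich (o.1 k2), R.cl.eich_fix _ b2 (by simp [alt_self R.cl]), map_smul,
    ea R.cl (by simp [b2]), R.cl.eich_inv (alt_Q R.cl _) (by simp [b1]),
    R.cl.eich_mul (alt_Q R.cl _) (by simp [b1, b3, alt_self R.cl]) (by simp [b1])] at k3
  rw [← neg_mem_iff, Prod.neg_mk, mem_Nn]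
  convert k3 using 1
  ext1 v
  rw [ea R.cl (by simp [b3]), ea R.cl (by simp [b1, b3, alt_self R.cl])]
  simp [b1, b4, alt_self R.cl]
  module

theorem om_le_of_all (hn : 3 ≤ Fintype.card ι) {e f : ι → K} (p : Pr B₀ e f)
    (h : ∀ x y, (x, y) ∈ Nn R M p) : R.cl.Om ≤ M := by
  refine o.om_le_of_full hn p.1 (R.cl.full_of_ar (alt_Q R.cl _) (fun y hy => ?_) fun c _ => ?_)
  · refine R.cl.ar_of_arm (ext_le (T := R.cl.Arm M _) (fun x hx => ?_) (R.mem_ext_perp hy))
    by_cases h1 : x ∈ Submodule.span K {e}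
    · obtain ⟨a, rfl⟩ := Submodule.mem_span_singleton.1 h1
      rw [jv_smul]; exact Submodule.smul_mem _ _ (R.cl.self_mem_arm (alt_Q R.cl _))
    · exact fun a => (R.cl.mem_ar (alt_Q R.cl _)).2 ⟨R.perp' hx _, 0, (alt_Q R.cl _).symm,
        move o p ⟨p.1, h1, hx⟩ (h a 0)⟩
  · simpa [mem_Nn] using h 0 c

variable (hN : ∀ e f (p : Pr B₀ e f) x y, (x, y) ∈ Nn R M p → x ∈ K ∧ y ∈ K)
include hN

omit [Fintype ι] [DecidableEq ι] [Finite F] in
theorem nr {e u : ι → K} (he0 : e ≠ 0) (heu : B₀ e u = 0) {a : ι → F}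
    (ha : a ∈ R.cl.Ar M (jv K e)) : B (jv K u) a ∈ K := by
  by_cases h1 : u ∈ Submodule.span K {e}
  · obtain ⟨c, rfl⟩ := Submodule.mem_span_singleton.1 h1
    simp [jv_smul, R.cl.ar_perp ha]
  have k := AddSubgroup.sub_mem _ ha (R.cl.map_mem_ar_fix o.1 (rat_mem o (u := u) (x := 0) (by simp) 1)
    (R.cl.eich_fix _ (R.perp (R.cl₀.refl heu)) (by simp)) ha)
  rw [ea R.cl (by simp)] at k
  obtain ⟨-, c, -, hc⟩ := (R.cl.mem_ar (alt_Q R.cl _)).1 k
  exact (hN e u ⟨he0, h1, heu⟩ _ c (mem_Nn.2 (by simpa using hc))).1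

omit [Finite F] in
theorem key {t : (ι → F) ≃ₗ[F] (ι → F)} (ht : t ∈ M) {e x : ι → K} (he0 : e ≠ 0)
    (hte : t (jv K e) = jv K e) (hx : B₀ e x = 0) :
    th θ (t (jv K x)) - t (jv K x) ∈ Submodule.span F {jv K e} := by
  refine R.cl.form.mem_of_perp R.cl.sep fun y hy => ?_
  refine ext_le (T := LinearMap.ker (B _)) (fun u hu => R.cl.refl ?_)
    (R.mem_ext_perp (hy _ (Submodule.mem_span_singleton_self _)))
  have k := nr o hN he0 hu (R.cl.map_mem_ar_fix o.1 ht hte (o.mem_ar (alt_Q R.cl₀ e) hx))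
  have k' : B (jv K u) (t (jv K x)) ∈ K := by simpa using k
  have := R.B_th (jv K u) (t (jv K x))
  rw [one_mul, one_mul, (R.fix _).mpr k', th_jv R.fix] at this
  rw [map_sub, this, sub_self]

omit [Finite F] in
theorem plane1 {e v : ι → K} (p : Pr B₀ e v) {a b : F}
    (ht : R.cl.eich (a • jv K v + b • jv K e) 0 1 ∈ M) : a * a ∈ K ∧ a * a + 2 * a * b ∈ K := by
  obtain ⟨y, a1, a2⟩ := R.cl₀.form.exists_perp_not R.cl₀.sep p.2.1
  replace a1 := a1 e (Submodule.mem_span_singleton_self e)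
  have b1 := R.perp a1
  have b2 := R.perp p.2.2
  have b3 : B (jv K v) (jv K y) = 1 := by rw [hB1 R, a2]; rfl
  have k1 := rat_mem o a1 0
  have k2 := M.mul_mem (M.mul_mem (M.mul_mem (M.inv_mem k1) ht) k1) (M.inv_mem ht)
  rw [← neg_mem_iff (x := a * a)]
  refine hN e v p _ _ (mem_Nn.2 ?_)
  convert k2 using 1
  ext1 x
  rw [R.cl.eich_inv (alt_Q R.cl _) b1, R.cl.eich_inv (alt_Q R.cl _) (map_zero _)]
  simp only [LinearEquiv.mul_apply]
  rw [ea R.cl (by simp [b2]), ea R.cl (by simp [b1]), ea R.cl (by simp), ea R.cl b1, ea R.cl (by simp)]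
  simp [b1, b2, b3, R.cl.refl b1, R.cl.refl b2, R.cl.flip_one b3, alt_self R.cl]
  module

omit [Finite F] in
theorem plane {e v : ι → K} (p : Pr B₀ e v) {a b : F}
    (ht : R.cl.eich (a • jv K v + b • jv K e) 0 1 ∈ M) :
    th θ (a • jv K v + b • jv K e) ∈ Submodule.span F {a • jv K v + b • jv K e} := by
  have v0 : v ≠ 0 := by rintro rfl; exact p.2.1 (Submodule.zero_mem _)
  obtain ⟨h1, h2⟩ := plane1 o hN p ht
  obtain ⟨h3, -⟩ := plane1 o hN (e := v) (v := e) ⟨v0, notMem_span_symm p.1 p.2.1, R.cl₀.refl p.2.2⟩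
    (a := b) (b := a) (by rwa [add_comm])
  have k : ∀ (c : F) (x : ι → K), th θ (c • jv K x) ∈ Submodule.span F {c • jv K x} := fun c x => by
    by_cases hc : c = 0
    · rw [hc, zero_smul, map_zero]; exact Submodule.zero_mem _
    · exact Submodule.mem_span_singleton.2 ⟨θ c / c, by rw [th_smul, th_jv R.fix, smul_smul]; simp [hc]⟩
  by_cases ha : a = 0
  · simpa [ha] using k b e
  have h4 : b / a * (b / a) ∈ K := by convert K.div_mem h3 h1 using 1; field_simp
  have h5 : 2 * (b / a) ∈ K := by convert K.div_mem (K.sub_mem h2 h1) h1 using 1; field_simp; ring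
  have h6 : b / a ∈ K := mem_of_norms (σ := RingHom.id F) R.fix (fun _ => rfl) (Or.inl rfl) h4 fun t ht => by
    convert K.add_mem (K.add_mem K.one_mem (K.mul_mem ht h5)) (K.mul_mem (K.mul_mem ht ht) h4) using 1
    simp only [RingHom.id_apply]; ring
  have e1 : a • jv K v + b • jv K e = a • jv K (v + (⟨_, h6⟩ : K) • e) := by
    rw [map_add, jv_smul, smul_add, smul_smul]; simp [mul_div_cancel₀ _ ha]
  rw [e1]; exact k _ _

omit [Finite F] in
theorem point1 {e : ι → K} (he0 : e ≠ 0) {w : ι → F} (hw : B w (jv K e) = 0)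
    (ht : R.cl.eich w 0 1 ∈ M) : th θ w ∈ Submodule.span F {w} := by
  by_cases h1 : w ∈ Submodule.span F {jv K e}
  · obtain ⟨c, rfl⟩ := Submodule.mem_span_singleton.1 h1
    by_cases hc : c = 0
    · simp [hc]
    · exact Submodule.mem_span_singleton.2 ⟨θ c / c, by rw [th_smul, th_jv R.fix, smul_smul]; simp [hc]⟩
  obtain ⟨y, y1, y2⟩ : ∃ y, B₀ e y = 0 ∧ B w (jv K y) ≠ 0 := by
    by_contra! hc
    exact h1 (R.cl.form.mem_of_perp R.cl.sep fun y hy => ext_le (T := LinearMap.ker (B w))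
      (fun x hx => hc x hx) (R.mem_ext_perp (hy _ (Submodule.mem_span_singleton_self _))))
  have k := key o hN ht he0 (R.cl.eich_fix _ hw (by simp)) y1
  rw [ea R.cl (by simp)] at k
  simp only [map_zero, LinearMap.zero_apply, zero_smul, add_zero, smul_zero, one_mul, map_sub,
    th_jv R.fix, th_smul] at k
  have m1 : jv K e ∈ Submodule.span F {jv K e, w} := Submodule.subset_span (by simp)
  have m2 : w ∈ Submodule.span F {jv K e, w} := Submodule.subset_span (by simp)
  have m3 : th θ w ∈ Submodule.span F {jv K e, w} := by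
    rw [← Submodule.smul_mem_iff _ (show θ (B w (jv K y)) ≠ 0 by simpa using y2)]
    convert Submodule.sub_mem _ (Submodule.smul_mem _ (B w (jv K y)) m2)
      (Submodule.span_mono (by simp) k) using 1
    abel
  have m4 := ext_pre R.fix (S := Submodule.span F {jv K e, w}) fun v hv => by
    obtain ⟨a, b, rfl⟩ := Submodule.mem_span_pair.1 hv
    rw [map_add, th_smul, th_smul, th_jv R.fix]
    exact add_mem (Submodule.smul_mem _ _ m1) (Submodule.smul_mem _ _ m3)
  obtain ⟨v, v1, v2⟩ : ∃ v ∈ pre K (Submodule.span F {jv K e, w}), v ∉ Submodule.span K {e} := by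
    by_contra! hc
    refine h1 (ext_le (S := pre K (Submodule.span F {jv K e, w})) (fun x hx => ?_) (m4.ge m2))
    obtain ⟨a, rfl⟩ := Submodule.mem_span_singleton.1 (hc x hx)
    exact jv_smul a e ▸ Submodule.smul_mem _ _ (Submodule.mem_span_singleton_self _)
  obtain ⟨a, b, hab⟩ := Submodule.mem_span_pair.1 (mem_pre.1 v1)
  have hb : b ≠ 0 := by
    rintro rfl
    exact v2 (mem_span_of_jv (by simpa using Submodule.mem_span_singleton.2 ⟨a, by simpa using hab⟩))
  have e1 : w = b⁻¹ • jv K v + (-a / b) • jv K e := by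
    rw [← hab]; match_scalars <;> field_simp <;> ring
  have p : Pr B₀ e v := ⟨he0, v2, R.perp_iff.1 (by simp [← hab, alt_self R.cl, R.cl.refl hw])⟩
  rw [e1] at ht ⊢
  exact plane o hN p ht

include hr hc in
theorem point (hn : 3 ≤ Fintype.card ι) {w : ι → F} (ht : R.cl.eich w 0 1 ∈ M) :
    th θ w ∈ Submodule.span F {w} := by
  by_cases h1 : ∃ e, e ≠ 0 ∧ B w (jv K e) = 0
  · obtain ⟨e, he0, he⟩ := h1
    exact point1 o hN he0 he ht
  exfalso
  push Not at h1
  obtain ⟨u, -, u0⟩ := exists_ne_zero_of_finrank (W := (⊤ : Submodule K (ι → K))) (by simp; omega)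
  have d1 := finrank_le_inf_ker ⊤ (B₀ u)
  have d2 := finrank_span_one_le (F := K) u
  obtain ⟨u', ⟨-, q1⟩, q2⟩ := exists_mem_notMem (W := ⊤ ⊓ LinearMap.ker (B₀ u))
    (Z := Submodule.span K {u}) (by simp at d1 ⊢; omega)
  have huw := h1 u u0
  have zK : ∀ x, x ∉ Submodule.span K {u} → B w (jv K x) / B w (jv K u) ∉ K := fun x hx hc =>
    h1 (x - (⟨_, hc⟩ : K) • u) (fun e => hx (sub_eq_zero.1 e ▸ Submodule.smul_mem _ _
      (Submodule.mem_span_singleton_self u))) (by
        rw [map_sub, jv_smul, map_sub, map_smul]; simp [huw])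
  obtain ⟨x, hx, hxu, hxK⟩ : ∃ x, B₀ u x = 0 ∧ x ∉ Submodule.span K {u} ∧
      B w (jv K x) / B w (jv K u) * (B w (jv K x) / B w (jv K u)) ∉ K := by
    by_contra! hc
    refine zK u' q2 (mem_of_norms (σ := RingHom.id F) R.fix (fun _ => rfl) (Or.inl rfl) (hc u' q1 q2)
      fun t ht => ?_)
    by_cases t0 : t = 0
    · simp [t0]
    have e : B w (jv K (u + (⟨t, ht⟩ : K) • u')) / B w (jv K u) =
        1 + t * (B w (jv K u') / B w (jv K u)) := by
      rw [map_add, jv_smul, map_add, map_smul, smul_eq_mul]; field_simp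
    rw [← e]
    refine hc _ (by simp [alt_self R.cl₀, show B₀ u u' = 0 from q1]) fun h => q2 ?_
    rwa [Submodule.add_mem_iff_right _ (Submodule.mem_span_singleton_self u),
      Submodule.smul_mem_iff _ (fun e => t0 (congrArg Subtype.val e))] at h
  have p : Pr B₀ u x := ⟨u0, hxu, hx⟩
  have hz := zK x hxu
  set U := Submodule.span F {jv K x, jv K u}
  have m1 : jv K x ∈ U := Submodule.subset_span (by simp)
  have m2 : jv K u ∈ U := Submodule.subset_span (by simp)
  have b1 := R.perp hx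
  have pU : ∀ z, z = x ∨ z = u → ∀ v ∈ U, B (jv K z) v = 0 := fun z hz v hv => by
    obtain ⟨a, b, rfl⟩ := Submodule.mem_span_pair.1 hv
    rcases hz with rfl | rfl <;> simp [alt_self R.cl, b1, R.cl.refl b1]
  have sk : ∀ a b, B a b = -B b a := fun a b => by rw [R.cl.symm]; simp
  obtain ⟨g, hg, l, _, hl, -, p1, p2⟩ := dickson2 (U := U) (R := U ⊓ LinearMap.ker (B w))
    (N := (B w).smulRight (-w)) ht (fun v => by rw [ea R.cl (by simp)]; simp; module)
    (fun v _ => by simp [alt_self R.cl]) (fun v hv => by simp [show B w v = 0 from hv.2])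
    (a := -(B w (jv K u) * B w (jv K u))) (by simp [huw]) hxK (by
      have k : ∀ z, z = x ∨ z = u → ∃ s ∈ M, (∀ r ∈ U ⊓ LinearMap.ker (B w), s r = r) ∧
          ∀ v ∈ U, s v = v ∧ s ((B w).smulRight (-w) v) - (-(B w (jv K z) * B w (jv K z))) • v -
            (B w).smulRight (-w) v ∈ U ⊓ LinearMap.ker (B w) := fun z hz => by
        have f : ∀ v ∈ U, R.cl.eich (jv K z) (jv K 0) (1 : K) v = v := fun v hv =>
          R.cl.eich_fix _ (pU z hz v hv) (by simp)
        refine ⟨_, rat_mem o (u := z) (x := 0) (by simp) 1, fun r hr => f r hr.1,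
          fun v hv => ⟨f v hv, ?_⟩⟩
        have : R.cl.eich (jv K z) (jv K 0) (1 : K) ((B w).smulRight (-w) v) -
            (-(B w (jv K z) * B w (jv K z))) • v - (B w).smulRight (-w) v =
            (B w (jv K z) * B w (jv K z)) • v - (B w v * B w (jv K z)) • jv K z := by
          rw [ea R.cl (by simp)]; simp [sk (jv K z) w]; module
        rw [this]
        exact ⟨Submodule.sub_mem _ (Submodule.smul_mem _ _ hv) (Submodule.smul_mem _ _ (by
          rcases hz with rfl | rfl <;> assumption)), by simp; ring⟩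
      rintro _ (rfl | rfl)
      · exact k u (Or.inr rfl)
      · convert k x (Or.inl rfl) using 8
        field_simp)
  set z := B w (jv K x) / B w (jv K u) with hzd
  have li := LinearIndependent.pair_iff.1 (show LinearIndependent F ![jv K u, jv K x] by
    convert linearIndependent_jv p.li using 1
    ext1 i; fin_cases i <;> rfl)
  have gU : ∀ v ∈ U, g v ∈ U := fun v hv => by
    simpa using U.add_mem (p2 v hv).1.1 (U.smul_mem l hv)
  have k1 : ∀ y ∈ Submodule.span K {x, u}, th θ (g (jv K y)) ∈ Submodule.span F {g (jv K y)} :=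
    fun y hy => by
    obtain ⟨a, b, rfl⟩ := Submodule.mem_span_pair.1 hy
    have k := M.mul_mem (M.mul_mem hg (rat_mem o (u := a • x + b • u) (x := 0) (by simp) 1)) (M.inv_mem hg)
    rw [R.cl.conj_eich (o.1 hg), map_zero, map_zero] at k
    obtain ⟨c, d, hcd⟩ := Submodule.mem_span_pair.1 (gU (jv K (a • x + b • u)) (by
      rw [map_add, jv_smul, jv_smul]; exact add_mem (U.smul_mem _ m1) (U.smul_mem _ m2)))
    rw [← hcd] at k ⊢
    exact plane o hN p k
  have n1 : x ∈ Submodule.span K {x, u} := Submodule.subset_span (by simp)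
  have n2 : u ∈ Submodule.span K {x, u} := Submodule.subset_span (by simp)
  obtain ⟨μ, hμ⟩ := Submodule.mem_span_singleton.1 (k1 u n2)
  obtain ⟨ν, hν⟩ := Submodule.mem_span_singleton.1 (k1 x n1)
  obtain rfl := eig_eq R.fix u0 (y := x) (by rintro rfl; simp at hxu) hμ.symm hν.symm (k1 _ (add_mem n2 n1))
  have g1 := p1 (jv K x - z • jv K u) ⟨sub_mem m1 (U.smul_mem _ m2), by simp [hzd, huw]⟩
  obtain ⟨⟨α, c, g2⟩, g3⟩ := (Submodule.mem_inf.1 (p2 _ m2).1).imp Submodule.mem_span_pair.1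
    LinearMap.mem_ker.1
  have hα : c = -α * z := by
    rw [← g2] at g3
    simp only [map_add, map_smul, smul_eq_mul] at g3
    rw [hzd]; field_simp; linear_combination g3
  have gu : g (jv K u) = α • jv K x + (l - α * z) • jv K u := by
    rw [eq_sub_iff_add_eq, hα] at g2; rw [← g2]; module
  have gx : g (jv K x) = (1 + z * α) • jv K x + (z * l - z * α * z - z) • jv K u := by
    rw [map_sub, map_smul, sub_eq_iff_eq_add, gu] at g1; rw [g1]; module
  rw [gu] at hμ
  rw [gx] at hν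
  simp only [map_add, th_smul, th_jv R.fix, map_sub, map_mul, map_one] at hμ hν
  obtain ⟨e1, e2⟩ := li (μ * (l - α * z) - (θ l - θ α * θ z)) (μ * α - θ α) (by
    linear_combination (norm := module) hμ)
  obtain ⟨e3, e4⟩ := li (μ * (z * l - z * α * z - z) - (θ z * θ l - θ z * θ α * θ z - θ z))
    (μ * (1 + z * α) - (1 + θ z * θ α)) (by linear_combination (norm := module) hν)
  have d0 : θ z - z ≠ 0 := sub_ne_zero.2 fun e => hz ((R.fix z).1 e)
  have e5 : θ (θ z) = z := by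
    have f1 : μ * l = 1 := mul_left_cancel₀ d0 (by
      linear_combination (θ z) * e1 - e3 - z * e4 + z * θ z * e2)
    have f2 : 1 - l = (θ z - z) * α := by
      linear_combination l * e4 - l * θ z * e2 + (θ z * α - 1 - z * α) * f1
    have f3 := congrArg θ f2
    have hA : θ α ≠ 0 := by
      rw [map_ne_zero]; rintro rfl; exact hl (by linear_combination -f2)
    simp only [map_sub, map_mul, map_one] at f3
    exact mul_right_cancel₀ hA (by linear_combination -f3 + e1 - f1 + z * e2)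
  have sp : (⊤ : Submodule K F) ≤ Submodule.span K {1, z} := fun y _ => by
    obtain ⟨a, ha, b, hb, rfl⟩ := quad_span hr hc hz (s := z + θ z) (p := -(z * θ z))
      ((R.fix _).1 (by rw [map_add, e5, add_comm])) ((R.fix _).1 (by rw [map_neg, map_mul, e5, mul_comm]))
      (by ring) y
    exact Submodule.mem_span_pair.2 ⟨⟨a, ha⟩, ⟨b, hb⟩, by simp [Subfield.smul_def]⟩
  have d3 := (Submodule.finrank_mono sp).trans (finrank_span_pair_le _ _)
  obtain ⟨e, he, he0⟩ := (Submodule.ne_bot_iff _).1 (LinearMap.ker_ne_bot_of_finrank_lt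
    (f := resJ K (B w)) (by simp at d3 ⊢; omega))
  exact h1 e he0 he

omit o hN in
include hr hc in
theorem max_sub4 (R : Rat (σ := RingHom.id F) (σ₀ := RingHom.id K) θ (-1) 0 0 B Q (-1) 0 0 B₀ Q₀ 1)
    (hn : 3 ≤ Fintype.card ι) : IsMaximalIn R.cl.Om (ratG θ ι ⊓ R.cl.Om) := by
  have hK : 1 < Nat.card K := Finite.one_lt_card
  obtain ⟨e, -, he0⟩ := exists_ne_zero_of_finrank (W := (⊤ : Submodule K (ι → K))) (by simp; omega)
  have d1 := finrank_le_inf_ker ⊤ (B₀ e)
  have d2 := finrank_span_one_le (F := K) e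
  obtain ⟨f, ⟨-, q1⟩, q2⟩ := exists_mem_notMem (W := ⊤ ⊓ LinearMap.ker (B₀ e))
    (Z := Submodule.span K {e}) (by simp at d1 ⊢; omega)
  refine isMaximalIn_inf (fun hle => ?_) fun M h1 h2 g hg hgS => ?_
  · obtain ⟨l, hl⟩ : ∃ l : F, l ∉ K := by
      by_contra hc'
      push Not at hc'
      rw [(eq_top_iff.mpr fun x _ => hc' x : K = ⊤), card_top_subfield] at hc hK
      exact hr.ne_one (Nat.pow_right_injective hK (hc.trans (pow_one _).symm))
    obtain ⟨x, hx⟩ := R.cl₀.form.exists_right_eq_one R.cl₀.sep he0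
    obtain ⟨μ, -, hμ⟩ := hle (R.cl.eich_mem_om (alt_Q R.cl (jv K e)) (w := 0) (c := l) (by simp)
      (alt_Q R.cl _).symm)
    have k1 := hμ (jv K e)
    rw [th_jv R.fix, R.cl.eich_fix l (alt_self R.cl _) (by simp), th_jv R.fix] at k1
    obtain rfl : 1 = μ := smul_left_injective F (jv_ne he0) (by simpa using k1)
    have k2 := hμ (jv K x)
    rw [th_jv R.fix, ea R.cl (by simp), hB1 R e x, hx] at k2
    simp only [map_zero, LinearMap.zero_apply, zero_smul, add_zero, smul_zero, map_sub, th_smul,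
      th_jv R.fix, one_smul, sub_right_inj, OneMemClass.coe_one, mul_one] at k2
    exact hl ((R.fix l).mp (smul_left_injective F (jv_ne he0) k2))
  have o : R.Ov M := ⟨h2.trans R.cl.om_le_isom, fun u x c p q s =>
    h1 ⟨R.E_mem_rat p q c, R.E_mem_om p q s⟩⟩
  by_contra hM
  have hN : ∀ e f (p : Pr B₀ e f) x y, (x, y) ∈ Nn R M p → x ∈ K ∧ y ∈ K := fun e f p =>
    (dich o hr hc p).resolve_right fun h => hM (om_le_of_all o hn p h)
  have k1 : ∀ x, th θ (g (jv K x)) ∈ Submodule.span F {g (jv K x)} := fun x => by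
    have k := M.mul_mem (M.mul_mem hg (rat_mem o (u := x) (x := 0) (by simp) 1)) (M.inv_mem hg)
    rw [R.cl.conj_eich (o.1 hg), map_zero, map_zero] at k
    exact point o hr hc hN hn k
  obtain ⟨μ, hμ⟩ := Submodule.mem_span_singleton.mp (k1 e)
  refine hgS (mem_ratG R.fix (μ := μ) ?_ fun x => ?_)
  · rintro rfl
    exact th_ne (v := g (jv K e)) (by simpa using jv_ne he0) (by simpa using hμ.symm)
  by_cases h0 : x = 0
  · simp [h0]
  obtain ⟨ν, hν⟩ := Submodule.mem_span_singleton.mp (k1 x)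
  rw [eig_eq R.fix he0 h0 hμ.symm hν.symm (k1 _)]
  exact hν.symm

end SubSp

theorem max_sub_alt4 {F : Type*} [Field F] {K : Subfield F} {θ : F ≃+* F} {ι : Type} [Fintype ι]
    [DecidableEq ι] [Finite F] (hθ : ∀ a, θ a = a ↔ a ∈ K) (hn : 3 ≤ Fintype.card ι) {r : ℕ} (hr : r.Prime)
    (hc : Nat.card K ^ r = Nat.card F) {Q : (ι → F) → F} {ζ : F} {B : (ι → F) →ₗ[F] (ι → F) →ₗ[F] F}
    (h : Cl (σ := RingHom.id F) (-1) 0 0 B Q) (hζ : ζ ≠ 0)
    (hP : ∀ x y, ζ * B (jv K x) (jv K y) ∈ K) : IsMaximalIn h.Om (ratG θ ι ⊓ h.Om) := by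
  have h0 := clAlt (B := descB (σ₀ := RingHom.id K) B ζ (fun _ => rfl) hP)
    (fun x => Subtype.ext (by simp [descB_apply, h.form.diag])) (descB_sep h.sep hζ _ hP)
  have h1 := clAlt (B := ζ • B) (fun x => by simp [alt_self h]) fun x hx => h.sep x fun y => by
    simpa [hζ] using hx y
  have e : h.Om = h1.Om := Subgroup.ext fun g => by simp [mem_om_alt, hζ]
  rw [e]
  exact SubSp.max_sub4 hr hc ⟨h1, h0, hθ, fun _ => rfl, one_ne_zero, fun _ _ => by simp [descB_apply],
    by simp, fun x c _ => rfl⟩ hn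

end Cfsg.Agent.H10
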