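import Mathlib
import Cfsg.Agent.H10.Ag6
import Cfsg.Agent.H10.Ag3

/-! The geometric maximal subgroups of the symplectic groups in small dimension. -/

set_option autoImplicit false
set_option maxHeartbeats 400000

namespace Cfsg.Agent.H10

open Module H11 Cfsg.Geo

section quad

variable {F : Type*} [Field F] {V : Type*} [AddCommGroup V] [Module F V] [FiniteDimensional F V]
  [Finite F] {B : V →ₗ[F] V →ₗ[F] F} {Q : V → F}

theorem max_simQ_sp4 (h : Cl (σ := RingHom.id F) 1 2 (AddMonoidHom.id F) B Q) (h2 : (2 : F) = 0)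
    (s : Cl (σ := RingHom.id F) (-1) 0 0 B (fun _ => 0)) (hn : 4 ≤ finrank F V) :
    IsMaximalIn s.Om (simQ F Q ⊓ s.Om) := by
  have hQ : IsQuad B Q := h.form
  have m1 : (-1 : F) = 1 := by linear_combination -h2
  have ee : ∀ {Q' : V → F} (h' : Cl (σ := RingHom.id F) 1 2 (AddMonoidHom.id F) B Q') (u w : V)
      (c : F), Q' u = 0 → B u w = 0 → s.eich u w c = h'.eich u w c := fun h' u w c a b => by
    ext x; rw [s.eich_apply rfl b, h'.eich_apply a b, m1]
  have hI : Isom B Q ≤ simQ F Q ⊓ s.Om := fun g hg =>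
    ⟨⟨1, one_ne_zero, fun x => by rw [hg.2, one_mul]⟩, (mem_om_alt s).mpr hg.1⟩
  refine isMaximalIn_inf (fun hc => ?_) fun M hHM hM g hg hgS => ?_
  · obtain ⟨e, -, he0, he⟩ := h.exists_sing3 (W := ⊤) (by simp; omega)
    obtain ⟨f, hf, hef⟩ := h.form.exists_partner h.sep he he0
    obtain ⟨c, -, hc'⟩ := hc (s.eich_mem_om (u := e) (w := 0) (c := 1) rfl (by simp) rfl)
    have := hc' f
    rw [s.eich_apply rfl (by simp), hf] at this
    simp [hef, hQ.sub', hf, he, h.flip_one hef] at this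
  have hMI := hM.trans s.om_le_isom
  have hgI := hMI hg
  have hM1 : h.Om ≤ M := h.om_le_isom.trans (hI.trans hHM)
  have hB : pull B (g.symm : V →ₗ[F] V) = B := by
    ext x y; simpa [LinearEquiv.coe_inv] using ((Isom B _).inv_mem hgI).1 x y
  have h' : Cl (σ := RingHom.id F) 1 2 (AddMonoidHom.id F) B (fun x => Q (g.symm x)) :=
    hB ▸ h.pullback g.symm
  obtain ⟨y, hy⟩ : ∃ y, Q y ≠ Q (g.symm y) := by
    by_contra hc; push Not at hc
    exact hgS ⟨1, one_ne_zero, fun x => by rw [hc]; simp⟩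
  have hQ' : IsQuad B fun x => Q (g.symm x) := h'.form
  have t1 : ∀ w, Q w = 1 → s.eich w 0 1 ∈ M := fun w hw => hHM (hI ⟨(s.eich_mem_isom rfl (by simp) rfl).1,
    fun x => by rw [s.eich_apply rfl (by simp)]; simp [hQ.sub', hQ.smul', hw, hQ.comm x w]⟩)
  have sq := FiniteField.isSquare_of_char_two (ringChar_eq_two_of h2)
  let D : V → F := fun x => Q x - Q (g.symm x)
  have D1 : ∀ x y, D (x + y) = D x + D y := fun x y => by simp only [D]; rw [hQ.add', hQ'.add']; ring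
  have D2 : ∀ (c : F) x, D (c • x) = c * c * D x := fun c x => by
    simp only [D]; rw [hQ.smul', hQ'.smul']; ring
  have Dy : D y ≠ 0 := sub_ne_zero.2 hy
  have D3 : ∀ d, ∃ c : F, D (c • y) = d := fun d => by
    obtain ⟨c, hc⟩ := sq (d / D y)
    exact ⟨c, by rw [D2, ← hc]; field_simp⟩
  let Z : Submodule F V :=
    { carrier := {x | D x = 0}
      zero_mem' := by simpa using D2 0 0
      add_mem' := fun (a : D _ = 0) (b : D _ = 0) => show D _ = 0 by rw [D1, a, b, add_zero]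
      smul_mem' := fun c x (a : D _ = 0) => show D _ = 0 by rw [D2, a, mul_zero] }
  obtain ⟨a, a1, a2⟩ := s.form.exists_perp_not s.sep (W := Z) Dy
  have hP := s.form.nondegOn_span_pair (e := a) (f := y) rfl rfl (s.refl_ne (by simp [a2]))
  have hU := s.form.nondegOn_perp s.sep hP
  have d5 := s.form.finrank_perp s.sep (Submodule.span F {a, y})
  have d6 := finrank_span_pair_le (F := F) a y
  refine om_le_of_tv s fun w c => ?_
  obtain ⟨t, rfl⟩ := sq c
  rw [show s.eich w 0 (t * t) = s.eich (t • w) 0 1 by rw [s.eich_smul_left rfl (by simp)]; simp]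
  generalize t • w = w
  by_cases hw : w = 0
  · rw [hw, s.eich_zero_left]; exact M.one_mem
  obtain ⟨c, hc⟩ := D3 (Q w - 1)
  obtain ⟨z, z1, z2⟩ := hQ'.exists_eq_on hU (by omega) (1 - Q (g.symm (c • y)))
  rw [mem_perp_span] at z1
  have z3 : D z = 0 := by
    obtain ⟨e, he⟩ := D3 (D z)
    have := a1 (z + e • y) (show D _ = 0 by rw [D1, he]; linear_combination D z * h2)
    simp [s.refl (z1 a (by simp)), a2] at this
    rw [← he, this, D2]; simp
  have z4 : Q (g.symm (c • y + z)) = 1 := by rw [hQ'.add', z2]; simp [z1 y]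
  have z5 : Q (c • y + z) = Q w := by
    have := D1 (c • y) z
    rw [hc, z3] at this
    simp only [D] at this
    linear_combination this + z4
  obtain ⟨r, hr, hre⟩ := h.form.witt_one h.sep (v := c • y + z) (fun e => by simp [e, h.Q_zero] at z4)
    hw z5.symm
  have hm := M.mul_mem (hHM (hI hr)) hg
  have := M.mul_mem (M.mul_mem hm (t1 _ z4)) (M.inv_mem hm)
  rw [s.conj_eich (hMI hm), map_zero] at this
  simpa [hre] using this

end quad

namespace Ag

open H26 H26.MX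

section fld

variable {F : Type*} [Field F] {V : Type*} [AddCommGroup V] [Module F V]
  {E : Type*} [Field E] [Algebra F E] [Module E V] [IsScalarTower F E V]
  {B : V →ₗ[F] V →ₗ[F] F} {M : Subgroup (V ≃ₗ[F] V)} {b : V →ₗ[E] V →ₗ[E] E} {Q : V → F} {q : V → E}
  [Finite E] [Module.Finite F E] [Module.Finite E V]

local notation "𝔱" => Algebra.trace F E

variable (o : OvS B Q b q M)
include o

theorem om_le_of_not4 (hr : (finrank F E).Prime) (hm : 2 ≤ finrank E V) (hn : 5 ≤ finrank F V ∨ ∃ c : F, c ≠ 0 ∧ c ≠ 1) {g : V ≃ₗ[F] V} (hg : g ∈ M)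
    (hg' : ¬ NrmE E g) : o.cl.Om ≤ M := by
  have : Module.Finite F V := Module.Finite.trans E V
  have : Finite V := Module.finite_of_finite E
  obtain ⟨v, k, hk⟩ : ∃ v, ∃ k : E, g (k • v) ∉ Ln F E (g v) := by
    by_contra! h3; exact hg' (nrmE_of hm h3)
  have hv : v ≠ 0 := by rintro rfl; simp at hk
  let S : Set (Submodule F V) := {W | ∃ y ∈ M, ∃ v, v ≠ 0 ∧ W = (Ln F E v).map y.toLinearMap}
  obtain ⟨U, U', hP⟩ := exists_maxPr (M := M) (S := S) (W := Ln F E (g v)) (by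
    rintro g hg _ ⟨y, hy, β, hβ, rfl⟩
    exact ⟨g * y, mul_mem hg hy, β, hβ, map_map' _ _ _⟩)
    ⟨1, one_mem _, _, app_ne_zero g hv, (Submodule.map_id _).symm⟩ ⟨g, hg, v, hv, rfl⟩
    (fun h => hk (h ▸ ⟨_, smul_mem_Ln k v, rfl⟩)) ((Submodule.ne_bot_iff _).2
      ⟨g v, ⟨self_mem_Ln _, _, self_mem_Ln _, rfl⟩, app_ne_zero g hv⟩)
  obtain ⟨y, hy, u, hu, rfl⟩ := hP.left
  obtain ⟨y', hy', w, hw, rfl⟩ := hP.right
  have h4 := hP.map (inv_mem hy)
  rw [map_map', map_map', inv_mul_cancel, show (Ln F E u).map (1 : V ≃ₗ[F] _).toLinearMap = _ from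
    Submodule.map_id _] at h4
  have h5 := mul_mem (inv_mem hy) hy'
  generalize y⁻¹ * y' = s at h4 h5
  obtain ⟨ν, ⟨_, ⟨x, hx, rfl⟩, h6⟩, h7⟩ := o.adj hr hu ((finrank_map _ s).trans (finrank_Ln hw)) h4
  obtain ⟨m, h8⟩ := exists_trace_eq (F := F) (E := E)
    (dc ν s ∘ₗ (LinearMap.toSpanSingleton E V w).restrictScalars F)
  replace h8 : ∀ j, 𝔱 (m * j) = ν (s (j • w)) := fun j => by rw [mul_comm]; exact h8 j
  obtain ⟨i, rfl⟩ := mem_Ln.1 hx
  replace h6 : 𝔱 (m * i) = 1 := (h8 i).trans h6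
  have hm0 : m ≠ 0 := by rintro rfl; simp at h6
  have h9 : ∀ k, 𝔱 (m * k) = 0 → ∀ j : E, o.cl.eich (k • w) (j • w) (-𝔱 (m * j)) ∈ M := fun k hk => by
    obtain ⟨t, ht, h9⟩ := h7 _ ⟨_, smul_mem_Ln k w, rfl⟩ (h8 k ▸ hk)
    exact o.eich_mem hm0 (mul_mem (mul_mem (inv_mem h5) ht) h5) (fun j => by
      rw [mul_app, mul_app, h9 (s _) ⟨_, smul_mem_Ln j w, rfl⟩, h8]; exact inv_eq_of (by simp))
  have h0 : ∀ i j : E, B (i • w) (j • w) = 0 := by simp [← o.tr, alt_self o.cl']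
  have h10 : ∀ {z y : V} {c c' : F}, B z y = 0 → o.cl.eich z y c ∈ M → o.cl.eich z y c' ∈ M →
      o.cl.eich z 0 (c - c') ∈ M := fun h h1 h2 => by
    simpa [o.cl.eich_inv (alt_Q o.cl _) h, o.cl.eich_mul (alt_Q o.cl _) h (w' := -_) (by simpa using h),
      alt_self o.cl, sub_eq_add_neg] using mul_mem h1 (inv_mem h2)
  obtain ⟨l, h11, hl⟩ := (Submodule.ne_bot_iff _).1 (LinearMap.ker_ne_bot_of_finrank_lt
    (f := Algebra.traceForm F E m) (by simpa using hr.one_lt))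
  replace h11 : 𝔱 (m * l) = 0 := h11
  by_cases hq : ∀ c : F, c = 0 ∨ c = 1
  swap
  · push Not at hq
    obtain ⟨c, hc0, hc1⟩ := hq
    refine o.om_le (smul_ne_zero hl hw) fun d => ?_
    have h12 := h9 (c • l) (by simp [h11]) ((d / (c - c * c)) • i)
    rw [smul_assoc, o.cl.eich_smul_left (alt_Q o.cl _) (h0 _ _), ← smul_assoc] at h12
    convert h10 (h0 _ _) h12 (h9 l h11 _) using 2
    have : 1 - c ≠ 0 := sub_ne_zero.2 hc1.symm
    simp [h6]; field_simp; ring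
  by_cases hr2 : finrank F E = 2
  · exact o.om_le_four hr2 hq (by
      replace hn := hn.resolve_right fun ⟨c, h0, h1⟩ => (hq c).elim h0 h1
      rw [← finrank_mul_finrank F E V, hr2] at hn; omega) hg hk
  obtain ⟨n, h12, hn0⟩ := (Submodule.ne_bot_iff _).1 (LinearMap.ker_ne_bot_of_finrank_lt
    (f := (Algebra.traceForm F E l).prod (Algebra.traceForm F E i)) (by have := hr.two_le; simp; omega))
  simp only [LinearMap.mem_ker, LinearMap.prod_apply, Function.prod, Prod.mk_eq_zero,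
    Algebra.traceForm_apply] at h12
  obtain ⟨t, ht, h13⟩ := o.cl'.form.witt_one o.cl'.sep hw (smul_ne_zero (div_ne_zero hm0 hn0) hw)
    (by simp [alt_Q o.cl'])
  have h14 := mul_mem (mul_mem (o.ov t ht) (h9 (l * n / m) (by
    rw [mul_div_cancel₀ _ hm0]; exact h12.1) (i * n / m))) (inv_mem (o.ov t ht))
  rw [o.cl.conj_eich (o.le (o.ov t ht)), rs_apply, rs_apply, map_smul, map_smul, h13, smul_smul, smul_smul,
    mul_div_cancel₀ _ hm0, h12.2, show l * n / m * (m / n) = l by field_simp,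
    show i * n / m * (m / n) = i by field_simp] at h14
  refine o.om_le (smul_ne_zero hl hw) fun d => ?_
  rcases hq d with rfl | rfl
  · rw [o.cl.eich_zero]; exact one_mem _
  simpa [h6] using h10 (h0 _ _) h14 (h9 l h11 i)

omit o in
theorem sp_fld_mat4 {m : ℕ} (φ : E →ₐ[F] Matrix (Fin m ⊕ Fin m) (Fin m ⊕ Fin m) F) (hm : 2 ≤ m)
    (hq : ∃ c : F, c ≠ 0 ∧ c ≠ 1)
    (hr : (finrank F E).Prime) (ha : Geo.IsSelfAdjointFor (sympForm m F) φ.range)
    (hb : ∀ k ∈ φ.range, ∀ v, sympForm m F (k.mulVec v) v = 0) :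
    Geo.IsMaximalIn (spGL m F) (Geo.subalgebraNormalizer φ.range ⊓ spGL m F) := by
  have h := (clSp m F).pullback (EV.eq φ)
  have hn : 4 ≤ finrank F (EV φ) := by rw [(EV.eq φ).finrank_eq]; simp; omega
  simp only [Geo.IsSelfAdjointFor, sympForm_eq_spBilin] at ha hb
  set B : EV φ →ₗ[F] EV φ →ₗ[F] F := H11.pull (spBilin (Fin m) F) (EV.eq φ).toLinearMap
  obtain ⟨b, h1⟩ := exists_lift (σ := RingHom.id E) (B := B) fun k x y => ha _ ⟨k, rfl⟩ _ _
  have h2 : ∀ x, b x x = 0 := fun x => trace_ext (F := F) fun k => by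
    simpa [← h1] using (show B (k • x) x = 0 from hb _ ⟨k, rfl⟩ _)
  have hE := clAlt h2 (lift_sep h1 h.sep)
  have : Nontrivial (EV φ) := Module.nontrivial_of_finrank_pos (R := F) (by omega)
  obtain ⟨v, hv⟩ := exists_ne (0 : EV φ)
  obtain ⟨k, -, hk⟩ := exists_norm_one (F := F) (E := E) hr.two_le
  refine fld_max_of (fun g => (mem_spGL_iff g).trans (mem_om_gE φ _ g))
    (sp_not_nrmE h (v := v) (k := k) (fun h3 => hk ?_) fun j => by simp [← h1, h2])
    fun M hM hH g hg hg' => om_le_of_not4 ⟨h, hE, h1, hM.trans h.om_le_isom, fun s hs =>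
      hH _ ((mem_om_alt h).2 fun x y => by simp [← h1, hs.1]) (nrmE_rs s)⟩ hr ?_ (Or.inr hq) hg hg'
  · obtain ⟨c, hc⟩ := Submodule.mem_span_singleton.1 h3
    exact ⟨c, smul_left_injective E hv ((algebraMap_smul E c v).trans hc)⟩
  obtain ⟨f, -, hf⟩ := hE.form.exists_partner hE.sep rfl hv
  simpa using (hE.form.linearIndependent_pair rfl (hf ▸ one_ne_zero)).fintype_card_le_finrank

end fld

theorem sp_ts {F : Type*} [Field F] [Fintype F] (m : ℕ) (hm : 2 ≤ m) (W : Submodule F (Fin m ⊕ Fin m → F)) (hW0 : W ≠ ⊥) (hW : Cfsg.Geo.IsTotallySingularFor (Cfsg.sympForm m F) W) : Cfsg.Geo.IsMaximalIn (Cfsg.spGL m F) (Cfsg.Geo.subspaceStabilizer W ⊓ Cfsg.spGL m F) := by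
  refine H10.isMaximalIn_gl H10.mem_spGL_iff (fun g _ => H10.mem_subspaceStabilizer_iff W g) ?_
  exact (H10.clSp m F).max_totSing (by simp; omega) ⟨fun _ _ => rfl, fun x hx y hy => by
    rw [H10.spBilin_eq_sympForm]; exact hW x hx y hy⟩ hW0 (Or.inl H10.nq_zero)

theorem sp_nd {F : Type*} [Field F] [Fintype F] (m : ℕ) (hm : 5 ≤ m) (W : Submodule F (Fin m ⊕ Fin m → F)) (hW0 : W ≠ ⊥) (hW : Cfsg.Geo.IsNondegenerateOn (Cfsg.sympForm m F) W) (hdim : Module.finrank F W < m) : Cfsg.Geo.IsMaximalIn (Cfsg.spGL m F) (Cfsg.Geo.subspaceStabilizer W ⊓ Cfsg.spGL m F) := by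
  refine H10.isMaximalIn_gl H10.mem_spGL_iff (fun g _ => H10.mem_subspaceStabilizer_iff W g) ?_
  have h := H10.clSp m F
  have hd := h.form.finrank_perp h.sep W
  simp only [Module.finrank_fintype_fun_eq_card, Fintype.card_sum, Fintype.card_fin] at hd
  exact h.max_nondeg (H10.nondegOn_of (Or.inl H10.sympForm_eq_spBilin) hW) hW0
    (h.smallOk_of_nq H10.nq_zero (Submodule.one_le_finrank_iff.mpr hW0)) (by omega)
    fun g _ => H10.not_map_le_of_lt (by omega) g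

theorem sp_dec {F : Type*} [Field F] [Fintype F] (m : ℕ)  {t : ℕ} (k : ℕ) (D : Fin t → Submodule F (Fin m ⊕ Fin m → F)) (hD : Cfsg.Geo.IsNondegenerateMDecomposition (Cfsg.sympForm m F) k D) (hex : ¬ (k = 2 ∧ Fintype.card F = 2)) : Cfsg.Geo.IsMaximalIn (Cfsg.spGL m F) (Cfsg.Geo.decompositionStabilizer D ⊓ Cfsg.spGL m F) := by
  refine H10.isMaximalIn_gl H10.mem_spGL_iff (fun g _ => H10.mem_decompositionStabilizer_iff D g) ?_
  have h := H10.clSp m F
  have nd : ∀ i, H11.NondegOn (H10.spBilin (Fin m) F) (D i) := fun i =>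
    H10.nondegOn_of (Or.inl H10.sympForm_eq_spBilin) (hD.nondegenerate i)
  have alt : ∀ i, LinearMap.IsAlt ((H10.spBilin (Fin m) F).restrict (D i)) := fun i x =>
    H10.spBilin_isAlt (x : Fin m ⊕ Fin m → F)
  have nd' : ∀ i, ((H10.spBilin (Fin m) F).restrict (D i)).Nondegenerate := fun i => by
    refine (alt i).isRefl.nondegenerate_iff_separatingLeft.mpr fun x hx => Subtype.ext ?_
    exact nd i x x.2 fun y hy => hx ⟨y, hy⟩
  obtain ⟨p, d⟩ := h.exists_dec nd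
    (fun i hi => by
      have h1 := hD.decomp.finrank_eq i
      have h2 := hD.decomp.pos
      rw [hi] at h1; simp at h1; omega)
    (fun i j hij x hx y hy => by rw [H10.spBilin_eq_sympForm]; exact hD.orthogonal i j hij x hx y hy)
    hD.decomp.iSup_eq_top
    (fun i j => by
      obtain ⟨g, hg⟩ := H10.alt_isometric (nd' i) (alt i) (nd' j) (alt j)
        (by rw [hD.decomp.finrank_eq, hD.decomp.finrank_eq])
      exact ⟨g, fun x y => hg x y, fun _ => rfl⟩)
  refine H10.max_dec_alt h d hD.decomp.two_le ?_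
  by_cases hk : 3 ≤ k
  · exact Or.inl fun i => by rw [hD.decomp.finrank_eq]; exact hk
  · right
    have h0 := hD.decomp.two_le
    have h1 := H10.even_finrank_of_alt (nd' ⟨0, by omega⟩) (alt _)
    rw [hD.decomp.finrank_eq] at h1
    have h2 := hD.decomp.pos
    have hk2 : k = 2 := by obtain ⟨r, hr⟩ := h1; omega
    by_contra hc
    push Not at hc
    apply hex
    refine ⟨hk2, ?_⟩
    classical
    have : (Finset.univ : Finset F) = {0, 1} := by
      ext a; by_cases ha : a = 0 <;> simp [ha]; exact hc a ha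
    rw [← Finset.card_univ, this, Finset.card_pair zero_ne_one]

theorem sp_pair {F : Type*} [Field F] [Fintype F] (m : ℕ) (hm : 5 ≤ m) (hodd : Odd (Fintype.card F)) (D : Fin 2 → Submodule F (Fin m ⊕ Fin m → F)) (hD : Cfsg.Geo.IsMDecomposition m D) (hts : ∀ i, Cfsg.Geo.IsTotallySingularFor (Cfsg.sympForm m F) (D i)) : Cfsg.Geo.IsMaximalIn (Cfsg.spGL m F) (Cfsg.Geo.decompositionStabilizer D ⊓ Cfsg.spGL m F) := by
  refine H10.isMaximalIn_gl H10.mem_spGL_iff
    (fun g _ => H10.mem_decompositionStabilizer_iff D g) ?_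
  have h := H10.clSp m F
  have h1 : ∀ i, H11.TotSing (H10.spBilin (Fin m) F) (fun _ => 0) (D i) := fun i =>
    ⟨fun _ _ => rfl, fun x hx y hy => by rw [H10.spBilin_eq_sympForm]; exact hts i x hx y hy⟩
  have p : H10.SPair (H10.spBilin (Fin m) F) (fun _ => 0) (D 0) (D 1) :=
    ⟨h1 0, h1 1, H10.isCompl_of_two hD.indep hD.iSup_eq_top, by rw [hD.finrank_eq, hD.finrank_eq]⟩
  obtain ⟨s, hs, hs'⟩ := h.exists_isom_swap p
  exact h.max_pair p (by rw [hD.finrank_eq]; omega) (fun _ => H11.two_ne_zero_of_odd_card hodd)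
    ⟨s, (H10.mem_om_alt h).mpr hs.1, hs'⟩

theorem sp_sub {F : Type*} [Field F] [Fintype F] (m : ℕ) (hm : 2 ≤ m) (F₀ : Subfield F) (r : ℕ) (hr : r.Prime) (hcard : Fintype.card F = Nat.card F₀ ^ r) (P : Matrix.GeneralLinearGroup (Fin m ⊕ Fin m) F) (ζ : F) (hζ : ζ ≠ 0) (hP : Cfsg.Geo.IsFormRationalStructure (Cfsg.sympForm m F) F₀ ζ P) : Cfsg.Geo.IsMaximalIn (Cfsg.spGL m F) (Cfsg.Geo.subfieldSubgroup F₀ P ⊓ Cfsg.spGL m F) := by
  obtain ⟨θ, hθ, -⟩ := H10.exists_frob F₀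
  exact H10.isMaximalIn_subfield hθ P
    (fun g => (H10.mem_spGL_iff g).trans ((H10.clSp m F).mem_om_pull (H11.glEquiv _ F P) _))
    (H10.max_sub_alt4 hθ (by simp; omega) hr (by rw [← hcard, Nat.card_eq_fintype_card]) _ hζ
      fun x y => by
        have := hP _ _ (fun i => (x i).2) fun i => (y i).2
        rwa [H10.sympForm_eq_spBilin] at this)

theorem sp_o {F : Type*} [Field F] [Fintype F] (m : ℕ) (hm : 2 ≤ m) (heven : ¬ Odd (Fintype.card F)) (Q : (Fin m ⊕ Fin m → F) → F) (hQ : Cfsg.Geo.IsNondegenerateQuadraticForm Q) (hpol : ∀ u v, QuadraticMap.polar Q u v = Cfsg.sympForm m F u v) : Cfsg.Geo.IsMaximalIn (Cfsg.spGL m F) (Cfsg.Geo.quadSimilarityGroup Q ⊓ Cfsg.spGL m F) := by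
  have hq : H11.IsQuad (H10.spBilin (Fin m) F) Q := H11.IsQuad.of_add_smul
    (fun x y => by rw [← H10.sympForm_eq_spBilin, ← hpol]; simp [QuadraticMap.polar])
    fun c x => by rw [hQ.smul, sq]
  have h := H10.clQuad hq H10.spBilin_nondegenerate.1
  exact H10.isMaximalIn_gl H10.mem_spGL_iff
    (fun g _ => H10.mem_quadSimilarityGroup_iff Q g)
    (H10.max_simQ_sp4 h (H10.two_eq_zero_iff_even_card.mpr (by rw [Nat.odd_iff] at heven; omega))
      (H10.clSp m F) (by simp; omega))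

theorem sp_fld {F : Type*} [Field F] [Fintype F] (m : ℕ) (hm : 3 ≤ m) (r : ℕ) (hr : r.Prime) (K : Subalgebra F (Matrix (Fin m ⊕ Fin m) (Fin m ⊕ Fin m) F)) (hK : Cfsg.Geo.IsFieldSubalgebra r K) (hsa : Cfsg.Geo.IsSelfAdjointFor (Cfsg.sympForm m F) K) (halt : ∀ k ∈ K, ∀ v : (Fin m ⊕ Fin m → F), Cfsg.sympForm m F (Matrix.mulVec k v) v = 0) : Cfsg.Geo.IsMaximalIn (Cfsg.spGL m F) (Cfsg.Geo.subalgebraNormalizer K ⊓ Cfsg.spGL m F) := by
  haveI : Nonempty (Fin m) := ⟨⟨0, by omega⟩⟩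
  letI := (H26.isField_of_isFieldSubalgebra hK).toField
  have := H26.MX.sp_fld_mat K.val (by omega) (hK.finrank_eq ▸ hr)
  rw [Subalgebra.range_val] at this
  exact this hsa halt

theorem sp_fld4 {F : Type*} [Field F] [Fintype F] (m : ℕ) (hm : 2 ≤ m) (hq : ∃ c : F, c ≠ 0 ∧ c ≠ 1) (r : ℕ) (hr : r.Prime) (K : Subalgebra F (Matrix (Fin m ⊕ Fin m) (Fin m ⊕ Fin m) F)) (hK : Cfsg.Geo.IsFieldSubalgebra r K) (hsa : Cfsg.Geo.IsSelfAdjointFor (Cfsg.sympForm m F) K) (halt : ∀ k ∈ K, ∀ v : (Fin m ⊕ Fin m → F), Cfsg.sympForm m F (Matrix.mulVec k v) v = 0) : Cfsg.Geo.IsMaximalIn (Cfsg.spGL m F) (Cfsg.Geo.subalgebraNormalizer K ⊓ Cfsg.spGL m F) := by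
  haveI : Nonempty (Fin m) := ⟨⟨0, by omega⟩⟩
  letI := (H26.isField_of_isFieldSubalgebra hK).toField
  have := sp_fld_mat4 K.val hm hq (hK.finrank_eq ▸ hr)
  rw [Subalgebra.range_val] at this
  exact this hsa halt

theorem sp_gu {F : Type*} [Field F] [Fintype F] (m : ℕ) (hm : 5 ≤ m) (hodd : Odd (Fintype.card F)) (K : Subalgebra F (Matrix (Fin m ⊕ Fin m) (Fin m ⊕ Fin m) F)) (hK : Cfsg.Geo.IsFieldSubalgebra 2 K) (hac : Cfsg.Geo.IsAdjointClosedFor (Cfsg.sympForm m F) K) (hnsa : ¬ Cfsg.Geo.IsSelfAdjointFor (Cfsg.sympForm m F) K) : Cfsg.Geo.IsMaximalIn (Cfsg.spGL m F) (Cfsg.Geo.subalgebraNormalizer K ⊓ Cfsg.spGL m F) := by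
  haveI : Nonempty (Fin m) := ⟨⟨0, by omega⟩⟩
  letI := (H26.isField_of_isFieldSubalgebra hK).toField
  have := su_sp_mat5 K.val hm hK.finrank_eq (H11.two_ne_zero_of_odd_card hodd)
  rw [Subalgebra.range_val] at this
  exact this hac hnsa

end Ag

end Cfsg.Agent.H10
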