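import Mathlib
import Cfsg.Agent.H10.Ag7

/-! The unitary subgroup of the symplectic group in dimension six. -/

set_option autoImplicit false
set_option maxHeartbeats 400000

namespace Cfsg.Agent.H10

open Module H11

section rc
variable {F : Type*} [Field F] {V : Type*} [AddCommGroup V] [Module F V]
  {B : V →ₗ[F] V →ₗ[F] F} {Q : V → F} (h : Cl (σ := RingHom.id F) (-1) 0 0 B Q)
  {M : Subgroup (V ≃ₗ[F] V)}

/-- transvection groups acting in the same way on the base coset -/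
def RC (M : Subgroup (V ≃ₗ[F] V)) (x y : V) : Prop := ∀ e, (h.eich x 0 e)⁻¹ * h.eich y 0 e ∈ M

theorem etv_add (y : V) (s t : F) : h.eich y 0 (s + t) = h.eich y 0 s * h.eich y 0 t := by
  rw [h.eich_mul (alt_Q h y) (map_zero _) (map_zero _)]; simp

variable {h} {x y y' : V}

theorem RC.map (hM : M ≤ Isom B Q) {k : V ≃ₗ[F] V} (hk : k ∈ M) (a : RC h M x (k x)) (b : RC h M x y) :
    RC h M x (k y) := fun e => by
  have := M.mul_mem (a e) (M.mul_mem (M.mul_mem hk (b e)) (M.inv_mem hk))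
  rw [← conj_mul, ← conj_inv, h.conj_eich (hM hk), h.conj_eich (hM hk), map_zero] at this
  simpa [mul_assoc] using this

theorem RC.line (a : RC h M x y) (b : RC h M x y') (c : B y' y ≠ 0) (s : F) : RC h M x (y + s • y') :=
  fun e => by
  obtain ⟨t, rfl⟩ : ∃ t, s = t * B y' y := ⟨s / B y' y, by field_simp⟩
  have e1 := h.conj_eich (h.eich_mem_isom (c := -t) (alt_Q h y') (map_zero _) (alt_Q h 0).symm) y 0 e
  rw [map_zero, h.eich_apply (alt_Q h y') (map_zero _), h.eich_inv (alt_Q h y') (map_zero _)] at e1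
  have e2 : h.eich y' 0 (-t) = (h.eich y' 0 t)⁻¹ := by rw [h.eich_inv (alt_Q h y') (map_zero _)]; simp
  have := M.mul_mem (M.mul_mem (M.mul_mem (M.mul_mem (b e) (M.inv_mem (b (t + e)))) (a (t + e)))
    (M.inv_mem (a t))) (b t)
  rw [etv_add h y', add_comm t e, etv_add h y] at this
  convert this using 1
  rw [show y + (t * B y' y) • y' = y + B 0 y • y' - (-1 * B y' y) • 0 - (-t * B y' y) • y' by simp, ← e1, e2]
  simp; group

theorem RC.perp (h2 : (2 : F) ≠ 0) {r : V} (a : RC h M x y) (b : RC h M x (y + r))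
    (c : RC h M x (-y + r)) (d : B y r = 0) (e : F) : h.eich r 0 e ∈ M := by
  have ea := fun v c x => h.eich_apply (alt_Q h v) (map_zero _) c x
  convert M.mul_mem (M.mul_mem (M.inv_mem (a (e / 2))) (b (e / 2)))
    (M.mul_mem (M.inv_mem (a (e / 2))) (c (e / 2))) using 1
  simp only [mul_inv_rev, inv_inv, mul_assoc, mul_inv_cancel_left, h.eich_inv (alt_Q h y) (map_zero _)]
  ext z
  simp [ea, alt_self h, d, h.refl d]
  match_scalars <;> field_simp <;> ring

theorem RC.third (h2 : (2 : F) ≠ 0) {w : V} (a : RC h M x y) (b : RC h M x y') (c : RC h M x w)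
    (d : B y y' ≠ 0) (e : B y w ≠ 0) (f : ∀ s t : F, w ≠ s • y + t • y') :
    ∃ r, r ≠ 0 ∧ ∀ e, h.eich r 0 e ∈ M := by
  have d' := h.refl_ne d
  have sy : B y' y = -B y y' := by simp [h.symm y y']
  obtain ⟨β, hβ⟩ : ∃ β, β = B y w / B y y' := ⟨_, rfl⟩
  have β0 : β ≠ 0 := hβ ▸ div_ne_zero e d
  obtain ⟨r, hr⟩ : ∃ r, r = w - (B y' w / B y' y) • y - β • y' := ⟨_, rfl⟩
  have r1 : B y r = 0 := by simp [hr, hβ, alt_self h, d]
  have r2 : B y' r = 0 := by simp [hr, alt_self h, d']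
  have k1 : RC h M x (β • y' + r) := by
    convert c.line a e (-(B y' w / B y' y)) using 1; rw [hr]; module
  have k2 : RC h M x (β • y') := by
    simpa using (a.line b d' β).line a (by simp [alt_self h, β0, d]) (-1)
  have k3 := ((k1.line a (by simp [r1, β0, d]) 1).line b (by simp [r2, alt_self h, d']) (-2 * β)).line a
    (by simp [r1, alt_self h]; intro e; exact mul_ne_zero β0 d (by linear_combination -e)) (-1)
  exact ⟨r, fun e => f (B y' w / B y' y) β (by rw [hr] at e; linear_combination (norm := module) e),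
    k2.perp h2 k1 (by convert k3 using 1; module) (by simp [r2])⟩

end rc

namespace Ag

open H26 H26.MX

variable {F : Type*} [Field F] {V : Type*} [AddCommGroup V] [Module F V]
  {E : Type*} [Field E] [Algebra F E] [Module E V] [IsScalarTower F E V] {σ : E →+* E}
  {B : V →ₗ[F] V →ₗ[F] F} {M : Subgroup (V ≃ₗ[F] V)} {b : V →ₛₗ[σ] V →ₗ[E] E} {Q : V → F}
  [Finite E] [Module.Finite F E] [Module.Finite E V]

local notation "𝔱" => Algebra.trace F E

theorem nrmE_of_sing3 (hE : Cl 1 1 (trHom σ) b fun x => b x x) {δ : E} (hδ : σ δ = -δ) (hδ0 : δ ≠ 0)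
    (hm : 3 ≤ finrank E V)
    {y : V ≃ₗ[F] V} (h : ∀ v, b v v = 0 → ∀ k : E, y (k • v) ∈ Ln F E (y v)) : NrmE E y := fun k => by
  have : Module.Finite F V := Module.Finite.trans E V
  choose! l hl using fun v hv k => mem_Ln.1 (h v hv k)
  have key : ∀ u v, u ≠ 0 → b u u = 0 → b v v = 0 → b (u + v) (u + v) = 0 → v ∉ E ∙ u →
      l u k = l v k := fun u v hu h1 h2 h3 hv => by
    have h4 := hl (u + v) h3 k
    rw [smul_add, map_add, map_add, ← hl u h1, ← hl v h2, smul_add] at h4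
    have h5 : (l (u + v) k - l v k) • y v = (l u k - l (u + v) k) • y u := by
      rw [sub_smul, sub_smul, sub_eq_sub_iff_add_eq_add, add_comm, h4]
    by_cases h6 : l (u + v) k - l v k = 0
    · rw [h6, zero_smul, eq_comm, smul_eq_zero_iff_left (app_ne_zero y hu)] at h5
      linear_combination h5 + h6
    have h7 : y v ∈ Ln F E (y u) := (Submodule.smul_mem_iff (E ∙ y u) h6).1 (h5 ▸ smul_mem_Ln (F := F) _ _)
    rw [← MX.map_eq_of_le (W := Ln F E u) (g := y) ((finrank_Ln hu).trans (finrank_Ln (app_ne_zero y hu)).symm)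
      (fun x hx => by obtain ⟨j, rfl⟩ := mem_Ln.1 hx; exact h u h1 j), mem_map_iff, inv_app] at h7
    exact absurd h7 hv
  have ky : ∀ u v, b u u = 0 → b v v = 0 → u ≠ 0 → b u v + σ (b u v) = 0 → v ∉ E ∙ u → l u k = l v k :=
    fun u v h1 h2 h0 h3 hv => key u v h0 h1 h2 (by
      simpa only [h1, h2, trHom_apply, h3, add_zero] using hE.Q_add u v) hv
  have k2 : ∀ z v, b z z = 0 → b v v = 0 → b z v ≠ 0 → y (k • v) = l z k • y v := fun z v hz hv h0 => by
    have z0 : z ≠ 0 := by rintro rfl; simp at h0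
    have nz : ∀ v, b z v ≠ 0 → v ∉ E ∙ z := fun v h0 e => by
      obtain ⟨a, rfl⟩ := Submodule.mem_span_singleton.1 e
      simp [hz] at h0
    rw [← hl v hv]
    by_cases s0 : b z v + σ (b z v) = 0
    · rw [ky z v hz hv z0 s0 (nz v h0)]
    obtain ⟨w, ⟨⟨-, w1⟩, w2⟩, w0⟩ := exists_mem_notMem
      (W := ⊤ ⊓ LinearMap.ker (b z) ⊓ LinearMap.ker (b v)) (Z := ⊥) (by
        have e1 := H10.finrank_le_inf_ker (⊤ : Submodule E V) (b z)
        have e2 := H10.finrank_le_inf_ker (⊤ ⊓ LinearMap.ker (b z)) (b v)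
        rw [finrank_top] at e1; rw [finrank_bot]; omega)
    replace w1 : b z w = 0 := w1
    replace w2 : b v w = 0 := w2
    have ν : σ (b w w) = b w w := by simpa using (hE.symm w w).symm
    have vz : b v z = σ (b z v) := by simpa using hE.symm z v
    have h0' : σ (b z v) ≠ 0 := by simpa using h0
    have s0' : σ (b z v) + b z v ≠ 0 := by rwa [add_comm]
    obtain ⟨p, hp⟩ : ∃ p, p = (δ / b z v) • v + (b w w * b z v / (δ * (b z v + σ (b z v)))) • z + w :=
      ⟨_, rfl⟩
    have p1 : b z p = δ := by simp [hp, hz, w1, h0]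
    have p2 : b p p = 0 := by
      simp [hp, hz, hv, w1, w2, hE.refl w1, hE.refl w2, vz, hδ, ν, hE.invol]
      field_simp; ring
    rw [ky z p hz p2 z0 (by simp [p1, hδ]) (nz p (by simpa [p1])),
      ← ky v p hv p2 (by rintro rfl; simp at h0) (by
        simp [hp, hv, w2, vz, hδ, ν, hE.invol]; field_simp; ring) fun e => ?_]
    obtain ⟨a, ha⟩ := Submodule.mem_span_singleton.1 e
    have e1 := congrArg (b v) ha
    have e2 := congrArg (b z) ha
    rw [p1] at e2
    simp only [hp, map_add, map_smul, hv, w2, smul_eq_mul, mul_zero, zero_add, add_zero, vz] at e1 e2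
    have e3 := (mul_eq_zero.1 e1.symm).resolve_right h0'
    rw [hp, e3, ← e2, mul_div_cancel_right₀ _ h0] at ha
    exact w0 (by simpa using ha.symm)
  have hb : hE.Big ⊤ := Or.inl (by simpa)
  obtain ⟨u, -, hu0, hu⟩ := hE.exists_sing hb
  have h1 : ∀ v, b v v = 0 → y (k • v) = l u k • y v := fun v hv => by
    by_cases h0 : v = 0
    · simp [h0]
    obtain ⟨z, -, a1, a2⟩ := exists_mem_ne_ne (U := ⊤) (b u) (b v)
      ((hE.exists_ne hu0).imp fun _ h => ⟨trivial, h⟩) ((hE.exists_ne h0).imp fun _ h => ⟨trivial, h⟩)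
    obtain ⟨z, hz, a1, a2⟩ : ∃ z, b z z = 0 ∧ b u z ≠ 0 ∧ b v z ≠ 0 := by
      by_cases k : b u v = 0
      · obtain ⟨c, hc⟩ := hE.form.exists_add_smul_singular hu a1
        exact ⟨_, hc, by simpa [hu], by simpa [hE.refl k]⟩
      · obtain ⟨c, c0, hc⟩ : ∃ c : E, c ≠ 0 ∧ c + σ c = 0 := ⟨δ, hδ0, by simp [hδ]⟩
        refine ⟨u + (c / b u v) • v, ?_, by simp [hu, k, c0], by simpa [hv] using hE.refl_ne k⟩
        have := hE.Q_add u ((c / b u v) • v)
        simpa only [hu, hE.sing_smul hv, map_smul, smul_eq_mul, div_mul_cancel₀ _ k, trHom_apply, hc,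
          add_zero] using this
    rw [k2 z v hz hv (hE.refl_ne a2), smul_left_injective E (app_ne_zero y hu0)
      ((hl u hu k).trans (k2 z u hz hu (hE.refl_ne a1)))]
  let S : Submodule E V :=
    { carrier := {v | ∀ j : E, y (k • j • v) = l u k • y (j • v)}
      zero_mem' := by simp
      add_mem' := fun ha hb j => by simp [ha j, hb j]
      smul_mem' := fun c x hx j => by simpa only [smul_smul j c] using hx (j * c) }
  refine ⟨l u k, fun v => by_contra fun hc => ?_⟩
  obtain ⟨z, a1, a2⟩ := hE.form.exists_perp_not hE.sep (W := S) (x := v) fun k => hc (by simpa using k 1)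
  obtain ⟨x, -, qx, hx⟩ := hE.exists_sing_not_perp (Cl.nondegOn_top hE.sep) hb (s := z)
    ⟨v, trivial, by simp [a2]⟩
  exact hx (a1 x fun j => h1 _ (hE.sing_smul qx j))

theorem su_sp_le3 (h : Cl (σ := RingHom.id F) (-1) 0 0 B Q) (hq : Qd F σ)
    (hE : Cl 1 1 (trHom σ) b fun x => b x x) {δ : E} (hδ : σ δ = -δ) (hδ0 : δ ≠ 0) (h2 : (2 : F) ≠ 0)
    (ht : ∀ x y, 𝔱 (δ * b x y) = B x y) (hm : 3 ≤ finrank E V) (hM : M ≤ h.Om)
    (hH : ∀ g ∈ h.Om, NrmE E g → g ∈ M) {g : V ≃ₗ[F] V} (hg : g ∈ M) (hg' : ¬ NrmE E g) :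
    h.Om ≤ M := by
  have : Module.Finite F V := Module.Finite.trans E V
  have hM' := hM.trans h.om_le_isom
  have h2' : (2 : E) ≠ 0 := by rw [← map_ofNat (algebraMap F E)]; simpa using h2
  have hI : ∀ s ∈ Isom b fun x => b x x, rs F s ∈ M := fun s hs =>
    hH _ ((mem_om_alt h).2 fun x y => by simp [← ht, hs.1]) (nrmE_rs s)
  have h0 : ∀ {x y}, b x y = 0 → B x y = 0 := fun h => by rw [← ht, h]; simp
  obtain ⟨d, hd⟩ := hq.fixed (a := δ * δ) (by simp [hδ])
  have hd0 : d ≠ 0 := by rintro rfl; simp [hδ0, eq_comm] at hd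
  have ea := fun v c x => h.eich_apply (alt_Q h v) (map_zero _) c x
  have h1 : ∀ v, b v v = 0 → ∀ c, h.eich v 0 c * h.eich (δ • v) 0 (-c / d) ∈ M := fun v hv c => by
    convert hI _ (hE.eich_mem_isom (c := c • (2 * δ)) hv (map_zero _) (by
      simp [Algebra.smul_def, hq.alg, hδ, map_ofNat])) using 1
    ext y
    simp only [mul_app, rs_apply, ea, hE.eich_apply hv (map_zero _), map_zero, LinearMap.zero_apply,
      zero_smul, add_zero, smul_zero, sub_zero, map_sub, map_smul, h0 (x := v) (y := δ • v) (by simp [hv]),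
      mul_smul]
    simp only [← ht, hq.smul_tr, ← algebraMap_smul E c, ← algebraMap_smul E (-c / d), map_smulₛₗ,
      LinearMap.smul_apply, smul_eq_mul, map_mul, map_neg, hδ, map_div₀, hd, Algebra.smul_def]
    match_scalars <;> field_simp <;> ring
  obtain ⟨v, hv, k, hk⟩ : ∃ v, b v v = 0 ∧ ∃ k : E, g (k • v) ∉ Ln F E (g v) := by
    by_contra! h3; exact hg' (nrmE_of_sing3 hE hδ hδ0 hm h3)
  have h3 : g (δ • v) ∉ E ∙ g v := fun h3 => hk (by
    have h4 : k • v = (𝔱 k / 2) • v + (𝔱 (k / δ) / 2) • δ • v := by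
      simp only [← algebraMap_smul E (_ / 2 : F), map_div₀, hq.tr, hδ, map_ofNat]
      match_scalars; field_simp; ring
    rw [h4, map_add, map_smul, map_smul]
    exact add_mem (Submodule.smul_mem _ _ (self_mem_Ln _)) (Submodule.smul_mem (Ln F E (g v)) _ h3))
  replace h1 : ∀ c, h.eich (g v) 0 c * h.eich (g (δ • v)) 0 (-c / d) ∈ M := fun c => by
    have := mul_mem (mul_mem hg (h1 v hv c)) (inv_mem hg)
    rwa [← conj_mul, h.conj_eich (hM' hg), h.conj_eich (hM' hg), map_zero] at this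
  have hz0 : g v ≠ 0 := app_ne_zero g (by rintro rfl; simp at hk)
  have hzx : B (g v) (g (δ • v)) = 0 := by rw [(hM' hg).1]; exact h0 (by simp [hv])
  generalize g v = z at h1 h3 hz0 hzx
  generalize g (δ • v) = x at h1 h3 hzx
  have R0 : RC h M x x := fun e => by simpa using M.one_mem
  have R1 : ∀ s ∈ Isom b fun x => b x x, s z = z → RC h M x (s x) := fun s hs e c => by
    have h15 := hI s hs
    have := mul_mem (inv_mem (h1 (-c * d))) (mul_mem (mul_mem h15 (h1 (-c * d))) (inv_mem h15))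
    rw [← conj_mul, h.conj_eich (hM' h15), h.conj_eich (hM' h15), map_zero, rs_apply, rs_apply, e,
      mul_inv_rev] at this
    simpa [hd0, mul_assoc] using this
  have tvE : ∀ u y, b u u = 0 → b u y ≠ 0 → ∃ s ∈ Isom b fun x => b x x, (∀ w, b u w = 0 → s w = w) ∧
      s y = y + (δ * b u y) • u ∧ ∀ k : E, k + σ k ≠ 0 → B y (k • (δ * b u y) • u) ≠ 0 :=
    fun u y hu hy => ⟨_, hE.eich_mem_isom (u := u) (w := 0) (c := -δ) hu (map_zero _) (by simp [hδ]),
      fun w hw => hE.eich_fix _ hw (by simp), by simp [hE.eich_apply hu (map_zero _)], fun k hk e => by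
        have := congrArg (algebraMap F E) e
        simp [← ht, hq.tr, hE.symm u y, hδ, hq.invol] at this
        exact mul_ne_zero (mul_ne_zero (mul_ne_zero hδ0 hδ0) (mul_ne_zero hy ((map_ne_zero σ).2 hy))) hk
          (by linear_combination this)⟩
  have one : (1 : E) + σ 1 ≠ 0 := by rw [map_one, one_add_one_eq_two]; exact h2'
  obtain ⟨r, r0, hr⟩ : ∃ r, r ≠ 0 ∧ ∀ e, h.eich r 0 e ∈ M := by
    have pl : ∀ u, b u u = 0 → b u x ≠ 0 → b u z = 0 → RC h M x ((δ * b u x) • u) ∧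
        ∀ k : E, k + σ k ≠ 0 → B x (k • (δ * b u x) • u) ≠ 0 := fun u a1 a2 a3 => by
      obtain ⟨s, s1, s2, s3, s4⟩ := tvE u x a1 a2
      have := (R1 s s1 (s2 z a3)).line R0 (by simpa [s3, alt_self h] using s4 1 one) (-1)
      exact ⟨by simpa [s3] using this, s4⟩
    by_cases zz : b z z = 0
    · by_cases zx : b z x = 0
      · obtain ⟨w, h10, h11⟩ := hE.form.exists_perp_not hE.sep h3
        have h12 := h10 z (Submodule.mem_span_singleton_self z)
        have k : ∀ a : E, RC h M x (x + a • z) := fun a => by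
          obtain ⟨e, he⟩ := hE.exists_tau (σ a • w)
          have := R1 _ (hE.eich_mem_isom zz (by simp [h12]) he) (hE.eich_fix _ zz (by simp [hE.refl h12]))
          rw [hE.eich_of_perp zz (by simp [h12]) _ zx] at this
          simpa [hE.flip_one h11, hq.invol] using this
        refine ⟨z, hz0, R0.perp h2 (by simpa using k 1) (fun e => ?_) (h.refl hzx)⟩
        have := k (-1) e
        rwa [show x + (-1 : E) • z = (-1 : F) • (-x + z) by simp, h.eich_smul_left (alt_Q h _) (map_zero _),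
          smul_zero, show (RingHom.id F) (-1) * -1 * e = e by simp] at this
      obtain ⟨a1, a2⟩ := pl z zz zx zz
      have d1 := hE.form.finrank_perp hE.sep (E ∙ z)
      have d2 := finrank_span_one_le (F := E) z
      obtain ⟨w, h7, h8⟩ := exists_not_mem_of_lt (W := E ∙ z) (U := perp b (E ∙ z)) (by omega)
      replace h7 := h7 z (Submodule.mem_span_singleton_self z)
      obtain ⟨c, hc⟩ := hE.exists_tau w
      have i := hE.eich_mem_isom zz h7 hc
      have a3 := h.refl_ne (a2 1 one)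
      rw [one_smul] at a3
      refine a1.third h2 R0 (R1 _ i (hE.eich_fix _ zz (hE.refl h7))) a3 ?_ fun s t e => h8 ?_
      · have := (hM' (hI _ i)).1 ((δ * b z x) • z) x
        rw [rs_apply, rs_apply, map_smul, hE.eich_fix _ zz (hE.refl h7)] at this
        rwa [this]
      · rw [hE.eich_apply zz h7, ← algebraMap_smul E s, ← algebraMap_smul E t] at e
        have e1 := congrArg (b z) e
        simp only [map_add, map_sub, map_smul, zz, h7, smul_eq_mul, mul_zero, add_zero, sub_zero,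
          zero_add] at e1
        rw [show algebraMap F E t = 1 from mul_right_cancel₀ zx (by rw [← e1, one_mul])] at e
        exact Submodule.mem_span_singleton.2 ⟨(b w x - c * b z x - algebraMap F E s * (δ * b z x)) / b z x, by
          rw [div_eq_inv_mul, mul_smul, inv_smul_eq_iff₀ zx]; linear_combination (norm := module) e⟩
    have nd := hE.form.nondegOn_perp hE.sep (IsForm.nondegOn_span_singleton zz)
    have d1 := hE.form.finrank_perp hE.sep (E ∙ z)
    have d2 := finrank_span_one_le (F := E) z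
    obtain ⟨u, u1, u2, u3⟩ := hE.exists_sing_not_perp nd (Or.inr ⟨by omega, δ, hδ0, by simp [hδ]⟩) (s := x) (by
      obtain ⟨w, h10, h11⟩ := hE.form.exists_perp_not hE.sep h3
      exact ⟨w, h10, by simp [hE.flip_one h11]⟩)
    have u0 : u ≠ 0 := by rintro rfl; simp at u3
    obtain ⟨f, f1, f2, f3⟩ := hE.exists_partner_in' nd u1 u2 u0
    have u4 := hE.refl (u1 z (Submodule.mem_span_singleton_self z))
    have f4 := hE.refl (f1 z (Submodule.mem_span_singleton_self z))
    obtain ⟨a1, a2⟩ := pl u u2 u3 u4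
    have l0 : (1 + δ) + σ (1 + δ) ≠ 0 := by
      rw [map_add, map_one, hδ, show 1 + δ + (1 + -δ) = 2 by ring]; exact h2'
    have hH' : IsHerm b := ⟨hq.ne, hq.invol, fun x y => by simpa using (hE.symm x y).symm⟩
    let s := hH'.dil u2 f2 f3 (a := 1 + δ) (fun e => by simp [e] at l0)
    have s1 : s.1 z = z := by simp [s, hH'.dil_apply, u4, f4]
    have s2 : s.1 ((δ * b u x) • u) = (1 + δ) • (δ * b u x) • u := by
      rw [map_smul, smul_comm]; simp [s, hH'.dil_apply, u2, hE.flip_one f3, add_smul]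
    have a3 := RC.map hM' (hI _ s.2) (R1 _ s.2 s1) a1
    rw [rs_apply, s2] at a3
    refine R0.third h2 a1 a3 (by simpa using a2 1 one) (a2 _ l0) fun s t e => ?_
    rw [← algebraMap_smul E s, ← algebraMap_smul E t] at e
    have e1 := congrArg (b u) e
    simp only [map_add, map_smul, u2, smul_eq_mul, mul_zero, add_zero] at e1
    rw [(mul_eq_zero.1 e1.symm).resolve_right u3, zero_smul, zero_add] at e
    have e2 := smul_left_injective E (smul_ne_zero (mul_ne_zero hδ0 u3) u0) e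
    have e3 := congrArg σ e2
    rw [hq.alg, ← e2, map_add, map_one, hδ] at e3
    exact mul_ne_zero h2' hδ0 (by linear_combination -e3)
  obtain ⟨u, hu0, hu, h16⟩ : ∃ u, u ≠ 0 ∧ b u u = 0 ∧ ∀ c, h.eich u 0 c ∈ M := by
    obtain ⟨u, -, u2, u3⟩ := hE.exists_sing_not_perp (Cl.nondegOn_top hE.sep)
      (Or.inl (by rw [finrank_top]; omega)) (s := r) (let ⟨y, hy⟩ := hE.exists_ne r0; ⟨y, trivial, hE.refl_ne hy⟩)
    obtain ⟨s, s1, -, s3, s4⟩ := tvE u r u2 u3
    have := tv_line h hM' hr (tv_map h hM' (hI s s1) hr) (by simpa [s3, alt_self h] using s4 1 one) (-1)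
    exact ⟨(δ * b u r) • u, smul_ne_zero (mul_ne_zero hδ0 u3) (by rintro rfl; simp at u3),
      hE.sing_smul u2 _, by simpa [s3] using this⟩
  have h17 : ∀ p, b p p = 0 → ∀ c, h.eich p 0 c ∈ M := fun p hp c => by
    by_cases hp0 : p = 0
    · rw [hp0, h.eich_zero_left]; exact one_mem _
    obtain ⟨s, hs, rfl⟩ := hE.form.witt_one hE.sep hu0 hp0 (hp.trans hu.symm)
    exact tv_map h hM' (hI s hs) h16 c
  refine om_le_of_tv h fun v c => ?_
  by_cases hv0 : v = 0
  · rw [hv0, h.eich_zero_left]; exact one_mem _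
  obtain ⟨p, -, hp, h18⟩ := hE.exists_sing_not_perp (Cl.nondegOn_top hE.sep)
    (Or.inl (by rw [finrank_top]; omega)) (s := v) (let ⟨y, hy⟩ := hE.exists_ne hv0; ⟨y, trivial, hE.refl_ne hy⟩)
  obtain ⟨p, hp, h19⟩ : ∃ p, b p p = 0 ∧ b p v = b v v / 2 + δ :=
    ⟨σ ((b v v / 2 + δ) / b p v) • p, hE.sing_smul hp _, by
      rw [map_smulₛₗ, hq.invol, LinearMap.smul_apply, smul_eq_mul, div_mul_cancel₀ _ h18]⟩
  have h20 : σ (b v v) = b v v := by simpa using (hE.symm v v).symm
  simpa using tv_line h hM' (h17 p hp) (h17 (v - p) (by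
    simp [hp, h19, hE.symm p v, h20, hδ, map_ofNat]; field_simp; ring)) (fun h21 => by
    have := congrArg (algebraMap F E) h21
    simp [← ht, hq.tr, hp, h19, hδ, h20, map_ofNat] at this
    exact mul_ne_zero h2' (mul_ne_zero hδ0 hδ0) (by linear_combination this)) 1 c

theorem su_sp_max3 (h : Cl (σ := RingHom.id F) (-1) 0 0 B Q) (hr : finrank F E = 2) (h2 : (2 : F) ≠ 0)
    (ha : ∀ k : E, ∃ k' : E, ∀ u v, B (k • u) v = B u (k' • v))
    (hb : ¬ ∀ (k : E) u v, B (k • u) v = B u (k • v)) (hm : 3 ≤ finrank E V) :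
    (∃ g ∈ h.Om, ¬ NrmE E g) ∧ ∀ M ≤ h.Om, (∀ g ∈ h.Om, NrmE E g → g ∈ M) → ∀ g ∈ M,
      ¬ NrmE E g → h.Om ≤ M := by
  have : Module.Finite F V := Module.Finite.trans E V
  have : Nontrivial V := Module.nontrivial_of_finrank_pos (R := E) (by omega)
  obtain ⟨σ, h3, h4⟩ := exists_adj_hom h ha
  have hq := qd_of hr (fun h => hb (by simpa [h] using h3)) h4
  obtain ⟨b, h5⟩ := exists_lift h3
  obtain ⟨k, hk⟩ := DFunLike.ne_iff.1 hq.ne
  have hδ0 : k - σ k ≠ 0 := sub_ne_zero.2 (Ne.symm hk)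
  have hδ : σ (k - σ k) = -(k - σ k) := by simp [hq.invol]
  generalize k - σ k = δ at hδ hδ0
  have h6 : ∀ x y, 𝔱 (δ * (δ⁻¹ • b) x y) = B x y := by simp [hδ0, h5]
  have hE := clHerm (B := δ⁻¹ • b) ⟨hq.ne, hq.invol, fun x y => by
    simp [lift_symm h5 hq.tr_sigma hq.invol h.symm x y, hδ]⟩ fun x hx => h.sep x fun y => by
      rw [← h6, hx]; simp
  obtain ⟨v, -, hv0, hv⟩ := hE.exists_sing3 (W := ⊤) (by rw [finrank_top]; omega)
  exact ⟨sp_not_nrmE h (smul_not_mem h4 hk hv0) fun j => by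
    rw [← h6, map_smul, map_smulₛₗ, LinearMap.smul_apply, hv]; simp,
    fun M hM hH g hg hg' => su_sp_le3 h hq hE hδ hδ0 h2 h6 hm hM hH hg hg'⟩

open Matrix Geo

theorem su_sp_mat3 {m : ℕ} (φ : E →ₐ[F] Matrix (Fin m ⊕ Fin m) (Fin m ⊕ Fin m) F) (hm : 3 ≤ m)
    (hr : finrank F E = 2) (h2 : (2 : F) ≠ 0) (ha : IsAdjointClosedFor (sympForm m F) φ.range)
    (hb : ¬ IsSelfAdjointFor (sympForm m F) φ.range) :
    IsMaximalIn (spGL m F) (subalgebraNormalizer φ.range ⊓ spGL m F) := by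
  have h1 := EV.finrank_mul φ
  obtain ⟨h2, h3⟩ := su_sp_max3 (E := E) ((clSp m F).pullback (EV.eq φ)) hr h2 (fun k => by
      obtain ⟨_, ⟨k', rfl⟩, h3⟩ := ha _ ⟨k, rfl⟩
      simp only [sympForm_eq_spBilin] at h3
      exact ⟨k', h3⟩)
    (fun h2 => hb (by rintro _ ⟨k, rfl⟩ u v; simp only [sympForm_eq_spBilin]; exact h2 k u v))
    (by rw [hr] at h1; simp at h1; omega)
  exact fld_max_of (fun g => (mem_spGL_iff g).trans (mem_om_gE φ _ g)) h2 h3

theorem sp_gu3 {F : Type*} [Field F] [Fintype F] (m : ℕ) (hm : 3 ≤ m) (hodd : Odd (Fintype.card F)) (K : Subalgebra F (Matrix (Fin m ⊕ Fin m) (Fin m ⊕ Fin m) F)) (hK : Cfsg.Geo.IsFieldSubalgebra 2 K) (hac : Cfsg.Geo.IsAdjointClosedFor (Cfsg.sympForm m F) K) (hnsa : ¬ Cfsg.Geo.IsSelfAdjointFor (Cfsg.sympForm m F) K) : Cfsg.Geo.IsMaximalIn (Cfsg.spGL m F) (Cfsg.Geo.subalgebraNormalizer K ⊓ Cfsg.spGL m F) := by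
  haveI : Nonempty (Fin m) := ⟨⟨0, by omega⟩⟩
  letI := (H26.isField_of_isFieldSubalgebra hK).toField
  have := su_sp_mat3 K.val hm hK.finrank_eq (H11.two_ne_zero_of_odd_card hodd)
  rw [Subalgebra.range_val] at this
  exact this hac hnsa

end Ag

end Cfsg.Agent.H10
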