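import Mathlib
import Cfsg.Agent.H10.Ag18
import Cfsg.Agent.H10.Ag8

/-! Pairs of totally isotropic subspaces of a symplectic space of dimension six. -/

set_option autoImplicit false

namespace Cfsg.Agent.H10

open Module H11 Cfsg.Geo

variable {F : Type*} [Field F] {V : Type*} [AddCommGroup V] [Module F V]
  {B : V →ₗ[F] V →ₗ[F] F} {Q : V → F} {h : Cl (σ := RingHom.id F) (-1) 0 0 B Q}
  {M : Subgroup (V ≃ₗ[F] V)} {X Y : Submodule F V}

theorem RC.neg {x y : V} (a : RC h M x y) : RC h M x (-y) := fun e => by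
  rw [← neg_one_smul F y, h.eich_smul_left (alt_Q h _) (map_zero _)]; simpa using a e

theorem RC.symm {x y : V} (a : RC h M x y) : RC h M y x := fun e => by simpa using M.inv_mem (a e)

theorem RC.refl (x : V) : RC h M x x := fun e => by simpa using M.one_mem

theorem not_mem_pair {a a' e : V} (h1 : a' ∉ Submodule.span F {a}) (h2 : e ∉ Submodule.span F {a, a'}) :
    a' ∉ Submodule.span F {a, e} := fun k => by
  obtain ⟨s, t, rfl⟩ := Submodule.mem_span_pair.1 k
  have t0 : t ≠ 0 := by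
    rintro rfl; exact h1 (by simp [Submodule.smul_mem, Submodule.mem_span_singleton_self])
  exact h2 (Submodule.mem_span_pair.2 ⟨-s / t, 1 / t, by match_scalars <;> field_simp <;> ring⟩)

variable [FiniteDimensional F V]

/-- an overgroup of the stabiliser of a pair of totally isotropic subspaces -/
structure PO (h : Cl (σ := RingHom.id F) (-1) 0 0 B Q) (M : Subgroup (V ≃ₗ[F] V)) (X Y : Submodule F V) :
    Prop where
  p : SPair B Q X Y
  two : (2 : F) ≠ 0
  dim : 3 ≤ finrank F X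
  le : M ≤ Isom B Q
  mem : ∀ x ∈ X, ∀ y ∈ Y, B x y = 0 → h.eich x y 0 ∈ M
  no : ∀ r, (∀ e, h.eich r 0 e ∈ M) → r = 0

namespace PO
variable (o : PO h M X Y)
include o

theorem symm : PO h M Y X :=
  ⟨o.p.symm, o.two, o.p.dim ▸ o.dim, o.le, h.pair_swap o.p (P := (· ∈ M)) o.mem, o.no⟩

theorem move {a b a' b' e : V} (ha : a ∈ X) (hb : b ∈ Y) (ha' : a' ∈ X) (hb' : b' ∈ Y) (he : e ∈ X)
    (R : RC h M (a + b) (a' + b')) (eb : B e b = 0) (n : a' ∉ Submodule.span F {a, e}) :
    ∃ f ∈ Y, B e f = 0 ∧ B a' f = 1 ∧ ∀ t : F, RC h M (a + b) (a' + b' + t • (B e b' • f - e)) := by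
  obtain ⟨f, hf, f1, f2⟩ := h.pair_dual o.p (Z := Submodule.span F {a, e})
    (Submodule.span_le.2 (by simp [Set.insert_subset_iff, ha, he])) ha' n
  have f3 := f1 e (Submodule.subset_span (by simp))
  have f4 := f1 a (Submodule.subset_span (by simp))
  refine ⟨f, hf, f3, f2, fun t => ?_⟩
  have m := o.mem e he _ (Y.smul_mem t hf) (by simp [f3])
  have := RC.map o.le m (by
    rw [h.eich_fix _ (by simp [o.p.tx.2 e he a ha, eb]) (by simp [h.refl f4, o.p.ty.2 f hf b hb])]
    exact RC.refl _) R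
  rw [h.eich_apply (alt_Q h _) (by simp [f3])] at this
  convert this using 1
  simp [o.p.tx.2 e he a' ha', o.p.ty.2 f hf b' hb', h.flip_one f2]; module

theorem lemP {a b a' b' e : V} (ha : a ∈ X) (hb : b ∈ Y) (ha' : a' ∈ X) (hb' : b' ∈ Y) (he : e ∈ X)
    (R : RC h M (a + b) (a' + b')) (e0 : e ≠ 0) (eb : B e b = 0) (eb' : B e b' = 0) :
    a' ∈ Submodule.span F {a, e} := by
  by_contra n
  obtain ⟨f, -, -, -, k⟩ := o.move ha hb ha' hb' he R eb n
  refine e0 (o.no e (R.perp o.two (by simpa [eb'] using k (-1)) ?_ (by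
    simp [o.p.tx.2 a' ha' e he, h.refl eb'])))
  convert (k 1).neg using 1
  simp [eb']; abel

theorem lemK {a b a' b' : V} (ha : a ∈ X) (hb : b ∈ Y) (ha' : a' ∈ X) (hb' : b' ∈ Y)
    (R : RC h M (a + b) (a' + b')) (z0 : a + b ≠ 0) (pp : B (a + b) (a' + b') = 0) :
    a' ∈ Submodule.span F {a} := by
  by_contra n
  have d1 := finrank_le_inf_ker X (B b)
  have d2 := finrank_le_inf_ker (X ⊓ LinearMap.ker (B b)) (B b')
  have := o.dim
  have P := fun e he => o.lemP (e := e) ha hb ha' hb' he R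
  obtain ⟨e₀, ⟨⟨e1, e2⟩, e3⟩, e0⟩ := exists_ne_zero_of_finrank
    (W := X ⊓ LinearMap.ker (B b) ⊓ LinearMap.ker (B b')) (by omega)
  replace e2 := h.refl e2
  replace e3 := h.refl e3
  obtain ⟨s, t, rfl⟩ := Submodule.mem_span_pair.1 (P e₀ e1 e0 e2 e3)
  have t0 : t ≠ 0 := by
    rintro rfl; exact n (by simp [Submodule.smul_mem, Submodule.mem_span_singleton_self])
  by_cases a0 : a = 0
  · subst a0
    have b0 : b ≠ 0 := by simpa using z0
    have := o.symm.lemP hb ha hb' ha' hb (by rwa [add_comm b, add_comm b']) b0 (by simp)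
      (by simp [h.refl e2])
    obtain ⟨c, rfl⟩ : ∃ c : F, c • b = b' := by simpa [Submodule.mem_span_singleton] using this
    obtain ⟨e, ⟨k1, k2⟩, k3⟩ := exists_mem_notMem (W := X ⊓ LinearMap.ker (B b))
      (Z := Submodule.span F {0, s • (0 : V) + t • e₀}) (by
        have := finrank_span_one_le (F := F) (s • (0 : V) + t • e₀)
        rw [Submodule.span_insert_zero]; omega)
    exact not_mem_pair n k3 (P e k1 (by rintro rfl; simp at k3) (h.refl k2) (by simp [h.refl k2]))
  have s0 : s ≠ 0 := by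
    rintro rfl
    obtain ⟨u, v, k⟩ := Submodule.mem_span_pair.1 (o.lemP ha' hb' ha hb e1 R.symm e0 e3 e2)
    have : a = (u * t + v) • e₀ := by rw [← k]; module
    have c0 : u * t + v ≠ 0 := fun e => a0 (by simp [this, e])
    exact n (Submodule.mem_span_singleton.2 ⟨t / (u * t + v), by
      rw [this, smul_smul, div_mul_cancel₀ _ c0]; simp⟩)
  obtain ⟨e, k1, k2, k3⟩ : ∃ e ∈ X, B e b = 0 ∧ e ∉ Submodule.span F {a, s • a + t • e₀} := by
    by_contra! hc
    have := finrank_span_pair_le (F := F) a (s • a + t • e₀)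
    have k := Submodule.eq_of_le_of_finrank_le (show X ⊓ LinearMap.ker (B b) ≤ _ from
      fun e he => hc e he.1 (h.refl he.2)) (by omega)
    have k1 : B b a = 0 := (k.ge (Submodule.subset_span (by simp))).2
    exact n (by simpa using P a ha a0 (h.refl k1) (by
      simpa [o.p.tx.2 a ha a ha, o.p.tx.2 a ha e₀ e1, o.p.ty.2 b hb b' hb', k1, h.refl e2] using pp))
  have k4 : B e b' ≠ 0 := fun k4 => not_mem_pair n k3 (P e k1 (by rintro rfl; simp at k3) k2 k4)
  have k5 : e + e₀ ∉ Submodule.span F {a, s • a + t • e₀} := fun k => k3 (by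
    have : e₀ ∈ Submodule.span F {a, s • a + t • e₀} :=
      Submodule.mem_span_pair.2 ⟨-s / t, 1 / t, by match_scalars <;> field_simp <;> ring⟩
    simpa using Submodule.sub_mem _ k this)
  obtain ⟨f, f1, f2, f3, f4⟩ := o.move ha hb ha' hb' k1 R k2 (not_mem_pair n k3)
  obtain ⟨f', g1, g2, g3, g4⟩ := o.move ha hb ha' hb' (X.add_mem k1 e1) R (by simp [k2, e2])
    (not_mem_pair n k5)
  have aux : ∀ a' ∈ X, ∀ e ∈ X, ∀ f ∈ Y, B a' f = 1 → B e b' ≠ 0 →
      B (a' + b') (a' + b' + (1 : F) • (B e b' • f - e)) ≠ 0 := fun a' ha' e k1 f f1 f3 k4 k => by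
    rw [map_add, alt_self h] at k
    simp [f3, h.symm e b', o.p.ty.2 b' hb' f f1, o.p.tx.2 _ ha' e k1] at k
    exact mul_ne_zero o.two k4 (by linear_combination k)
  obtain ⟨r, r0, r1⟩ := R.third o.two (f4 1) (g4 1) (aux _ ha' e k1 f f1 f3 k4)
    (aux _ ha' _ (X.add_mem k1 e1) f' g1 g3 (by simpa [e3])) fun u v k => by
    have k6 : (1 - u - v) • (s • a + t • e₀) - (e + e₀) + v • e = 0 :=
      Submodule.disjoint_def.1 o.p.compl.disjoint _
        (X.add_mem (X.sub_mem (X.smul_mem _ ha') (X.add_mem k1 e1)) (X.smul_mem _ k1)) (by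
          rw [show (1 - u - v) • (s • a + t • e₀) - (e + e₀) + v • e =
            (u + v - 1) • b' + (v * B e b') • f - B (e + e₀) b' • f' by linear_combination (norm := module) k]
          exact Y.sub_mem (Y.add_mem (Y.smul_mem _ hb') (Y.smul_mem _ f1)) (Y.smul_mem _ g1))
    have v1 : v = 1 := by_contra fun v1 => k3 (Submodule.mem_span_pair.2
      ⟨(s / t) / (1 - v), ((1 - u - v) - 1 / t) / (1 - v), smul_right_injective V (sub_ne_zero.2 (Ne.symm v1)) (by
        simp only [smul_add, smul_smul, mul_div_cancel₀ _ (sub_ne_zero.2 (Ne.symm v1))]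
        have : e₀ = (1 / t) • (t • e₀) := by simp [smul_smul, t0]
        linear_combination (norm := skip) k6
        match_scalars <;> field_simp <;> ring)⟩)
    subst v1
    have u0 : u ≠ 0 := by rintro rfl; simp [e0] at k6
    refine n (Submodule.mem_span_singleton.2 ⟨s / (1 + u * t), ?_⟩)
    have c0 : 1 + u * t ≠ 0 := fun c0 => a0 (smul_right_injective V (mul_ne_zero u0 s0) (by
      simp only [smul_zero]; linear_combination (norm := module) -k6 - c0 • e₀))
    refine smul_right_injective V c0 ?_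
    simp only [smul_smul, mul_div_cancel₀ _ c0]
    linear_combination (norm := module) t • k6
  exact r0 (o.no r r1)

theorem lemU {u w : V} (u0 : u ≠ 0) (uw : B u w = 0) (li : ∀ c : F, u + c • w ≠ 0)
    (hm : ∀ c : F, h.eich u (c • w) 0 ∈ M) : u ∈ Y ∨ w ∈ Y := by
  obtain ⟨a, ha, b, hb, rfl⟩ := o.p.decomp u
  obtain ⟨a', ha', b', hb', rfl⟩ := o.p.decomp w
  have k : ∀ c : F, a - c • a' ∈ Submodule.span F {a + c • a'} := fun c =>
    o.lemK (b := b + c • b') (b' := b - c • b') (X.add_mem ha (X.smul_mem _ ha'))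
      (Y.add_mem hb (Y.smul_mem _ hb')) (X.sub_mem ha (X.smul_mem _ ha')) (Y.sub_mem hb (Y.smul_mem _ hb'))
      (by
        rw [show a + c • a' + (b + c • b') = a + b + c • (a' + b') by module,
          show a - c • a' + (b - c • b') = a + b - c • (a' + b') by module]
        generalize a + b = u at *
        generalize a' + b' = w at *
        intro e
        convert hm (2 * e * c) using 1
        rw [h.eich_inv (alt_Q h _) (map_zero _)]
        ext v
        simp [h.eich_apply (alt_Q h _) (map_zero _), h.eich_apply (alt_Q h u) (show B u ((2 * e * c) • w) = 0 by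
          simp [uw]), alt_self h, uw, h.refl uw]
        module) (by convert li c using 1; module) (by
        rw [show a + c • a' + (b + c • b') = a + b + c • (a' + b') by module,
          show a - c • a' + (b - c • b') = a + b - c • (a' + b') by module]
        generalize a + b = u at *
        generalize a' + b' = w at *
        simp [alt_self h, uw, h.refl uw])
  by_contra! hc
  have a0 : a ≠ 0 := by rintro rfl; simp [hb] at hc
  have a1 : a' ≠ 0 := by rintro rfl; simp [hb'] at hc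
  obtain ⟨t, ht⟩ := Submodule.mem_span_singleton.1 (k 1)
  have t1 : 1 - t ≠ 0 := fun e => a1 (smul_right_injective V o.two (by
    simp only [smul_zero]; linear_combination (norm := module) ht + e • (a + a')))
  have e : a = ((1 + t) / (1 - t)) • a' := smul_right_injective V t1 (by
    simp only [smul_smul, mul_div_cancel₀ _ t1]; linear_combination (norm := module) -ht)
  obtain ⟨s, hs⟩ := Submodule.mem_span_singleton.1 (k (-((1 + t) / (1 - t))))
  rw [neg_smul, ← e] at hs
  exact a0 (smul_right_injective V o.two (by simp only [smul_zero]; linear_combination (norm := module) -hs))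

end PO

theorem max_pair3 {D : Fin 2 → Submodule F V} (p : SPair B Q (D 0) (D 1)) (h3 : 3 ≤ finrank F (D 0))
    (h2 : (2 : F) ≠ 0) : IsMaximalIn h.Om (dstab D ⊓ h.Om) := by
  obtain ⟨s, hs, s1, s2⟩ := h.exists_isom_swap p
  replace hs := (mem_om_alt h).2 hs.1
  have hd := Submodule.disjoint_def.mp p.compl.disjoint
  refine isMaximalIn_inf (fun hc => ?_) fun M hHM hM g hg hgD => ?_
  · obtain ⟨x, hx, y, hy, y2⟩ := h.pair_hyp p (by omega)
    have k := hc (h.eich_mem_om (u := x) (w := 0) (c := -1) (alt_Q h _) (map_zero _) (alt_Q h 0).symm)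
    have k1 : h.eich x 0 (-1) y = y + x := by simp [h.eich_apply (alt_Q h _) (map_zero _), y2]
    rcases mem_dstab_two.mp k with ⟨-, k2⟩ | ⟨-, k2⟩
    · have : y + x ∈ D 1 := by rw [← k2, ← k1]; exact ⟨y, hy, rfl⟩
      simp [hd x hx (by simpa using (D 1).sub_mem this hy)] at y2
    · have : y + x ∈ D 0 := by rw [← k2, ← k1]; exact ⟨y, hy, rfl⟩
      simp [hd y (by simpa using (D 0).sub_mem this hx) hy] at y2
  have hMI := hM.trans h.om_le_isom
  have hH : ∀ x ∈ D 0, ∀ y ∈ D 1, B x y = 0 → h.eich x y 0 ∈ M := fun x hx y hy a =>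
    hHM ⟨mem_dstab_of_le (Fin.forall_fin_two.mpr (h.pair_mem p hx hy a)),
      h.eich_mem_om (p.tx.1 x hx) a (by simp [p.ty.1 y hy])⟩
  have hsM : s ∈ M := hHM ⟨mem_dstab_two.mpr (Or.inr
    ⟨map_eq_of_le' p.dim (by rintro _ ⟨x, hx, rfl⟩; exact s1 x hx),
      map_eq_of_le' p.dim.symm (by rintro _ ⟨x, hx, rfl⟩; exact s2 x hx)⟩), hs⟩
  by_cases no : ∀ r, (∀ e, h.eich r 0 e ∈ M) → r = 0
  · have o : PO h M (D 0) (D 1) := ⟨p, h2, h3, hMI, hH, no⟩
    have k : ∀ x ∈ D 0, ∀ y ∈ D 1, x ≠ 0 → y ≠ 0 → B x y = 0 →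
        (g x ∈ D 0 ∧ g y ∈ D 1) ∨ (g x ∈ D 1 ∧ g y ∈ D 0) := fun x hx y hy x0 y0 a => by
      have u0 : g x ≠ 0 := by simpa
      have w0 : g y ≠ 0 := by simpa
      have uw : B (g x) (g y) = 0 := by rw [(hMI hg).1, a]
      have li : ∀ c : F, g x + c • g y ≠ 0 := fun c e => by
        rw [← map_smul, ← map_add, EmbeddingLike.map_eq_zero_iff, add_eq_zero_iff_eq_neg] at e
        exact x0 (hd x hx (e ▸ (D 1).neg_mem ((D 1).smul_mem c hy)))
      have hm : ∀ c : F, h.eich (g x) (c • g y) 0 ∈ M := fun c => by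
        rw [← map_smul, ← h.conj_eich (hMI hg)]
        exact M.mul_mem (M.mul_mem hg (hH x hx _ ((D 1).smul_mem c hy) (by simp [a]))) (M.inv_mem hg)
      rcases o.lemU u0 uw li hm with e | e <;> rcases o.symm.lemU u0 uw li hm with e' | e'
      · exact absurd (hd _ e' e) u0
      · exact Or.inr ⟨e, e'⟩
      · exact Or.inl ⟨e', e⟩
      · exact absurd (hd _ e' e) w0
    have ex : ∀ (Z : Submodule F V) (y : V), 3 ≤ finrank F Z → ∃ x ∈ Z, x ≠ 0 ∧ B y x = 0 := fun Z y hZ => by
      have := finrank_le_inf_ker Z (B y)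
      obtain ⟨x, a, b⟩ := exists_ne_zero_of_finrank (W := Z ⊓ LinearMap.ker (B y)) (by omega)
      exact ⟨x, a.1, b, a.2⟩
    have k1 : ∀ x ∈ D 0, g x ∈ D 0 ∨ g x ∈ D 1 := fun x hx => by
      by_cases x0 : x = 0
      · simp [x0]
      obtain ⟨y, a, b, c⟩ := ex (D 1) x (p.dim ▸ h3)
      exact (k x hx y a x0 b c).imp And.left And.left
    have k2 : ∀ i j, i ≠ j → (∀ x ∈ D 0, g x ∈ D i) → (∀ x y, (x ∈ D 0 ∧ y ∈ D 1) ∨ (x ∈ D 1 ∧ y ∈ D 0) →
        x ≠ 0 → x ∈ D i → y ∈ D j) → ∀ y ∈ D 1, g y ∈ D j := fun i j _ a b y hy => by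
      by_cases y0 : y = 0
      · simp [y0]
      obtain ⟨x, a1, a2, a3⟩ := ex (D 0) y h3
      exact b _ _ (k x a1 y hy a2 y0 (h.refl a3)) (by simpa) (a x a1)
    refine absurd (mem_dstab_two.2 ?_) hgD
    by_cases c : ∀ x ∈ D 0, g x ∈ D 0
    · exact Or.inl ⟨map_eq_of_le c, map_eq_of_le (k2 0 1 (by decide) c fun x y a b c =>
        a.elim And.right fun a => absurd (hd x c a.1) b)⟩
    push Not at c
    obtain ⟨x, x1, x2⟩ := c
    have c : ∀ x ∈ D 0, g x ∈ D 1 := fun z hz => (k1 z hz).elim (fun a =>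
      (k1 _ ((D 0).add_mem x1 hz)).elim (fun b => absurd (by simpa using (D 0).sub_mem b a) x2)
        fun b => by simpa using (D 1).sub_mem b ((k1 x x1).resolve_left x2)) id
    exact Or.inr ⟨map_eq_of_le' p.dim (by rintro _ ⟨x, hx, rfl⟩; exact c x hx),
      map_eq_of_le' p.dim.symm (by
        rintro _ ⟨y, hy, rfl⟩
        exact k2 1 0 (by decide) c (fun x y a b c => a.elim (fun a => absurd (hd x a.1 c) b) And.right) y hy)⟩
  push Not at no
  obtain ⟨r, hr, r0⟩ := no
  let T : V → Prop := fun y => ∀ c, h.eich y 0 c ∈ M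
  have mv : ∀ e ∈ D 0, ∀ a ∈ D 0, ∀ b, B e b = 0 → b ∈ D 1 → a ∉ Submodule.span F {e} → T (a + b) →
      T (a + b + e) := fun e he a ha b eb hb n t => by
    obtain ⟨f, hf, f1, f2⟩ := h.pair_dual p (by simpa using he) ha n
    have f3 := f1 e (Submodule.mem_span_singleton_self e)
    have := tv_map h hMI (hH e he _ ((D 1).neg_mem hf) (by simp [f3])) t
    rw [h.eich_of_perp (alt_Q h _) (by simp [f3]) _ (by simp [eb, p.tx.2 e he a ha])] at this
    simpa [h.flip_one f2, p.ty.2 f hf b hb] using this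
  obtain ⟨e, he, e0, Te⟩ : ∃ e ∈ D 0, e ≠ 0 ∧ T e := by
    obtain ⟨a, ha, b, hb, rfl⟩ := p.decomp r
    by_cases a0 : a = 0
    · exact ⟨s b, s2 b hb, by simpa [a0] using r0, tv_map h hMI hsM (by simpa [a0] using hr)⟩
    have d1 := finrank_le_inf_ker (D 0) (B b)
    have d2 := finrank_span_one_le (F := F) a
    obtain ⟨e, ⟨e1, e2⟩, e3⟩ := exists_mem_notMem (W := D 0 ⊓ LinearMap.ker (B b))
      (Z := Submodule.span F {a}) (by omega)
    have n : ∀ c : F, a ∉ Submodule.span F {c • e} := fun c k => by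
      obtain ⟨d, rfl⟩ := Submodule.mem_span_singleton.1 k
      have : d * c ≠ 0 := fun k => a0 (by simp [smul_smul, k])
      exact e3 (Submodule.mem_span_singleton.2 ⟨(d * c)⁻¹, by rw [smul_smul d, inv_smul_smul₀ this]⟩)
    have R : ∀ y, T y → RC h M (a + b) y := fun y t c => M.mul_mem (M.inv_mem (hr c)) (t c)
    refine ⟨e, e1, by rintro rfl; simp at e3, (R _ hr).perp h2
      (R _ (mv e e1 a ha b (h.refl e2) hb (by simpa using n 1) hr)) ?_
      (by simp [p.tx.2 a ha e e1, show B b e = 0 from e2])⟩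
    convert (R _ (mv _ ((D 0).neg_mem e1) a ha b (by simp [h.refl e2]) hb (by simpa using n (-1)) hr)).neg
      using 1
    abel
  have TX : ∀ x ∈ D 0, T x := fun x hx => by
    by_cases k : e ∈ Submodule.span F {x - e}
    · obtain ⟨c, hc⟩ := Submodule.mem_span_singleton.1 k
      have c0 : c ≠ 0 := by rintro rfl; exact e0 (by simpa using hc.symm)
      intro d
      rw [show x = ((1 + c) / c) • e from smul_right_injective V c0 (by
        simp only [smul_smul, mul_div_cancel₀ _ c0]; linear_combination (norm := module) hc),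
        h.eich_smul_left (alt_Q h _) (map_zero _), smul_zero]
      exact Te _
    · simpa using mv _ ((D 0).sub_mem hx he) e he 0 (by simp) (D 1).zero_mem k (by simpa using Te)
  have TY : ∀ y ∈ D 1, T y := fun y hy => by
    simpa [LinearEquiv.coe_inv] using tv_map h hMI (M.inv_mem hsM) (TX _ (s2 y hy))
  refine om_le_of_tv h fun v => ?_
  obtain ⟨a, ha, b, hb, rfl⟩ := p.decomp v
  by_cases b0 : b = 0
  · simpa [b0] using TX a ha
  have k : ∀ x ∈ D 0, ∀ z ∈ D 0, B z b ≠ 0 → T (x + b) → T (x + z + b) := fun x hx z hz n t => by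
    convert tv_line h hMI (TX z hz) t (by simpa [p.tx.2 z hz x hx]) 1 using 1
    rw [show x + z + b = x + b + (1 : F) • z by module]
  have k0 : T (0 + b) := by simpa using TY b hb
  by_cases ab : B a b = 0
  · obtain ⟨z, hz, -, z1⟩ := h.pair_dual p.symm (Z := ⊥) bot_le hb (by simpa)
    simpa using k _ ((D 0).add_mem (D 0).zero_mem hz) _ ((D 0).sub_mem ha hz)
      (by simp [ab, h.flip_one z1]) (k 0 (D 0).zero_mem z hz (by simp [h.flip_one z1]) k0)
  · simpa using k 0 (D 0).zero_mem a ha ab k0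

namespace Ag

theorem sp_nd3 {F : Type*} [Field F] [Fintype F] (m : ℕ) (hm : 3 ≤ m) (W : Submodule F (Fin m ⊕ Fin m → F)) (hW0 : W ≠ ⊥) (hW : Cfsg.Geo.IsNondegenerateOn (Cfsg.sympForm m F) W) (hdim : Module.finrank F W < m) : Cfsg.Geo.IsMaximalIn (Cfsg.spGL m F) (Cfsg.Geo.subspaceStabilizer W ⊓ Cfsg.spGL m F) := by
  refine H10.isMaximalIn_gl H10.mem_spGL_iff (fun g _ => H10.mem_subspaceStabilizer_iff W g) ?_
  have h := H10.clSp m F
  have hd := h.form.finrank_perp h.sep W
  simp only [Module.finrank_fintype_fun_eq_card, Fintype.card_sum, Fintype.card_fin] at hd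
  exact h.max_nondeg5 (H10.nondegOn_of (Or.inl H10.sympForm_eq_spBilin) hW) hW0
    (h.smallOk_of_nq H10.nq_zero (Submodule.one_le_finrank_iff.mpr hW0)) (Or.inr ⟨by omega, H10.nq_zero⟩)
    fun g _ => H10.not_map_le_of_lt (by omega) g

theorem sp_pair3 {F : Type*} [Field F] [Fintype F] (m : ℕ) (hm : 3 ≤ m) (hodd : Odd (Fintype.card F)) (D : Fin 2 → Submodule F (Fin m ⊕ Fin m → F)) (hD : Cfsg.Geo.IsMDecomposition m D) (hts : ∀ i, Cfsg.Geo.IsTotallySingularFor (Cfsg.sympForm m F) (D i)) : Cfsg.Geo.IsMaximalIn (Cfsg.spGL m F) (Cfsg.Geo.decompositionStabilizer D ⊓ Cfsg.spGL m F) := by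
  refine H10.isMaximalIn_gl H10.mem_spGL_iff
    (fun g _ => H10.mem_decompositionStabilizer_iff D g) ?_
  have h1 : ∀ i, H11.TotSing (H10.spBilin (Fin m) F) (fun _ => 0) (D i) := fun i =>
    ⟨fun _ _ => rfl, fun x hx y hy => by rw [H10.spBilin_eq_sympForm]; exact hts i x hx y hy⟩
  have p : H10.SPair (H10.spBilin (Fin m) F) (fun _ => 0) (D 0) (D 1) :=
    ⟨h1 0, h1 1, H10.isCompl_of_two hD.indep hD.iSup_eq_top, by rw [hD.finrank_eq, hD.finrank_eq]⟩
  exact max_pair3 p (by rw [hD.finrank_eq]; omega) (H11.two_ne_zero_of_odd_card hodd)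

end Ag

end Cfsg.Agent.H10
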