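import Mathlib
import Cfsg.Agent.H19.TW5
import Cfsg.Agent.H19.TA5

/-! Clifford spaces inside tensor powers: an overgroup in characteristic two. -/

set_option autoImplicit false
set_option maxHeartbeats 400000

namespace Cfsg.Agent.H10.Cf

open Module H10 H11 H19 H19.TW H26 H26.MX

variable {F : Type*} [Field F] {U V : Type*} [AddCommGroup U] [Module F U] [AddCommGroup V] [Module F V]
  {T : Type} {ι : T → (End F U →ₐ[F] End F V)} {S : Set (End F U)}

/-- the span of the identity and the factors' generators -/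
def Lsp (ι : T → (End F U →ₐ[F] End F V)) (S : Set (End F U)) : Submodule F (End F V) :=
  Submodule.span F (insert 1 {z | ∃ i, ∃ x ∈ S, z = ι i x})

theorem cj_app (g : V ≃ₗ[F] V) (l : End F V) (v : V) : g.conjAlgEquiv F l v = g (l (g⁻¹ v)) := rfl

/-- the normaliser of a space of endomorphisms -/
def NL (L : Submodule F (End F V)) : Subgroup (V ≃ₗ[F] V) where
  carrier := {g | ∀ l, g.conjAlgEquiv F l ∈ L ↔ l ∈ L}
  one_mem' _ := Iff.rfl
  mul_mem' {a b} ha hb l := (ha (b.conjAlgEquiv F l)).trans (hb l)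
  inv_mem' {a} ha l := by
    rw [← ha]
    exact iff_of_eq (congrArg (· ∈ L) (by ext; simp only [cj_app, inv_inv, app_inv, inv_app]))

theorem mem_NL {L : Submodule F (End F V)} {g : V ≃ₗ[F] V} (h : ∀ l ∈ L, g.conjAlgEquiv F l ∈ L)
    (h' : ∀ l ∈ L, g⁻¹.conjAlgEquiv F l ∈ L) : g ∈ NL L := fun l =>
  ⟨fun hl => by
    have := h' _ hl
    rwa [show g⁻¹.conjAlgEquiv F (g.conjAlgEquiv F l) = l by ext; simp only [cj_app, inv_inv, app_inv, inv_app]] at this, h l⟩

theorem one_mem_L : (1 : End F V) ∈ Lsp ι S := Submodule.subset_span (Set.mem_insert _ _)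

theorem gen_mem_L (i : T) {x : End F U} (hx : x ∈ S) : ι i x ∈ Lsp ι S :=
  Submodule.subset_span (Set.mem_insert_of_mem _ ⟨i, x, hx, rfl⟩)

theorem L_ind {W : Submodule F (End F V)} (h1 : 1 ∈ W) (h2 : ∀ i, ∀ x ∈ S, ι i x ∈ W) : Lsp ι S ≤ W :=
  Submodule.span_le.2 (by
    rintro _ (rfl | ⟨i, x, hx, rfl⟩)
    exacts [h1, h2 i x hx])

theorem cj_mem_L {g : V ≃ₗ[F] V} (h : ∀ i, ∀ x ∈ S, ∃ j, ∃ y ∈ S, cg g (ι i) x = ι j y) :
    ∀ l ∈ Lsp ι S, g.conjAlgEquiv F l ∈ Lsp ι S := fun l hl =>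
  L_ind (W := (Lsp ι S).comap (g.conjAlgEquiv F).toLinearMap) (by simpa using one_mem_L)
    (fun i x hx => by
      obtain ⟨j, y, hy, h1⟩ := h i x hx
      change cg g (ι i) x ∈ Lsp ι S
      rw [h1]; exact gen_mem_L j hy) hl

theorem add_self (h2 : (2 : F) = 0) {M : Type*} [AddCommGroup M] [Module F M] (x : M) : x + x = 0 := by
  rw [← two_smul F x, h2, zero_smul]

theorem cc_mul {i j : T} (h : CC (ι i) (ι j)) (x y : End F U) : ι j y * ι i x = ι i x * ι j y :=
  LinearMap.ext (h y x)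

section
variable (h2 : (2 : F) = 0) (hc : ∀ i j, i ≠ j → CC (ι i) (ι j))
  (hS : ∀ x ∈ S, ∀ y ∈ S, ∃ c : F, x * y + y * x = c • 1)
include h2 hc hS

theorem cliff {a b : End F V} (ha : a ∈ Lsp ι S) (hb : b ∈ Lsp ι S) : ∃ c : F, a * b + b * a = c • 1 := by
  have h0 : ∀ a b : End F V, (∃ c : F, a * b + b * a = c • 1) ↔
      a ∈ (F ∙ (1 : End F V)).comap (LinearMap.mulRight F b + LinearMap.mulLeft F b) := fun a b => by
    simp [Submodule.mem_span_singleton, eq_comm]
  have h1 : ∀ a : End F V, ∃ c : F, 1 * a + a * 1 = c • 1 := fun a => ⟨0, by simpa using add_self h2 a⟩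
  refine (h0 a b).2 (L_ind ((h0 _ _).1 (h1 b)) (fun i x hx => (h0 _ _).1 ?_) ha)
  rw [add_comm]
  refine (h0 _ _).2 (L_ind ((h0 _ _).1 (h1 _)) (fun j y hy => (h0 _ _).1 ?_) hb)
  by_cases h : i = j
  · subst h
    obtain ⟨c, h3⟩ := hS y hy x hx
    exact ⟨c, by rw [← map_mul, ← map_mul, ← map_add, h3, map_smul, map_one]⟩
  · exact ⟨0, by rw [cc_mul (hc i j h), add_self h2, zero_smul]⟩

theorem cj_u {n : End F V} (hn : n ∈ Lsp ι S) (hn2 : n * n = 0) {u : V ≃ₗ[F] V} (hu : ∀ v, u v = v + n v)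
    {l : End F V} {c : F} (h : n * l + l * n = c • 1) : u.conjAlgEquiv F l = l + c • (1 + n) := by
  have h1 : ∀ v, n (n v) = 0 := LinearMap.congr_fun hn2
  have h3 : ∀ v, n (l v) + l (n v) = c • v := LinearMap.congr_fun h
  ext v
  have h4 : u⁻¹ v = v + n v := inv_eq_of (by
    rw [hu, map_add, h1, add_zero, add_assoc, add_self h2, add_zero])
  have h5 := congrArg n (h3 v)
  rw [cj_app, h4, hu]
  rw [map_add, h1, zero_add, map_smul] at h5
  simp only [map_add, LinearMap.add_apply, LinearMap.smul_apply, End.one_apply]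
  rw [h5, smul_add, ← h3 v]; abel

theorem u_mem {n : End F V} (hn : n ∈ Lsp ι S) (hn2 : n * n = 0) {u : V ≃ₗ[F] V} (hu : ∀ v, u v = v + n v) :
    u ∈ NL (Lsp ι S) := by
  have h1 : ∀ l ∈ Lsp ι S, u.conjAlgEquiv F l ∈ Lsp ι S := fun l hl => by
    obtain ⟨c, h⟩ := cliff h2 hc hS hn hl
    rw [cj_u h2 hc hS hn hn2 hu h]
    exact add_mem hl (Submodule.smul_mem _ _ (add_mem one_mem_L hn))
  refine mem_NL h1 ?_
  rwa [show u⁻¹ = u from LinearEquiv.ext fun v => inv_eq_of (by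
    rw [hu, hu, map_add, show n (n v) = 0 from LinearMap.congr_fun hn2 v, add_zero, add_assoc, add_self h2,
      add_zero])]

theorem u_not [Nontrivial V] {i₀ i₁ : T} (hi : i₀ ≠ i₁) {x y : End F U} (hx : x ∈ S) (hx2 : x * x = 0)
    (hxy : x * y + y * x = 1) {u : V ≃ₗ[F] V} (hu : ∀ v, u v = v + (ι i₀ x + ι i₁ x) v) (j : T)
    (z : End F U) : cg u (ι i₀) y ≠ ι j z := fun h => by
  have h1 : ∀ i, ι i x * ι i x = 0 := fun i => by rw [← map_mul, hx2, map_zero]
  have h3 : ∀ i, ι i x * ι i y + ι i y * ι i x = 1 := fun i => by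
    rw [← map_mul, ← map_mul, ← map_add, hxy, map_one]
  have h4 := cj_u h2 hc hS (add_mem (gen_mem_L i₀ hx) (gen_mem_L i₁ hx)) (by
    rw [add_mul, mul_add, mul_add, h1, h1, cc_mul (hc _ _ hi), zero_add, add_zero, add_self h2]) hu
    (l := ι i₀ y) (c := 1) (by
      rw [add_mul, mul_add, cc_mul (hc _ _ hi), one_smul, ← h3 i₀, add_add_add_comm, add_self h2, add_zero])
  replace h4 : ι j z = ι i₀ y + (1 + (ι i₀ x + ι i₁ x)) := by rw [← h, ← one_smul F (1 + _), ← h4]; rfl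
  refine one_ne_zero (α := End F V) ?_
  by_cases hj : j = i₁
  · subst hj
    have h5 := cc_mul (hc _ _ hi) x z
    rw [h4] at h5
    simp only [add_mul, mul_add, h1, cc_mul (hc _ _ hi), one_mul, mul_one, add_left_inj] at h5
    rw [← h3 i₀, h5, add_self h2]
  · have h5 := cc_mul (hc _ _ hj) z y
    rw [h4] at h5
    simp only [add_mul, mul_add, cc_mul (hc _ _ hi), one_mul, mul_one, add_right_inj] at h5
    rw [← h3 i₁, h5, add_self h2]

theorem not_mem_NL [FiniteDimensional F U] [FiniteDimensional F V] [Fintype T] [DecidableEq T]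
    (hg : ∀ A : Subalgebra F (End F V), (∀ i x, ι i x ∈ A) → A = ⊤)
    (hA : ∀ A : Subalgebra F (End F U), S ⊆ A → ∀ x, x ∈ A) (hn : 9 ≤ finrank F V)
    {X : Submodule F V} (hX : finrank F X ≤ 2) {g : V ≃ₗ[F] V} (h1 : ∀ v, g v - v ∈ X)
    (h : g ∈ NL (Lsp ι S)) (v : V) : g v = v := by
  have h3 : ∀ (Y : Submodule F V) (c : F), finrank F Y ≤ 8 → (∀ v, c • v ∈ Y) → c = 0 := fun Y c h3 h4 => by
    by_contra h5
    have : Y = ⊤ := Submodule.eq_top_iff'.2 fun v => (Y.smul_mem_iff h5).1 (h4 v)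
    rw [this, finrank_top] at h3; omega
  have h4 : ∀ (Y : Submodule F V) (l : End F V), finrank F ↥(Y ⊔ Y.map l) ≤ 2 * finrank F Y := fun Y l => by
    have := Submodule.finrank_add_le_finrank_add_finrank Y (Y.map l)
    have := Submodule.finrank_map_le l Y
    omega
  have h5 : ∀ e : End F V, (∀ l ∈ Lsp ι S, e * l = l * e) → ∃ c : F, ∀ v, e v = c • v := fun e he =>
    scal_of_cm hg fun i y v => LinearMap.congr_fun ((Subalgebra.mem_centralizer_iff F).1
      (hA ((Subalgebra.centralizer F {e}).comap (ι i)) (fun x hx => (Subalgebra.mem_centralizer_iff F).2 (by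
        rintro _ rfl; exact he _ (gen_mem_L i hx))) y) e rfl) v
  obtain ⟨c, h6⟩ := h5 g.toLinearMap fun l hl => by
    have h6 : ∀ v, (g.conjAlgEquiv F l - l) v ∈ X ⊔ X.map l := fun v => by
      have h7 := Submodule.mem_map_of_mem (f := l) (h1 (g⁻¹ v))
      convert sub_mem (Submodule.mem_sup_left (h1 (l (g⁻¹ v)))) (Submodule.mem_sup_right h7) using 1
      simp [cj_app]
    have h7 := h4 X l
    have h8 : g.conjAlgEquiv F l - l ∈ Lsp ι S := sub_mem ((h l).2 hl) hl
    obtain ⟨c, h9⟩ := h5 _ fun l' hl' => by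
      obtain ⟨c, h9⟩ := cliff h2 hc hS h8 hl'
      have h10 := h3 _ c ((h4 (X ⊔ X.map l) l').trans (by omega)) fun v => by
        rw [← show _ = c • v from LinearMap.congr_fun h9 v]
        exact add_mem (Submodule.mem_sup_left (h6 _)) (Submodule.mem_sup_right
          (Submodule.mem_map_of_mem (h6 _)))
      rw [h10, zero_smul] at h9
      rw [eq_neg_of_add_eq_zero_left h9, neg_eq_of_add_eq_zero_left (add_self h2 _)]
    have h10 := h3 _ c (h7.trans (by omega)) fun v => h9 v ▸ h6 v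
    ext v
    have := h9 (g v)
    simpa [h10, cj_app, sub_eq_zero] using this
  have h7 := h3 X (c - 1) (by omega) fun v => by
    have := h1 v
    rwa [show g v = c • v from h6 v, ← one_smul F v, smul_smul, mul_one, ← sub_smul] at this
  rw [show g v = c • v from h6 v, sub_eq_zero.1 h7, one_smul]

end

end Cfsg.Agent.H10.Cf
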