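import Mathlib
import Cfsg.Agent.H10.Ag20

/-! Clifford spaces of symplectic spaces of dimension two and four. -/

set_option autoImplicit false
set_option maxHeartbeats 800000

namespace Cfsg.Agent.H10.Cf

open Module H10 H11 H19 H19.TW H26 H26.MX

variable {F : Type*} [Field F] {U : Type*} [AddCommGroup U] [Module F U] {g : U →ₗ[F] U →ₗ[F] F}

/-- adjoint pairs -/
def Adj (g : U →ₗ[F] U →ₗ[F] F) (x y : End F U) : Prop := ∀ u v, g (x u) v = g u (y v)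

/-- a good generating set -/
structure GS (g : U →ₗ[F] U →ₗ[F] F) (S : Set (End F U)) (P : Prop) : Prop where
  cl : ∀ x ∈ S, ∀ y ∈ S, ∃ c : F, x * y + y * x = c • 1
  gen : ∀ A : Subalgebra F (End F U), S ⊆ A → ∀ x, x ∈ A
  ex : ∃ x ∈ S, ∃ y, x * x = 0 ∧ x * y + y * x = 1 ∧ Adj g x x ∧ (P ∨ ∀ v, g (x v) v = 0)
  inv : ∀ a : U ≃ₗ[F] U, (∀ x y, Adj g x y → Adj g (a.conjAlgEquiv F x) (a.conjAlgEquiv F y)) →
    ∀ x ∈ S, a.conjAlgEquiv F x ∈ S

theorem gen_of [FiniteDimensional F U] (h : Cl (σ := RingHom.id F) (-1) 0 0 g fun _ => 0)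
    {A : Subalgebra F (End F U)} (h1 : ∀ u, r1 u (g u) ∈ A) (x : End F U) : x ∈ A := by
  have h2 : ∀ u w, g u w ≠ 0 → r1 u (g w) ∈ A := fun u w h2 => by
    have := A.smul_mem (mul_mem (h1 u) (h1 w)) (g u w)⁻¹
    rwa [r1_mul, smul_smul, inv_mul_cancel₀ h2, one_smul] at this
  have h3 : ∀ u φ, r1 u φ ∈ A := fun u φ => by
    obtain ⟨w, rfl⟩ := h.exists_B φ
    by_cases h3 : g u w = 0
    swap
    · exact h2 u w h3
    by_cases hu : u = 0
    · simp [hu, zero_mem]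
    obtain ⟨y, hy⟩ := h.form.exists_right_eq_one h.sep hu
    simpa using sub_mem (h2 u (w + y) (by simp [h3, hy])) (h2 u y (by simp [hy]))
  rw [← mul_one x, ← sum_r1, Finset.mul_sum]
  exact A.sum_mem fun k _ => by rw [mul_r1]; exact h3 _ _

theorem cj_r1 (a : U ≃ₗ[F] U) (u : U) (φ : Dual F U) :
    a.conjAlgEquiv F (r1 u φ) = r1 (a u) (φ ∘ₗ a⁻¹.toLinearMap) := by
  ext; simp [cj_app]

theorem cl2 {u w : Fin 2 → F} {φ ψ : Dual F (Fin 2 → F)} (h1 : φ u = 0) (h2 : ψ w = 0) :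
    r1 u φ * r1 w ψ + r1 w ψ * r1 u φ = (φ w * ψ u) • 1 := by
  have h3 : ∀ (χ : Dual F (Fin 2 → F)) (z : Fin 2 → F), χ z = z 0 * χ ![1, 0] + z 1 * χ ![0, 1] :=
    fun χ z => by
      rw [← smul_eq_mul, ← smul_eq_mul, ← map_smul, ← map_smul, ← map_add]
      congr 1; ext i; fin_cases i <;> simp
  refine LinearMap.ext fun z => funext fun i => ?_
  simp only [r1_mul, LinearMap.add_apply, LinearMap.smul_apply, r1_apply, End.one_apply, Pi.add_apply,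
    Pi.smul_apply, smul_eq_mul]
  rw [h3 φ u] at h1
  rw [h3 ψ w] at h2
  rw [h3 φ w, h3 ψ u, h3 φ z, h3 ψ z]
  fin_cases i
  · simp only [Fin.zero_eta]
    linear_combination ((z 0 * ψ ![1, 0] + z 1 * ψ ![0, 1]) * w 0 -
      (w 0 * ψ ![1, 0] + w 1 * ψ ![0, 1]) * z 0) * h1 + (z 0 * φ ![1, 0] + z 1 * φ ![0, 1]) * u 0 * h2
  · simp only [Fin.mk_one]
    linear_combination ((z 0 * ψ ![1, 0] + z 1 * ψ ![0, 1]) * w 1 -
      (w 0 * ψ ![1, 0] + w 1 * ψ ![0, 1]) * z 1) * h1 + (z 0 * φ ![1, 0] + z 1 * φ ![0, 1]) * u 1 * h2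

theorem gs2 (h2 : (2 : F) = 0) {g : (Fin 2 → F) →ₗ[F] (Fin 2 → F) →ₗ[F] F}
    (h : Cl (σ := RingHom.id F) (-1) 0 0 g fun _ => 0) {P : Prop} (hP : P) :
    GS g {x | ∃ u φ, φ u = 0 ∧ x = r1 u φ} P := by
  refine ⟨?_, fun A hA => gen_of h fun u => hA ⟨u, g u, alt_self h u, rfl⟩, ?_, ?_⟩
  · rintro _ ⟨u, φ, h1, rfl⟩ _ ⟨w, ψ, h3, rfl⟩
    exact ⟨_, cl2 h1 h3⟩
  · obtain ⟨u, hu⟩ := exists_ne (0 : Fin 2 → F)
    obtain ⟨w, hw⟩ := h.form.exists_right_eq_one h.sep hu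
    refine ⟨_, ⟨u, g u, alt_self h u, rfl⟩, r1 w (-g w), by simp [r1_mul, alt_self h u], ?_, fun a b => ?_,
      .inl hP⟩
    · rw [cl2 (alt_self h u) (by simp [alt_self h w])]; simp [hw, h.flip_one hw]
    · simp only [r1_apply, map_smul, LinearMap.smul_apply, smul_eq_mul, h.symm u a, RingHom.id_apply]
      linear_combination (g u a * g u b) * h2
  · rintro a - _ ⟨u, φ, h1, rfl⟩
    exact ⟨_, _, by simpa using h1, cj_r1 a u φ⟩

/-- the Pfaffian of four vectors -/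
def pf4 (g : U →ₗ[F] U →ₗ[F] F) (a b c d : U) : F := g a b * g c d - g a c * g b d + g a d * g b c

theorem pf5 {g : (Fin 4 → F) →ₗ[F] (Fin 4 → F) →ₗ[F] F} (h : Cl (σ := RingHom.id F) (-1) 0 0 g fun _ => 0)
    (a b c d e : Fin 4 → F) : pf4 g b c d e • a - pf4 g a c d e • b + pf4 g a b d e • c -
      pf4 g a b c e • d + pf4 g a b c d • e = 0 := by
  obtain ⟨G, hG⟩ : ∃ G : Fin 6 → F, ∀ x y, g x y = G 0 * (x 0 * y 1 - x 1 * y 0) + G 1 * (x 0 * y 2 - x 2 * y 0) +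
      G 2 * (x 0 * y 3 - x 3 * y 0) + G 3 * (x 1 * y 2 - x 2 * y 1) + G 4 * (x 1 * y 3 - x 3 * y 1) +
      G 5 * (x 2 * y 3 - x 3 * y 2) := by
    let E : Fin 4 → Fin 4 → F := fun i => Pi.single i 1
    refine ⟨![g (E 0) (E 1), g (E 0) (E 2), g (E 0) (E 3), g (E 1) (E 2), g (E 1) (E 3), g (E 2) (E 3)],
      fun x y => ?_⟩
    have h1 : ∀ x : Fin 4 → F, x = x 0 • E 0 + x 1 • E 1 + x 2 • E 2 + x 3 • E 3 := fun x => by
      ext i; fin_cases i <;> simp [E]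
    conv_lhs => rw [h1 x, h1 y]
    simp [alt_self h, h.symm (E 0) (E 1), h.symm (E 0) (E 2), h.symm (E 0) (E 3), h.symm (E 1) (E 2),
      h.symm (E 1) (E 3), h.symm (E 2) (E 3)]
    ring
  funext i
  simp only [pf4, hG, Pi.add_apply, Pi.sub_apply, Pi.smul_apply, smul_eq_mul, Pi.zero_apply]
  fin_cases i
  · simp only [Fin.zero_eta]; ring
  · simp only [Fin.mk_one]; ring
  · simp only [Fin.reduceFinMk]; ring
  · simp only [Fin.reduceFinMk]; ring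

/-- the wedge of two vectors -/
def wg (g : U →ₗ[F] U →ₗ[F] F) (u v : U) : End F U := r1 u (g v) - r1 v (g u)

theorem wg_apply (u v z : U) : wg g u v z = g v z • u - g u z • v := rfl

theorem cl4 {g : (Fin 4 → F) →ₗ[F] (Fin 4 → F) →ₗ[F] F} (h : Cl (σ := RingHom.id F) (-1) 0 0 g fun _ => 0)
    {u v a b : Fin 4 → F} (h1 : g u v = 0) (h2 : g a b = 0) :
    wg g u v * wg g a b + wg g a b * wg g u v = (-pf4 g u v a b) • 1 := by
  refine LinearMap.ext fun z => ?_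
  have h3 := pf5 h u v a b z
  simp only [pf4, h1, h2] at h3
  simp only [LinearMap.add_apply, End.mul_apply, wg_apply, map_sub, map_smul, LinearMap.smul_apply,
    End.one_apply, smul_eq_mul, pf4, h1, h2, h.symm u a, h.symm v a, h.symm u b, h.symm v b, RingHom.id_apply]
  linear_combination (norm := module) h3

theorem adj_wg (h : Cl (σ := RingHom.id F) (-1) 0 0 g fun _ => 0) (u v : U) :
    Adj g (r1 u (g v)) (-r1 v (g u)) := fun a b => by
  simp [h.symm v a, mul_comm]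

theorem gs4 {g : (Fin 4 → F) →ₗ[F] (Fin 4 → F) →ₗ[F] F}
    (h : Cl (σ := RingHom.id F) (-1) 0 0 g fun _ => 0) (P : Prop) :
    GS g {x | ∃ u φ y, φ u = 0 ∧ Adj g (r1 u φ) y ∧ x = r1 u φ + y} P := by
  have h1 : ∀ u v, g u v = 0 → wg g u v ∈ {x | ∃ u φ y, φ u = 0 ∧ Adj g (r1 u φ) y ∧ x = r1 u φ + y} :=
    fun u v h1 => ⟨u, g v, _, h.refl h1, adj_wg h u v, sub_eq_add_neg _ _⟩
  have h2 : ∀ x ∈ {x | ∃ u φ y, φ u = 0 ∧ Adj g (r1 u φ) y ∧ x = r1 u φ + y}, ∃ u v, g u v = 0 ∧ x = wg g u v := by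
    rintro _ ⟨u, φ, y, h2, h3, rfl⟩
    obtain ⟨v, rfl⟩ := h.exists_B φ
    refine ⟨u, v, h.refl h2, ?_⟩
    rw [show y = -r1 v (g u) from LinearMap.ext fun b => sub_eq_zero.1 (h.form.separatingRight h.sep
      fun a => by rw [map_sub, ← h3, ← adj_wg h, sub_self]), wg, sub_eq_add_neg]
  have h3 : ∀ u : Fin 4 → F, ∃ v w, g u v = 0 ∧ g u w = 0 ∧ g v w = 1 := fun u => by
    obtain ⟨v, w, h3, h4, h5⟩ := TA.exists_hyp h (F ∙ u) (by
      have := finrank_span_one_le (F := F) u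
      simp only [finrank_fintype_fun_eq_card, Fintype.card_fin]; omega)
    exact ⟨v, w, h3 u (Submodule.mem_span_singleton_self u), h4 u (Submodule.mem_span_singleton_self u), h5⟩
  refine ⟨fun x hx y hy => ?_, fun A hA => gen_of h fun u => ?_, ?_, ?_⟩
  · obtain ⟨u, v, h4, rfl⟩ := h2 x hx
    obtain ⟨a, b, h5, rfl⟩ := h2 y hy
    exact ⟨_, cl4 h h4 h5⟩
  · obtain ⟨v, w, h4, h5, h6⟩ := h3 u
    convert neg_mem (mul_mem (hA (h1 u v h4)) (hA (h1 u w h5))) using 1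
    refine LinearMap.ext fun z => ?_
    simp [wg_apply, alt_self h, h4, h5, h6, h.refl h4]
  · obtain ⟨u, hu⟩ := exists_ne (0 : Fin 4 → F)
    obtain ⟨v, w, h4, h5, h6⟩ := h3 u
    obtain ⟨a, ha⟩ := h.form.exists_right_eq_one h.sep hu
    refine ⟨_, h1 u v h4, wg g (a - g a w • v) w, LinearMap.ext fun z => ?_, ?_, fun a b => ?_,
      .inr fun z => ?_⟩
    · simp [wg_apply, alt_self h, h4, h.refl h4]
    · rw [cl4 h h4 (by simp [h6])]; simp [pf4, h4, h5, h6, ha]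
    · simp [wg_apply, h.symm u a, h.symm v a]; ring
    · simp [wg_apply]; ring
  · rintro a ha _ ⟨u, φ, y, h4, h5, rfl⟩
    exact ⟨_, _, _, by simpa using h4, cj_r1 a u φ ▸ ha _ _ h5, by rw [map_add, cj_r1]⟩

end Cfsg.Agent.H10.Cf
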