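import Mathlib
import Cfsg.Agent.H10.Ag21

/-! Tensor powers of small symplectic spaces in characteristic two are not maximal. -/

set_option autoImplicit false
set_option maxHeartbeats 800000

namespace Cfsg.Agent.H10.Cf

open Module H10 H11 H19 H19.TW H26 H26.MX Cfsg.Geo Matrix

variable {F : Type*} [Field F] {κ : Type} [Fintype κ] [DecidableEq κ] {m t : ℕ}
  (e : κ ≃ (Fin t → Fin m)) (P : GL κ F)

/-- pure tensors -/
def pten (xs : Fin t → Fin m → F) : κ → F :=
  P.val *ᵥ ((fun a : Fin t → Fin m => ∏ i, xs i (a i)) ∘ e)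

theorem tpw_mulVec (x : Fin t → Matrix (Fin m) (Fin m) F) (xs : Fin t → Fin m → F) :
    tpw x *ᵥ (fun a => ∏ i, xs i (a i)) = fun a => ∏ i, (x i *ᵥ xs i) (a i) := by
  ext a
  simp only [mulVec, dotProduct, tpw_apply, ← Finset.prod_mul_distrib, Finset.prod_univ_sum,
    Fintype.piFinset_univ]

theorem fe_pten (i : Fin t) (x : End F (Fin m → F)) (xs : Fin t → Fin m → F) :
    fe e P i x (pten e P xs) = pten e P (Function.update xs i (x (xs i))) := by
  rw [fe_apply, toLinAlgEquiv'_apply, pten, trA_mulVec, fac_apply, tpw_mulVec, pten]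
  congr 2
  ext a
  refine Finset.prod_congr rfl fun j _ => ?_
  by_cases h : j = i
  · subst h
    rw [Pi.mulSingle_eq_same, Function.update_self, ← toLinAlgEquiv'_apply]
    simp
  · simp [h]

theorem pten_span {W : Submodule F (κ → F)} (h : ∀ xs, pten e P xs ∈ W) (v : κ → F) : v ∈ W := by
  have h1 : ∀ y : (Fin t → Fin m) → F, P.val *ᵥ (y ∘ e) ∈ W := fun y => by
    rw [pi_eq_sum_univ' y]
    have : ∀ s : Finset (Fin t → Fin m), P.val *ᵥ ((∑ a ∈ s, y a • Pi.single a (1 : F)) ∘ e) ∈ W := fun s => by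
      induction s using Finset.induction_on with
      | empty => simpa using W.zero_mem
      | insert a s ha ih =>
        rw [Finset.sum_insert ha, Pi.add_comp, Pi.smul_comp, mulVec_add, mulVec_smul]
        refine add_mem (W.smul_mem _ ?_) ih
        rw [show (Pi.single a (1 : F) : (Fin t → Fin m) → F) = fun b => ∏ i, (Pi.single (a i) (1 : F) :
          Fin m → F) (b i) from funext fun b => by
            simp only [Pi.single_apply, Finset.prod_ite_zero, Finset.mem_univ, true_imp_iff,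
              Finset.prod_const_one, funext_iff]]
        exact h fun i => Pi.single (a i) 1
    exact this Finset.univ
  convert h1 ((P⁻¹.val *ᵥ v) ∘ e.symm)
  rw [Function.comp_assoc, e.symm_comp_self, Function.comp_id, mulVec_mulVec]
  simp

variable {e P} {B : (κ → F) →ₗ[F] (κ → F) →ₗ[F] F} {g : (Fin m → F) →ₗ[F] (Fin m → F) →ₗ[F] F} {c : F}

theorem B_pten {f : (κ → F) → (κ → F) → F} {f₁ : (Fin m → F) → (Fin m → F) → F} (h₁ : IsBilinearForm f₁)
    (hT : ∀ x y : (Fin t → Fin m) → F, f (P.val *ᵥ (x ∘ e)) (P.val *ᵥ (y ∘ e)) =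
      c * ∑ a, ∑ b, x a * (∏ i, gramMatrix f₁ (a i) (b i)) * id (y b)) (xs ys : Fin t → Fin m → F) :
    f (pten e P xs) (pten e P ys) = c * ∏ i, f₁ (xs i) (ys i) := by
  rw [pten, pten, hT]
  simp only [TA.gram_eq h₁ (xs _), Finset.prod_univ_sum, Fintype.piFinset_univ, id, Finset.prod_mul_distrib]

section
variable (hB : ∀ xs ys, B (pten e P xs) (pten e P ys) = c * ∏ i, g (xs i) (ys i))
include hB

theorem B_upd (xs ys : Fin t → Fin m → F) (j : Fin t) (u v : Fin m → F) :
    B (pten e P (Function.update xs j u)) (pten e P (Function.update ys j v)) =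
      (c * ∏ i ∈ Finset.univ.erase j, g (xs i) (ys i)) * g u v := by
  rw [hB, ← Finset.prod_erase_mul _ _ (Finset.mem_univ j), Function.update_self, Function.update_self, mul_assoc]
  congr 2
  exact Finset.prod_congr rfl fun i hi => by
    rw [Function.update_of_ne (Finset.ne_of_mem_erase hi), Function.update_of_ne (Finset.ne_of_mem_erase hi)]

theorem adj_fe (j : Fin t) {x y : End F (Fin m → F)} (h : Adj g x y) : Adj B (fe e P j x) (fe e P j y) := by
  intro u v
  refine sub_eq_zero.1 (pten_span e P (W := LinearMap.ker (B.flip v ∘ₗ fe e P j x - B.flip (fe e P j y v)))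
    (fun xs => ?_) u)
  refine pten_span e P (W := LinearMap.ker (B (fe e P j x (pten e P xs)) - B (pten e P xs) ∘ₗ fe e P j y))
    (fun ys => sub_eq_zero.2 ?_) v
  have h1 := B_upd hB xs ys j (x (xs j)) (ys j)
  have h2 := B_upd hB xs ys j (xs j) (y (ys j))
  rw [Function.update_eq_self] at h1 h2
  rw [LinearMap.comp_apply, fe_pten, fe_pten, h1, h2, h]

theorem adj_of_fe (hc : c ≠ 0) {a b : Fin m → F} (hab : g a b = 1) (j : Fin t) {x y : End F (Fin m → F)}
    (h : Adj B (fe e P j x) (fe e P j y)) : Adj g x y := fun u v => by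
  have := h (pten e P (Function.update (fun _ => a) j u)) (pten e P (Function.update (fun _ => b) j v))
  simpa [fe_pten, B_upd hB, hab, hc] using this

end

theorem cg_wr {w : GL κ F} (hw : w ∈ tensorWreathSubgroup m t e P) (i : Fin t) :
    ∃ (j : Fin t) (a : (Fin m → F) ≃ₗ[F] (Fin m → F)), ∀ x,
      cg (glEquiv κ F w) (fe e P i) x = fe e P j (a.conjAlgEquiv F x) := by
  obtain ⟨σ, a, rfl⟩ := exists_eq_of_mem_tensorWreathSubgroup hw
  refine ⟨σ i, glEquiv _ F (a i), fun x => ?_⟩
  rw [cg_fe, ← trA_cj, cj_mul, cj_tpwG_fac, cj_facPerm_fac, fe_apply]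
  congr 3
  refine (LinearMap.toMatrixAlgEquiv'.eq_symm_apply.1 (LinearMap.ext fun v => ?_)).symm
  rw [cj_app, ← map_inv, glEquiv_apply, glEquiv_apply]
  simp [cj_apply]

theorem not_max [Finite F] (h2 : (2 : F) = 0) {Q : (κ → F) → F}
    (hQ : Cl (σ := RingHom.id F) 1 2 (AddMonoidHom.id F) B Q) (hn : 9 ≤ Fintype.card κ) (ht : 2 ≤ t)
    (hg : Cl (σ := RingHom.id F) (-1) 0 0 g fun _ => 0) (hc : c ≠ 0)
    (hB : ∀ xs ys, B (pten e P xs) (pten e P ys) = c * ∏ i, g (xs i) (ys i))
    (hp : ∀ xs, Q (pten e P xs) = 0) {S : Set (End F (Fin m → F))} (hS : GS g S (3 ≤ t)) :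
    ∃ K : Subgroup (GL κ F), tensorWreathSubgroup m t e P ⊓ omegaGL Q < K ∧ K < omegaGL Q := by
  have hn' : 9 ≤ finrank F (κ → F) := by simpa using hn
  have : Nontrivial (κ → F) := Module.nontrivial_of_finrank_pos (R := F) (by omega)
  have hO := mem_omegaGL_iff hQ (by omega)
  obtain ⟨x, hx, y, h3, h4, h5, h6⟩ := hS.ex
  obtain ⟨a₀, ha₀⟩ : ∃ a : Fin m → F, a ≠ 0 := by
    by_contra! h7
    exact one_ne_zero (α := End F (κ → F)) (by
      rw [← map_one (fe e P ⟨0, by omega⟩), show (1 : End F (Fin m → F)) = 0 from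
        LinearMap.ext fun a => h7 a, map_zero])
  obtain ⟨b₀, hb₀⟩ := hg.form.exists_right_eq_one hg.sep ha₀
  have h7 : ∀ w ∈ tensorWreathSubgroup m t e P ⊓ omegaGL Q, ∀ l ∈ Lsp (fe e P) S,
      (glEquiv κ F w).conjAlgEquiv F l ∈ Lsp (fe e P) S := fun w hw => cj_mem_L fun i x hx => by
    obtain ⟨j, a, h7⟩ := cg_wr hw.1 i
    refine ⟨j, _, hS.inv a (fun x y h8 => adj_of_fe hB hc hb₀ j fun u v => ?_) x hx, h7 x⟩
    have h9 := (hQ.om_le_isom ((hO w).1 hw.2)).1
    rw [← h7, ← h7, cg_apply, cg_apply, ← app_inv (glEquiv κ F w) v, h9, adj_fe hB i h8, ← h9, app_inv,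
      inv_app]
  refine ⟨omegaGL Q ⊓ (NL (Lsp (fe e P) S)).comap (glEquiv κ F).toMonoidHom, lt_of_le_not_ge
    (fun w hw => ⟨hw.2, mem_NL (h7 w hw) (by
      rw [← map_inv]; exact h7 w⁻¹ (inv_mem hw))⟩) fun h8 => ?_, lt_of_le_not_ge inf_le_left fun h8 => ?_⟩
  · let i₀ : Fin t := ⟨0, by omega⟩
    let i₁ : Fin t := ⟨1, by omega⟩
    have hi : i₀ ≠ i₁ := by simp [i₀, i₁]
    let n := fe e P i₀ x + fe e P i₁ x
    have h9 : n * n = 0 := by
      simp only [n, add_mul, mul_add, ← map_mul, h3, map_zero, cc_mul (fe_cc e P _ _ hi), zero_add, add_zero,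
        add_self h2]
    have h10 : ∀ v, n (n v) = 0 := LinearMap.congr_fun h9
    have h11 : ∀ u v, B (n u) v = B u (n v) := fun u v => by
      simp only [n, LinearMap.add_apply, map_add, adj_fe hB _ h5 u v]
    have h12 : ∀ i xs, B (fe e P i x (pten e P xs)) (pten e P xs) = 0 := fun i xs => by
      have h12 := B_upd hB xs xs i (x (xs i)) (xs i)
      rw [Function.update_eq_self] at h12
      obtain ⟨j, hj⟩ : ∃ j, j ≠ i := by
        by_cases h : i = i₀
        exacts [⟨i₁, h ▸ hi.symm⟩, ⟨i₀, Ne.symm h⟩]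
      rw [fe_pten, h12, Finset.prod_eq_zero (Finset.mem_erase.2 ⟨hj, Finset.mem_univ j⟩) (alt_self hg _),
        mul_zero, zero_mul]
    have h13 : ∀ v, B (n v) v = 0 := fun v => pten_span e P (W :=
      { carrier := {v | B (n v) v = 0}
        zero_mem' := by simp
        add_mem' := fun {a b} (ha : B _ _ = 0) (hb : B _ _ = 0) => by
          change B _ _ = 0
          simp only [map_add, LinearMap.add_apply, ha, hb, h11 a b, TA.qs hQ a]
          linear_combination B (n b) a * h2
        smul_mem' := fun r a (ha : B _ _ = 0) => by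
          change B _ _ = 0
          simp [ha] }) (fun xs => by
        change B _ _ = 0
        simp only [n, LinearMap.add_apply, map_add, h12, add_zero]) v
    have h14 : ∀ v, Q (n v) = 0 := fun v => pten_span e P (W :=
      { carrier := {v | Q (n v) = 0}
        zero_mem' := by simp [hQ.Q_zero]
        add_mem' := fun {a b} (ha : Q _ = 0) (hb : Q _ = 0) => by
          change Q _ = 0
          simp [hQ.Q_add, ha, hb, h11, h10]
        smul_mem' := fun r a (ha : Q _ = 0) => by
          change Q _ = 0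
          simp [hQ.Q_smul, ha] }) (fun xs => by
        change Q _ = 0
        simp only [n, LinearMap.add_apply, hQ.Q_add, fe_pten, hp, hB, zero_add, AddMonoidHom.id_apply]
        rcases h6 with h6 | h6
        · rw [Finset.prod_eq_zero (Finset.mem_univ ⟨2, by omega⟩) (by
            rw [Function.update_of_ne (by simp [i₀, Fin.ext_iff]), Function.update_of_ne (by simp [i₁, Fin.ext_iff]), alt_self hg]),
            mul_zero]
        · rw [Finset.prod_eq_zero (Finset.mem_univ i₀) (by
            rw [Function.update_self, Function.update_of_ne hi, h6]), mul_zero]) v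
    let u : (κ → F) ≃ₗ[F] (κ → F) := unip n h10
    have h15 : u ∈ hQ.Om := TA.mem_om_ts hQ (X := LinearMap.range n) (by rintro _ ⟨v, rfl⟩; exact h14 v) _ n rfl
      (fun v => ⟨v, rfl⟩) h13 u fun _ => rfl
    have h16 := h8 (x := (glEquiv κ F).symm u) ⟨(hO _).2 (by simpa), by
      simpa using u_mem h2 (fe_cc e P) hS.cl (add_mem (gen_mem_L i₀ hx) (gen_mem_L i₁ hx)) h9 fun _ => rfl⟩
    obtain ⟨j, a, h17⟩ := cg_wr h16.1 i₀
    rw [MulEquiv.apply_symm_apply] at h17
    exact u_not h2 (fe_cc e P) hS.cl hi hx h3 h4 (fun _ => rfl) j _ (h17 y)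
  · obtain ⟨a, -, ha, h9⟩ := hQ.exists_sing3 (W := ⊤) (by rw [finrank_top]; omega)
    obtain ⟨b, b', h10, h11, h12⟩ := TA.exists_hyp hQ (F ∙ a) (by rw [finrank_span_singleton ha]; omega)
    replace h10 := h10 a (Submodule.mem_span_singleton_self a)
    replace h11 := h11 a (Submodule.mem_span_singleton_self a)
    have h13 := h8 ((hO ((glEquiv κ F).symm (hQ.eich a b (Q b)))).2 (by
      simpa using hQ.eich_mem_om h9 h10 rfl))
    have h14 := not_mem_NL h2 (fe_cc e P) hS.cl (fe_gen e P) hS.gen hn' (H10.finrank_span_pair_le a b)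
      (g := hQ.eich a b (Q b)) (fun v => by
        rw [hQ.eich_apply h9 h10, Submodule.mem_span_pair]
        exact ⟨B b v - Q b * B a v, -B a v, by module⟩) (by simpa using h13.2) b'
    rw [hQ.eich_apply h9 h10] at h14
    exact ha (by simpa [h11, h12] using h14)

end Cfsg.Agent.H10.Cf
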