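import Mathlib
import Cfsg.Agent.H10.Ag6
import Cfsg.Agent.H10.Ag14

/-! Subfield subgroups of odd prime index of unitary groups of dimension at least four. -/

set_option autoImplicit false
set_option maxHeartbeats 400000

namespace Cfsg.Agent.H10

open Module H11 Cfsg.Geo

namespace Cl

variable {F : Type*} [Field F] {V : Type*} [AddCommGroup V] [Module F V] {σ : F →+* F}
  {ε κ : F} {τ : F →+ F} {B : V →ₛₗ[σ] V →ₗ[F] F} {Q : V → F} (h : Cl ε κ τ B Q)
include h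

theorem perp_sub4 [FiniteDimensional F V] [Finite F] (hq : NQ τ) (hn : 4 ≤ finrank F V) {e : V}
    (he0 : e ≠ 0) (he : Q e = 0) {S : Submodule F V} (heS : e ∈ S)
    (hS : ∀ u x c, Q u = 0 → B u x = 0 → τ c = Q x → B u e = 0 → B x e = 0 →
      ∀ s ∈ S, h.eich u x c s ∈ S) {f : V} (hf : f ∈ S) (hfe : f ∉ Submodule.span F {e})
    {y : V} (hy : B e y = 0) : y ∈ S := by
  obtain ⟨e', he', hee⟩ := h.form.exists_partner h.sep he he0
  have hP := h.form.nondegOn_span_pair he he' (by simp [hee])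
  have hU := h.form.nondegOn_perp h.sep hP
  have d5 := h.form.finrank_perp h.sep (Submodule.span F {e, e'})
  have d6 := finrank_span_pair_le (F := F) e e'
  have hm : ∀ x, x ∈ perp B (Submodule.span F {e, e'}) ↔ B e x = 0 ∧ B e' x = 0 := fun x => by
    rw [mem_perp_span]; simp
  have pr : ∀ y, B e y = 0 → y - (ε * B e' y) • e ∈ perp B (Submodule.span F {e, e'}) := fun y hy =>
    (hm _).mpr ⟨by simp [hy, h.diag0 he], by
      simp only [map_sub, map_smul, h.flip_one hee, smul_eq_mul]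
      linear_combination (-B e' y) * h.eps_mul⟩
  by_cases hef : B e f = 0
  · obtain ⟨f', a1, a2⟩ := h.form.exists_perp_not h.sep hfe
    replace a1 := a1 e (Submodule.mem_span_singleton_self e)
    have k := h.irr hU (Or.inr ⟨by omega, hq⟩) (S := S) (fun u hu w hw c a b d =>
      hS u w c a b d (h.refl ((hm u).1 hu).1) (h.refl ((hm w).1 hw).1)) hf
      ⟨_, pr f' a1, by simp [hef, h.flip_one a2, h.eps_ne]⟩
    simpa using S.add_mem (k (pr y hy)) (S.smul_mem (ε * B e' y) heS)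
  · obtain ⟨c, hc⟩ := h.exists_tau y
    have k := S.sub_mem (hS e y c he hy hc (h.diag0 he) (h.refl hy) f hf) hf
    rw [h.eich_apply he hy] at k
    rw [← S.smul_mem_iff (mul_ne_zero h.eps_ne hef)]
    convert S.sub_mem (S.smul_mem (B y f - c * B e f) heS) k using 1
    module

theorem tv_ar {M : Subgroup (V ≃ₗ[F] V)} (hM : M ≤ Isom B Q) {e f a : V} (hf : Q f = 0)
    (hfe : B f e = 0) {c : F} (hc : h.eich f 0 c ∈ M) (ha : a ∈ h.Ar M e) :
    (c * B f a) • f ∈ h.Ar M e := by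
  have k := AddSubgroup.sub_mem _ ha (h.map_mem_ar_fix hM hc (h.eich_fix _ hfe (by simp)) ha)
  rw [h.eich_apply hf (by simp)] at k
  simpa using k

end Cl

namespace SubU

variable {F : Type*} [Field F] {K : Subfield F} {θ : F ≃+* F} {ι : Type} [Fintype ι] [DecidableEq ι]
  {σ : F →+* F} {σ₀ : K →+* K} {B : (ι → F) →ₛₗ[σ] (ι → F) →ₗ[F] F} {Q : (ι → F) → F}
  {B₀ : (ι → K) →ₛₗ[σ₀] (ι → K) →ₗ[K] K} {Q₀ : (ι → K) → K}
  {R : Rat θ 1 1 (trHom σ) B Q 1 1 (trHom σ₀) B₀ Q₀ 1}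
  {M : Subgroup ((ι → F) ≃ₗ[F] (ι → F))}

theorem ea {V : Type*} [AddCommGroup V] [Module F V] {B : V →ₛₗ[σ] V →ₗ[F] F} {Q : V → F}
    (h : Cl 1 1 (trHom σ) B Q) {u w : V} (hu : Q u = 0) (huw : B u w = 0) (c : F) (x : V) :
    h.eich u w c x = x + B w x • u - B u x • w - (c * B u x) • u := by
  rw [h.eich_apply hu huw, one_mul]

/-- an independent totally isotropic pair -/
structure Pr (B₀ : (ι → K) →ₛₗ[σ₀] (ι → K) →ₗ[K] K) (Q₀ : (ι → K) → K) (e f : ι → K) : Prop where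
  ne : e ≠ 0
  nm : f ∉ Submodule.span K {e}
  se : Q₀ e = 0
  sf : Q₀ f = 0
  pp : B₀ e f = 0

omit [Fintype ι] [DecidableEq ι] in
theorem Pr.symm (R : Rat θ 1 1 (trHom σ) B Q 1 1 (trHom σ₀) B₀ Q₀ 1) {e f : ι → K}
    (p : Pr B₀ Q₀ e f) : Pr B₀ Q₀ f e :=
  ⟨by rintro rfl; exact p.nm (Submodule.zero_mem _), notMem_span_symm p.ne p.nm, p.sf, p.se,
    R.cl₀.refl p.pp⟩

omit [Fintype ι] [DecidableEq ι] in
theorem hB1 (R : Rat θ 1 1 (trHom σ) B Q 1 1 (trHom σ₀) B₀ Q₀ 1) (x y : ι → K) :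
    B (jv K x) (jv K y) = B₀ x y := by simp [R.hB]

/-- The standing hypotheses. -/
structure Su (R : Rat θ 1 1 (trHom σ) B Q 1 1 (trHom σ₀) B₀ Q₀ 1)
    (M : Subgroup ((ι → F) ≃ₗ[F] (ι → F))) (t : F) : Prop where
  o : R.Ov M
  hs : ∀ a : K, (σ₀ a : F) = σ a
  tK : t ∈ K
  ht : σ t ≠ t
  hn : 4 ≤ Fintype.card ι

variable {t : F} (s : Su R M t)
include s

omit [DecidableEq ι] in
theorem Su.sK {a : F} (ha : a ∈ K) : σ a ∈ K := s.hs ⟨a, ha⟩ ▸ Subtype.property _

omit [DecidableEq ι] in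
theorem Su.nq : NQ (trHom σ₀) := ⟨⟨t, s.tK⟩ - σ₀ ⟨t, s.tK⟩, fun e => s.ht (by
  have := congrArg Subtype.val (sub_eq_zero.1 e); rw [s.hs] at this; exact this.symm),
  by simp [R.cl₀.invol]⟩

omit [DecidableEq ι] in
theorem Su.tv {u : ι → K} (hu : Q₀ u = 0) {c : F} (hc : c ∈ K) (hc' : c + σ c = 0) :
    R.cl.eich (jv K u) 0 c ∈ M := by
  simpa [Rat.E] using s.o.2 u 0 ⟨c, hc⟩ hu (by simp) (by
    rw [R.cl₀.Q_zero]; exact Subtype.ext (by simpa [s.hs] using hc'))

omit [DecidableEq ι] in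
theorem Su.ar {e y : ι → K} (he : Q₀ e = 0) (hy : B₀ e y = 0) {k : F} (hk : k ∈ K) :
    k • jv K y ∈ R.cl.Ar M (jv K e) := by
  have := s.o.mem_ar he (y := (⟨k, hk⟩ : K) • y) (by simp [hy])
  rwa [map_one, one_smul] at this

omit [DecidableEq ι] in
theorem Su.shear {e f : ι → K} (p : Pr B₀ Q₀ e f) {k : F} (hk : k ∈ K) :
    ∃ g ∈ M, g (jv K e) = jv K e ∧ g (jv K f) = jv K f + k • jv K e := by
  obtain ⟨y, a1, a2⟩ := R.cl₀.form.exists_perp_not R.cl₀.sep p.nm
  replace a1 := a1 e (Submodule.mem_span_singleton_self e)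
  obtain ⟨b, c, -, hc⟩ := (R.cl.mem_ar (R.sing p.se)).1 (s.ar p.se a1 (s.sK hk))
  refine ⟨_, hc, R.cl.eich_fix _ (R.cl.diag0 (R.sing p.se)) (R.cl.refl b), ?_⟩
  rw [R.cl.eich_of_perp (R.sing p.se) b _ (R.perp p.pp)]
  simp [hB1 R, R.cl₀.flip_one a2, R.cl.invol]

omit [DecidableEq ι] in
theorem Su.zmove {e f : ι → K} (p : Pr B₀ Q₀ e f) {c : F} (h : R.cl.eich (jv K e) 0 c ∈ M) :
    R.cl.eich (jv K f) 0 c ∈ M := by
  obtain ⟨g, hg, a1, a2⟩ := s.shear (p.symm R) K.one_mem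
  obtain ⟨g', hg', b1, b2⟩ := s.shear p (K.neg_mem K.one_mem)
  have m := M.mul_mem hg' hg
  have := M.mul_mem (M.mul_mem m h) (M.inv_mem m)
  rwa [R.cl.conj_eich (s.o.1 m), map_zero, LinearEquiv.mul_apply, a2, map_add, map_smul, b1, b2,
    show jv K e + (1 : F) • (jv K f + (-1 : F) • jv K e) = jv K f by module] at this

omit [DecidableEq ι] in
theorem Su.partner {e f : ι → K} (p : Pr B₀ Q₀ e f) : ∃ f', Pr B₀ Q₀ e f' ∧ B₀ f f' = 1 := by
  obtain ⟨f', a1, a2, a3⟩ := R.cl₀.form.exists_partner_perp R.cl₀.sep p.sf p.nm (fun z hz => by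
    obtain ⟨a, rfl⟩ := Submodule.mem_span_singleton.1 hz
    simp [p.pp])
  refine ⟨f', ⟨p.ne, fun hc => ?_, p.se, a1, a3 e (Submodule.mem_span_singleton_self e)⟩, a2⟩
  obtain ⟨a, rfl⟩ := Submodule.mem_span_singleton.1 hc
  simp [R.cl₀.refl p.pp] at a2

variable [Finite F] {r : ℕ} (hr : r.Prime) (hc : Nat.card K ^ r = Nat.card F)

omit [DecidableEq ι] in
include hr hc in
theorem Su.dich {e f : ι → K} (p : Pr B₀ Q₀ e f) :
    (∀ x : F, x • jv K f ∈ R.cl.Ar M (jv K e) → x ∈ K) ∨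
      ∀ x : F, x • jv K f ∈ R.cl.Ar M (jv K e) := by
  obtain ⟨f', p', hf⟩ := s.partner p
  have b1 : B (jv K f) (jv K f') = 1 := by rw [hB1 R, hf]; rfl
  have b2 := R.cl.flip_one b1
  let A : Subring F :=
    { carrier := {m | ∀ x : F, x • jv K f ∈ R.cl.Ar M (jv K e) → (m * x) • jv K f ∈ R.cl.Ar M (jv K e)}
      mul_mem' := fun ha hb x hx => by rw [mul_assoc]; exact ha _ (hb x hx)
      one_mem' := fun x hx => by rwa [one_mul]
      add_mem' := fun ha hb x hx => by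
        rw [add_mul, add_smul]; exact AddSubgroup.add_mem _ (ha x hx) (hb x hx)
      zero_mem' := fun x _ => by simp
      neg_mem' := fun ha x hx => by rw [neg_mul, neg_smul]; exact AddSubgroup.neg_mem _ (ha x hx) }
  have zz : ∀ m m', R.cl.eich (jv K e) 0 m ∈ M → R.cl.eich (jv K e) 0 m' ∈ M → m * m' ∈ A :=
    fun m m' hm hm' x hx => by
      have k1 := R.cl.tv_ar s.o.1 (R.sing p'.sf) (R.perp (R.cl₀.refl p'.pp)) (s.zmove p' hm') hx
      have k2 := R.cl.tv_ar s.o.1 (R.sing p.sf) (R.perp (R.cl₀.refl p.pp)) (s.zmove p hm) k1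
      simpa [b1, b2, mul_assoc] using k2
  have d0 : t - σ t ≠ 0 := sub_ne_zero.2 s.ht.symm
  have dK := K.sub_mem s.tK (s.sK s.tK)
  have dZ := s.tv p.se dK (by simp [R.cl.invol])
  have k0 : ∀ k ∈ K, σ k = k → k ∈ A := fun k hk hk' => by
    have := zz _ _ dZ (s.tv p.se (K.div_mem hk dK) (by
      rw [map_div₀, hk', map_sub, R.cl.invol, ← neg_sub t, div_neg, add_neg_cancel]))
    rwa [mul_div_cancel₀ _ d0] at this
  have ks := k0 _ (K.add_mem s.tK (s.sK s.tK)) (by simp [R.cl.invol, add_comm])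
  have kn := k0 _ (K.mul_mem s.tK (s.sK s.tK)) (by simp [R.cl.invol, mul_comm])
  let A' : Subring F :=
    { carrier := {x | ∃ u ∈ A, ∃ v ∈ A, x = u + v * t}
      mul_mem' := by
        rintro _ _ ⟨a, ha, b, hb, rfl⟩ ⟨c, hc, d, hd, rfl⟩
        exact ⟨a * c - b * d * (t * σ t), A.sub_mem (A.mul_mem ha hc) (A.mul_mem (A.mul_mem hb hd) kn),
          a * d + b * c + b * d * (t + σ t), A.add_mem (A.add_mem (A.mul_mem ha hd) (A.mul_mem hb hc))
            (A.mul_mem (A.mul_mem hb hd) ks), by ring⟩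
      one_mem' := ⟨1, A.one_mem, 0, A.zero_mem, by simp⟩
      add_mem' := by
        rintro _ _ ⟨a, ha, b, hb, rfl⟩ ⟨c, hc, d, hd, rfl⟩
        exact ⟨a + c, A.add_mem ha hc, b + d, A.add_mem hb hd, by ring⟩
      zero_mem' := ⟨0, A.zero_mem, 0, A.zero_mem, by simp⟩
      neg_mem' := by
        rintro _ ⟨a, ha, b, hb, rfl⟩
        exact ⟨-a, A.neg_mem ha, -b, A.neg_mem hb, by ring⟩ }
  have kK : ∀ k ∈ K, k ∈ A' := fun k hk => by
    have d1 : σ t - t ≠ 0 := sub_ne_zero.2 s.ht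
    refine ⟨(t * σ k - σ t * k) / (t - σ t), k0 _ (K.div_mem (K.sub_mem (K.mul_mem s.tK (s.sK hk))
      (K.mul_mem (s.sK s.tK) hk)) dK) ?_, (k - σ k) / (t - σ t), k0 _ (K.div_mem (K.sub_mem hk (s.sK hk)) dK) ?_,
      by field_simp; ring⟩ <;>
    · simp only [map_div₀, map_sub, map_mul, R.cl.invol]; field_simp; ring
  by_cases hx : ∀ x : F, x • jv K f ∈ R.cl.Ar M (jv K e) → x ∈ K
  · exact Or.inl hx
  push Not at hx
  obtain ⟨x, hx, hxK⟩ := hx
  have cm : ∀ k ∈ K, (t - σ t) * (σ x * k - σ k * x) ∈ A' := fun k hk =>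
    ⟨_, zz _ (σ x * k - σ k * x) dZ (by
      simpa [b1, b2, mul_comm] using R.cl.comm_mem (R.sing p.se) hx (s.ar p.se p'.pp hk)), 0, A.zero_mem,
      by simp⟩
  obtain ⟨l, hl, hlK⟩ : ∃ l ∈ A', l ∉ K := by
    by_contra! hn
    have e1 := hn _ (cm 1 K.one_mem)
    have e2 := hn _ (cm t s.tK)
    refine hxK ?_
    convert K.div_mem (K.sub_mem e2 (K.mul_mem s.tK e1)) (K.mul_mem dK dK) using 1
    rw [map_one]; field_simp; ring
  refine Or.inr fun y => ?_
  obtain ⟨u, hu, v, hv, rfl⟩ := subring_top hr hc A' kK hl hlK y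
  simpa [add_smul] using AddSubgroup.add_mem _ (hu 1 (s.ar p.se p.pp K.one_mem))
    (hv t (s.ar p.se p.pp s.tK))

theorem Su.om_le {e f : ι → K} (p : Pr B₀ Q₀ e f) (h : ∀ x : F, x • jv K f ∈ R.cl.Ar M (jv K e)) :
    R.cl.Om ≤ M := by
  have hn := s.hn
  have A1 : ∀ y, B (jv K e) y = 0 → y ∈ R.cl.Ar M (jv K e) := fun y hy =>
    R.cl.ar_of_arm (ext_le (T := R.cl.Arm M _) (fun x hx =>
      R.cl₀.perp_sub4 s.nq (by simpa) p.ne p.se (S := pre K (R.cl.Arm M (jv K e)))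
        (R.cl.self_mem_arm (R.sing p.se)) (fun u x c a b d i j y hy => by
          rw [mem_pre, ← R.E_apply a b]
          exact R.cl.map_mem_arm s.o.1 (s.o.2 _ _ _ a b d) (R.E_fix c i j) hy) h p.nm hx)
      (R.mem_ext_perp hy))
  exact s.o.om_le_of_full (by omega) p.ne (R.cl.full_of_ar (R.sing p.se) A1 fun c hc =>
    R.cl.center_of_ar (by simp; omega) (fun e => (trHom_ne R.cl (fun e' => s.ht (by simp [e'])) e).elim)
      (R.sing p.se) A1 hc)

omit [DecidableEq ι] in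
theorem Su.exists_pr {e : ι → K} (he0 : e ≠ 0) (he : Q₀ e = 0) : ∃ f, Pr B₀ Q₀ e f := by
  have hn := s.hn
  obtain ⟨e', -, hee⟩ := R.cl₀.form.exists_partner R.cl₀.sep he he0
  have d1 := finrank_le_inf_ker ⊤ (B₀ e)
  have d2 := finrank_le_inf_ker (⊤ ⊓ LinearMap.ker (B₀ e)) (B₀ e')
  obtain ⟨f, ⟨⟨-, a1⟩, a2⟩, f0, hf⟩ := R.cl₀.exists_sing
    (W := ⊤ ⊓ LinearMap.ker (B₀ e) ⊓ LinearMap.ker (B₀ e')) (Or.inr ⟨by simp at d1 d2 ⊢; omega, s.nq⟩)
  refine ⟨f, he0, fun hc => ?_, he, hf, a1⟩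
  obtain ⟨a, rfl⟩ := Submodule.mem_span_singleton.1 hc
  simp [R.cl₀.flip_one hee] at a2
  simp [a2] at f0

variable (hN : ∀ e f, Pr B₀ Q₀ e f → ∀ x : F, x • jv K f ∈ R.cl.Ar M (jv K e) → x ∈ K)
include hN

omit [DecidableEq ι] [Finite F] in
theorem Su.cen {e f : ι → K} (p : Pr B₀ Q₀ e f) {x y : F} (hy : y + σ y = 0)
    (h : R.cl.eich (jv K e) (x • jv K f) y ∈ M) : x ∈ K ∧ y ∈ K := by
  have b := R.perp' p.pp x
  have hx := hN e f p x ((R.cl.mem_ar (R.sing p.se)).2 ⟨b, y, by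
    rw [R.cl.sing_smul (R.sing p.sf)]; exact hy, h⟩)
  have k := s.o.2 e ((⟨-x, K.neg_mem hx⟩ : K) • f) 0 p.se (by simp [p.pp]) (by
    rw [R.cl₀.sing_smul p.sf]; simp)
  rw [Rat.E, map_one, one_smul, jv_smul] at k
  have k1 := M.mul_mem h k
  rw [R.cl.eich_mul (R.sing p.se) b (R.perp' p.pp _)] at k1
  obtain ⟨f', p', hf⟩ := s.partner p
  have k2 := R.cl.tv_ar s.o.1 (R.sing p.sf) (R.perp (R.cl₀.refl p.pp)) (c := y) (s.zmove p (by
    simpa [R.cl.diag0 (R.sing p.sf)] using k1)) (s.ar p.se p'.pp K.one_mem)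
  exact ⟨hx, hN e f p y (by simpa [hB1 R, hf] using k2)⟩

omit [DecidableEq ι] in
theorem Su.nr {e u : ι → K} (he0 : e ≠ 0) (he : Q₀ e = 0) (heu : B₀ e u = 0) {a : ι → F}
    (ha : a ∈ R.cl.Ar M (jv K e)) : B (jv K u) a ∈ K := by
  have hn := s.hn
  obtain ⟨f, p⟩ := s.exists_pr he0 he
  let S : Submodule K (ι → K) :=
    { carrier := {u | ∀ a ∈ R.cl.Ar M (jv K e), B (jv K u) a ∈ K}
      add_mem' := fun p q a ha => by simpa using K.add_mem (p a ha) (q a ha)
      zero_mem' := fun a _ => by simp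
      smul_mem' := fun c x p a ha => by
        rw [jv_smul, map_smulₛₗ]; exact K.mul_mem (s.sK c.2) (p a ha) }
  refine R.cl₀.perp_sub4 s.nq (by simpa) he0 he (S := S) (fun a ha => by simp [R.cl.ar_perp ha])
    (fun u x c p q r s' t z hz a ha => ?_) (f := f) (fun a ha => ?_) p.nm heu a ha
  · have m := s.o.2 _ _ _ p q r
    have := hz _ (R.cl.map_mem_ar_fix s.o.1 (M.inv_mem m) (by
      conv_lhs => rw [← R.E_fix c s' t]
      simp [LinearEquiv.coe_inv]) ha)
    rw [← (s.o.1 m).1, R.E_apply p q] at this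
    simpa [LinearEquiv.coe_inv] using this
  have dK := K.sub_mem s.tK (s.sK s.tK)
  have := hN e f p _ (R.cl.tv_ar s.o.1 (R.sing p.sf) (R.perp (R.cl₀.refl p.pp))
    (s.tv p.sf dK (by simp [R.cl.invol])) ha)
  convert K.div_mem this dK using 1
  rw [mul_div_cancel_left₀ _ (sub_ne_zero.2 s.ht.symm)]

theorem Su.key {g : (ι → F) ≃ₗ[F] (ι → F)} (hg : g ∈ M) {e x : ι → K} (he0 : e ≠ 0) (he : Q₀ e = 0)
    (hte : g (jv K e) = jv K e) (hx : B₀ e x = 0) :
    th θ (g (jv K x)) - g (jv K x) ∈ Submodule.span F {jv K e} := by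
  refine R.cl.form.mem_of_perp R.cl.sep fun y hy => ?_
  refine ext_le (T := LinearMap.ker (B _)) (fun u hu => R.cl.refl ?_)
    (R.mem_ext_perp (hy _ (Submodule.mem_span_singleton_self _)))
  have k := s.nr hN he0 he hu (R.cl.map_mem_ar_fix s.o.1 hg hte (s.ar he hx K.one_mem))
  have k' : B (jv K u) (g (jv K x)) ∈ K := by simpa using k
  have := R.B_th (jv K u) (g (jv K x))
  rw [one_mul, one_mul, (R.fix _).mpr k', th_jv R.fix] at this
  rw [map_sub, this, sub_self]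

omit [DecidableEq ι] [Finite F] in
theorem Su.plane1 {e v : ι → K} (p : Pr B₀ Q₀ e v) {a b c : F} (hc : c + σ c = 0)
    (ht : R.cl.eich (a • jv K v + b • jv K e) 0 c ∈ M) {k : F} (hk : k ∈ K) :
    c * σ a * σ k * a ∈ K ∧ c * σ a * σ k * (a * k) + c * σ a * σ k * b + c * a * k * σ b ∈ K := by
  obtain ⟨g, hg, g1, g2⟩ := s.shear p hk
  have b1 := R.perp p.pp
  have b2 := R.cl.refl b1
  have b3 := R.cl.diag0 (R.sing p.se)
  have b4 := R.cl.diag0 (R.sing p.sf)
  have q : ∀ a b : F, Q (a • jv K v + b • jv K e) = 0 := fun a b => by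
    simp [R.cl.Q_add, R.cl.Q_smul, R.sing p.se, R.sing p.sf, b2]
  have k1 := M.mul_mem (M.mul_mem hg ht) (M.inv_mem hg)
  rw [R.cl.conj_eich (s.o.1 hg), map_zero, map_add, map_smul, map_smul, g1, g2,
    show a • (jv K v + k • jv K e) + b • jv K e = a • jv K v + (a * k + b) • jv K e by module] at k1
  have k2 := M.mul_mem k1 (M.inv_mem ht)
  have hc' : σ c = -c := by linear_combination hc
  refine s.cen hN p (by simp [hc', R.cl.invol]; ring) ?_
  convert k2 using 1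
  ext1 x
  rw [R.cl.eich_inv (q _ _) (map_zero _), LinearEquiv.mul_apply, ea R.cl (R.sing p.se) (by simp [b1]),
    ea R.cl (q _ _) (by simp), ea R.cl (q _ _) (by simp)]
  simp [b1, b2, b3, b4, hc', R.cl.invol]
  module

omit [DecidableEq ι] [Finite F] in
theorem Su.plane {e v : ι → K} (p : Pr B₀ Q₀ e v) {a b c : F} (hc : c + σ c = 0) (c0 : c ≠ 0)
    (ht : R.cl.eich (a • jv K v + b • jv K e) 0 c ∈ M) :
    th θ (a • jv K v + b • jv K e) ∈ Submodule.span F {a • jv K v + b • jv K e} := by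
  obtain ⟨h1, h2⟩ := s.plane1 hN p hc ht K.one_mem
  obtain ⟨-, h3⟩ := s.plane1 hN p hc ht s.tK
  have k : ∀ (c : F) (x : ι → K), th θ (c • jv K x) ∈ Submodule.span F {c • jv K x} := fun c x => by
    by_cases hc : c = 0
    · rw [hc, zero_smul, map_zero]; exact Submodule.zero_mem _
    · exact Submodule.mem_span_singleton.2 ⟨θ c / c, by rw [th_smul, th_jv R.fix, smul_smul]; simp [hc]⟩
  by_cases ha : a = 0
  · simpa [ha] using k b e
  have d0 : t - σ t ≠ 0 := sub_ne_zero.2 s.ht.symm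
  have a0 := R.cl.sigma_ne ha
  have h6 : b / a ∈ K := by
    convert K.div_mem (K.sub_mem (K.mul_mem s.tK (K.sub_mem h2 h1))
      (K.sub_mem h3 (K.mul_mem (K.mul_mem s.tK (s.sK s.tK)) h1)))
      (K.mul_mem (K.sub_mem s.tK (s.sK s.tK)) h1) using 1
    rw [map_one]; field_simp; ring
  have e1 : a • jv K v + b • jv K e = a • jv K (v + (⟨_, h6⟩ : K) • e) := by
    rw [map_add, jv_smul, smul_add, smul_smul]; simp [mul_div_cancel₀ _ ha]
  rw [e1]; exact k _ _

theorem Su.point1 {e : ι → K} (he0 : e ≠ 0) (he : Q₀ e = 0) {w : ι → F} (hw : B w (jv K e) = 0)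
    (hq : Q w = 0) {c : F} (hc : c + σ c = 0) (c0 : c ≠ 0) (ht : R.cl.eich w 0 c ∈ M) :
    th θ w ∈ Submodule.span F {w} := by
  by_cases h1 : w ∈ Submodule.span F {jv K e}
  · obtain ⟨c, rfl⟩ := Submodule.mem_span_singleton.1 h1
    by_cases hc : c = 0
    · simp [hc]
    · exact Submodule.mem_span_singleton.2 ⟨θ c / c, by rw [th_smul, th_jv R.fix, smul_smul]; simp [hc]⟩
  obtain ⟨y, y1, y2⟩ : ∃ y, B₀ e y = 0 ∧ B w (jv K y) ≠ 0 := by
    by_contra! hc
    exact h1 (R.cl.form.mem_of_perp R.cl.sep fun y hy => ext_le (T := LinearMap.ker (B w))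
      (fun x hx => hc x hx) (R.mem_ext_perp (hy _ (Submodule.mem_span_singleton_self _))))
  have k := s.key hN ht he0 he (R.cl.eich_fix _ hw (by simp)) y1
  rw [ea R.cl hq (by simp)] at k
  simp only [map_zero, LinearMap.zero_apply, zero_smul, add_zero, smul_zero, map_sub, sub_zero,
    th_jv R.fix, th_smul] at k
  have m1 : jv K e ∈ Submodule.span F {jv K e, w} := Submodule.subset_span (by simp)
  have m2 : w ∈ Submodule.span F {jv K e, w} := Submodule.subset_span (by simp)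
  have m3 : th θ w ∈ Submodule.span F {jv K e, w} := by
    rw [← Submodule.smul_mem_iff _ (show θ (c * B w (jv K y)) ≠ 0 by simp [y2, c0])]
    convert Submodule.sub_mem _ (Submodule.smul_mem _ (c * B w (jv K y)) m2)
      (Submodule.span_mono (by simp) k) using 1
    abel
  have m4 := ext_pre R.fix (S := Submodule.span F {jv K e, w}) fun v hv => by
    obtain ⟨a, b, rfl⟩ := Submodule.mem_span_pair.1 hv
    rw [map_add, th_smul, th_smul, th_jv R.fix]
    exact add_mem (Submodule.smul_mem _ _ m1) (Submodule.smul_mem _ _ m3)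
  obtain ⟨v, v1, v2⟩ : ∃ v ∈ pre K (Submodule.span F {jv K e, w}), v ∉ Submodule.span K {e} := by
    by_contra! hc
    refine h1 (ext_le (S := pre K (Submodule.span F {jv K e, w})) (fun x hx => ?_) (m4.ge m2))
    obtain ⟨a, rfl⟩ := Submodule.mem_span_singleton.1 (hc x hx)
    exact jv_smul a e ▸ Submodule.smul_mem _ _ (Submodule.mem_span_singleton_self _)
  obtain ⟨a, b, hab⟩ := Submodule.mem_span_pair.1 (mem_pre.1 v1)
  have hb : b ≠ 0 := by
    rintro rfl
    exact v2 (mem_span_of_jv (by simpa using Submodule.mem_span_singleton.2 ⟨a, by simpa using hab⟩))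
  have e1 : w = b⁻¹ • jv K v + (-a / b) • jv K e := by
    rw [← hab]; match_scalars <;> field_simp <;> ring
  have b1 := R.cl.diag0 (R.sing he)
  have p : Pr B₀ Q₀ e v := ⟨he0, v2, he, by
    have := R.cl₀.form.diag v
    rw [one_mul] at this
    rw [← this, ← R.perp_iff, ← hab]
    simp [b1, R.cl.refl hw, hw, R.cl.diag0 hq], R.perp_iff.1 (by simp [← hab, b1, R.cl.refl hw])⟩
  rw [e1] at ht ⊢
  exact s.plane hN p hc c0 ht

include hr hc in
theorem Su.point (hro : r ≠ 2) {w : ι → F} (hq : Q w = 0) {c : F} (hcc : c + σ c = 0) (c0 : c ≠ 0)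
    (ht : R.cl.eich w 0 c ∈ M) : th θ w ∈ Submodule.span F {w} := by
  have hn := s.hn
  by_cases h1 : ∃ e, e ≠ 0 ∧ Q₀ e = 0 ∧ B w (jv K e) = 0
  · obtain ⟨e, he0, he, he'⟩ := h1
    exact s.point1 hN he0 he he' hq hcc c0 ht
  exfalso
  push Not at h1
  obtain ⟨u, -, u0, hu⟩ := R.cl₀.exists_sing3 (W := ⊤) (by simp; omega)
  obtain ⟨u', p'⟩ := s.exists_pr u0 hu
  have huw := h1 u u0 hu
  have sh : ∀ {x} (p : Pr B₀ Q₀ u x) (a b : K), Q₀ (a • x + b • u) = 0 := fun p a b => by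
    simp [R.cl₀.Q_add, R.cl₀.Q_smul, p.se, p.sf, R.cl₀.refl p.pp]
  have zK : ∀ x, Pr B₀ Q₀ u x → B w (jv K x) / B w (jv K u) ∉ K := fun x p hc =>
    h1 ((1 : K) • x + (-⟨_, hc⟩ : K) • u) (fun e => p.nm (by
      rw [one_smul, neg_smul, ← sub_eq_add_neg, sub_eq_zero] at e
      exact e ▸ Submodule.smul_mem _ _ (Submodule.mem_span_singleton_self u))) (sh p _ _) (by
        rw [map_add, jv_smul, jv_smul, map_add, map_smul, map_smul]; simp [huw])
  obtain ⟨x, p, hxK⟩ : ∃ x, Pr B₀ Q₀ u x ∧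
      σ (B w (jv K x) / B w (jv K u)) * (B w (jv K x) / B w (jv K u)) ∉ K := by
    by_contra! hc
    refine zK u' p' (mem_of_norms R.fix R.comm (Or.inr ⟨t, s.tK, s.ht⟩) (hc u' p') fun k hk => ?_)
    by_cases t0 : k = 0
    · simp [t0]
    have e : B w (jv K ((⟨k, hk⟩ : K) • u' + (1 : K) • u)) / B w (jv K u) =
        1 + k * (B w (jv K u') / B w (jv K u)) := by
      rw [one_smul, map_add, jv_smul, map_add, map_smul, smul_eq_mul]; field_simp; ring
    rw [← e]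
    refine hc _ ⟨u0, fun h => p'.nm ?_, hu, sh p' _ _, by simp [R.cl₀.diag0 hu, p'.pp]⟩
    rwa [one_smul, Submodule.add_mem_iff_left _ (Submodule.mem_span_singleton_self u),
      Submodule.smul_mem_iff _ (fun e => t0 (congrArg Subtype.val e))] at h
  have hz := zK x p
  set U := Submodule.span F {jv K x, jv K u}
  have m1 : jv K x ∈ U := Submodule.subset_span (by simp)
  have m2 : jv K u ∈ U := Submodule.subset_span (by simp)
  have b1 := R.perp p.pp
  have pU : ∀ z, z = x ∨ z = u → ∀ v ∈ U, B (jv K z) v = 0 := fun z hz v hv => by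
    obtain ⟨a, b, rfl⟩ := Submodule.mem_span_pair.1 hv
    rcases hz with rfl | rfl <;>
      simp [R.cl.diag0 (R.sing p.se), R.cl.diag0 (R.sing p.sf), b1, R.cl.refl b1]
  have d0 : t - σ t ≠ 0 := sub_ne_zero.2 s.ht.symm
  have dK := K.sub_mem s.tK (s.sK s.tK)
  have dT : t - σ t + σ (t - σ t) = 0 := by simp [R.cl.invol]
  generalize t - σ t = d at d0 dK dT
  have s0 := R.cl.sigma_ne huw
  obtain ⟨g, hg, l, _, hl, -, p1, p2⟩ := dickson2 (U := U) (R := U ⊓ LinearMap.ker (B w))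
    (N := (B w).smulRight (-c • w)) ht (fun v => by rw [ea R.cl hq (by simp)]; simp; module)
    (fun v _ => by simp [R.cl.diag0 hq]) (fun v hv => by simp [show B w v = 0 from hv.2])
    (a := d * c * B (jv K u) w * B w (jv K u)) (by simp [huw, d0, c0, R.cl.refl_ne huw]) hxK (by
      have k : ∀ z, z = x ∨ z = u → ∃ s ∈ M, (∀ r ∈ U ⊓ LinearMap.ker (B w), s r = r) ∧
          ∀ v ∈ U, s v = v ∧ s ((B w).smulRight (-c • w) v) -
            (d * c * B (jv K z) w * B w (jv K z)) • v -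
            (B w).smulRight (-c • w) v ∈ U ⊓ LinearMap.ker (B w) := fun z hz => by
        have qz : Q₀ z = 0 := by rcases hz with rfl | rfl; exacts [p.sf, p.se]
        have f : ∀ v ∈ U, R.cl.eich (jv K z) 0 d v = v := fun v hv =>
          R.cl.eich_fix _ (pU z hz v hv) (by simp)
        refine ⟨_, s.tv qz dK dT, fun r hr => f r hr.1, fun v hv => ⟨f v hv, ?_⟩⟩
        have : R.cl.eich (jv K z) 0 d ((B w).smulRight (-c • w) v) -
            (d * c * B (jv K z) w * B w (jv K z)) • v - (B w).smulRight (-c • w) v =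
            (d * c * B w v * B (jv K z) w) • jv K z - (d * c * B (jv K z) w * B w (jv K z)) • v := by
          rw [ea R.cl (R.sing qz) (by simp)]; simp; module
        rw [this]
        exact ⟨Submodule.sub_mem _ (Submodule.smul_mem _ _ (by
          rcases hz with rfl | rfl <;> assumption)) (Submodule.smul_mem _ _ hv), by simp; ring⟩
      rintro _ (rfl | rfl)
      · exact k u (Or.inr rfl)
      · convert k x (Or.inl rfl) using 8
        rw [R.cl.symm w (jv K x), R.cl.symm w (jv K u), map_div₀]; field_simp)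
  set z := B w (jv K x) / B w (jv K u) with hzd
  have li := LinearIndependent.pair_iff.1 (show LinearIndependent F ![jv K u, jv K x] by
    convert linearIndependent_jv ((LinearIndependent.pair_iff' p.ne).2 fun a ha =>
      p.nm (Submodule.mem_span_singleton.2 ⟨a, ha⟩)) using 1
    ext1 i; fin_cases i <;> rfl)
  have gU : ∀ v ∈ U, g v ∈ U := fun v hv => by
    simpa using U.add_mem (p2 v hv).1.1 (U.smul_mem l hv)
  have k1 : ∀ y ∈ Submodule.span K {x, u}, th θ (g (jv K y)) ∈ Submodule.span F {g (jv K y)} :=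
    fun y hy => by
    obtain ⟨a, b, rfl⟩ := Submodule.mem_span_pair.1 hy
    have k := M.mul_mem (M.mul_mem hg (s.tv (sh p a b) dK dT)) (M.inv_mem hg)
    rw [R.cl.conj_eich (s.o.1 hg), map_zero] at k
    obtain ⟨c, d, hcd⟩ := Submodule.mem_span_pair.1 (gU (jv K (a • x + b • u)) (by
      rw [map_add, jv_smul, jv_smul]; exact add_mem (U.smul_mem _ m1) (U.smul_mem _ m2)))
    rw [← hcd] at k ⊢
    exact s.plane hN p dT d0 k
  have n1 : x ∈ Submodule.span K {x, u} := Submodule.subset_span (by simp)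
  have n2 : u ∈ Submodule.span K {x, u} := Submodule.subset_span (by simp)
  obtain ⟨μ, hμ⟩ := Submodule.mem_span_singleton.1 (k1 u n2)
  obtain ⟨ν, hν⟩ := Submodule.mem_span_singleton.1 (k1 x n1)
  obtain rfl := eig_eq R.fix u0 (y := x) (p.symm R).ne hμ.symm hν.symm (k1 _ (add_mem n2 n1))
  have g1 := p1 (jv K x - z • jv K u) ⟨sub_mem m1 (U.smul_mem _ m2), by simp [hzd, huw]⟩
  obtain ⟨⟨α, c, g2⟩, g3⟩ := (Submodule.mem_inf.1 (p2 _ m2).1).imp Submodule.mem_span_pair.1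
    LinearMap.mem_ker.1
  have hα : c = -α * z := by
    rw [← g2] at g3
    simp only [map_add, map_smul, smul_eq_mul] at g3
    rw [hzd]; field_simp; linear_combination g3
  have gu : g (jv K u) = α • jv K x + (l - α * z) • jv K u := by
    rw [eq_sub_iff_add_eq, hα] at g2; rw [← g2]; module
  have gx : g (jv K x) = (1 + z * α) • jv K x + (z * l - z * α * z - z) • jv K u := by
    rw [map_sub, map_smul, sub_eq_iff_eq_add, gu] at g1; rw [g1]; module
  rw [gu] at hμ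
  rw [gx] at hν
  simp only [map_add, th_smul, th_jv R.fix, map_sub, map_mul, map_one] at hμ hν
  obtain ⟨e1, e2⟩ := li (μ * (l - α * z) - (θ l - θ α * θ z)) (μ * α - θ α) (by
    linear_combination (norm := module) hμ)
  obtain ⟨e3, e4⟩ := li (μ * (z * l - z * α * z - z) - (θ z * θ l - θ z * θ α * θ z - θ z))
    (μ * (1 + z * α) - (1 + θ z * θ α)) (by linear_combination (norm := module) hν)
  have d0 : θ z - z ≠ 0 := sub_ne_zero.2 fun e => hz ((R.fix z).1 e)
  have e5 : θ (θ z) = z := by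
    have f1 : μ * l = 1 := mul_left_cancel₀ d0 (by
      linear_combination (θ z) * e1 - e3 - z * e4 + z * θ z * e2)
    have f2 : 1 - l = (θ z - z) * α := by
      linear_combination l * e4 - l * θ z * e2 + (θ z * α - 1 - z * α) * f1
    have f3 := congrArg θ f2
    have hA : θ α ≠ 0 := by
      rw [map_ne_zero]; rintro rfl; exact hl (by linear_combination -f2)
    simp only [map_sub, map_mul, map_one] at f3
    exact mul_right_cancel₀ hA (by linear_combination -f3 + e1 - f1 + z * e2)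
  have sp : (⊤ : Submodule K F) ≤ Submodule.span K {1, z} := fun y _ => by
    obtain ⟨a, ha, b, hb, rfl⟩ := quad_span hr hc hz (s := z + θ z) (p := -(z * θ z))
      ((R.fix _).1 (by rw [map_add, e5, add_comm])) ((R.fix _).1 (by rw [map_neg, map_mul, e5, mul_comm]))
      (by ring) y
    exact Submodule.mem_span_pair.2 ⟨⟨a, ha⟩, ⟨b, hb⟩, by simp [Subfield.smul_def]⟩
  have d3 := (Submodule.finrank_mono sp).trans (finrank_span_pair_le _ _)
  have hK : 1 < Nat.card K := Finite.one_lt_card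
  have hrk : finrank K F = r := Nat.pow_right_injective hK
    ((Module.natCard_eq_pow_finrank (K := K) (V := F)).symm.trans hc.symm)
  have := hr.two_le
  rw [finrank_top] at d3
  omega

omit s hN in
include hr hc in
theorem max_sub (R : Rat θ 1 1 (trHom σ) B Q 1 1 (trHom σ₀) B₀ Q₀ 1) (hro : r ≠ 2)
    (hs : ∀ a : K, (σ₀ a : F) = σ a) (tK : t ∈ K) (ht : σ t ≠ t) (hn : 4 ≤ Fintype.card ι) :
    IsMaximalIn R.cl.Om (ratG θ ι ⊓ R.cl.Om) := by
  have hK : 1 < Nat.card K := Finite.one_lt_card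
  obtain ⟨e, -, he0, he⟩ := R.cl₀.exists_sing3 (W := ⊤) (by simp; omega)
  refine isMaximalIn_inf (fun hle => ?_) fun M h1 h2 g hg hgS => ?_
  · have s : Su R R.cl.Om t := ⟨⟨R.cl.om_le_isom, fun u x c => R.E_mem_om⟩, hs, tK, ht, hn⟩
    obtain ⟨l, hl⟩ : ∃ l : F, l ∉ K := by
      by_contra hc'
      push Not at hc'
      rw [(eq_top_iff.mpr fun x _ => hc' x : K = ⊤), card_top_subfield] at hc hK
      exact hr.ne_one (Nat.pow_right_injective hK (hc.trans (pow_one _).symm))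
    obtain ⟨y, p⟩ := s.exists_pr he0 he
    obtain ⟨x, q, hx⟩ := s.partner p
    obtain ⟨c, hc⟩ := R.cl.exists_tau (σ l • jv K y)
    obtain ⟨μ, -, hμ⟩ := hle (R.cl.eich_mem_om (R.sing he) (R.perp' p.pp _) hc)
    have k1 := hμ (jv K e)
    rw [th_jv R.fix, R.cl.eich_fix c (R.cl.diag0 (R.sing he)) (R.perp'' (R.cl₀.refl p.pp) _),
      th_jv R.fix] at k1
    obtain rfl : 1 = μ := smul_left_injective F (jv_ne he0) (by simpa using k1)
    have k2 := hμ (jv K x)
    have k4 : B (σ l • jv K y) (jv K x) = l := by simp [R.cl.invol, hB1 R, hx]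
    rw [th_jv R.fix, R.cl.eich_of_perp (R.sing he) (R.perp' p.pp _) c (R.perp q.pp), k4, map_add, th_smul,
      th_jv R.fix, th_jv R.fix, one_smul, add_right_inj] at k2
    exact hl ((R.fix l).mp (smul_left_injective F (jv_ne he0) k2))
  have s : Su R M t := ⟨⟨h2.trans R.cl.om_le_isom, fun u x c p q s =>
    h1 ⟨R.E_mem_rat p q c, R.E_mem_om p q s⟩⟩, hs, tK, ht, hn⟩
  by_contra hM
  have hN : ∀ e f, Pr B₀ Q₀ e f → ∀ x : F, x • jv K f ∈ R.cl.Ar M (jv K e) → x ∈ K := fun e f p =>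
    (s.dich hr hc p).resolve_right fun h => hM (s.om_le p h)
  have dT : t - σ t + σ (t - σ t) = 0 := by simp [R.cl.invol]
  have k1 : ∀ x, Q₀ x = 0 → th θ (g (jv K x)) ∈ Submodule.span F {g (jv K x)} := fun x hx => by
    have k := M.mul_mem (M.mul_mem hg (s.tv hx (K.sub_mem tK (s.sK tK)) dT)) (M.inv_mem hg)
    rw [R.cl.conj_eich (s.o.1 hg), map_zero] at k
    exact s.point hr hc hN hro (by rw [(s.o.1 hg).2, R.sing hx]) dT (sub_ne_zero.2 ht.symm) k
  obtain ⟨μ, hμ⟩ := Submodule.mem_span_singleton.mp (k1 e he)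
  have k2 : ∀ x, Q₀ x = 0 → th θ (g (jv K x)) = μ • g (jv K x) := fun x hx => by
    by_cases h0 : x = 0
    · simp [h0]
    have d1 := finrank_le_inf_ker ⊤ (B₀ e)
    have d2 := finrank_le_inf_ker (⊤ ⊓ LinearMap.ker (B₀ e)) (B₀ x)
    obtain ⟨f, ⟨⟨-, p⟩, q⟩, f0, hf⟩ := R.cl₀.exists_sing
      (W := ⊤ ⊓ LinearMap.ker (B₀ e) ⊓ LinearMap.ker (B₀ x)) (Or.inr ⟨by simp at d1 d2 ⊢; omega, s.nq⟩)
    replace p : B₀ e f = 0 := p
    replace q : B₀ x f = 0 := q
    obtain ⟨ν, hν⟩ := Submodule.mem_span_singleton.mp (k1 x hx)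
    obtain ⟨ν', hν'⟩ := Submodule.mem_span_singleton.mp (k1 f hf)
    rw [eig_eq R.fix he0 f0 hμ.symm hν'.symm (k1 _ (by simp [R.cl₀.Q_add, he, hf, p])),
      ← eig_eq R.fix h0 f0 hν.symm hν'.symm (k1 _ (by simp [R.cl₀.Q_add, hx, hf, q]))]
    exact hν.symm
  let S : Submodule K (ι → K) :=
    { carrier := {x | th θ (g (jv K x)) = μ • g (jv K x)}
      add_mem' := fun {x y} (p : _ = _) (q : _ = _) => by
        change _ = _; simp only [map_add, p, q, smul_add]
      zero_mem' := by simp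
      smul_mem' := fun c x (p : _ = _) => by
        change _ = _
        rw [jv_smul, map_smul, th_smul, p, (R.fix _).mpr c.2, smul_comm] }
  have := R.cl₀.eq_top_of_sing (by simp; omega) (S := S) k2
  refine hgS (mem_ratG R.fix (μ := μ) ?_ fun x => (this ▸ trivial : x ∈ S))
  rintro rfl
  exact th_ne (v := g (jv K e)) (by simpa using jv_ne he0) (by simpa using hμ.symm)

end SubU

theorem max_sub_herm4 {F : Type*} [Field F] {K : Subfield F} {θ : F ≃+* F} {ι : Type} {σ : F →+* F}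
    [Fintype ι] [DecidableEq ι] [Finite F] (hθ : ∀ a, θ a = a ↔ a ∈ K) (hn : 4 ≤ Fintype.card ι)
    {r : ℕ} (hr : r.Prime) (hro : r ≠ 2) (hc : Nat.card K ^ r = Nat.card F) {Q : (ι → F) → F}
    {B : (ι → F) →ₛₗ[σ] (ι → F) →ₗ[F] F} (h : Cl 1 1 (trHom σ) B Q)
    (hσθ : ∀ a, σ (θ a) = θ (σ a)) (ht : ∃ t ∈ K, σ t ≠ t) (hP : ∀ x y, B (jv K x) (jv K y) ∈ K) :
    IsMaximalIn h.Om (ratG θ ι ⊓ h.Om) := by
  let s : K →+* K := σ.restrict K K fun a ha => (hθ _).mp (by rw [← hσθ, (hθ a).mpr ha])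
  have hP' : ∀ x y, 1 * B (jv K x) (jv K y) ∈ K := by simpa using hP
  obtain ⟨t, a, b⟩ := ht
  have hH : IsHerm (descB (σ₀ := s) B 1 (fun _ => rfl) hP') := ⟨fun e =>
      b (congrArg Subtype.val (DFunLike.congr_fun e (⟨t, a⟩ : K)) :),
    fun a => Subtype.ext (h.invol a), fun x y => Subtype.ext (by
      change σ (1 * _) = 1 * _
      rw [h.symm (jv K x)]; simp)⟩
  refine SubU.max_sub hr hc ⟨h, clHerm hH (descB_sep h.sep one_ne_zero _ hP'), hθ, hσθ, one_ne_zero,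
    fun _ _ => rfl, by simp, fun x c e => ?_⟩ hro (fun _ => rfl) a b hn
  have : (c : F) + σ c = 1 * B (jv K x) (jv K x) := congrArg Subtype.val e
  simp [this, h.form.diag]

theorem Ag.su_sub4 {F : Type*} [Field F] [Fintype F] (n q : ℕ) (hF : Fintype.card F = q ^ 2) (hn : 4 ≤ n) (F₀ : Subfield F) (r : ℕ) (P : Matrix.GeneralLinearGroup (Fin n) F) (hr : r.Prime) (hro : Odd r) (hcard : Fintype.card F = Nat.card F₀ ^ r) (hP : Cfsg.Geo.IsFormRationalStructure (Cfsg.hermForm n F q) F₀ 1 P) : Cfsg.Geo.IsMaximalIn (Cfsg.GU n F q ⊓ Cfsg.Geo.specialLinear (Fin n) F) (Cfsg.Geo.subfieldSubgroup F₀ P ⊓ (Cfsg.GU n F q ⊓ Cfsg.Geo.specialLinear (Fin n) F)) := by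
  obtain ⟨θ, hθ, hc⟩ := H10.exists_frob F₀
  have hq := H11.two_le_of_card_eq_sq hF
  have hcard' : Nat.card F₀ ^ r = Nat.card F := by rw [← hcard, Nat.card_eq_fintype_card]
  refine H10.isMaximalIn_subfield hθ P
    (fun g => (H10.mem_SU_iff hF g).trans ((H10.clSU hF n).mem_om_pull (H11.glEquiv _ F P) _))
    (max_sub_herm4 hθ (by simpa) hr (by rintro rfl; exact absurd hro (by decide)) hcard' _
      (hc _) ?_ fun x y => ?_)
  · by_contra ht
    push Not at ht
    have h1 : Nat.card (H26.fixF (H11.conjQ hF)) = q :=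
      H26.card_pow_eq_self (Nat.card_eq_fintype_card.trans hF)
    rcases H10.subfield_eq_or_of_prime (L := H26.fixF (H11.conjQ hF)) ht hr hcard' with h | h
    · rw [h] at h1
      rw [h1, hF] at hcard
      rw [← Nat.pow_right_injective hq hcard] at hro
      exact absurd hro (by decide)
    · rw [h, H10.card_top_subfield, Nat.card_eq_fintype_card, hF] at h1
      nlinarith
  · have := hP _ _ (fun i => (y i).2) fun i => (x i).2
    rwa [H10.hermForm_eq hF, one_mul] at this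

end Cfsg.Agent.H10
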