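import Mathlib
import Cfsg.Agent.H10.Ag23

/-! Symplectic subfield subgroups of unitary groups of dimension at least four. -/

set_option autoImplicit false
set_option maxHeartbeats 400000

namespace Cfsg.Agent.H10

open Module H11 Cfsg.Geo

namespace SubS

variable {F : Type*} [Field F] {K : Subfield F} {θ : F ≃+* F} {ι : Type} [Fintype ι] [DecidableEq ι]
  {σ : F →+* F} {B : (ι → F) →ₛₗ[σ] (ι → F) →ₗ[F] F} {Q : (ι → F) → F}
  {B₀ : (ι → K) →ₗ[K] (ι → K) →ₗ[K] K} {Q₀ : (ι → K) → K} {ζ : F}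
  {R : Rat (σ₀ := RingHom.id K) θ 1 1 (trHom σ) B Q (-1) 0 0 B₀ Q₀ ζ}
  {M : Subgroup ((ι → F) ≃ₗ[F] (ι → F))}

/-- The standing hypotheses. -/
structure Ss (R : Rat (σ₀ := RingHom.id K) θ 1 1 (trHom σ) B Q (-1) 0 0 B₀ Q₀ ζ)
    (M : Subgroup ((ι → F) ≃ₗ[F] (ι → F))) : Prop where
  o : R.Ov M
  hK : ∀ a, a ∈ K ↔ σ a = a
  hσ : σ ≠ RingHom.id F
  hn : 4 ≤ Fintype.card ι

variable (s : Ss R M)
include s

omit [DecidableEq ι] in
theorem Ss.sz : σ ζ = -ζ := by simpa using R.he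

omit [DecidableEq ι] in
theorem Ss.tz {c : F} (hc : c + σ c = 0) : c / ζ ∈ K := (s.hK _).2 (by
  rw [map_div₀, s.sz, show σ c = -c by linear_combination hc, neg_div_neg_eq])

omit [DecidableEq ι] in
theorem Ss.tv (u : ι → K) {c : F} (hc : c + σ c = 0) : R.cl.eich (jv K u) 0 c ∈ M := by
  simpa [Rat.E, R.ne] using s.o.2 u 0 ⟨_, s.tz hc⟩ (alt_Q R.cl₀ u) (by simp) (alt_Q R.cl₀ _).symm

omit [DecidableEq ι] in
theorem Ss.ar {e y : ι → K} (hy : B₀ e y = 0) {k : F} (hk : k ∈ K) :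
    (k * ζ) • jv K y ∈ R.cl.Ar M (jv K e) := by
  have := s.o.mem_ar (alt_Q R.cl₀ e) (y := (⟨-k, K.neg_mem hk⟩ : K) • y) (by simp [hy])
  rwa [jv_smul, smul_smul, s.sz, neg_mul_neg, mul_comm] at this

variable [Finite F]

theorem Ss.om_le {e u : ι → K} (he0 : e ≠ 0) (heu : B₀ e u = 0) {a : ι → F}
    (ha : a ∈ R.cl.Ar M (jv K e)) (h : B (jv K u) a ∉ K) : R.cl.Om ≤ M := by
  have hn := s.hn
  have he := alt_Q R.cl₀ e
  have h1 : u ∉ Submodule.span K {e} := fun h1 => by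
    obtain ⟨c, rfl⟩ := Submodule.mem_span_singleton.1 h1
    exact h (by rw [jv_smul, map_smulₛₗ]; simp [R.cl.ar_perp ha])
  have z0 := R.ne
  have h2 : jv K u ∈ R.cl.Arm M (jv K e) := fun x => by
    have d0 : B (jv K u) a - σ (B (jv K u) a) ≠ 0 := fun e => h ((s.hK _).2 (by linear_combination -e))
    have d1 : σ (B (jv K u) a) - B (jv K u) a ≠ 0 := fun e => d0 (by linear_combination -e)
    have k2 := R.cl.tv_ar s.o.1 (R.sing (alt_Q R.cl₀ u)) (R.perp (R.cl₀.refl heu)) (s.tv u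
      (c := (x + σ x) / (B (jv K u) a - σ (B (jv K u) a))) (by
        simp only [map_div₀, map_add, map_sub, R.cl.invol]; field_simp; ring)) ha
    have k1 := s.ar heu (s.tz (c := x - (x + σ x) / (B (jv K u) a - σ (B (jv K u) a)) * B (jv K u) a) (by
      simp only [map_div₀, map_add, map_sub, map_mul, R.cl.invol]; field_simp; ring))
    convert AddSubgroup.add_mem _ k1 k2 using 1
    rw [← add_smul, div_mul_cancel₀ _ z0, sub_add_cancel]
  have A1 : ∀ y, B (jv K e) y = 0 → y ∈ R.cl.Ar M (jv K e) := fun y hy =>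
    R.cl.ar_of_arm (ext_le (T := R.cl.Arm M _) (fun x hx =>
      R.cl₀.perp_sub4 nq_zero (by simpa) he0 he (S := pre K (R.cl.Arm M (jv K e)))
        (R.cl.self_mem_arm (R.sing he)) (fun u x c a b d i j y hy => by
          rw [mem_pre, ← R.E_apply a b]
          exact R.cl.map_mem_arm s.o.1 (s.o.2 _ _ _ a b d) (R.E_fix c i j) hy) h2 h1 hx)
      (R.mem_ext_perp hy))
  exact s.o.om_le_of_full (by omega) he0 (R.cl.full_of_ar (R.sing he) A1 fun c hc => s.tv e hc)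

variable (hN : ∀ e u, e ≠ 0 → B₀ e u = 0 → ∀ a ∈ R.cl.Ar M (jv K e), B (jv K u) a ∈ K)
include hN

omit [Finite F] in
theorem Ss.key {g : (ι → F) ≃ₗ[F] (ι → F)} (hg : g ∈ M) {e x : ι → K} (he0 : e ≠ 0)
    (hte : g (jv K e) = jv K e) (hx : B₀ e x = 0) :
    th θ (g (jv K x)) - g (jv K x) ∈ Submodule.span F {jv K e} := by
  refine R.cl.form.mem_of_perp R.cl.sep fun y hy => ?_
  refine ext_le (T := LinearMap.ker (B _)) (fun u hu => R.cl.refl ?_)
    (R.mem_ext_perp (hy _ (Submodule.mem_span_singleton_self _)))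
  have k := hN e u he0 hu _ (R.cl.map_mem_ar_fix s.o.1 hg hte (s.ar hx K.one_mem))
  have k' : ζ * B (jv K u) (g (jv K x)) ∈ K := by simpa using k
  have := R.B_th (jv K u) (g (jv K x))
  rw [(R.fix _).mpr k', th_jv R.fix] at this
  rw [map_sub, mul_left_cancel₀ R.ne this, sub_self]

omit [DecidableEq ι] [Finite F] in
theorem Ss.plane {e v : ι → K} (he0 : e ≠ 0) (hv : v ∉ Submodule.span K {e}) (hev : B₀ e v = 0)
    {a b c : F} (hc : c + σ c = 0) (c0 : c ≠ 0)
    (ht : R.cl.eich (a • jv K v + b • jv K e) 0 c ∈ M) :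
    th θ (a • jv K v + b • jv K e) ∈ Submodule.span F {a • jv K v + b • jv K e} := by
  have k : ∀ (c : F) (x : ι → K), th θ (c • jv K x) ∈ Submodule.span F {c • jv K x} := fun c x => by
    by_cases hc : c = 0
    · rw [hc, zero_smul, map_zero]; exact Submodule.zero_mem _
    · exact Submodule.mem_span_singleton.2 ⟨θ c / c, by rw [th_smul, th_jv R.fix, smul_smul]; simp [hc]⟩
  by_cases ha : a = 0
  · simpa [ha] using k b e
  have qe := R.sing (alt_Q R.cl₀ e)
  have qv := R.sing (alt_Q R.cl₀ v)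
  have b1 := R.perp hev
  have b2 := R.cl.refl b1
  have b3 := R.cl.diag0 qe
  have b4 := R.cl.diag0 qv
  have q : Q (a • jv K v + b • jv K e) = 0 := by
    simp [R.cl.Q_add, R.cl.Q_smul, qe, qv, b2]
  have hc' : σ c = -c := by linear_combination hc
  have k1 := M.mul_mem (s.tv e (c := -(c * σ b * b)) (by simp [hc', R.cl.invol]; ring))
    (M.mul_mem (s.tv v (c := -(c * σ a * a)) (by simp [hc', R.cl.invol]; ring)) ht)
  have k2 : (c * σ b * a) • jv K v ∈ R.cl.Ar M (jv K e) := by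
    refine (R.cl.mem_ar qe).2 ⟨by simp [b1], 0, by simp [R.cl.sing_smul qv], ?_⟩
    convert k1 using 1
    ext1 x
    rw [LinearEquiv.mul_apply, LinearEquiv.mul_apply, SubU.ea R.cl qe (by simp [b1]),
      SubU.ea R.cl qe (by simp), SubU.ea R.cl qv (by simp), SubU.ea R.cl q (by simp)]
    simp [b1, b2, b3, b4, hc', R.cl.invol]
    module
  obtain ⟨u, a1, a2⟩ := R.cl₀.form.exists_perp_not R.cl₀.sep hv
  have k3 := hN e u he0 (a1 e (Submodule.mem_span_singleton_self e)) _ k2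
  have k4 := R.hB u v
  rw [R.cl₀.flip_one a2] at k4
  have z0 := R.ne
  have k5 : σ b * a ∈ K := by
    convert K.neg_mem (K.div_mem k3 (s.tz hc)) using 1
    simp only [map_smul, smul_eq_mul]
    simp only [NegMemClass.coe_neg, OneMemClass.coe_one] at k4
    field_simp; linear_combination (-σ b) * k4
  have a0 := R.cl.sigma_ne ha
  have h6 : b / a ∈ K := (s.hK _).2 (by
    have := (s.hK _).1 k5
    rw [map_mul, R.cl.invol] at this
    rw [map_div₀]; field_simp; linear_combination -this)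
  have e1 : a • jv K v + b • jv K e = a • jv K (v + (⟨_, h6⟩ : K) • e) := by
    rw [map_add, jv_smul, smul_add, smul_smul]; simp [mul_div_cancel₀ _ ha]
  rw [e1]; exact k _ _

omit [Finite F] in
theorem Ss.point1 {e : ι → K} (he0 : e ≠ 0) {w : ι → F} (hw : B w (jv K e) = 0)
    (hq : Q w = 0) {c : F} (hc : c + σ c = 0) (c0 : c ≠ 0) (ht : R.cl.eich w 0 c ∈ M) :
    th θ w ∈ Submodule.span F {w} := by
  by_cases h1 : w ∈ Submodule.span F {jv K e}
  · obtain ⟨c, rfl⟩ := Submodule.mem_span_singleton.1 h1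
    by_cases hc : c = 0
    · simp [hc]
    · exact Submodule.mem_span_singleton.2 ⟨θ c / c, by rw [th_smul, th_jv R.fix, smul_smul]; simp [hc]⟩
  obtain ⟨y, y1, y2⟩ : ∃ y, B₀ e y = 0 ∧ B w (jv K y) ≠ 0 := by
    by_contra! hc
    exact h1 (R.cl.form.mem_of_perp R.cl.sep fun y hy => ext_le (T := LinearMap.ker (B w))
      (fun x hx => hc x hx) (R.mem_ext_perp (hy _ (Submodule.mem_span_singleton_self _))))
  have k := s.key hN ht he0 (R.cl.eich_fix _ hw (by simp)) y1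
  rw [SubU.ea R.cl hq (by simp)] at k
  simp only [map_zero, LinearMap.zero_apply, zero_smul, add_zero, smul_zero, map_sub, sub_zero,
    th_jv R.fix, th_smul] at k
  have m1 : jv K e ∈ Submodule.span F {jv K e, w} := Submodule.subset_span (by simp)
  have m2 : w ∈ Submodule.span F {jv K e, w} := Submodule.subset_span (by simp)
  have m3 : th θ w ∈ Submodule.span F {jv K e, w} := by
    rw [← Submodule.smul_mem_iff _ (show θ (c * B w (jv K y)) ≠ 0 by simp [y2, c0])]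
    convert Submodule.sub_mem _ (Submodule.smul_mem _ (c * B w (jv K y)) m2)
      (Submodule.span_mono (by simp) k) using 1
    abel
  have m4 := ext_pre R.fix (S := Submodule.span F {jv K e, w}) fun v hv => by
    obtain ⟨a, b, rfl⟩ := Submodule.mem_span_pair.1 hv
    rw [map_add, th_smul, th_smul, th_jv R.fix]
    exact add_mem (Submodule.smul_mem _ _ m1) (Submodule.smul_mem _ _ m3)
  obtain ⟨v, v1, v2⟩ : ∃ v ∈ pre K (Submodule.span F {jv K e, w}), v ∉ Submodule.span K {e} := by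
    by_contra! hc
    refine h1 (ext_le (S := pre K (Submodule.span F {jv K e, w})) (fun x hx => ?_) (m4.ge m2))
    obtain ⟨a, rfl⟩ := Submodule.mem_span_singleton.1 (hc x hx)
    exact jv_smul a e ▸ Submodule.smul_mem _ _ (Submodule.mem_span_singleton_self _)
  obtain ⟨a, b, hab⟩ := Submodule.mem_span_pair.1 (mem_pre.1 v1)
  have hb : b ≠ 0 := by
    rintro rfl
    exact v2 (mem_span_of_jv (by simpa using Submodule.mem_span_singleton.2 ⟨a, by simpa using hab⟩))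
  have e1 : w = b⁻¹ • jv K v + (-a / b) • jv K e := by
    rw [← hab]; match_scalars <;> field_simp <;> ring
  have b1 := R.cl.diag0 (R.sing (alt_Q R.cl₀ e))
  rw [e1] at ht ⊢
  exact s.plane hN he0 v2 (R.perp_iff.1 (by simp [← hab, b1, R.cl.refl hw])) hc c0 ht

omit s hN in
theorem max_sub (R : Rat (σ₀ := RingHom.id K) θ 1 1 (trHom σ) B Q (-1) 0 0 B₀ Q₀ ζ)
    (hK : ∀ a, a ∈ K ↔ σ a = a) (hσ : σ ≠ RingHom.id F) (h2 : finrank K F = 2)
    (hn : 4 ≤ Fintype.card ι) : IsMaximalIn R.cl.Om (ratG θ ι ⊓ R.cl.Om) := by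
  obtain ⟨e, -, he0⟩ := exists_ne_zero_of_finrank (W := (⊤ : Submodule K (ι → K))) (by simp; omega)
  have he := alt_Q R.cl₀ e
  have sz : σ ζ = -ζ := by simpa using R.he
  refine isMaximalIn_inf (fun hle => ?_) fun M h1 h2' g hg hgS => ?_
  · obtain ⟨l, hl⟩ : ∃ l : F, l ∉ K := by
      by_contra! hc'
      exact hσ (RingHom.ext fun a => (hK a).1 (hc' a))
    have d1 := finrank_le_inf_ker ⊤ (B₀ e)
    have d2 := finrank_span_one_le (F := K) e
    obtain ⟨y, ⟨-, p⟩, q2⟩ := exists_mem_notMem (W := ⊤ ⊓ LinearMap.ker (B₀ e))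
      (Z := Submodule.span K {e}) (by simp at d1 ⊢; omega)
    replace p : B₀ e y = 0 := p
    obtain ⟨x, q, s⟩ := R.cl₀.form.exists_perp_not R.cl₀.sep q2
    replace q := q e (Submodule.mem_span_singleton_self e)
    obtain ⟨c, hc⟩ := R.cl.exists_tau ((σ l * σ ζ) • jv K y)
    obtain ⟨μ, -, hμ⟩ := hle (R.cl.eich_mem_om (R.sing he) (R.perp' p _) hc)
    have k1 := hμ (jv K e)
    rw [th_jv R.fix, R.cl.eich_fix c (R.cl.diag0 (R.sing he)) (R.perp'' (R.cl₀.refl p) _),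
      th_jv R.fix] at k1
    obtain rfl : 1 = μ := smul_left_injective F (jv_ne he0) (by simpa using k1)
    have k2 := hμ (jv K x)
    have k3 := R.hB y x
    rw [s, OneMemClass.coe_one] at k3
    have k4 : B ((σ l * σ ζ) • jv K y) (jv K x) = l := by
      simp [R.cl.invol]; linear_combination (-l) * k3
    rw [th_jv R.fix, R.cl.eich_of_perp (R.sing he) (R.perp' p _) c (R.perp q), k4, map_add, th_smul,
      th_jv R.fix, th_jv R.fix, one_smul, add_right_inj] at k2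
    exact hl ((R.fix l).mp (smul_left_injective F (jv_ne he0) k2))
  have s : Ss R M := ⟨⟨h2'.trans R.cl.om_le_isom, fun u x c p q s =>
    h1 ⟨R.E_mem_rat p q c, R.E_mem_om p q s⟩⟩, hK, hσ, hn⟩
  by_contra hM
  have hN : ∀ e u, e ≠ 0 → B₀ e u = 0 → ∀ a ∈ R.cl.Ar M (jv K e), B (jv K u) a ∈ K :=
    fun e u a b x hx => by_contra fun h => hM (s.om_le a b hx h)
  have dT : ζ + σ ζ = 0 := by simp [sz]
  have k1 : ∀ x, th θ (g (jv K x)) ∈ Submodule.span F {g (jv K x)} := fun x => by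
    have k := M.mul_mem (M.mul_mem hg (s.tv x dT)) (M.inv_mem hg)
    rw [R.cl.conj_eich (s.o.1 hg), map_zero] at k
    obtain ⟨f, hf, f0⟩ := (Submodule.ne_bot_iff _).1 (LinearMap.ker_ne_bot_of_finrank_lt
      (f := resJ K (B (g (jv K x)))) (by simp; omega))
    exact s.point1 hN f0 hf (by rw [(s.o.1 hg).2, R.sing (alt_Q R.cl₀ x)]) dT R.ne k
  obtain ⟨μ, hμ⟩ := Submodule.mem_span_singleton.mp (k1 e)
  refine hgS (mem_ratG R.fix (μ := μ) ?_ fun x => ?_)
  · rintro rfl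
    exact th_ne (v := g (jv K e)) (by simpa using jv_ne he0) (by simpa using hμ.symm)
  by_cases h0 : x = 0
  · simp [h0]
  obtain ⟨ν, hν⟩ := Submodule.mem_span_singleton.mp (k1 x)
  rw [eig_eq R.fix he0 h0 hμ.symm hν.symm (k1 _)]
  exact hν.symm

end SubS

theorem max_sub_herm_alt4 {F : Type*} [Field F] {K : Subfield F} {θ : F ≃+* F} {ι : Type}
    {σ : F →+* F} [Fintype ι] [DecidableEq ι] [Finite F] (hθ : ∀ a, θ a = a ↔ a ∈ K)
    (hn : 4 ≤ Fintype.card ι) (hc : Nat.card K ^ 2 = Nat.card F) {Q : (ι → F) → F} {ζ : F}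
    {B : (ι → F) →ₛₗ[σ] (ι → F) →ₗ[F] F} (h : Cl 1 1 (trHom σ) B Q) (hσ : σ ≠ RingHom.id F)
    (hσθ : ∀ a, σ (θ a) = θ (σ a)) (hK : ∀ a, a ∈ K ↔ σ a = a) (hζ : ζ ≠ 0)
    (hζ' : ζ + σ ζ = 0) (hP : ∀ x y, ζ * B (jv K x) (jv K y) ∈ K)
    (hA : ∀ x, B (jv K x) (jv K x) = 0) : IsMaximalIn h.Om (ratG θ ι ⊓ h.Om) := by
  have ht : ∀ t : K, (t : F) = σ t := fun t => ((hK _).1 t.2).symm
  have h0 := clAlt (B := descB (σ₀ := RingHom.id K) B ζ ht hP)
    (fun x => Subtype.ext (by simp [descB_apply, hA])) (descB_sep h.sep hζ _ hP)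
  refine SubS.max_sub ⟨h, h0, hθ, hσθ, hζ, fun _ _ => rfl, by simp; linear_combination hζ',
    fun x c e => ?_⟩ hK hσ (Nat.pow_right_injective (Finite.one_lt_card (α := K))
    ((Module.natCard_eq_pow_finrank (K := K) (V := F)).symm.trans hc.symm)) hn
  have := h.form.diag (jv K x)
  rw [hA, one_mul] at this
  rw [h.Q_smul, ← this, trHom_apply, map_mul, ← ht]
  linear_combination (c : F) * hζ'

theorem Ag.su_subs4 {F : Type*} [Field F] [Fintype F] (n q : ℕ) (hF : Fintype.card F = q ^ 2) (hn : 4 ≤ n) (F₀ : Subfield F) (P : Matrix.GeneralLinearGroup (Fin n) F) (ζ : F) (hcard : Fintype.card F = Nat.card F₀ ^ 2) (hζ0 : ζ ≠ 0) (hζ : ζ + ζ ^ q = 0) (hP : Cfsg.Geo.IsFormRationalStructure (Cfsg.hermForm n F q) F₀ ζ P) (halt : ∀ u : Fin n → F, (∀ i, u i ∈ F₀) → Cfsg.hermForm n F q (Matrix.mulVec (P : Matrix (Fin n) (Fin n) F) u) (Matrix.mulVec (P : Matrix (Fin n) (Fin n) F) u) = 0) : Cfsg.Geo.IsMaximalIn (Cfsg.GU n F q ⊓ Cfsg.Geo.specialLinear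 (Fin n) F) (Cfsg.Geo.subfieldSubgroup F₀ P ⊓ (Cfsg.GU n F q ⊓ Cfsg.Geo.specialLinear (Fin n) F)) := by
  obtain ⟨θ, hθ, hc⟩ := H10.exists_frob F₀
  have hq : Nat.card F₀ = q := (Nat.pow_left_injective two_ne_zero (hF.symm.trans hcard)).symm
  refine H10.isMaximalIn_subfield hθ P
    (fun g => (H10.mem_SU_iff hF g).trans ((H10.clSU hF n).mem_om_pull (H11.glEquiv _ F P) _))
    (max_sub_herm_alt4 hθ (by simpa) (by rw [← hcard, Nat.card_eq_fintype_card]) _
      ((H11.qConj_conjQ hF).isHerm (Fin 0)).ne (hc _)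
      (fun t => by rw [H11.conjQ_apply, ← hq]; exact H26.mem_subfield_iff_pow_card)
      hζ0 hζ (fun x y => ?_) fun x => ?_)
  · have := hP _ _ (fun i => (y i).2) fun i => (x i).2
    rwa [H10.hermForm_eq hF] at this
  · have := halt _ (fun i => (x i).2)
    rwa [H10.hermForm_eq hF] at this

end Cfsg.Agent.H10
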