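import Mathlib
import Cfsg.Agent.H10.Ag24

/-! Orthogonal subfield subgroups of unitary groups of dimension at least five. -/

set_option autoImplicit false
set_option maxHeartbeats 400000

namespace Cfsg.Agent.H10

open Module H11 Cfsg.Geo

theorem Cl.perp_sub5 {F : Type*} [Field F] {V : Type*} [AddCommGroup V] [Module F V] {σ : F →+* F}
    {ε κ : F} {τ : F →+ F} {B : V →ₛₗ[σ] V →ₗ[F] F} {Q : V → F} (h : Cl ε κ τ B Q)
    [FiniteDimensional F V] [Finite F] (hn : 5 ≤ finrank F V) {e : V}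
    (he0 : e ≠ 0) (he : Q e = 0) {S : Submodule F V} (heS : e ∈ S)
    (hS : ∀ u x c, Q u = 0 → B u x = 0 → τ c = Q x → B u e = 0 → B x e = 0 →
      ∀ s ∈ S, h.eich u x c s ∈ S) {f : V} (hf : f ∈ S) (hfe : f ∉ Submodule.span F {e})
    (hef : B e f = 0) {y : V} (hy : B e y = 0) : y ∈ S := by
  obtain ⟨e', he', hee⟩ := h.form.exists_partner h.sep he he0
  have hP := h.form.nondegOn_span_pair he he' (by simp [hee])
  have hU := h.form.nondegOn_perp h.sep hP
  have d5 := h.form.finrank_perp h.sep (Submodule.span F {e, e'})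
  have d6 := finrank_span_pair_le (F := F) e e'
  have hm : ∀ x, x ∈ perp B (Submodule.span F {e, e'}) ↔ B e x = 0 ∧ B e' x = 0 := fun x => by
    rw [mem_perp_span]; simp
  have pr : ∀ y, B e y = 0 → y - (ε * B e' y) • e ∈ perp B (Submodule.span F {e, e'}) := fun y hy =>
    (hm _).mpr ⟨by simp [hy, h.diag0 he], by
      simp only [map_sub, map_smul, h.flip_one hee, smul_eq_mul]
      linear_combination (-B e' y) * h.eps_mul⟩
  obtain ⟨f', a1, a2⟩ := h.form.exists_perp_not h.sep hfe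
  replace a1 := a1 e (Submodule.mem_span_singleton_self e)
  have k := h.irr hU (Or.inl (by omega)) (S := S) (fun u hu w hw c a b d =>
    hS u w c a b d (h.refl ((hm u).1 hu).1) (h.refl ((hm w).1 hw).1)) hf
    ⟨_, pr f' a1, by simp [hef, h.flip_one a2, h.eps_ne]⟩
  simpa using S.add_mem (k (pr y hy)) (S.smul_mem (ε * B e' y) heS)

namespace SubO

variable {F : Type*} [Field F] {K : Subfield F} {θ : F ≃+* F} {ι : Type} [Fintype ι] [DecidableEq ι]
  {σ : F →+* F} {B : (ι → F) →ₛₗ[σ] (ι → F) →ₗ[F] F} {Q : (ι → F) → F}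
  {B₀ : (ι → K) →ₗ[K] (ι → K) →ₗ[K] K} {Q₀ : (ι → K) → K}
  {R : Rat (σ₀ := RingHom.id K) θ 1 1 (trHom σ) B Q 1 2 (AddMonoidHom.id K) B₀ Q₀ 1}
  {M : Subgroup ((ι → F) ≃ₗ[F] (ι → F))}

omit [Fintype ι] [DecidableEq ι] in
theorem hB2 (R : Rat (σ₀ := RingHom.id K) θ 1 1 (trHom σ) B Q 1 2 (AddMonoidHom.id K) B₀ Q₀ 1)
    (x y : ι → K) : B (jv K x) (jv K y) = B₀ x y := by simp [R.hB]

/-- The standing hypotheses. -/
structure So (R : Rat (σ₀ := RingHom.id K) θ 1 1 (trHom σ) B Q 1 2 (AddMonoidHom.id K) B₀ Q₀ 1)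
    (M : Subgroup ((ι → F) ≃ₗ[F] (ι → F))) : Prop where
  o : R.Ov M
  hθ : ∀ a, θ a = σ a
  hσ : σ ≠ RingHom.id F
  two : (2 : F) ≠ 0
  rk : finrank K F = 2
  hn : 5 ≤ Fintype.card ι

variable (s : So R M)
include s

omit [DecidableEq ι] in
theorem So.hK {a : F} : a ∈ K ↔ σ a = a := by rw [← R.fix, s.hθ]

omit [DecidableEq ι] in
theorem So.ar {e y : ι → K} (he : Q₀ e = 0) (hy : B₀ e y = 0) {k : F} (hk : k ∈ K) :
    k • jv K y ∈ R.cl.Ar M (jv K e) := by
  have := s.o.mem_ar he (y := (⟨k, hk⟩ : K) • y) (by simp [hy])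
  rwa [map_one, one_smul] at this

omit [DecidableEq ι] in
theorem So.E {u x : ι → K} (hu : Q₀ u = 0) (hx : B₀ u x = 0) :
    R.cl.eich (jv K u) (jv K x) (Q₀ x) ∈ M := by
  simpa [Rat.E] using s.o.2 u x (Q₀ x) hu hx rfl

variable [Finite F]

theorem So.om_le {e u : ι → K} (he0 : e ≠ 0) (he : Q₀ e = 0) (hu : Q₀ u = 0) (heu : B₀ e u = 0)
    {a : ι → F} (ha : a ∈ R.cl.Ar M (jv K e)) (h : B (jv K u) a ∉ K) : R.cl.Om ≤ M := by
  have hn := s.hn
  have t2 := s.two
  have d1 := finrank_le_inf_ker ⊤ (B₀ e)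
  have d2 := finrank_le_inf_ker (⊤ ⊓ LinearMap.ker (B₀ e)) (B₀ u)
  have d3 := finrank_span_pair_le (F := K) e u
  obtain ⟨x, ⟨⟨-, p⟩, q⟩, hx⟩ := exists_mem_notMem
    (W := ⊤ ⊓ LinearMap.ker (B₀ e) ⊓ LinearMap.ker (B₀ u)) (Z := Submodule.span K {e, u})
    (by simp at d1 d2 ⊢; omega)
  replace p : B₀ e x = 0 := p
  replace q : B₀ u x = 0 := q
  generalize hβ : B (jv K u) a = β at h
  generalize hγ : B (jv K x) a = γ
  have d0 : β - σ β ≠ 0 := fun e => h (s.hK.2 (by linear_combination -e))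
  have d0' : σ β - β ≠ 0 := fun e => d0 (by linear_combination -e)
  have k1 : ∀ k ∈ K, k • (γ • jv K u - β • jv K x) ∈ R.cl.Ar M (jv K e) := fun k hk => by
    have k0 : ∀ k : K, R.cl.eich (jv K u) (jv K (k • x)) (Q₀ (k • x)) a ∈ R.cl.Ar M (jv K e) := fun k =>
      R.cl.map_mem_ar_fix s.o.1 (s.E hu (by simp [q])) (R.cl.eich_fix _ (R.perp (R.cl₀.refl heu))
        (R.perp (by simp [R.cl₀.refl p]))) ha
    have hk2 : k / 2 ∈ K := K.div_mem hk (by norm_num)
    have := AddSubgroup.sub_mem _ (k0 ⟨_, hk2⟩) (k0 (-⟨_, hk2⟩))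
    rw [SubU.ea R.cl (R.sing hu) (R.perp (by simp [q])), SubU.ea R.cl (R.sing hu) (R.perp (by simp [q])),
      neg_smul, R.cl₀.form.neg, map_neg, jv_smul] at this
    convert this using 1
    simp only [map_neg, map_smulₛₗ, LinearMap.neg_apply, LinearMap.smul_apply, smul_eq_mul, hβ, hγ,
      s.hK.1 hk2]
    match_scalars <;> field_simp <;> ring
  have c1 : (γ - σ γ) / (β - σ β) ∈ K := s.hK.2 (by
    simp only [map_div₀, map_sub, R.cl.invol]; field_simp; ring)
  have tr : ∀ m : F, (m + σ m) / 2 ∈ K := fun m => s.hK.2 (by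
    simp only [map_div₀, map_add, R.cl.invol, map_ofNat, add_comm])
  have h2 : jv K ((⟨_, c1⟩ : K) • u - x) ∈ R.cl.Arm M (jv K e) := fun m => by
    have c2 : (m - σ m) / (β - σ β) ∈ K := s.hK.2 (by
      simp only [map_div₀, map_sub, R.cl.invol]; field_simp; ring)
    convert AddSubgroup.add_mem _ (AddSubgroup.sub_mem _ (k1 _ c2) (s.ar he heu (K.sub_mem
      (K.mul_mem c2 (tr γ)) (K.mul_mem (tr m) c1)))) (s.ar he p (K.sub_mem (K.mul_mem c2 (tr β)) (tr m)))
      using 1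
    rw [map_sub, jv_smul]
    match_scalars <;> field_simp <;> ring
  have h1 : (⟨_, c1⟩ : K) • u - x ∉ Submodule.span K {e} := fun h1 => hx (by
    have := Submodule.sub_mem _ (Submodule.smul_mem _ (⟨_, c1⟩ : K)
      (Submodule.subset_span (s := {e, u}) (by simp : u ∈ _))) (Submodule.span_mono (by simp) h1)
    rwa [sub_sub_cancel] at this)
  have A1 : ∀ y, B (jv K e) y = 0 → y ∈ R.cl.Ar M (jv K e) := fun y hy =>
    R.cl.ar_of_arm (ext_le (T := R.cl.Arm M _) (fun x hx =>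
      R.cl₀.perp_sub5 (by simpa) he0 he (S := pre K (R.cl.Arm M (jv K e)))
        (R.cl.self_mem_arm (R.sing he)) (fun u x c a b d i j y hy => by
          rw [mem_pre, ← R.E_apply a b]
          exact R.cl.map_mem_arm s.o.1 (s.o.2 _ _ _ a b d) (R.E_fix c i j) hy) h2 h1
          (by simp [heu, p]) hx)
      (R.mem_ext_perp hy))
  exact s.o.om_le_of_full (by omega) he0 (R.cl.full_of_ar (R.sing he) A1 fun c hc =>
    R.cl.center_of_ar (by simp; omega) (fun _ => t2) (R.sing he) A1 hc)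

variable (hN : ∀ e u, e ≠ 0 → Q₀ e = 0 → Q₀ u = 0 → B₀ e u = 0 →
  ∀ a ∈ R.cl.Ar M (jv K e), B (jv K u) a ∈ K)
include hN

omit [DecidableEq ι] in
theorem So.nr {e u : ι → K} (he0 : e ≠ 0) (he : Q₀ e = 0) (heu : B₀ e u = 0) {a : ι → F}
    (ha : a ∈ R.cl.Ar M (jv K e)) : B (jv K u) a ∈ K := by
  have hn := s.hn
  have d1 := finrank_le_inf_ker ⊤ (B₀ e)
  have d2 := finrank_span_one_le (F := K) e
  obtain ⟨f, ⟨-, p1⟩, p2, p3⟩ := R.cl₀.exists_sing_notMem (W := ⊤ ⊓ LinearMap.ker (B₀ e))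
    (Z := Submodule.span K {e}) (by simp at d1 ⊢; omega)
  let S : Submodule K (ι → K) :=
    { carrier := {u | ∀ a ∈ R.cl.Ar M (jv K e), B (jv K u) a ∈ K}
      add_mem' := fun p q a ha => by simpa using K.add_mem (p a ha) (q a ha)
      zero_mem' := fun a _ => by simp
      smul_mem' := fun c x p a ha => by
        rw [jv_smul, map_smulₛₗ, s.hK.1 c.2]; exact K.mul_mem c.2 (p a ha) }
  refine R.cl₀.perp_sub5 (by simpa) he0 he (S := S) (fun a ha => by simp [R.cl.ar_perp ha])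
    (fun u x c p q r s' t z hz a ha => ?_) (f := f) (hN e f he0 he p3 p1) p2 p1 heu a ha
  have m := s.o.2 _ _ _ p q r
  have := hz _ (R.cl.map_mem_ar_fix s.o.1 (M.inv_mem m) (by
    conv_lhs => rw [← R.E_fix c s' t]
    simp [LinearEquiv.coe_inv]) ha)
  rw [← (s.o.1 m).1, R.E_apply p q] at this
  simpa [LinearEquiv.coe_inv] using this

theorem So.key {g : (ι → F) ≃ₗ[F] (ι → F)} (hg : g ∈ M) {e : ι → K} (he0 : e ≠ 0) (he : Q₀ e = 0)
    (hte : g (jv K e) = jv K e) {v : ι → F} (hv : B (jv K e) v = 0) :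
    th θ (g v) - g (th θ v) ∈ Submodule.span F {jv K e} := by
  refine ext_induction (p := fun v => th θ (g v) - g (th θ v) ∈ Submodule.span F {jv K e})
    (fun x hx => ?_) (fun v w p q => ?_) (fun c v p => ?_) (R.mem_ext_perp hv)
  · refine R.cl.form.mem_of_perp R.cl.sep fun y hy => ?_
    refine ext_le (T := LinearMap.ker (B _)) (fun u hu => R.cl.refl ?_)
      (R.mem_ext_perp (hy _ (Submodule.mem_span_singleton_self _)))
    have k := s.nr hN he0 he hu (R.cl.map_mem_ar_fix s.o.1 hg hte (s.ar he hx K.one_mem))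
    have k' : B (jv K u) (g (jv K x)) ∈ K := by simpa using k
    have := R.B_th (jv K u) (g (jv K x))
    rw [one_mul, one_mul, (R.fix _).mpr k', th_jv R.fix] at this
    rw [map_sub, th_jv R.fix, this, sub_self]
  · convert Submodule.add_mem _ p q using 1
    simp only [map_add]; abel
  · convert Submodule.smul_mem _ (θ c) p using 1
    rw [map_smul, th_smul, th_smul, map_smul, smul_sub]

/-- The commutator space of an Eichler element fixing a rational point. -/
theorem So.key2 {w y : ι → F} {c : F} (ht : R.cl.eich w y c ∈ M) (hw : Q w = 0) (hwy : B w y = 0)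
    {f : ι → K} (f0 : f ≠ 0) (hf : Q₀ f = 0) (h1 : B w (jv K f) = 0) (h2 : B y (jv K f) = 0)
    {v : ι → F} (hv : B (jv K f) v = 0) :
    th θ (B y v • w - B w v • y - (c * B w v) • w) - (B y (th θ v) • w - B w (th θ v) • y -
      (c * B w (th θ v)) • w) ∈ Submodule.span F {jv K f} := by
  have := s.key hN ht f0 hf (R.cl.eich_fix c h1 h2) hv
  rw [SubU.ea R.cl hw hwy, SubU.ea R.cl hw hwy] at this
  convert this using 1
  simp only [map_add, map_sub]; abel

theorem So.main {w y : ι → F} {c : F} (ht : R.cl.eich w y c ∈ M) (hw : Q w = 0) (hwy : B w y = 0)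
    (hy : B y y ≠ 0) {f : ι → K} (f0 : f ≠ 0) (hf : Q₀ f = 0) (h1 : B w (jv K f) = 0)
    (h2 : B y (jv K f) = 0) : th θ w ∈ Submodule.span F {w} := by
  have k : ∀ (c : F) (x : ι → K), th θ (c • jv K x) ∈ Submodule.span F {c • jv K x} := fun c x => by
    by_cases hc : c = 0
    · rw [hc, zero_smul, map_zero]; exact Submodule.zero_mem _
    · exact Submodule.mem_span_singleton.2 ⟨θ c / c, by rw [th_smul, th_jv R.fix, smul_smul]; simp [hc]⟩
  by_cases h0 : w ∈ Submodule.span F {jv K f}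
  · obtain ⟨c, rfl⟩ := Submodule.mem_span_singleton.1 h0
    exact k c f
  have b1 := R.cl.diag0 (R.sing hf)
  have bw := R.cl.diag0 hw
  have m1 : jv K f ∈ Submodule.span F {jv K f, w} := Submodule.subset_span (by simp)
  have m2 : w ∈ Submodule.span F {jv K f, w} := Submodule.subset_span (by simp)
  have le : Submodule.span F {jv K f} ≤ Submodule.span F {jv K f, w} := Submodule.span_mono (by simp)
  have m3 : th θ w ∈ Submodule.span F {jv K f, w} := by
    obtain ⟨α, hα⟩ := Submodule.mem_span_singleton.1 (s.key2 hN ht hw hwy f0 hf h1 h2 (R.cl.refl h2))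
    obtain ⟨v, a1, a2⟩ := R.cl.form.exists_perp_not R.cl.sep h0
    replace a1 := a1 _ (Submodule.mem_span_singleton_self _)
    obtain ⟨β, hβ⟩ := Submodule.mem_span_singleton.1 (s.key2 hN ht hw hwy f0 hf h1 h2 a1)
    simp only [hwy, a2, zero_smul, mul_zero, sub_zero, one_smul, mul_one, map_sub, th_smul] at hα hβ
    have y0 : θ (B y y) ≠ 0 := by simpa using hy
    have e1 : th θ w = (θ (B y y))⁻¹ • (α • jv K f + (B y (th θ y) - c * B w (th θ y)) • w -
        B w (th θ y) • y) := by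
      rw [eq_inv_smul_iff₀ y0]; linear_combination (norm := module) -hα
    have e2 : B w (th θ w) = 0 := by rw [e1]; simp [h1, bw, hwy]
    have e3 := congrArg (B w) hβ
    simp [h1, bw, hwy, e2] at e3
    rw [e1, e3]
    exact Submodule.smul_mem _ _ (by
      simpa using add_mem (Submodule.smul_mem _ α m1) (Submodule.smul_mem _ _ m2))
  have m4 := ext_pre R.fix (S := Submodule.span F {jv K f, w}) fun v hv => by
    obtain ⟨a, b, rfl⟩ := Submodule.mem_span_pair.1 hv
    rw [map_add, th_smul, th_smul, th_jv R.fix]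
    exact add_mem (Submodule.smul_mem _ _ m1) (Submodule.smul_mem _ _ m3)
  obtain ⟨v, v1, v2⟩ : ∃ v ∈ pre K (Submodule.span F {jv K f, w}), v ∉ Submodule.span K {f} := by
    by_contra! hc
    refine h0 (ext_le (S := pre K (Submodule.span F {jv K f, w})) (fun x hx => ?_) (m4.ge m2))
    obtain ⟨a, rfl⟩ := Submodule.mem_span_singleton.1 (hc x hx)
    exact jv_smul a f ▸ Submodule.smul_mem _ _ (Submodule.mem_span_singleton_self _)
  obtain ⟨a, b, hab⟩ := Submodule.mem_span_pair.1 (mem_pre.1 v1)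
  have hb : b ≠ 0 := by
    rintro rfl
    exact v2 (mem_span_of_jv (by simpa using Submodule.mem_span_singleton.2 ⟨a, by simpa using hab⟩))
  have e1 : w = b⁻¹ • jv K v + (-a / b) • jv K f := by
    rw [← hab]; match_scalars <;> field_simp <;> ring
  have c1 : B w (jv K v) = 0 := by simp [← hab, h1, bw]
  have c2 : B y (jv K v) = 0 := by simp [← hab, h2, R.cl.refl hwy]
  have c3 : B (jv K f) (jv K v) = 0 := by simp [← hab, b1, R.cl.refl h1]
  have c4 : B (jv K v) (jv K v) = 0 := by nth_rewrite 1 [← hab]; simp [c1, c3]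
  have qv : Q₀ v = 0 := by
    have := R.cl₀.form.diag v
    rw [R.perp_iff.1 c4, eq_comm, mul_eq_zero] at this
    exact this.resolve_left fun e => s.two ((map_ofNat K.subtype 2).symm.trans (by rw [e, map_zero]))
  have v0 : v ≠ 0 := by rintro rfl; exact v2 (Submodule.zero_mem _)
  obtain ⟨x, a1, a2⟩ := R.cl₀.form.exists_perp_not R.cl₀.sep v2
  replace a1 := R.perp (a1 _ (Submodule.mem_span_singleton_self _))
  obtain ⟨x', a3, a4⟩ := R.cl₀.form.exists_perp_not R.cl₀.sep (notMem_span_symm f0 v2)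
  replace a3 := R.perp (a3 _ (Submodule.mem_span_singleton_self _))
  obtain ⟨α, hα⟩ := Submodule.mem_span_singleton.1 (s.key2 hN ht hw hwy f0 hf h1 h2 a1)
  obtain ⟨β, hβ⟩ := Submodule.mem_span_singleton.1 (s.key2 hN ht hw hwy v0 qv c1 c2 a3)
  have a0 : b⁻¹ ≠ 0 := inv_ne_zero hb
  generalize b⁻¹ = a' at e1 a0
  generalize -a / b = b' at e1
  have c5 : B y (th θ w) = 0 := by rw [e1]; simp [th_smul, th_jv R.fix, c2, h2]
  have c6 : B w (jv K x) = σ a' := by rw [e1]; simp [a1, hB2 R, a2]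
  have c7 : B w (jv K x') = σ b' := by rw [e1]; simp [a3, hB2 R, a4]
  have e2 := congrArg (B y) hα
  have e3 := congrArg (B y) hβ
  simp only [th_jv R.fix, map_sub, th_smul, map_smul, smul_eq_mul, c2, h2, c5, c6, c7, R.cl.refl hwy,
    s.hθ, R.cl.invol] at e2 e3
  have a0' := R.cl.sigma_ne a0
  have h6 : b' / a' ∈ K := s.hK.2 (by
    rw [map_div₀]; field_simp
    exact mul_right_cancel₀ hy (by linear_combination b' * e2 - a' * e3))
  have e4 : w = a' • jv K (v + (⟨_, h6⟩ : K) • f) := by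
    rw [e1, map_add, jv_smul, smul_add, smul_smul]; simp [mul_div_cancel₀ _ a0]
  rw [e4]; exact k _ _

omit hN [Finite F] [DecidableEq ι] in
theorem So.exists_ns {W : Submodule K (ι → K)} (hW : Fintype.card ι < 2 * finrank K W) :
    ∃ x ∈ W, B₀ x x ≠ 0 := by
  by_contra! hc
  have t2 : (2 : K) ≠ 0 := fun e => s.two ((map_ofNat K.subtype 2).symm.trans (by rw [e, map_zero]))
  have q : ∀ x ∈ W, Q₀ x = 0 := fun x hx => by
    have := R.cl₀.form.diag x
    rw [hc x hx, eq_comm, mul_eq_zero] at this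
    exact this.resolve_left t2
  have := R.cl₀.form.two_mul_finrank_le R.cl₀.sep (W := W) ⟨q, fun x hx y hy => by
    have := R.cl₀.Q_add x y
    rw [q x hx, q y hy, q _ (W.add_mem hx hy)] at this
    simpa using this.symm⟩
  simp at this; omega

theorem So.point {g : (ι → F) ≃ₗ[F] (ι → F)} (hg : g ∈ M) {e : ι → K} (he0 : e ≠ 0) (he : Q₀ e = 0) :
    th θ (g (jv K e)) ∈ Submodule.span F {g (jv K e)} := by
  have hn := s.hn
  have rk := s.rk
  have cj : ∀ x, B₀ e x = 0 → R.cl.eich (g (jv K e)) (g (jv K x)) (Q₀ x) ∈ M := fun x hx => by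
    have := M.mul_mem (M.mul_mem hg (s.E he hx)) (M.inv_mem hg)
    rwa [R.cl.conj_eich (s.o.1 hg)] at this
  have I := (s.o.1 hg).1
  have hw : Q (g (jv K e)) = 0 := by rw [(s.o.1 hg).2, R.sing he]
  have mn : ∀ f x, f ≠ 0 → Q₀ f = 0 → B₀ e x = 0 → B₀ x x ≠ 0 → B (g (jv K e)) (jv K f) = 0 →
      B (g (jv K x)) (jv K f) = 0 → th θ (g (jv K e)) ∈ Submodule.span F {g (jv K e)} :=
    fun f x a1 a2 a3 a4 a5 a6 => s.main hN (cj x a3) hw (by rw [I, R.perp a3])
      (by rw [I, Ne, R.perp_iff]; exact a4) a1 a2 a5 a6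
  have d4 : finrank K (⊤ : Submodule K (ι → K)) = Fintype.card ι := by simp
  have d3 : ∀ S : Submodule K F, finrank K S ≤ 2 := fun S => rk ▸ Submodule.finrank_le S
  have L1 : ∀ f x, f ≠ 0 → B₀ e x = 0 → B₀ x x = 0 →
      jv K f ∈ Submodule.span F {g (jv K e), g (jv K x)} →
      th θ (g (jv K e)) ∈ Submodule.span F {g (jv K e)} := fun f x a1 a2 a3 a4 => by
    obtain ⟨α, β, h⟩ := Submodule.mem_span_pair.1 a4
    have d1 := finrank_le_inf_ker ⊤ (B₀ e)
    have d2 := finrank_le_inf_ker (⊤ ⊓ LinearMap.ker (B₀ e)) (B₀ x)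
    obtain ⟨z, ⟨⟨-, p⟩, q⟩, hz⟩ := s.exists_ns
      (W := ⊤ ⊓ LinearMap.ker (B₀ e) ⊓ LinearMap.ker (B₀ x)) (by omega)
    have b1 := R.perp (R.cl₀.diag0 he)
    have b2 := R.perp a2
    refine mn f z a1 ?_ p hz (by simp [← h, I, b1, b2])
      (by simp [← h, I, R.perp (R.cl₀.refl p), R.perp (R.cl₀.refl q)])
    have := R.cl₀.form.diag f
    rw [R.perp_iff.1 (by simp [← h, I, b1, b2, R.cl.refl b2, R.perp a3]), eq_comm, mul_eq_zero] at this
    exact this.resolve_left fun e => s.two ((map_ofNat K.subtype 2).symm.trans (by rw [e, map_zero]))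
  have d1 := finrank_le_inf_ker_add ⊤ (resJ K (B (g (jv K e))))
  have d5 := d3 (Submodule.map (resJ K (B (g (jv K e)))) ⊤)
  obtain ⟨f, ⟨-, f1⟩, f0, hf⟩ := R.cl₀.exists_sing3
    (W := ⊤ ⊓ LinearMap.ker (resJ K (B (g (jv K e))))) (by omega)
  replace f1 : B (g (jv K e)) (jv K f) = 0 := f1
  have d6 := finrank_le_inf_ker ⊤ (B₀ e)
  have d7 := finrank_le_inf_ker_add (⊤ ⊓ LinearMap.ker (B₀ e))
    (resJ K (B (jv K f) ∘ₗ (g : (ι → F) →ₗ[F] (ι → F))))
  have d8 := d3 (Submodule.map (resJ K (B (jv K f) ∘ₗ (g : (ι → F) →ₗ[F] (ι → F))))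
    (⊤ ⊓ LinearMap.ker (B₀ e)))
  have d9 := finrank_span_one_le (F := K) e
  obtain ⟨x, ⟨⟨-, x1⟩, x2⟩, x3⟩ := exists_mem_notMem (W := ⊤ ⊓ LinearMap.ker (B₀ e) ⊓ LinearMap.ker
    (resJ K (B (jv K f) ∘ₗ (g : (ι → F) →ₗ[F] (ι → F))))) (Z := Submodule.span K {e}) (by omega)
  replace x1 : B₀ e x = 0 := x1
  replace x2 : B (g (jv K x)) (jv K f) = 0 := R.cl.refl x2
  by_cases hx : B₀ x x = 0
  swap
  · exact mn f x f0 hf x1 hx f1 x2
  by_cases h1 : jv K f ∈ Submodule.span F {g (jv K e), g (jv K x)}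
  · exact L1 f x f0 x1 hx h1
  have ht := cj x x1
  have hwy : B (g (jv K e)) (g (jv K x)) = 0 := by rw [I, R.perp x1]
  have hw0 : g (jv K e) ≠ 0 := by simpa using jv_ne he0
  have hyw : g (jv K x) ∉ Submodule.span F {g (jv K e)} := by
    simpa using notMem_span_map g (s := {jv K e}) fun hc => x3 (mem_span_of_jv (by simpa))
  replace L1 := fun f a => L1 f x a x1 hx
  generalize g (jv K e) = w at *
  generalize g (jv K x) = y at *
  set T := Submodule.span F {w, y} ⊔ Submodule.span F {jv K f} with hT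
  have m1 : w ∈ Submodule.span F {w, y} := Submodule.subset_span (by simp)
  have m2 : y ∈ Submodule.span F {w, y} := Submodule.subset_span (by simp)
  have kk : ∀ v, B (jv K f) v = 0 → th θ (B y v • w - B w v • y - ((Q₀ x : F) * B w v) • w) ∈ T :=
    fun v hv => by
      have := s.key2 hN ht hw hwy f0 hf f1 x2 hv
      simpa using T.add_mem (Submodule.mem_sup_right this) (Submodule.mem_sup_left (sub_mem (sub_mem
        (Submodule.smul_mem _ (B y (th θ v)) m1) (Submodule.smul_mem _ (B w (th θ v)) m2))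
        (Submodule.smul_mem _ ((Q₀ x : F) * B w (th θ v)) m1)))
  have n1 : ∀ {a b : ι → F}, b ∉ Submodule.span F {a} → jv K f ∉ Submodule.span F {a, b} →
      ∃ v, B (jv K f) v = 0 ∧ B a v = 0 ∧ B b v = 1 := fun {a b} p q => by
    obtain ⟨v, v1, v2⟩ := R.cl.form.exists_perp_not R.cl.sep (W := Submodule.span F {a, jv K f}) (x := b)
      fun hc => by
        obtain ⟨α, β, rfl⟩ := Submodule.mem_span_pair.1 hc
        by_cases hβ : β = 0
        · exact p (by simpa [hβ] using Submodule.smul_mem _ α (Submodule.mem_span_singleton_self a))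
        · exact q (Submodule.mem_span_pair.2 ⟨-α / β, β⁻¹, by match_scalars <;> field_simp <;> ring⟩)
    exact ⟨v, v1 _ (Submodule.subset_span (by simp)), v1 _ (Submodule.subset_span (by simp)), v2⟩
  have t1 : th θ w ∈ T := by
    obtain ⟨v, a1, a2, a3⟩ := n1 hyw h1
    simpa [a2, a3] using kk v a1
  have t2 : th θ y ∈ T := by
    obtain ⟨v, a1, a2, a3⟩ := n1 (notMem_span_symm hw0 hyw) (by rwa [Set.pair_comm])
    have := T.neg_mem (T.add_mem (kk v a1) (T.smul_mem (θ (Q₀ x)) t1))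
    simpa [a2, a3, th_smul] using this
  have e1 := finrank_pre R.fix (S := T) fun v hv => by
    obtain ⟨_, p, _, q, rfl⟩ := Submodule.mem_sup.1 hv
    obtain ⟨α, β, rfl⟩ := Submodule.mem_span_pair.1 p
    obtain ⟨γ, rfl⟩ := Submodule.mem_span_singleton.1 q
    rw [map_add, map_add, th_smul, th_smul, th_smul, th_jv R.fix]
    exact add_mem (add_mem (T.smul_mem _ t1) (T.smul_mem _ t2))
      (T.smul_mem _ (Submodule.mem_sup_right (Submodule.mem_span_singleton_self _)))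
  have e2 := Submodule.finrank_lt_finrank_of_lt (s := Submodule.span F {w, y}) (t := T)
    (left_lt_sup.mpr (by simpa using h1))
  have e3 := Submodule.finrank_lt_finrank_of_lt (s := Submodule.span F {w})
    (t := Submodule.span F {w, y}) (lt_of_le_of_ne (Submodule.span_mono (by simp))
      fun e => hyw (e ▸ m2))
  rw [finrank_span_singleton hw0] at e3
  obtain ⟨φ, p1, p2⟩ := exists_dual_zero_one h1
  have e4 := finrank_le_inf_ker_add (pre K T) (resJ K φ)
  have e5 := d3 (Submodule.map (resJ K φ) (pre K T))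
  obtain ⟨z, ⟨z1, z2⟩, z0⟩ := exists_ne_zero_of_finrank (W := pre K T ⊓ LinearMap.ker (resJ K φ))
    (by omega)
  refine L1 z z0 ?_
  obtain ⟨a, p, _, q, hz⟩ := Submodule.mem_sup.1 (mem_pre.1 z1)
  obtain ⟨γ, rfl⟩ := Submodule.mem_span_singleton.1 q
  replace z2 : φ (jv K z) = 0 := z2
  rw [← hz] at z2 ⊢
  simp [p1 a p, p2] at z2
  simpa [z2] using p

omit s hN in
theorem max_sub (R : Rat (σ₀ := RingHom.id K) θ 1 1 (trHom σ) B Q 1 2 (AddMonoidHom.id K) B₀ Q₀ 1)
    (hθ : ∀ a, θ a = σ a) (hσ : σ ≠ RingHom.id F) (two : (2 : F) ≠ 0) (rk : finrank K F = 2)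
    (hn : 5 ≤ Fintype.card ι) : IsMaximalIn R.cl.Om (ratG θ ι ⊓ R.cl.Om) := by
  obtain ⟨e, -, he0, he⟩ := R.cl₀.exists_sing3 (W := ⊤) (by simp; omega)
  refine isMaximalIn_inf (fun hle => ?_) fun M h1 h2' g hg hgS => ?_
  · obtain ⟨l, hl⟩ : ∃ l : F, l ∉ K := by
      by_contra! hc'
      exact hσ (RingHom.ext fun a => (hθ a).symm.trans ((R.fix a).2 (hc' a)))
    have d1 := finrank_le_inf_ker ⊤ (B₀ e)
    have d2 := finrank_span_one_le (F := K) e
    obtain ⟨y, ⟨-, p⟩, q2⟩ := exists_mem_notMem (W := ⊤ ⊓ LinearMap.ker (B₀ e))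
      (Z := Submodule.span K {e}) (by simp at d1 ⊢; omega)
    replace p : B₀ e y = 0 := p
    obtain ⟨x, q, s⟩ := R.cl₀.form.exists_perp_not R.cl₀.sep q2
    replace q := q e (Submodule.mem_span_singleton_self e)
    obtain ⟨c, hc⟩ := R.cl.exists_tau (σ l • jv K y)
    obtain ⟨μ, -, hμ⟩ := hle (R.cl.eich_mem_om (R.sing he) (R.perp' p _) hc)
    have k1 := hμ (jv K e)
    rw [th_jv R.fix, R.cl.eich_fix c (R.cl.diag0 (R.sing he)) (R.perp'' (R.cl₀.refl p) _),
      th_jv R.fix] at k1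
    obtain rfl : 1 = μ := smul_left_injective F (jv_ne he0) (by simpa using k1)
    have k2 := hμ (jv K x)
    have k4 : B (σ l • jv K y) (jv K x) = l := by simp [R.cl.invol, hB2 R, s]
    rw [th_jv R.fix, R.cl.eich_of_perp (R.sing he) (R.perp' p _) c (R.perp q), k4, map_add, th_smul,
      th_jv R.fix, th_jv R.fix, one_smul, add_right_inj] at k2
    exact hl ((R.fix l).mp (smul_left_injective F (jv_ne he0) k2))
  have s : So R M := ⟨⟨h2'.trans R.cl.om_le_isom, fun u x c p q s =>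
    h1 ⟨R.E_mem_rat p q c, R.E_mem_om p q s⟩⟩, hθ, hσ, two, rk, hn⟩
  by_contra hM
  have k1 : ∀ x, Q₀ x = 0 → th θ (g (jv K x)) ∈ Submodule.span F {g (jv K x)} := fun x hx => by
    by_cases h0 : x = 0
    · simp [h0]
    exact s.point (fun e u a b c d x hx => by_contra fun h => hM (s.om_le a b c d hx h)) hg h0 hx
  obtain ⟨μ, hμ⟩ := Submodule.mem_span_singleton.mp (k1 e he)
  have k2 : ∀ x, Q₀ x = 0 → th θ (g (jv K x)) = μ • g (jv K x) := fun x hx => by
    by_cases h0 : x = 0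
    · simp [h0]
    have d1 := finrank_le_inf_ker ⊤ (B₀ e)
    have d2 := finrank_le_inf_ker (⊤ ⊓ LinearMap.ker (B₀ e)) (B₀ x)
    obtain ⟨f, ⟨⟨-, p⟩, q⟩, f0, hf⟩ := R.cl₀.exists_sing3
      (W := ⊤ ⊓ LinearMap.ker (B₀ e) ⊓ LinearMap.ker (B₀ x)) (by simp at d1 d2 ⊢; omega)
    replace p : B₀ e f = 0 := p
    replace q : B₀ x f = 0 := q
    obtain ⟨ν, hν⟩ := Submodule.mem_span_singleton.mp (k1 x hx)
    obtain ⟨ν', hν'⟩ := Submodule.mem_span_singleton.mp (k1 f hf)
    rw [eig_eq R.fix he0 f0 hμ.symm hν'.symm (k1 _ (by simp [R.cl₀.Q_add, he, hf, p])),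
      ← eig_eq R.fix h0 f0 hν.symm hν'.symm (k1 _ (by simp [R.cl₀.Q_add, hx, hf, q]))]
    exact hν.symm
  let S : Submodule K (ι → K) :=
    { carrier := {x | th θ (g (jv K x)) = μ • g (jv K x)}
      add_mem' := fun {x y} (p : _ = _) (q : _ = _) => by
        change _ = _; simp only [map_add, p, q, smul_add]
      zero_mem' := by simp
      smul_mem' := fun c x (p : _ = _) => by
        change _ = _
        rw [jv_smul, map_smul, th_smul, p, (R.fix _).mpr c.2, smul_comm] }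
  have := R.cl₀.eq_top_of_sing (by simp; omega) (S := S) k2
  refine hgS (mem_ratG R.fix (μ := μ) ?_ fun x => (this ▸ trivial : x ∈ S))
  rintro rfl
  exact th_ne (v := g (jv K e)) (by simpa using jv_ne he0) (by simpa using hμ.symm)

end SubO

theorem max_sub_herm_quad5 {F : Type*} [Field F] {K : Subfield F} {θ : F ≃+* F} {ι : Type}
    {σ : F →+* F} [Fintype ι] [DecidableEq ι] [Finite F] (hθ : ∀ a, θ a = a ↔ a ∈ K)
    (hn : 5 ≤ Fintype.card ι) (hc : Nat.card K ^ 2 = Nat.card F) {Q : (ι → F) → F}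
    {B : (ι → F) →ₛₗ[σ] (ι → F) →ₗ[F] F} (h : Cl 1 1 (trHom σ) B Q) (hσ : σ ≠ RingHom.id F)
    (hθσ : ∀ a, θ a = σ a) (h2 : (2 : F) ≠ 0) (hP : ∀ x y, B (jv K x) (jv K y) ∈ K) :
    IsMaximalIn h.Om (ratG θ ι ⊓ h.Om) := by
  have ht : ∀ t : K, (t : F) = σ t := fun t => by rw [← hθσ, (hθ _).2 t.2]
  have hP' : ∀ x y, 1 * B (jv K x) (jv K y) ∈ K := by simpa using hP
  have sy : ∀ x y, B (jv K x) (jv K y) = B (jv K y) (jv K x) := fun x y => by
    rw [h.symm (jv K x), one_mul]; exact ht ⟨_, hP x y⟩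
  have h0 := clQuad (B := descB (σ₀ := RingHom.id K) B 1 ht hP')
    (Q := fun x => ⟨B (jv K x) (jv K x) / 2, K.div_mem (hP x x) (by norm_num)⟩) (IsQuad.of_add_smul
      (fun x y => Subtype.ext (by simp [descB_apply, sy y x]; field_simp; ring))
      fun c x => Subtype.ext (by
        change B ((c : F) • jv K x) ((c : F) • jv K x) / 2 =
          (c : F) * c * (B (jv K x) (jv K x) / 2)
        simp [← ht]; ring)) (descB_sep h.sep one_ne_zero _ hP')
  refine SubO.max_sub ⟨h, h0, hθ, fun a => by rw [hθσ, hθσ], one_ne_zero, fun _ _ => rfl, by simp,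
    fun x c e => ?_⟩ hθσ hσ h2 (Nat.pow_right_injective (Finite.one_lt_card (α := K))
    ((Module.natCard_eq_pow_finrank (K := K) (V := F)).symm.trans hc.symm)) hn
  have : (c : F) = B (jv K x) (jv K x) / 2 := congrArg Subtype.val e
  rw [mul_one, trHom_apply, ← ht, this]
  simp [h.form.diag]; field_simp; ring

theorem Ag.su_subo5 {F : Type*} [Field F] [Fintype F] (n q : ℕ) (hF : Fintype.card F = q ^ 2) (hn : 5 ≤ n) (hodd : Odd q) (F₀ : Subfield F) (P : Matrix.GeneralLinearGroup (Fin n) F) (hcard : Fintype.card F = Nat.card F₀ ^ 2) (hP : Cfsg.Geo.IsFormRationalStructure (Cfsg.hermForm n F q) F₀ 1 P) : Cfsg.Geo.IsMaximalIn (Cfsg.GU n F q ⊓ Cfsg.Geo.specialLinear (Fin n) F) (Cfsg.Geo.subfieldSubgroup F₀ P ⊓ (Cfsg.GU n F q ⊓ Cfsg.Geo.specialLinear (Fin n) F)) := by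
  have hq : Nat.card F₀ = q := (Nat.pow_left_injective two_ne_zero (hF.symm.trans hcard)).symm
  let θ : F ≃+* F := RingEquiv.ofBijective (H11.conjQ hF)
    (Finite.injective_iff_bijective.mp (H11.conjQ hF).injective)
  have hθ : ∀ a, θ a = a ↔ a ∈ F₀ := fun a => by
    rw [H26.mem_subfield_iff_pow_card, hq]; rfl
  refine H10.isMaximalIn_subfield hθ P
    (fun g => (H10.mem_SU_iff hF g).trans ((H10.clSU hF n).mem_om_pull (H11.glEquiv _ F P) _))
    (max_sub_herm_quad5 hθ (by simpa) (by rw [← hcard, Nat.card_eq_fintype_card]) _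
      ((H11.qConj_conjQ hF).isHerm (Fin 0)).ne (fun _ => rfl)
      (H11.two_ne_zero_of_odd_card (hF ▸ hodd.pow)) fun x y => ?_)
  have := hP _ _ (fun i => (y i).2) fun i => (x i).2
  rwa [H10.hermForm_eq hF, one_mul] at this

end Cfsg.Agent.H10
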