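import Mathlib
import Cfsg.Agent.H10.Ag25

/-! Pairs of totally isotropic subspaces of a unitary space of dimension at least six. -/

set_option autoImplicit false

namespace Cfsg.Agent.H10

open Module H11 Cfsg.Geo

variable {F : Type*} [Field F] {V : Type*} [AddCommGroup V] [Module F V] {σ : F →+* F}
  {B : V →ₛₗ[σ] V →ₗ[F] F} {Q : V → F} {h : Cl 1 1 (trHom σ) B Q}
  {M : Subgroup (V ≃ₗ[F] V)} {X Y : Submodule F V} [FiniteDimensional F V] {t : F}

/-- an overgroup of the stabiliser of a pair of totally isotropic subspaces -/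
structure PU (h : Cl 1 1 (trHom σ) B Q) (M : Subgroup (V ≃ₗ[F] V)) (X Y : Submodule F V) (t : F) :
    Prop where
  p : SPair B Q X Y
  ht : σ t ≠ t
  dim : 3 ≤ finrank F X
  le : M ≤ Isom B Q
  mem : ∀ x ∈ X, ∀ y ∈ Y, B x y = 0 → h.eich x y 0 ∈ M
  nx : ∀ e ∈ X, h.Full M e → e = 0
  ny : ∀ e ∈ Y, h.Full M e → e = 0

namespace PU
variable (o : PU h M X Y t)
include o

theorem symm : PU h M Y X t :=
  ⟨o.p.symm, o.ht, o.p.dim ▸ o.dim, o.le, h.pair_swap o.p (P := (· ∈ M)) o.mem, o.ny, o.nx⟩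

omit [FiniteDimensional F V] in
theorem ya {e : V} (heX : e ∈ X) {y : V} (hy : y ∈ Y) (a : B e y = 0) : y ∈ h.Arm M e := fun t =>
  (h.mem_ar (o.p.tx.1 e heX)).mpr ⟨by simp [a], 0, by rw [map_zero, o.p.ty.1 _ (Y.smul_mem t hy)],
    o.mem e heX _ (Y.smul_mem t hy) (by simp [a])⟩

theorem arm {e a : V} (heX : e ∈ X) (he0 : e ≠ 0) (ha : a ∈ X) (k2 : a ∈ h.Arm M e) :
    a ∈ Submodule.span F {e} := by
  by_contra hae
  have p := o.p
  have he := p.tx.1 e heX
  have k3 : X ≤ h.Arm M e := fun x hx => by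
    by_cases hm : a ∈ Submodule.span F {e} ⊔ Submodule.span F {x}
    · obtain ⟨s, hs, t, ht, e4⟩ := Submodule.mem_sup.mp hm
      obtain ⟨α, rfl⟩ := Submodule.mem_span_singleton.mp hs
      obtain ⟨β, rfl⟩ := Submodule.mem_span_singleton.mp ht
      have hβ : β ≠ 0 := by
        rintro rfl
        rw [zero_smul, add_zero] at e4
        exact hae (e4 ▸ hs)
      rw [← (h.Arm M e).smul_mem_iff hβ, show β • x = a - α • e by rw [← e4]; abel]
      exact (h.Arm M e).sub_mem k2 ((h.Arm M e).smul_mem _ (h.self_mem_arm he))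
    · obtain ⟨z, hz, z1, z2⟩ := h.pair_dual p (sup_le (by simpa using heX) (by simpa using hx)) ha hm
      have z3 := z1 x (Submodule.mem_sup_right (Submodule.mem_span_singleton_self x))
      have z4 := z1 e (Submodule.mem_sup_left (Submodule.mem_span_singleton_self e))
      have k4 := h.map_mem_arm o.le (o.mem x hx z hz z3)
        (h.eich_fix 0 (p.tx.2 x hx e heX) (h.refl z4)) k2
      rw [h.eich_of_perp (p.tx.1 x hx) z3 _ (p.tx.2 x hx a ha), h.flip_one z2] at k4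
      simpa using (h.Arm M e).sub_mem k4 k2
  have k5 : ∀ v, B e v = 0 → v ∈ h.Ar M e := fun v hv => by
    obtain ⟨a, ha, b, hb, rfl⟩ := p.decomp v
    exact h.ar_of_arm ((h.Arm M e).add_mem (k3 ha) (o.ya heX hb (by simpa [p.tx.2 e heX a ha] using hv)))
  have := X.finrank_le
  have := o.dim
  exact he0 (o.nx e heX (h.full_of_ar he k5 fun c hc => h.center_of_ar (by omega)
    (fun e => by
      obtain ⟨s, hs⟩ := exists_trace_eq (fun e' => o.ht (by simp [e'])) h.invol (map_one σ)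
      simpa [hs] using DFunLike.congr_fun e s) he k5 hc))

theorem notv {e : V} (heX : e ∈ X) (he0 : e ≠ 0) {c : F} (hc : h.eich e 0 c ∈ M) : c = 0 := by
  have := finrank_span_one_le (F := F) e
  have := o.dim
  obtain ⟨e', h1, h2⟩ := exists_mem_notMem (W := X) (Z := Submodule.span F {e}) (by omega)
  have h3 := notMem_span_symm he0 h2
  obtain ⟨y, hy, y1, y2⟩ := h.pair_dual o.p (by simpa using h1) heX h3
  have k := o.ya h1 hy (y1 e' (Submodule.mem_span_singleton_self e'))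
  have k1 := Submodule.sub_mem _ k (h.map_mem_arm o.le hc (h.eich_fix _ (o.p.tx.2 e heX e' h1) (by simp)) k)
  rw [SubU.ea h (o.p.tx.1 e heX) (by simp)] at k1
  by_contra c0
  exact h3 ((Submodule.smul_mem_iff _ c0).1 (o.arm h1 (by rintro rfl; simp at h2) (X.smul_mem c heX)
    (by simpa [y2] using k1)))

variable {a b a' b' e : V} (ha : a ∈ X) (hb : b ∈ Y) (ha' : a' ∈ X) (hb' : b' ∈ Y) (heX : e ∈ X)
  (he0 : e ≠ 0) (hu : Q (a + b) = 0) (hw : Q (a' + b') = 0) (uw : B (a + b) (a' + b') = 0)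
  (hm : ∀ c : F, h.eich (a + b) (c • (a' + b')) 0 ∈ M) (eb : B e b = 0) (eb' : B e b' = 0)
include ha hb ha' hb' heX he0 hu uw hm eb eb'

theorem lemE : a ∈ Submodule.span F {e} ∨ a' ∈ Submodule.span F {e} := by
  refine or_iff_not_imp_left.2 fun n => ?_
  obtain ⟨y, hy, y1, y2⟩ := h.pair_dual o.p (by simpa using heX) ha n
  have k := o.ya heX hy (y1 e (Submodule.mem_span_singleton_self e))
  have f1 : B (a + b) e = 0 := by simp [o.p.tx.2 a ha e heX, h.refl eb]
  have f2 : B (a' + b') e = 0 := by simp [o.p.tx.2 a' ha' e heX, h.refl eb']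
  have f3 : B (a + b) y = 1 := by simp [y2, o.p.ty.2 b hb y hy]
  have k1 := fun c : F => Submodule.sub_mem _ k (h.map_mem_arm o.le (hm c)
    (h.eich_fix _ f1 (by rw [map_smulₛₗ, LinearMap.smul_apply, f2, smul_zero])) k)
  have k2 := Submodule.sub_mem _ (k1 t) (Submodule.smul_mem _ (σ t) (k1 1))
  rw [SubU.ea h hu (by rw [map_smul, uw, smul_zero]), SubU.ea h hu (by rw [map_smul, uw, smul_zero]),
    f3] at k2
  refine o.arm heX he0 ha' ?_
  rw [← Submodule.smul_mem_iff _ (sub_ne_zero.2 o.ht.symm)]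
  convert Submodule.sub_mem _ k2 (Submodule.smul_mem _ (t - σ t) (o.ya heX hb' eb')) using 1
  simp only [map_smulₛₗ, LinearMap.smul_apply, smul_eq_mul, map_one]
  module

include hw in
theorem lemP (a0 : a ≠ 0) (hae : a ∈ Submodule.span F {e}) : a' ∈ Submodule.span F {e} := by
  by_contra n
  obtain ⟨α, rfl⟩ := Submodule.mem_span_singleton.1 hae
  obtain ⟨y, hy, y1, y2⟩ := h.pair_dual o.p (by simpa using heX) ha' n
  replace y1 := y1 e (Submodule.mem_span_singleton_self e)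
  have he := o.p.tx.1 e heX
  have ee := h.diag0 he
  have m := o.mem e heX y hy y1
  have f1 : B e (a' + b') = 0 := by simp [o.p.tx.2 e heX a' ha', eb']
  have f2 : B (α • e + b) e = 0 := by simp [ee, h.refl eb]
  have k : ∀ c : F, c * σ α - σ c * α = 0 := fun c => by
    have k1 := M.mul_mem (M.mul_mem m (hm c)) (M.inv_mem m)
    rw [h.conj_eich (o.le m), h.eich_fix _ (by simp [ee, eb]) (by simp [h.refl y1, o.p.ty.2 y hy b hb]),
      map_smul, h.eich_of_perp he y1 _ f1, map_add, h.flip_one y2, o.p.ty.2 y hy b' hb', add_zero,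
      one_smul] at k1
    have k2 := M.mul_mem k1 (hm (-c))
    rw [h.eich_mul hu (by rw [map_smul, map_add, uw, f2]; simp) (by rw [map_smul, uw]; simp)] at k2
    have k3 := M.mul_mem k2 (o.mem e heX _ (Y.smul_mem (σ c) hb) (by simp [eb]))
    refine o.notv heX he0 ?_
    convert k3 using 1
    ext x
    have ww := h.diag0 hw
    generalize a' + b' = w at *
    rw [LinearEquiv.mul_apply, SubU.ea h he (by simp), SubU.ea h he (by simp [eb]),
      SubU.ea h hu (by rw [map_add, map_smul, map_smul, map_add, uw, f2]; simp)]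
    simp [ee, eb, h.refl eb, o.p.ty.2 b hb b hb, h.invol, ww, f1, h.refl f1]
    module
  have k1 := k 1
  have k2 := k t
  rw [map_one] at k1
  have : α ≠ 0 := by rintro rfl; simp at a0
  exact o.ht (mul_right_cancel₀ this (by linear_combination t * k1 - k2))

omit heX he0 eb eb' ha hb ha' hb' o [FiniteDimensional F V] in
include hw in
theorem sw (c : F) : h.eich (a' + b') (c • (a + b)) 0 ∈ M := by
  rw [h.eich_swap hw (h.sing_smul hu c) (by rw [map_smul, h.refl uw, smul_zero]),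
    h.eich_smul_left hu (by rw [map_smul, uw, smul_zero]), smul_smul, mul_zero]
  exact hm _

include hw in
theorem lemQ (a0 : a ≠ 0) (a1 : a' ≠ 0) :
    a ∈ Submodule.span F {e} ∧ a' ∈ Submodule.span F {e} := by
  rcases o.lemE ha hb ha' hb' heX he0 hu uw hm eb eb' with k | k
  · exact ⟨k, o.lemP ha hb ha' hb' heX he0 hu hw uw hm eb eb' a0 k⟩
  · exact ⟨o.lemP ha' hb' ha hb heX he0 hw hu (h.refl uw) (sw hu hw uw hm) eb' eb a1 k, k⟩

omit ha hb ha' hb' heX he0 hu uw hm eb eb' in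
theorem lemU {u w : V} (hu : Q u = 0) (hw : Q w = 0) (uw : B u w = 0)
    (hm : ∀ c : F, h.eich u (c • w) 0 ∈ M) : u ∈ Y ∨ w ∈ Y := by
  obtain ⟨a, ha, b, hb, rfl⟩ := o.p.decomp u
  obtain ⟨a', ha', b', hb', rfl⟩ := o.p.decomp w
  by_contra! hc
  have a0 : a ≠ 0 := by rintro rfl; simp [hb] at hc
  have a1 : a' ≠ 0 := by rintro rfl; simp [hb'] at hc
  have := o.dim
  obtain ⟨f, f1, f2⟩ : ∃ f, b ∈ Submodule.span F {f} ∧ b' ∈ Submodule.span F {f} := by
    by_cases b0 : b = 0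
    · exact ⟨b', by simp [b0], Submodule.mem_span_singleton_self _⟩
    by_cases b1 : b' = 0
    · exact ⟨b, Submodule.mem_span_singleton_self _, by simp [b1]⟩
    have d1 := finrank_le_inf_ker Y (B a)
    have d2 := finrank_le_inf_ker (Y ⊓ LinearMap.ker (B a)) (B a')
    have := o.p.dim
    obtain ⟨f, ⟨⟨e1, e2⟩, e3⟩, e0⟩ := exists_ne_zero_of_finrank
      (W := Y ⊓ LinearMap.ker (B a) ⊓ LinearMap.ker (B a')) (by omega)
    exact ⟨f, o.symm.lemQ hb ha hb' ha' e1 e0 (by rwa [add_comm]) (by rwa [add_comm])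
      (by rwa [add_comm b, add_comm b']) (by rwa [add_comm b, add_comm b']) (h.refl e2) (h.refl e3) b0 b1⟩
  have d1 := finrank_le_inf_ker X (B f)
  have d2 := finrank_span_one_le (F := F) a
  obtain ⟨e, ⟨e1, e2⟩, e3⟩ := exists_mem_notMem (W := X ⊓ LinearMap.ker (B f))
    (Z := Submodule.span F {a}) (by omega)
  obtain ⟨β, rfl⟩ := Submodule.mem_span_singleton.1 f1
  obtain ⟨γ, rfl⟩ := Submodule.mem_span_singleton.1 f2
  exact notMem_span_symm a0 e3 (o.lemQ ha hb ha' hb' e1 (by rintro rfl; simp at e3) hu hw uw hm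
    (by simp [h.refl e2]) (by simp [h.refl e2]) a0 a1).1

end PU

theorem max_pairU (h : Cl 1 1 (trHom σ) B Q) (ht : σ t ≠ t) {D : Fin 2 → Submodule F V}
    (p : SPair B Q (D 0) (D 1)) (h3 : 3 ≤ finrank F (D 0))
    (hs : ∃ s ∈ h.Om, (∀ x ∈ D 0, s x ∈ D 1) ∧ ∀ y ∈ D 1, s y ∈ D 0) :
    IsMaximalIn h.Om (dstab D ⊓ h.Om) := by
  obtain ⟨s, hs, s1, s2⟩ := hs
  have hd := Submodule.disjoint_def.mp p.compl.disjoint
  refine isMaximalIn_inf (fun hc => ?_) fun M hHM hM g hg hgD => ?_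
  · obtain ⟨x, hx, hx0⟩ := exists_ne_zero_of_finrank (W := D 0) (by omega)
    obtain ⟨x', hx', hxx⟩ := exists_mem_notMem (W := D 0) (Z := Submodule.span F {x})
      (by have := finrank_span_one_le (F := F) x; omega)
    obtain ⟨y, hy, y1, y2⟩ := h.pair_dual p (by simpa using hx) hx' hxx
    have a := p.tx.2 x hx x' hx'
    have k := hc (h.eich_mem_om (c := 0) (p.tx.1 x hx) a (by simp [p.tx.1 x' hx']))
    have k1 : h.eich x x' 0 y = y + x := by
      rw [h.eich_of_perp (p.tx.1 x hx) a _ (y1 x (Submodule.mem_span_singleton_self x)), y2,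
        one_smul]
    rcases mem_dstab_two.mp k with ⟨-, k2⟩ | ⟨-, k2⟩
    · have : y + x ∈ D 1 := by rw [← k2, ← k1]; exact ⟨y, hy, rfl⟩
      exact hx0 (hd x hx (by simpa using (D 1).sub_mem this hy))
    · have : y + x ∈ D 0 := by rw [← k2, ← k1]; exact ⟨y, hy, rfl⟩
      have : y = 0 := hd y (by simpa using (D 0).sub_mem this hx) hy
      simp [this] at y2
  have hMI := hM.trans h.om_le_isom
  have hH : ∀ x ∈ D 0, ∀ y ∈ D 1, B x y = 0 → h.eich x y 0 ∈ M := fun x hx y hy a =>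
    hHM ⟨mem_dstab_of_le (Fin.forall_fin_two.mpr (h.pair_mem p hx hy a)),
      h.eich_mem_om (p.tx.1 x hx) a (by simp [p.ty.1 y hy])⟩
  have hsM : s ∈ M := hHM ⟨mem_dstab_two.mpr (Or.inr
    ⟨map_eq_of_le' p.dim (by rintro _ ⟨x, hx, rfl⟩; exact s1 x hx),
      map_eq_of_le' p.dim.symm (by rintro _ ⟨x, hx, rfl⟩; exact s2 x hx)⟩), hs⟩
  refine (h.om_le_or hMI).resolve_right fun hT => ?_
  have hS : ∀ x ∈ D 0, ∀ y ∈ D 1, B x y = 0 → ∀ s ∈ h.fullSpan M, h.eich x y 0 s ∈ h.fullSpan M :=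
    fun x hx y hy a s hs => h.map_mem_fullSpan hMI (hH x hx y hy a) hs
  have nx : ∀ e ∈ D 0, h.Full M e → e = 0 := fun e he hf => by
    by_contra he0
    have k1 := h.pair_irr p (by omega) hS hf.mem fun hc => he0 (hd e he hc)
    obtain ⟨y, hy, -, y2⟩ := h.pair_dual p (Z := ⊥) bot_le he (by simpa)
    have k2 := h.map_mem_fullSpan hMI (M.inv_mem hsM) (k1 (s2 y hy))
    simp only [LinearEquiv.coe_inv, LinearEquiv.symm_apply_apply] at k2
    simpa [y2] using hT.2 e hf.mem y k2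
  have o : PU h M (D 0) (D 1) t := ⟨p, ht, h3, hMI, hH, nx, fun e he hf => by
    simpa using nx _ (s2 e he) (hf.map hMI hsM)⟩
  have k : ∀ x ∈ D 0, ∀ y ∈ D 1, x ≠ 0 → y ≠ 0 → B x y = 0 →
      (g x ∈ D 0 ∧ g y ∈ D 1) ∨ (g x ∈ D 1 ∧ g y ∈ D 0) := fun x hx y hy x0 y0 a => by
    have u0 : g x ≠ 0 := by simpa
    have w0 : g y ≠ 0 := by simpa
    have uw : B (g x) (g y) = 0 := by rw [(hMI hg).1, a]
    have q1 : Q (g x) = 0 := by rw [(hMI hg).2, p.tx.1 x hx]
    have q2 : Q (g y) = 0 := by rw [(hMI hg).2, p.ty.1 y hy]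
    have hm : ∀ c : F, h.eich (g x) (c • g y) 0 ∈ M := fun c => by
      rw [← map_smul, ← h.conj_eich (hMI hg)]
      exact M.mul_mem (M.mul_mem hg (hH x hx _ ((D 1).smul_mem c hy) (by simp [a]))) (M.inv_mem hg)
    rcases o.lemU q1 q2 uw hm with e | e <;> rcases o.symm.lemU q1 q2 uw hm with e' | e'
    · exact absurd (hd _ e' e) u0
    · exact Or.inr ⟨e, e'⟩
    · exact Or.inl ⟨e', e⟩
    · exact absurd (hd _ e' e) w0
  have ex : ∀ (Z : Submodule F V) (y : V), 3 ≤ finrank F Z → ∃ x ∈ Z, x ≠ 0 ∧ B y x = 0 := fun Z y hZ => by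
    have := finrank_le_inf_ker Z (B y)
    obtain ⟨x, a, b⟩ := exists_ne_zero_of_finrank (W := Z ⊓ LinearMap.ker (B y)) (by omega)
    exact ⟨x, a.1, b, a.2⟩
  have k1 : ∀ x ∈ D 0, g x ∈ D 0 ∨ g x ∈ D 1 := fun x hx => by
    by_cases x0 : x = 0
    · simp [x0]
    obtain ⟨y, a, b, c⟩ := ex (D 1) x (p.dim ▸ h3)
    exact (k x hx y a x0 b c).imp And.left And.left
  have k2 : ∀ i j, i ≠ j → (∀ x ∈ D 0, g x ∈ D i) → (∀ x y, (x ∈ D 0 ∧ y ∈ D 1) ∨ (x ∈ D 1 ∧ y ∈ D 0) →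
      x ≠ 0 → x ∈ D i → y ∈ D j) → ∀ y ∈ D 1, g y ∈ D j := fun i j _ a b y hy => by
    by_cases y0 : y = 0
    · simp [y0]
    obtain ⟨x, a1, a2, a3⟩ := ex (D 0) y h3
    exact b _ _ (k x a1 y hy a2 y0 (h.refl a3)) (by simpa) (a x a1)
  refine absurd (mem_dstab_two.2 ?_) hgD
  by_cases c : ∀ x ∈ D 0, g x ∈ D 0
  · exact Or.inl ⟨map_eq_of_le c, map_eq_of_le (k2 0 1 (by decide) c fun x y a b c =>
      a.elim And.right fun a => absurd (hd x c a.1) b)⟩
  push Not at c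
  obtain ⟨x, x1, x2⟩ := c
  have c : ∀ x ∈ D 0, g x ∈ D 1 := fun z hz => (k1 z hz).elim (fun a =>
    (k1 _ ((D 0).add_mem x1 hz)).elim (fun b => absurd (by simpa using (D 0).sub_mem b a) x2)
      fun b => by simpa using (D 1).sub_mem b ((k1 x x1).resolve_left x2)) id
  exact Or.inr ⟨map_eq_of_le' p.dim (by rintro _ ⟨x, hx, rfl⟩; exact c x hx),
    map_eq_of_le' p.dim.symm (by
      rintro _ ⟨y, hy, rfl⟩
      exact k2 1 0 (by decide) c (fun x y a b c => a.elim (fun a => absurd (hd x a.1 c) b) And.right) y hy)⟩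

omit [FiniteDimensional F V] in
theorem Ag.su_pair3 {F : Type*} [Field F] [Fintype F] (n q : ℕ) (hF : Fintype.card F = q ^ 2) (k : ℕ) (hk : 3 ≤ k) (D : Fin 2 → Submodule F (Fin n → F)) (hD : Cfsg.Geo.IsMDecomposition k D) (hts : ∀ i, Cfsg.Geo.IsTotallySingularFor (Cfsg.hermForm n F q) (D i)) : Cfsg.Geo.IsMaximalIn (Cfsg.GU n F q ⊓ Cfsg.Geo.specialLinear (Fin n) F) (Cfsg.Geo.decompositionStabilizer D ⊓ (Cfsg.GU n F q ⊓ Cfsg.Geo.specialLinear (Fin n) F)) := by
  refine H10.isMaximalIn_gl (H10.mem_SU_iff hF)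
    (fun g _ => H10.mem_decompositionStabilizer_iff D g) ?_
  have h := H10.clSU hF n
  have h0 : ∀ i, ∀ x ∈ D i, ∀ y ∈ D i, H11.hermB (Fin n) (H11.conjQ hF) x y = 0 :=
    fun i x hx y hy => by rw [← H10.hermForm_eq hF]; exact hts i y hy x hx
  have p : H10.SPair (H11.hermB (Fin n) (H11.conjQ hF))
      (fun x => H11.hermB (Fin n) (H11.conjQ hF) x x) (D 0) (D 1) :=
    ⟨⟨fun x hx => h0 0 x hx x hx, h0 0⟩, ⟨fun x hx => h0 1 x hx x hx, h0 1⟩,
      H10.isCompl_of_two hD.indep hD.iSup_eq_top, by rw [hD.finrank_eq, hD.finrank_eq]⟩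
  have hH := (H11.qConj_conjQ hF).isHerm (Fin n)
  obtain ⟨t, ht⟩ : ∃ t, H11.conjQ hF t ≠ t := by
    by_contra! hc
    exact hH.ne (RingHom.ext hc)
  exact max_pairU h ht p (by rw [hD.finrank_eq]; omega)
    (H10.exists_swap_herm hH h p (by rw [hD.finrank_eq]; omega))

end Cfsg.Agent.H10
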