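import Mathlib
import Cfsg.Agent.H26.C2d

/-! The monomial subgroup of the special linear group in small dimension. -/

set_option autoImplicit false
set_option maxHeartbeats 400000

namespace Cfsg.Agent.H10.Mono5

open Module H26 H26.MX

variable {F : Type*} [Field F] {T : Type} [Fintype T] [DecidableEq T]
  {M : Subgroup ((T → F) ≃ₗ[F] (T → F))}

theorem alt_index_lt (hT : 5 ≤ Fintype.card T) (H : Subgroup (alternatingGroup T))
    (h : H.index < Fintype.card T) : H = ⊤ := by
  have := alternatingGroup.isSimpleGroup (α := T) (by simpa using hT)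
  rcases IsSimpleGroup.eq_bot_or_eq_top_of_normal H.normalCore inferInstance with h1 | h1
  · exfalso
    rw [Subgroup.normalCore_eq_ker, MonoidHom.ker_eq_bot_iff] at h1
    have h2 := Nat.card_le_card_of_injective _ h1
    rw [Nat.card_perm, ← Subgroup.index] at h2
    have : Nontrivial T := Fintype.one_lt_card_iff_nontrivial.1 (by omega)
    have h3 := two_mul_nat_card_alternatingGroup (α := T)
    rw [Nat.card_perm, Nat.card_eq_fintype_card (α := T)] at h3
    obtain ⟨n, hn⟩ : ∃ n, Fintype.card T = n + 1 := ⟨_, (Nat.succ_pred_eq_of_pos (by omega)).symm⟩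
    rw [hn, Nat.factorial_succ] at h3
    have h4 := Nat.factorial_le (show H.index ≤ n by omega)
    have h5 := Nat.factorial_pos n
    nlinarith
  · exact top_le_iff.1 (h1 ▸ H.normalCore_le)

section np
variable [Finite F] (h : OvM M) (hq : 5 ≤ Nat.card F) (hT : 5 ≤ Fintype.card T)
  (hn : ¬ SLv F (T → F) ≤ M) {g : (T → F) ≃ₗ[F] (T → F)} (hg : g ∈ M)
include h hq hT hn hg

theorem np_S1 {k : T} (hk : S1 (g (eb k))) (a : T) : S1 (g (eb a)) := by
  by_contra ha
  obtain ⟨l, hl⟩ := hk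
  obtain ⟨j, j', h1, h2, h3⟩ := exists_two_of_not_S1 k ha
  obtain ⟨s, hs, c, hc, h4⟩ := h.comp (Equiv.swap k l) (d := 1) k (by simp)
  refine hn (h.sl_le_of_fix hq (by omega) (mul_mem hs hg) (o := k) (a := a) (c := s (g (eb k)) k) ?_
    ((Equiv.swap k l).injective.ne h1) ?_ ?_)
  · ext i
    by_cases hi : i = k
    · simp [hi]
    · simp [h4, hi, hl _ ((Equiv.swap k l).injective.ne hi |>.trans_eq (Equiv.swap_apply_left k l))]
  all_goals simp only [mul_app, h4, Equiv.swap_apply_self]; split_ifs <;> simp [*]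

theorem np_frame {t : (T → F) ≃ₗ[F] (T → F)} (ht : t ∈ M) {k : T} (hk : t (g (eb k)) = g (eb k))
    (a : T) : (∃ c : F, t (g (eb a)) = c • g (eb a)) ∨ g⁻¹ (t (g (eb a))) a = 0 := by
  obtain ⟨b, hb⟩ := np_S1 h hq hT hn (mul_mem (inv_mem hg) (mul_mem ht hg)) (k := k)
    ⟨k, fun i hi => by rw [mul_app, mul_app, hk, inv_app]; exact Pi.single_eq_of_ne hi _⟩ a
  by_cases hab : a = b
  · subst hab
    refine Or.inl ⟨g⁻¹ (t (g (eb a))) a, ?_⟩
    rw [← map_smul, ← Pi.single_smul, smul_eq_mul, mul_one]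
    exact (app_inv g _).symm.trans (congrArg g (eq_single_of hb))
  · exact Or.inr (hb a hab)

variable (hS : ∀ a, ¬ S1 (g (eb a)))

theorem np_two {k i j a l : T} (hij : i ≠ j) (hi : g (eb k) i = 0) (hj : g (eb k) j = 0)
    (ha : g (eb a) i ≠ 0) (hli : l ≠ i) (hlj : l ≠ j) : g (eb a) l = 0 := by
  classical
  by_contra hl
  have key : ∀ θ : F, θ ≠ 0 → θ ≠ 1 → 1 + (θ - 1) * (g (eb a) i * g⁻¹ (eb i) a) +
      (θ⁻¹ - 1) * (g (eb a) j * g⁻¹ (eb j) a) = 0 := fun θ h0 h1 => by
    obtain ⟨t, ht, h2⟩ := h.tor hij h0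
    rcases np_frame h hq hT hn hg ht (k := k) (by simp [h2, hi, hj]) a with ⟨c, hc⟩ | h3
    · have h3 := congrFun hc l
      have h4 := congrFun hc i
      simp [h2, hli, hlj, hij] at h3 h4
      grind
    · simpa [h2, mul_assoc, ← inv_app] using h3
  obtain ⟨a, ha⟩ := exists_not_mem_card (F := F) (n := 2) (by omega) {0, 1} Finset.card_le_two
  obtain ⟨b, hb⟩ := exists_not_mem_card (F := F) (n := 3) (by omega) {0, 1, a} Finset.card_le_three
  obtain ⟨c, hc⟩ := exists_not_mem_card (F := F) (n := 4) (by omega) {0, 1, a, b} Finset.card_le_four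
  simp only [Finset.mem_insert, Finset.mem_singleton, not_or] at ha hb hc
  have := key a ha.1 ha.2
  have := key b hb.1 hb.2.1
  have := key c hc.1 hc.2.1
  grind

include hS

theorem np_zero {k i j : T} (hij : i ≠ j) (hi : g (eb k) i = 0) : g (eb k) j ≠ 0 := fun hj => by
  obtain ⟨a, ha⟩ := exists_col g i
  obtain ⟨l, hl⟩ := exists_not_mem_idx {i, j} Finset.card_le_two (by omega)
  obtain ⟨l', hl'⟩ := exists_not_mem_idx {i, j, l} Finset.card_le_three (by omega)
  obtain ⟨l'', hl''⟩ := exists_not_mem_idx {i, j, l, l'} Finset.card_le_four (by omega)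
  simp only [Finset.mem_insert, Finset.mem_singleton, not_or] at hl hl' hl''
  have h1 := fun l => np_two h hq hT hn hg (l := l) hij hi hj ha
  obtain ⟨b, hb⟩ := exists_col g l
  refine hS b ⟨l, fun p hp => ?_⟩
  by_cases hp' : p = l'
  · exact np_two h hq hT hn hg (Ne.symm hl''.2.2.1) (h1 l hl.1 hl.2) (h1 l'' hl''.1 hl''.2.1) hb hp
      (hp' ▸ Ne.symm hl''.2.2.2)
  · exact np_two h hq hT hn hg (Ne.symm hl'.2.2) (h1 l hl.1 hl.2) (h1 l' hl'.1 hl'.2.1) hb hp hp'

theorem np_full (k : T) : ∃ i, g (eb k) i = 0 := by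
  classical
  by_contra! hx
  obtain ⟨a, ha⟩ := exists_not_mem_idx {k} (n := 1) (by simp) (by omega)
  rw [Finset.mem_singleton] at ha
  obtain ⟨ξ, hξ⟩ : ∃ ξ : T → F, ∀ j, g (eb a) j = g (eb k) j * ξ j :=
    ⟨fun j => g (eb a) j / g (eb k) j, fun j => (mul_div_cancel₀ _ (hx j)).symm⟩
  have key : ∀ σ : Equiv.Perm T, Equiv.Perm.sign σ = 1 → ∃ b, b ≠ k ∧ ∃ c : F, c ≠ 0 ∧
      ∀ j, g (eb k) j * ξ (σ j) = c * g (eb b) j := by
    intro σ h2
    obtain ⟨t, ht, h4⟩ := h.mono σ (d := fun j => g (eb k) j / g (eb k) (σ j))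
      (fun j => div_ne_zero (hx _) (hx _)) (by
        rw [Finset.prod_div_distrib, Equiv.prod_comp σ (g (eb k)), h2,
          div_self (Finset.prod_ne_zero_iff.2 fun j _ => hx j)]; simp)
    have h5 : t (g (eb a)) = fun j => g (eb k) j * ξ (σ j) := by
      ext j; rw [h4, hξ]; field_simp [hx]
    have hk : t (g (eb k)) = g (eb k) := by ext j; simp [h4, hx]
    obtain ⟨b, hb⟩ := np_S1 h hq hT hn (mul_mem (inv_mem hg) (mul_mem ht hg)) (k := k)
      ⟨k, fun i hi => by rw [mul_app, mul_app, hk, inv_app]; exact Pi.single_eq_of_ne hi _⟩ a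
    rw [mul_app, mul_app] at hb
    have h6 : t (g (eb a)) = (g⁻¹ (t (g (eb a))) b) • g (eb b) := by
      rw [← map_smul, ← Pi.single_smul, smul_eq_mul, mul_one]
      exact (app_inv g _).symm.trans (congrArg g (eq_single_of hb))
    have h7 : ∀ c : F, t (g (eb a)) ≠ c • g (eb k) := fun c hc => by
      rw [← hk, ← map_smul, ← map_smul] at hc
      have := congrFun (g.injective (t.injective hc)) a
      simp [ha] at this
    refine ⟨b, fun e => h7 _ (e ▸ h6), g⁻¹ (t (g (eb a))) b, fun e => h7 0 (by rw [h6, e]; simp), fun j => ?_⟩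
    have := congrFun h6 j
    rw [h5] at this
    simpa [h5] using this
  let H : Subgroup (alternatingGroup T) :=
    { carrier := {σ | ∃ c : F, c ≠ 0 ∧ ∀ j, ξ (σ.1 j) = c * ξ j}
      one_mem' := ⟨1, one_ne_zero, fun j => by simp⟩
      mul_mem' := by
        rintro σ τ ⟨c, hc, h1⟩ ⟨d, hd, h2⟩
        exact ⟨c * d, mul_ne_zero hc hd, fun j => by simp [h1, h2, mul_assoc]⟩
      inv_mem' := by
        rintro σ ⟨c, hc, h1⟩
        refine ⟨c⁻¹, inv_ne_zero hc, fun j => ?_⟩
        have := h1 (σ.1⁻¹ j)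
        simp only [Equiv.Perm.coe_inv, Equiv.apply_symm_apply] at this
        simp [this, hc] }
  choose b hb c hc hbc using fun σ : alternatingGroup T => key (σ⁻¹).1 (σ⁻¹).2
  have hi : H.index ≤ Fintype.card T - 1 := by
    have : Function.Injective fun q : alternatingGroup T ⧸ H => (⟨b q.out, hb _⟩ : {i // i ≠ k}) :=
      fun q q' e => by
        rw [← q.out_eq', ← q'.out_eq', QuotientGroup.eq]
        have e' : b q.out = b q'.out := congrArg Subtype.val e
        refine ⟨c q.out / c q'.out, div_ne_zero (hc _) (hc _), fun j => ?_⟩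
        have h1 := hbc q.out (q'.out.1 j)
        have h2 := hbc q'.out (q'.out.1 j)
        rw [← e'] at h2
        simp only [Subgroup.coe_inv, Equiv.Perm.coe_inv, Equiv.symm_apply_apply] at h1 h2
        have := hx (q'.out.1 j)
        have := hc q'.out
        simp only [Subgroup.coe_mul, Subgroup.coe_inv, Equiv.Perm.mul_apply, Equiv.Perm.coe_inv]
        field_simp
        apply mul_left_cancel₀ (hx (q'.out.1 j))
        linear_combination c q'.out * h1 - c q.out * h2
    have := Nat.card_le_card_of_injective _ this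
    simpa [Subgroup.index] using this
  have hH := alt_index_lt hT H (by omega)
  have h3 : ∀ i j, ξ i = ξ j := fun i j => by
    by_contra h3
    have hij : i ≠ j := fun e => h3 (e ▸ rfl)
    obtain ⟨l, hl⟩ := exists_not_mem_idx {i, j} Finset.card_le_two (by omega)
    obtain ⟨p, hp⟩ := exists_not_mem_idx {i, j, l} Finset.card_le_three (by omega)
    obtain ⟨p', hp'⟩ := exists_not_mem_idx {i, j, l, p} Finset.card_le_four (by omega)
    simp only [Finset.mem_insert, Finset.mem_singleton, not_or] at hl hp hp'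
    obtain ⟨d, -, h4⟩ : (⟨Equiv.swap i j * Equiv.swap j l, by
      simp [Equiv.Perm.mem_alternatingGroup, hij, Ne.symm hl.2]⟩ : alternatingGroup T) ∈ H := hH ▸ Subgroup.mem_top _
    have h6 := mt (np_zero h hq hT hn hg hS (k := a) hp'.2.2.2)
    have h8 := h4 p
    have h9 := h4 p'
    have h10 := h4 i
    have := hξ p
    have := hξ p'
    simp [Equiv.swap_apply_def, hp, hp', hij, Ne.symm hl.1] at h8 h9 h10
    grind
  have h4 : g (eb a) = ξ k • g (eb k) := by ext j; simp [hξ, h3 j k, mul_comm]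
  rw [← map_smul] at h4
  have := congrFun (g.injective h4) a
  simp [ha] at this

end np

theorem sl_le_one5 [Finite F] (h : OvM M) (hq : 5 ≤ Nat.card F) (hT : 5 ≤ Fintype.card T)
    {g : (T → F) ≃ₗ[F] (T → F)} (hg : g ∈ M) (hg' : ¬ Mono g) : SLv F (T → F) ≤ M := by
  classical
  by_contra hn
  have : Nonempty T := Fintype.card_pos_iff.1 (by omega)
  obtain ⟨i⟩ := this
  have hS : ∀ a, ¬ S1 (g (eb a)) := fun a ha => hg' fun b =>
    (np_S1 h hq hT hn hg ha b).imp fun j hj w k hk => by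
      rw [← mul_one w, ← smul_eq_mul, Pi.single_smul, map_smul, Pi.smul_apply, hj k hk, smul_zero]
  let Z : (T → F) → T → Prop := fun x z => x z = 0 ∧ ∀ i, i ≠ z → x i ≠ 0
  let Ω : (T → F) → Prop := fun x => ∃ g ∈ M, ∃ k, x = g (eb k)
  have h1 : ∀ x, Ω x → S1 x ∨ ∃ z, Z x z := by
    rintro _ ⟨g, hg, k, rfl⟩
    refine or_iff_not_imp_left.2 fun h1 => ?_
    have h2 := fun a ha => h1 (np_S1 h hq hT hn hg (k := a) ha k)
    obtain ⟨z, hz⟩ := np_full h hq hT hn hg h2 k
    exact ⟨z, hz, fun i hi => np_zero h hq hT hn hg h2 hi.symm hz⟩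
  have h2 : ∀ g ∈ M, ∀ x, Ω x → Ω (g x) := by
    rintro g hg _ ⟨g', hg', k, rfl⟩
    exact ⟨g * g', mul_mem hg hg', k, rfl⟩
  have h3 : ∀ y z, Z y z → Ω y := fun y z hy => by
    obtain ⟨p, hp⟩ := (h1 _ ⟨g, hg, i, rfl⟩).resolve_left (hS i)
    have h3 : ∀ j, j ≠ z → g (eb i) (Equiv.swap p z j) ≠ 0 := fun j hj =>
      hp.2 _ ((Equiv.swap p z).injective.ne hj |>.trans_eq (Equiv.swap_apply_right p z))
    obtain ⟨s, hs, c, -, h4⟩ := h.comp (Equiv.swap p z) (d := fun j => y j / g (eb i) (Equiv.swap p z j)) z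
      fun j hj => div_ne_zero (hy.2 j hj) (h3 j hj)
    refine ⟨s * g, mul_mem hs hg, i, funext fun j => ?_⟩
    by_cases hj : j = z <;> simp [h4, hj, hy.1, hp.1, h3]
  obtain ⟨u, hu⟩ := g.surjective (eb i)
  obtain ⟨z, hz⟩ := (h1 u ⟨g⁻¹, inv_mem hg, i, (inv_eq_of hu).symm⟩).resolve_left fun ⟨b, hb⟩ =>
    hS b ⟨i, fun l hl => by
    rw [eq_single_of hb, ← mul_one (u b), ← smul_eq_mul, Pi.single_smul, map_smul] at hu
    have h5 : u b ≠ 0 := fun h => by simpa [h] using congrFun hu i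
    simpa [hl, h5] using congrFun hu l⟩
  obtain ⟨j, hj, hj'⟩ : ∃ j, j ≠ z ∧ g (eb j) i ≠ 0 := by
    by_contra! h4
    simpa [hz.1, hu] using apply_eq_of_supp (φ := dc (pb i) g) h4 u
  obtain ⟨l, hl⟩ := exists_not_mem_idx {j, z} Finset.card_le_two (by omega)
  obtain ⟨p, hp⟩ := exists_not_mem_idx {j, l} Finset.card_le_two (by omega)
  obtain ⟨p', hp'⟩ := exists_not_mem_idx {j, l, p} Finset.card_le_three (by omega)
  obtain ⟨r, hr⟩ := exists_not_mem_card (F := F) (n := 2) (by omega) {0, -g (eb l) i / g (eb j) i}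
    Finset.card_le_two
  simp only [Finset.mem_insert, Finset.mem_singleton, not_or] at hl hp hp' hr
  obtain ⟨w, hw⟩ : ∃ w, w = g (r • eb j + eb l) := ⟨_, rfl⟩
  have h4 : w i ≠ 0 := by simp [hw]; grind
  obtain ⟨μ, hμ⟩ := exists_not_mem_card (F := F) (n := 4) (by omega)
    {0, -u l, -u j / r, -1 / w i} Finset.card_le_four
  simp only [Finset.mem_insert, Finset.mem_singleton, not_or] at hμ
  have h5 := h1 _ (h2 g hg _ (h3 (u + μ • (r • eb j + eb l)) z
    ⟨by simp [hz.1, hj.symm, Ne.symm hl.2], fun a ha => by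
      have := hz.2 a ha
      simp [Pi.single_apply]; grind⟩))
  rw [map_add, hu, map_smul, ← hw] at h5
  have h6 : ∀ a, (eb i + μ • w : T → F) a = 0 ↔ w a = 0 := fun a => by simp [Pi.single_apply]; grind
  have h7 : Ω w := by
    rcases h5 with ⟨b, hb⟩ | ⟨b, hb⟩
    · obtain rfl : i = b := by_contra fun h => h4 ((h6 i).1 (hb i h))
      obtain ⟨a, ha⟩ := exists_not_mem_idx {i} (n := 1) (by simp) (by omega)
      rw [Finset.mem_singleton] at ha
      obtain ⟨t, ht, h7⟩ := h.tor (Ne.symm ha) h4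
      refine ⟨t, ht, i, funext fun a' => ?_⟩
      by_cases h8 : a' = i <;> simp [h7, h8, ha, fun h => (h6 a').1 (hb a' h)]
    · exact h3 w b ⟨(h6 b).1 hb.1, fun a ha => (h6 a).not.1 (hb.2 a ha)⟩
  have h8 := h1 _ (h2 _ (inv_mem hg) _ h7)
  rw [hw, inv_app] at h8
  rcases h8 with ⟨b, hb⟩ | ⟨b, hb⟩
  · have h9 := hb j
    have h10 := hb l
    simp [hl.1, Ne.symm hl.1, hr.1] at h9 h10
    exact hl.1 (h10.trans h9.symm)
  · have h9 := hb.2 p
    have h10 := hb.2 p'
    simp [hp, hp'] at h9 h10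
    exact hp'.2.2 (h10.trans h9.symm)

open Cfsg.Geo Matrix

variable {ι : Type} [Fintype ι] [DecidableEq ι] {t : ℕ} {D : Fin t → Submodule F (ι → F)}

theorem dec_max1 [Fintype F] (hD : IsMDecomposition 1 D) (hn : 5 ≤ Fintype.card ι)
    (h1 : 5 ≤ Fintype.card F) :
    IsMaximalIn (specialLinear ι F) (decompositionStabilizer D ⊓ specialLinear ι F) := by
  have h3 := hD.h26_card
  exact dec_max_of hD F (by simp) (sl_not_le_decompositionStabilizer hD) fun M hM g => sl_le_one5 hM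
      (by rw [Nat.card_eq_fintype_card]; omega) (by simp; omega)

theorem dec_max2 [Fintype F] {m : ℕ} (hD : IsMDecomposition m D) (hn : 5 ≤ Fintype.card ι) (hm : m ≠ 1)
    (h2 : ¬ (m = 2 ∧ Fintype.card F = 2)) :
    IsMaximalIn (specialLinear ι F) (decompositionStabilizer D ⊓ specialLinear ι F) := by
  have h3 := hD.h26_card
  have h4 := hD.pos
  have hne := sl_not_le_decompositionStabilizer hD
  refine dec_max_of hD (Fin m → F) (by simp) hne fun M hM g => hM.sl_le_big ?_
  by_cases hm2 : m = 2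
  · subst hm2
    classical
    obtain ⟨a, ha⟩ := exists_not_mem_card (F := F) (n := 2) (by
      have := Fintype.one_lt_card (α := F); rw [Nat.card_eq_fintype_card]; omega) {0, 1} Finset.card_le_two
    exact Or.inr ⟨by simp, by simp; omega, a, by simpa using ha⟩
  · exact Or.inl (by simp; omega)

end Cfsg.Agent.H10.Mono5
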