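import Mathlib
import Cfsg.Agent.H26.Agg
import Cfsg.Agent.H10.Ag3

/-! The classical subgroups of the six-dimensional special linear group. -/

set_option autoImplicit false
set_option maxHeartbeats 400000

namespace Cfsg.Agent.H10

open Module H11 Cfsg.Geo

namespace Cl

variable {F : Type*} [Field F] {V : Type*} [AddCommGroup V] [Module F V] {σ : F →+* F}
  {ε κ : F} {τ : F →+ F} {B : V →ₛₗ[σ] V →ₗ[F] F} {Q : V → F} (h : Cl ε κ τ B Q)
  [FiniteDimensional F V] [Finite F]
include h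

theorem perp_irr_of (hn : 5 ≤ finrank F V) {w : V} (hw0 : w ≠ 0) (hw : Q w = 0 ∨ B w w ≠ 0)
    {A : AddSubgroup V} (hA : ∀ u x c, Q u = 0 → B u x = 0 → τ c = Q x → B u w = 0 → B x w = 0 →
      ∀ a ∈ A, h.eich u x c a ∈ A) {a : V} (haA : a ∈ A) (haw : B w a = 0)
    (ha : a ∉ Submodule.span F {w})
    (hz : ∃ z, B w z = 0 ∧ B a z = 0 ∧ z ∉ Submodule.span F {w} ⊔ Submodule.span F {a} ∧ Q z = 0) {y : V} (hy : B w y = 0) : y ∈ A := by
  let S : Submodule F V :=
    { carrier := {y | ∀ t : F, t • y ∈ A}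
      zero_mem' := fun t => by simp
      add_mem' := fun hx hy t => by rw [smul_add]; exact A.add_mem (hx t) (hy t)
      smul_mem' := fun c x hx t => by rw [smul_smul]; exact hx _ }
  have hS : ∀ u x c, Q u = 0 → B u x = 0 → τ c = Q x → B u w = 0 → B x w = 0 →
      ∀ s ∈ S, h.eich u x c s ∈ S := fun u x c a1 a2 a3 a4 a5 s hs t => by
    rw [← map_smul]; exact hA u x c a1 a2 a3 a4 a5 _ (hs t)
  obtain ⟨z, z1', z2, z3, z4⟩ := hz
  have z5 : z ∉ Submodule.span F {w} := fun hc => z3 (Submodule.mem_sup_left hc)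
  have zS : z ∈ S := fun t => by
    obtain ⟨x, x1, x2⟩ := h.form.exists_perp_not h.sep (x := a)
      (W := Submodule.span F {w} ⊔ Submodule.span F {z}) fun hc => by
        obtain ⟨s, hs, s', hs', e⟩ := Submodule.mem_sup.mp hc
        obtain ⟨β, rfl⟩ := Submodule.mem_span_singleton.mp hs'
        by_cases hβ : β = 0
        · exact ha (by simpa [← e, hβ] using hs)
        · apply z3
          rw [← Submodule.smul_mem_iff _ hβ, show β • z = a - s by rw [← e]; abel]
          exact Submodule.sub_mem _ (Submodule.mem_sup_right (Submodule.mem_span_singleton_self a))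
            (Submodule.mem_sup_left hs)
    have x3 := x1 w (Submodule.mem_sup_left (Submodule.mem_span_singleton_self w))
    have x4 := x1 z (Submodule.mem_sup_right (Submodule.mem_span_singleton_self z))
    obtain ⟨c, hc⟩ := h.exists_tau ((ε * σ t) • x)
    have k := hA z _ c z4 (by simp [x4]) hc (h.refl z1') (by simp [h.refl x3]) a haA
    rw [h.eich_of_perp z4 (by simp [x4]) c (h.refl z2)] at k
    have := A.sub_mem k haA
    simp only [map_smulₛₗ, LinearMap.smul_apply, h.flip_one x2, map_mul, h.sigma_eps, h.invol,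
      smul_eq_mul, add_sub_cancel_left] at this
    rwa [show ε * t * ε = t by linear_combination t * h.eps_mul] at this
  have z0 : z ≠ 0 := by rintro rfl; simp at z5
  suffices y ∈ S by simpa using this 1
  rcases hw with hw | hw
  · obtain ⟨f, hf, hwf, hzf⟩ := h.form.exists_partner_perp h.sep hw (Z := Submodule.span F {z})
      (fun hc => by
        obtain ⟨β, e⟩ := Submodule.mem_span_singleton.mp hc
        have hβ : β ≠ 0 := by rintro rfl; simp at e; exact hw0 e.symm
        exact z5 (Submodule.mem_span_singleton.mpr ⟨β⁻¹, by rw [← e, smul_smul]; simp [hβ]⟩))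
      fun x hx => by
        obtain ⟨β, rfl⟩ := Submodule.mem_span_singleton.mp hx
        simp [h.refl z1']
    have hP := h.form.nondegOn_span_pair hw hf (by simp [hwf])
    have hU := h.form.nondegOn_perp h.sep hP
    have d5 := h.form.finrank_perp h.sep (Submodule.span F {w, f})
    have d6 := finrank_span_pair_le (F := F) w f
    have hm : ∀ x, x ∈ perp B (Submodule.span F {w, f}) ↔ B w x = 0 ∧ B f x = 0 := fun x => by
      rw [mem_perp_span]; simp
    have zU := (hm z).mpr ⟨z1', h.refl (hzf z (Submodule.mem_span_singleton_self z))⟩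
    obtain ⟨x, hx, hxz⟩ : ∃ x ∈ perp B (Submodule.span F {w, f}), B x z ≠ 0 := by
      by_contra hc; push Not at hc; exact z0 (hU z zU fun x hx => h.refl (hc x hx))
    have k1 := h.irr hU (Or.inl (by omega)) (S := S) (fun u hu x hx c a1 a2 a3 =>
      hS u x c a1 a2 a3 (h.refl ((hm u).mp hu).1) (h.refl ((hm x).mp hx).1)) zS ⟨x, hx, hxz⟩
    obtain ⟨c, hc⟩ := h.exists_tau x
    have k2 := hS w x c hw ((hm x).mp hx).1 hc (h.diag0 hw) (h.refl ((hm x).mp hx).1) z zS
    rw [h.eich_of_perp hw ((hm x).mp hx).1 c z1'] at k2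
    have k3 : w ∈ S := by
      rw [← S.smul_mem_iff hxz]; simpa using S.sub_mem k2 zS
    have k4 := k1 ((hm (y - (ε * B f y) • w)).mpr ⟨by simp [hy, h.diag0 hw], by
      simp only [map_sub, map_smul, h.flip_one hwf, smul_eq_mul]
      linear_combination (-B f y) * h.eps_mul⟩)
    simpa using S.add_mem k4 (S.smul_mem (ε * B f y) k3)
  · have hU := h.form.nondegOn_perp h.sep (IsForm.nondegOn_span_singleton hw)
    have d5 := h.form.finrank_perp h.sep (Submodule.span F {w})
    have d4 := finrank_span_one_le (F := F) w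
    have hm : ∀ x, x ∈ perp B (Submodule.span F {w}) ↔ B w x = 0 := fun x => by
      rw [mem_perp_span]; simp
    refine h.irr hU (Or.inl (by omega)) (S := S) (fun u hu x hx c a1 a2 a3 =>
      hS u x c a1 a2 a3 (h.refl ((hm u).mp hu)) (h.refl ((hm x).mp hx))) zS ?_ ((hm y).mpr hy)
    by_contra hc; push Not at hc; exact z0 (hU z ((hm z).mpr z1') fun x hx => h.refl (hc x hx))

theorem exists_z_of (hn : 6 ≤ finrank F V) {w a : V} (hq : NQ τ ∨ B w w ≠ 0 ∨ B a a ≠ 0) :
    ∃ z, B w z = 0 ∧ B a z = 0 ∧ z ∉ Submodule.span F {w} ⊔ Submodule.span F {a} ∧ Q z = 0 := by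
  have d1 := finrank_le_inf_ker ⊤ (B w)
  have d2 := finrank_le_inf_ker (⊤ ⊓ LinearMap.ker (B w)) (B a)
  have d3 := finrank_sup_span_le (Submodule.span F {w}) a
  have d4 := finrank_span_one_le (F := F) w
  rw [finrank_top] at d1
  set W := ⊤ ⊓ LinearMap.ker (B w) ⊓ LinearMap.ker (B a)
  set Z := Submodule.span F {w} ⊔ Submodule.span F {a}
  rcases hq with hq | hq
  · have := Submodule.finrank_mono (inf_le_right : W ⊓ Z ≤ Z)
    obtain ⟨z, ⟨⟨-, z1⟩, z2⟩, z3, z4⟩ := h.exists_sing_notMem2 hq (W := W) (Z := Z) (by omega)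
    exact ⟨z, z1, z2, z3, z4⟩
  · have := Submodule.finrank_lt_finrank_of_lt (s := W ⊓ Z) (t := Z) (lt_of_le_of_ne inf_le_right fun e => by
      rcases hq with hq | hq
      · exact hq (e.ge (Submodule.mem_sup_left (Submodule.mem_span_singleton_self w))).1.1.2
      · exact hq (e.ge (Submodule.mem_sup_right (Submodule.mem_span_singleton_self a))).1.2)
    obtain ⟨z, z1, z3, z4⟩ := h.exists_sing_notMem (W := W) (Z := W ⊓ Z) (by omega)
    exact ⟨z, z1.1.2, z1.2, fun hc => z3 ⟨z1, hc⟩, z4⟩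

/-- The hypothesis under which the six-dimensional arguments work. -/
def Ok6 (τ : F →+ F) (B : V →ₛₗ[σ] V →ₗ[F] F) (Q : V → F) : Prop :=
  NQ τ ∨ ((∀ x, Q x = 0 ∨ B x x ≠ 0) ∧ (∀ x, B x x = 0 ∨ Q x ≠ 0) ∧ ∀ c, τ c = c)

theorem perp_irr6 (hn : 6 ≤ finrank F V) (hq : Ok6 τ B Q) {w : V} (hw0 : w ≠ 0) (hw : Q w = 0 ∨ B w w ≠ 0)
    {A : AddSubgroup V} (hA : ∀ u x c, Q u = 0 → B u x = 0 → τ c = Q x → B u w = 0 → B x w = 0 →
      ∀ a ∈ A, h.eich u x c a ∈ A) {a : V} (haA : a ∈ A) (haw : B w a = 0)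
    (ha : a ∉ Submodule.span F {w}) {y : V} (hy : B w y = 0) : y ∈ A := by
  by_cases h1 : NQ τ ∨ B w w ≠ 0 ∨ B a a ≠ 0
  · exact h.perp_irr_of (by omega) hw0 hw hA haA haw ha (h.exists_z_of hn h1) hy
  push Not at h1
  obtain ⟨h1, h2, h3⟩ := h1
  obtain ⟨an, -, ht⟩ := hq.resolve_left h1
  have qa : Q a = 0 := (an a).resolve_right (by simp [h3])
  have qw : Q w = 0 := (an w).resolve_right (by simp [h2])
  obtain ⟨u, hu, hau, hwu⟩ := h.form.exists_partner_perp h.sep qa (Z := Submodule.span F {w}) ha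
    fun x hx => by
      obtain ⟨β, rfl⟩ := Submodule.mem_span_singleton.mp hx
      simp [haw]
  replace hwu := hwu w (Submodule.mem_span_singleton_self w)
  have hP := h.form.nondegOn_span_pair qa hu (by simp [hau])
  have hU := h.form.nondegOn_perp h.sep hP
  have d5 := h.form.finrank_perp h.sep (Submodule.span F {a, u})
  have d6 := finrank_span_pair_le (F := F) a u
  have hm : ∀ x, x ∈ perp B (Submodule.span F {a, u}) ↔ B a x = 0 ∧ B u x = 0 := fun x => by
    rw [mem_perp_span]; simp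
  obtain ⟨x, x1, x2, x3⟩ : ∃ x ∈ perp B (Submodule.span F {a, u}), B w x = 0 ∧ Q x ≠ 0 := by
    obtain ⟨x, x1, x', x2, p, q, s⟩ := h.exists_pair_perp hU (by omega)
      ((hm w).mpr ⟨h.refl haw, h.refl hwu⟩) qw hw0 1
    by_contra hc
    push Not at hc
    have := h.Q_add x x'
    rw [hc x x1 p, hc x' x2 q, hc _ (add_mem x1 x2) (by simp [p, q]), s, ht] at this
    simp at this
  obtain ⟨x4, x5⟩ := (hm x).mp x1
  have k := A.neg_mem (A.sub_mem (hA u x (Q x) hu x5 (ht _) (h.refl hwu) (h.refl x2) a haA) haA)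
  rw [h.eich_apply hu x5, h.refl x4, h.flip_one hau] at k
  have e : -(a + (0 : F) • u - (ε * ε) • x - (Q x * ε) • u - a) = x + (Q x * ε) • u := by
    rw [h.eps_mul]; module
  rw [e] at k
  have qk : Q (x + (Q x * ε) • u) ≠ 0 := by
    rw [h.Q_add, h.sing_smul hu]; simpa [h.refl x5] using x3
  refine h.perp_irr_of (by omega) hw0 hw hA k (by simp [x2, hwu]) (fun hc => ?_)
    (h.exists_z_of hn (Or.inr (Or.inr ((an _).resolve_left qk)))) hy
  obtain ⟨β, e⟩ := Submodule.mem_span_singleton.mp hc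
  exact qk (e ▸ h.sing_smul qw β)

theorem SLv_le_of_dtv6 (hn : 6 ≤ finrank F V) (hq : Ok6 τ B Q) {M : Subgroup (V ≃ₗ[F] V)} (hM : h.Om ≤ M) {w a : V}
    (hw0 : w ≠ 0) (hw : Q w = 0 ∨ B w w ≠ 0) (haw : B a w = 0) (ha : a ∉ Submodule.span F {w})
    (ht : dtv w (B a) ∈ M) : SLv F V ≤ M := by
  let A : AddSubgroup V :=
    { carrier := {y | B y w = 0 ∧ dtv w (B y) ∈ M}
      zero_mem' := ⟨by simp, by rw [map_zero, dtv_zero]; exact M.one_mem⟩
      add_mem' := fun hx hy => ⟨by simp [hx.1, hy.1], by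
        rw [map_add, dtv_add hx.1 hy.1]; exact M.mul_mem hx.2 hy.2⟩
      neg_mem' := fun hx => ⟨by simp [hx.1], by
        rw [map_neg, dtv_neg hx.1]; exact M.inv_mem hx.2⟩ }
  refine SLv_le_of_full (fun S hS h0 => h.irr_top (by omega) (fun g hg => hS g (hM hg)) h0) hw0
    fun φ hφ => ?_
  obtain ⟨y, rfl⟩ := h.exists_B φ
  refine (h.perp_irr6 hn hq hw0 hw (A := A) (fun u x c a1 a2 a3 a4 a5 s hs => ?_) ⟨haw, ht⟩
    (h.refl haw) ha (h.refl hφ)).2
  have k := h.eich_mem_om a1 a2 a3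
  have kI := h.om_le_isom k
  have kw := h.eich_fix c a4 a5
  refine ⟨by rw [← kw, kI.1, hs.1], ?_⟩
  have := M.mul_mem (M.mul_mem (hM k) hs.2) (M.inv_mem (hM k))
  rw [conj_dtv, kw] at this
  convert this using 2
  ext v
  rw [LinearMap.comp_apply, ← kI.1 s]; simp [LinearEquiv.coe_inv]

theorem max_simG6 (hn : 6 ≤ finrank F V) (hq : NQ τ) :
    IsMaximalIn (SLv F V) (simG B ⊓ SLv F V) := by
  refine isMaximalIn_inf (h.not_SLv_le_simG (by omega)) fun M hHM _ g hg hgS => ?_
  have hM : h.Om ≤ M := (le_inf (h.om_le_isom.trans h.isom_le_simG) h.om_le_SLv).trans hHM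
  by_contra hc
  refine hgS (h.mem_simG_of (by omega) hq fun v hv => ?_)
  by_cases hv0 : v = 0
  · exact ⟨0, by simp [hv0]⟩
  obtain ⟨c, hc0, hc'⟩ := hq
  have k := M.mul_mem (M.mul_mem hg (hM (h.eich_mem_om (w := 0) hv (by simp)
    (by rw [hc', h.Q_zero])))) (M.inv_mem hg)
  rw [h.eich_eq_dtv hv, conj_dtv] at k
  obtain ⟨a, ha⟩ := h.exists_B ((-c • B v) ∘ₗ ((g⁻¹ : V ≃ₗ[F] V) : V →ₗ[F] V))
  have ha' : ∀ y, B a (g y) = -c * B v y := fun y => by simp [ha, LinearEquiv.coe_inv]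
  rw [← ha] at k
  by_cases hm : a ∈ Submodule.span F {g v}
  · obtain ⟨t, rfl⟩ := Submodule.mem_span_singleton.mp hm
    refine ⟨-σ t / c, fun y => ?_⟩
    have := ha' y
    simp only [map_smulₛₗ, LinearMap.smul_apply, smul_eq_mul] at this
    field_simp; linear_combination this
  · exact absurd (h.SLv_le_of_dtv6 hn (Or.inl ⟨c, hc0, hc'⟩) hM (by simpa) (h.anis_of_nq ⟨c, hc0, hc'⟩ _)
      (by rw [ha', h.diag0 hv, mul_zero]) hm k) hc

end Cl

section quad

variable {F : Type*} [Field F] {V : Type*} [AddCommGroup V] [Module F V] [FiniteDimensional F V]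
  [Finite F] {B B' : V →ₗ[F] V →ₗ[F] F} {Q Q' : V → F}

theorem SLv_le_of_dtv_quad6 (h : Cl (σ := RingHom.id F) 1 2 (AddMonoidHom.id F) B Q)
    (h2 : (2 : F) ≠ 0) (hn : 6 ≤ finrank F V) {M : Subgroup (V ≃ₗ[F] V)} (hM : h.Om ≤ M) {w : V}
    {φ : Dual F V} (hw0 : w ≠ 0) (hφ0 : φ ≠ 0) (hφ : φ w = 0) (ht : dtv w φ ∈ M) :
    SLv F V ≤ M := by
  have hQ : IsQuad B Q := h.form
  have an : ∀ x, Q x = 0 ∨ B x x ≠ 0 := fun x => by
    rw [hQ.diag']; by_cases h0 : Q x = 0 <;> simp [h0, h2]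
  have ok : Cl.Ok6 (AddMonoidHom.id F) B Q := Or.inr ⟨an, fun x => by
    rw [hQ.diag']; by_cases h0 : Q x = 0 <;> simp [h0], fun _ => rfl⟩
  obtain ⟨a, rfl⟩ := h.exists_B φ
  by_cases hm : a ∈ Submodule.span F {w}
  swap
  · exact h.SLv_le_of_dtv6 hn ok hM hw0 (an w) hφ hm ht
  obtain ⟨l, rfl⟩ := Submodule.mem_span_singleton.mp hm
  have hl : l ≠ 0 := by rintro rfl; simp at hφ0
  have hww : B w w = 0 := by simpa [hl] using hφ
  obtain ⟨g, hg, hgw⟩ : ∃ g ∈ h.Om, B w (g w) ≠ 0 := by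
    by_contra hc; push Not at hc
    have := h.irr_top (by omega) (S := Submodule.span F {x | ∃ g ∈ h.Om, x = g w})
      (fun g hg s hs => by
        have : Submodule.span F {x | ∃ g ∈ h.Om, x = g w} ≤
            (Submodule.span F {x | ∃ g ∈ h.Om, x = g w}).comap (g : V →ₗ[F] V) :=
          Submodule.span_le.mpr (by
            rintro _ ⟨g', hg', rfl⟩
            exact Submodule.subset_span ⟨g * g', h.Om.mul_mem hg hg', rfl⟩)
        exact this hs)
      ((Submodule.ne_bot_iff _).mpr ⟨w, Submodule.subset_span ⟨1, h.Om.one_mem, rfl⟩, hw0⟩)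
    have k : Submodule.span F {x | ∃ g ∈ h.Om, x = g w} ≤ LinearMap.ker (B w) :=
      Submodule.span_le.mpr (by rintro _ ⟨g, hg, rfl⟩; exact hc g hg)
    rw [this] at k
    exact hw0 (h.sep w fun y => k trivial)
  have hgI := h.om_le_isom hg
  set w' := g w with hw'
  have hw'w' : B w' w' = 0 := by rw [hw', hgI.1, hww]
  have k1 : dtv w' (B (l • w')) ∈ M := by
    have := M.mul_mem (M.mul_mem (hM hg) ht) (M.inv_mem (hM hg))
    rw [conj_dtv] at this
    convert this using 2
    ext v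
    rw [LinearMap.comp_apply, ← hgI.1 (l • w)]; simp [LinearEquiv.coe_inv, hw']
  have k2 := M.mul_mem (M.mul_mem k1 ht) (M.inv_mem k1)
  have z : B (l • w') w' = 0 := by simp [hw'w']
  rw [conj_dtv, ← dtv_neg z, dtv_apply z] at k2
  have e : B (l • w) ∘ₗ (dtv w' (-B (l • w')) : V →ₗ[F] V) =
      B (l • (w - (l * B w w') • w')) := by
    ext v
    rw [LinearMap.comp_apply, LinearEquiv.coe_coe, dtv_apply (by simp [hw'w'])]
    simp only [map_add, map_sub, map_smul, LinearMap.smul_apply, LinearMap.sub_apply,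
      LinearMap.neg_apply, RingHom.id_apply, smul_eq_mul, map_neg, mul_neg, neg_mul]
    ring
  rw [e] at k2
  refine h.SLv_le_of_dtv6 hn ok hM (fun e0 => ?_) (an _) ?_ (fun hc => ?_) k2
  · have := congrArg (B w') e0
    simp [hw'w', h.refl_ne hgw] at this
  · simp [hww, hw'w', hQ.comm w' w]
  · obtain ⟨t, ht⟩ := Submodule.mem_span_singleton.mp hc
    have e1 := congrArg (B w') ht
    have e2 := congrArg (B w) ht
    simp [hww, hw'w', hQ.comm w' w, hgw] at e1 e2
    rw [e1] at e2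
    have : (2 * l * l * B w w' * B w w') = 0 := by linear_combination e2
    simp [h2, hl, hgw] at this

theorem exists_common_sing (h2 : (2 : F) ≠ 0) (hQ : IsQuad B Q) (hQ' : IsQuad B' Q')
    (hn : 5 ≤ finrank F V) : ∃ e, e ≠ 0 ∧ Q e = 0 ∧ Q' e = 0 := by
  classical
  have := Fintype.ofFinite F
  obtain ⟨p, hp⟩ := CharP.exists F
  have hprime : p.Prime := CharP.char_is_prime F p
  let b := finBasis F V
  let P : (V →ₗ[F] V →ₗ[F] F) → MvPolynomial (Fin (finrank F V)) F := fun B =>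
    ∑ i, ∑ j, MvPolynomial.C (B (b i) (b j)) * MvPolynomial.X i * MvPolynomial.X j
  have hd : ∀ B, (P B).totalDegree ≤ 2 := fun B =>
    (MvPolynomial.totalDegree_finsetSum _ _).trans (Finset.sup_le fun i _ =>
      (MvPolynomial.totalDegree_finsetSum _ _).trans (Finset.sup_le fun j _ => by
        refine (MvPolynomial.totalDegree_mul _ _).trans ?_
        have := MvPolynomial.totalDegree_mul (MvPolynomial.C (B (b i) (b j))) (MvPolynomial.X i)
        simp only [MvPolynomial.totalDegree_C, MvPolynomial.totalDegree_X] at this ⊢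
        omega))
  have he : ∀ B x, MvPolynomial.eval x (P B) = B (∑ i, x i • b i) (∑ i, x i • b i) := fun B x => by
    simp only [P, map_sum, map_mul, MvPolynomial.eval_C, MvPolynomial.eval_X, map_smul,
      LinearMap.sum_apply, LinearMap.smul_apply, smul_eq_mul, Finset.mul_sum]
    rw [Finset.sum_comm]
    exact Finset.sum_congr rfl fun i _ => Finset.sum_congr rfl fun j _ => by ring
  have hdvd := char_dvd_card_solutions_of_add_lt p (f₁ := P B) (f₂ := P B') (by
    have := hd B; have := hd B'; rw [Fintype.card_fin]; omega)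
  by_contra hne
  push Not at hne
  have : Fintype.card {x : Fin (finrank F V) → F // MvPolynomial.eval x (P B) = 0 ∧
      MvPolynomial.eval x (P B') = 0} = 1 := by
    rw [Fintype.card_eq_one_iff]
    refine ⟨⟨0, by rw [he, he]; simp⟩, fun x => Subtype.ext ?_⟩
    have hx := x.2
    simp only [he, hQ.diag', hQ'.diag', mul_eq_zero, h2, false_or] at hx
    by_contra h0
    refine hne _ (fun e => h0 ?_) hx.1 hx.2
    exact funext (Fintype.linearIndependent_iff.mp b.linearIndependent _ e)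
  rw [this] at hdvd
  exact hprime.one_lt.ne' (Nat.dvd_one.mp hdvd)

theorem prop_of_no_tv6 (h2 : (2 : F) ≠ 0) (h : Cl (σ := RingHom.id F) 1 2 (AddMonoidHom.id F) B Q)
    (h' : Cl (σ := RingHom.id F) 1 2 (AddMonoidHom.id F) B' Q') (hn : 6 ≤ finrank F V)
    {M : Subgroup (V ≃ₗ[F] V)} (hM : h.Om ≤ M) (hM' : h'.Om ≤ M)
    (hno : ∀ e, e ≠ 0 → ∀ φ : Dual F V, φ e = 0 → dtv e φ ∈ M → φ = 0) :
    ∃ l : F, ∀ x y, B' x y = l * B x y := by
  have hQ : IsQuad B Q := h.form
  have hQ' : IsQuad B' Q' := h'.form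
  obtain ⟨e1, b1, a1, c1⟩ := exists_common_sing h2 hQ hQ' (by omega)
  obtain ⟨l1, h1⟩ := prop_on_perp h h' (by omega) hM hM' b1 a1 c1 (hno _ b1)
  have tr : ∀ {l : F} {e : V}, (∀ x y, B e x = 0 → B e y = 0 → B' x y = l * B x y) → ∀ x, B e x = 0 →
      Q x = 0 → Q' x = 0 := fun hl x k hx => by
    simpa [hQ.diag', hQ'.diag', hx, h2] using hl x x k k
  have dk : ∀ e : V, finrank F V ≤ finrank F ↥(⊤ ⊓ LinearMap.ker (B e)) + 1 := fun e => by
    simpa using finrank_le_inf_ker ⊤ (B e)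
  have d1 := finrank_span_one_le (F := F) e1
  have := dk e1
  obtain ⟨e2, a2, b2, s2⟩ := h.exists_sing_notMem (W := ⊤ ⊓ LinearMap.ker (B e1))
    (Z := Submodule.span F {e1}) (by omega)
  have d2 := finrank_span_pair_le (F := F) e1 e2
  have c2 := tr h1 _ a2.2 s2
  have b2' : e2 ≠ 0 := by rintro rfl; simp at b2
  obtain ⟨l2, h2'⟩ := prop_on_perp h h' (by omega) hM hM' b2' s2 c2 (hno _ b2')
  have := dk e2
  obtain ⟨e3, a3, b3, s3⟩ := h.exists_sing_notMem (W := ⊤ ⊓ LinearMap.ker (B e2))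
    (Z := Submodule.span F {e1, e2}) (by omega)
  have c3 := tr h2' _ a3.2 s3
  have b3' : e3 ≠ 0 := by rintro rfl; simp at b3
  obtain ⟨l3, h3⟩ := prop_on_perp h h' (by omega) hM hM' b3' s3 c3 (hno _ b3')
  have two : ∀ e e' : V, ∃ x y, B e x = 0 ∧ B e' x = 0 ∧ B e y = 0 ∧ B e' y = 0 ∧ B x y ≠ 0 := by
    intro e e'
    by_contra hc; push Not at hc
    have k1 := dk e
    have k2 := finrank_le_inf_ker (⊤ ⊓ LinearMap.ker (B e)) (B e')
    set Z := ⊤ ⊓ LinearMap.ker (B e) ⊓ LinearMap.ker (B e')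
    have d3 := h.form.finrank_perp h.sep Z
    have : Z ≤ perp B Z := fun y hy x hx => hc x y hx.1.2 hx.2 hy.1.2 hy.2
    have := Submodule.finrank_mono this
    omega
  obtain rfl : l1 = l2 := by
    obtain ⟨x, y, x1, x2, y1, y2, hxy⟩ := two e1 e2
    exact mul_right_cancel₀ hxy ((h1 x y x1 y1).symm.trans (h2' x y x2 y2))
  obtain rfl : l1 = l3 := by
    obtain ⟨x, y, x1, x2, y1, y2, hxy⟩ := two e1 e3
    exact mul_right_cancel₀ hxy ((h1 x y x1 y1).symm.trans (h3 x y x2 y2))
  obtain ⟨p, p1, p2⟩ := h.form.exists_perp_not h.sep b3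
  obtain ⟨q0, q1, q2⟩ := h.form.exists_perp_not h.sep b2
  have p3 := p1 e1 (Submodule.subset_span (by simp))
  have p4 := p1 e2 (Submodule.subset_span (by simp))
  have q3 := q1 e1 (Submodule.mem_span_singleton_self _)
  set q := q0 - B e3 q0 • p with hq
  have q4 : B e1 q = 0 := by simp [hq, q3, p3]
  have q5 : B e2 q = 1 := by simp [hq, q2, p4]
  have q6 : B e3 q = 0 := by simp [hq, p2]
  have r1 : ∀ u, B e3 u = 0 → (B e1 u = 0 ∨ B e2 u = 0) → ∀ v, B' u v = l1 * B u v :=
    fun u u1 u2 v => by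
      have k1 := h3 u (v - B e3 v • p) u1 (by simp [p2])
      have k2 : B' u p = l1 * B u p := u2.elim (fun a => h1 u p a p3) fun a => h2' u p a p4
      simp only [map_sub, map_smul, smul_eq_mul] at k1
      linear_combination k1 + B e3 v * k2
  have r2 : ∀ v, B' p v = l1 * B p v := fun v => by
    have k1 := h2' p (v - B e2 v • q) p4 (by simp [q5])
    have k2 := h1 p q p3 q4
    simp only [map_sub, map_smul, smul_eq_mul] at k1
    linear_combination k1 + B e2 v * k2
  refine ⟨l1, fun u v => ?_⟩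
  have k1 := r1 (u - B e3 u • p - B e2 u • q) (by simp [p2, q6]) (Or.inr (by simp [p4, q5])) v
  have k2 := r1 q q6 (Or.inl q4) v
  simp only [map_sub, map_smul, smul_eq_mul, LinearMap.sub_apply, LinearMap.smul_apply] at k1
  linear_combination k1 + B e3 u * r2 v + B e2 u * k2

theorem max_simQ6 (h : Cl (σ := RingHom.id F) 1 2 (AddMonoidHom.id F) B Q) (h2 : (2 : F) ≠ 0)
    (hn : 6 ≤ finrank F V) : IsMaximalIn (H10.SLv F V) (simQ F Q ⊓ H10.SLv F V) := by
  have hQ : IsQuad B Q := h.form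
  refine isMaximalIn_inf (fun hc => h.not_SLv_le_simG (by omega) (hc.trans (simQ_le_simG hQ)))
    fun M hHM _ g hg hgS => ?_
  have hM : h.Om ≤ M := (le_inf (fun g hg => ⟨1, one_ne_zero, fun x => by
    rw [(h.om_le_isom hg).2, one_mul]⟩) h.om_le_SLv).trans hHM
  by_contra hc
  obtain ⟨l, hl⟩ := prop_of_no_tv6 h2 h (h.pullback g.symm) hn hM (h.om_pull_le hM hg)
    fun e he φ a b => by
      by_contra h0; exact hc (SLv_le_of_dtv_quad6 h h2 (by omega) hM he h0 a b)
  have k : ∀ x, Q x = l * Q (g x) := fun x => by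
    have := hl (g x) (g x)
    simp only [pull_apply, LinearEquiv.coe_coe, LinearEquiv.symm_apply_apply, hQ.diag'] at this
    exact mul_left_cancel₀ h2 (by linear_combination this)
  obtain ⟨x, -, hx⟩ := hQ.exists_nonsingular (Cl.nondegOn_top h.sep) (by
    intro e; have := congrArg (fun W : Submodule F V => finrank F W) e; simp at this; omega)
  have hl0 : l ≠ 0 := by rintro rfl; exact hx (by simpa using k x)
  exact hgS ⟨l⁻¹, inv_ne_zero hl0, fun x => by rw [k x]; field_simp⟩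

end quad

variable {F : Type*} [Field F] [Fintype F] {n : ℕ}

theorem sl_max_sp6 (hn : 6 ≤ n) (f : (Fin n → F) → (Fin n → F) → F) (hf : IsSymplecticForm f) :
    IsMaximalIn (specialLinear (Fin n) F) (similarityGroup f ⊓ specialLinear (Fin n) F) := by
  have h := H10.clAlt (B := (H10.bilinOf hf.bilinear).flip) (fun x => hf.alternating x)
    fun v hv => by
      by_contra h0
      obtain ⟨x, hx⟩ := (hf.nondegenerate v h0).1
      first | exact hx (hv x) | exact hx (by rw [hf.skew]; simpa using hv x)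
  exact H10.isMaximalIn_gl H10.mem_specialLinear_iff'
    (fun g _ => H10.mem_similarityGroup_iff (f := f) (B := (H10.bilinOf hf.bilinear).flip) (fun _ _ => rfl) g)
    (h.max_simG6 (by simp; omega) H10.nq_zero)

theorem sl_max_su6 (hn : 6 ≤ n) (σ : F ≃+* F) (f : (Fin n → F) → (Fin n → F) → F)
    (hf : IsUnitaryForm σ f) :
    IsMaximalIn (specialLinear (Fin n) F) (similarityGroup f ⊓ specialLinear (Fin n) F) := by
  let B : (Fin n → F) →ₛₗ[(σ : F →+* F)] (Fin n → F) →ₗ[F] F :=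
    LinearMap.mk₂'ₛₗ (σ : F →+* F) (RingHom.id F) (fun x y => f y x)
      (fun a b y => by rw [hf.herm y, hf.add_left, map_add, ← hf.herm, ← hf.herm])
      (fun c a y => by
        rw [hf.herm y, hf.smul_left, map_mul, ← hf.herm]; rfl)
      (fun a b y => hf.add_left _ _ _) (fun c a y => hf.smul_left _ _ _)
  have hH : H11.IsHerm B := ⟨fun hc => hf.ne_refl (RingEquiv.ext fun a => congrArg (fun t : F →+* F => t a) hc),
    hf.involutive, fun x y => (hf.herm x y).symm⟩
  have h := H10.clHerm hH fun v hv => by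
    by_contra h0
    obtain ⟨x, hx⟩ := (hf.nondegenerate v h0).1
    first | exact hx (hv x) | exact hx (by rw [hf.herm]; simpa using hv x)
  exact H10.isMaximalIn_gl H10.mem_specialLinear_iff'
    (fun g _ => H10.mem_similarityGroup_iff (f := f) (B := B) (fun _ _ => rfl) g)
    (h.max_simG6 (by simp; omega) (H10.IsHerm.nq hH))

theorem sl_max_o6 (hn : 6 ≤ n) (hodd : Odd (Fintype.card F)) (Q : (Fin n → F) → F)
    (hQ : IsNondegenerateQuadraticForm Q) :
    IsMaximalIn (specialLinear (Fin n) F) (quadSimilarityGroup Q ⊓ specialLinear (Fin n) F) := by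
  exact H10.isMaximalIn_gl H10.mem_specialLinear_iff'
    (fun g _ => H10.mem_quadSimilarityGroup_iff Q g)
    (max_simQ6 (H10.clO hQ) (H11.two_ne_zero_of_odd_card hodd) (by simp; omega))

end Cfsg.Agent.H10
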