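import Mathlib
import Cfsg.Agent.H10.Ag8
import Cfsg.Agent.H10.Ag2
import Cfsg.Agent.H11.Im17
import Cfsg.Agent.H11.ImB

/-!
# Maximal subgroups of the odd-dimensional orthogonal groups in small dimension
-/

set_option autoImplicit false

namespace Cfsg.Agent.H10.Ag

variable {F : Type*} [Field F] [Fintype F] (hodd : Odd (Fintype.card F)) (m : ℕ) (hm : 3 ≤ m)
include hodd hm

theorem oo_ts (W : Submodule F (Unit ⊕ (Fin m ⊕ Fin m) → F)) (hW0 : W ≠ ⊥)
    (hW : Cfsg.Geo.IsTotallySingularQuad (Cfsg.quadFormOdd m F) W) :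
    Cfsg.Geo.IsMaximalIn (Cfsg.Geo.omegaGL (Cfsg.quadFormOdd m F))
      (Cfsg.Geo.subspaceStabilizer W ⊓ Cfsg.Geo.omegaGL (Cfsg.quadFormOdd m F)) := by
  have h := H10.clQuad (H11.isQuad_odd m F) (H11.bOdd_sep m (H11.two_ne_zero_of_odd_card hodd))
  refine H10.isMaximalIn_gl (H10.mem_omegaGL_iff h (by simp; omega))
    (fun g _ => H10.mem_subspaceStabilizer_iff W g) ?_
  exact h.max_totSing (by simp; omega) ((H11.isQuad_odd m F).totSing_iff.mpr hW) hW0
    (Or.inr fun hc => by have := hc.1; simp at this; omega)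

theorem oo_nd (W : Submodule F (Unit ⊕ (Fin m ⊕ Fin m) → F)) (hW0 : W ≠ ⊥)
    (hev : Even (Module.finrank F W))
    (hW : Cfsg.Geo.IsNondegenerateOn (QuadraticMap.polar (Cfsg.quadFormOdd m F)) W)
    (hex : ¬ (Fintype.card F = 3 ∧ Module.finrank F W = 2 ∧
      Cfsg.Geo.IsPlusTypeOn (Cfsg.quadFormOdd m F) W)) :
    Cfsg.Geo.IsMaximalIn (Cfsg.Geo.omegaGL (Cfsg.quadFormOdd m F))
      (Cfsg.Geo.subspaceStabilizer W ⊓ Cfsg.Geo.omegaGL (Cfsg.quadFormOdd m F)) := by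
  have h := H10.clQuad (H11.isQuad_odd m F) (H11.bOdd_sep m (H11.two_ne_zero_of_odd_card hodd))
  refine H10.isMaximalIn_gl (H10.mem_omegaGL_iff h (by simp; omega))
    (fun g _ => H10.mem_subspaceStabilizer_iff W g) ?_
  have hW' := H10.nondegOn_of (Or.inl (H11.isQuad_odd m F).polar_eq) hW
  have hd := h.form.finrank_perp h.sep W
  have hn : Module.finrank F (Unit ⊕ (Fin m ⊕ Fin m) → F) = 2 * m + 1 := by simp; omega
  obtain ⟨k, hk⟩ := hev
  have := Fintype.one_lt_card (α := F)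
  obtain ⟨j, hj⟩ := hodd
  refine H10.max_nondeg_quad7 h (Or.inr ⟨by omega, by rw [Nat.card_eq_fintype_card]; omega⟩) hW' hW0
    (fun e => by rw [e, finrank_top] at hk; omega) (fun e => by omega) ?_
  rintro U (rfl | rfl) h2 h3 x hx hx'
  · by_contra hx0
    refine hex ⟨?_, h2, H10.isPlusTypeOn_plane (fun c x hx => h.sing_smul hx c) h2 hx hx0 hx'⟩
    rw [Nat.card_eq_fintype_card] at h3
    omega
  · omega

theorem oo_frame (hprime : (Fintype.card F).Prime) {t : ℕ}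
    (D : Fin t → Submodule F (Unit ⊕ (Fin m ⊕ Fin m) → F))
    (hD : Cfsg.Geo.IsOrthogonalMDecomposition (Cfsg.quadFormOdd m F) 1 D) :
    Cfsg.Geo.IsMaximalIn (Cfsg.Geo.omegaGL (Cfsg.quadFormOdd m F))
      (Cfsg.Geo.decompositionStabilizer D ⊓ Cfsg.Geo.omegaGL (Cfsg.quadFormOdd m F)) := by
  have t2 := H11.two_ne_zero_of_odd_card hodd
  have h := H10.clQuad (H11.isQuad_odd m F) (H11.bOdd_sep m t2)
  obtain ⟨p, d⟩ := H11.Im.dec_of_orth h hD
  have e := hD.decomp.decomp.finrank_eq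
  have ht := hD.decomp.decomp.two_le
  have := H11.Im.finrank_eq_mul d ⟨0, by omega⟩
  rw [e] at this
  exact H11.Im.max_gl_quad h (by simp; omega) (H11.Im.max_frame7 d (fun i => (e i).le) t2 hprime
    (Or.inr (by simp at this; exact ⟨by omega, m, by omega⟩)))

theorem oo_sub (F₀ : Subfield F) (r : ℕ) (P : Matrix.GeneralLinearGroup (Unit ⊕ (Fin m ⊕ Fin m)) F)
    (hr : r.Prime) (hcard : Fintype.card F = Nat.card F₀ ^ r)
    (hP : Cfsg.Geo.IsQuadFormRationalStructure (Cfsg.quadFormOdd m F) F₀ P) :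
    Cfsg.Geo.IsMaximalIn (Cfsg.Geo.omegaGL (Cfsg.quadFormOdd m F))
      (Cfsg.Geo.subfieldSubgroup F₀ P ⊓ Cfsg.Geo.omegaGL (Cfsg.quadFormOdd m F)) := by
  obtain ⟨θ, hθ, -⟩ := H10.exists_frob F₀
  have h := H10.clQuad (H11.isQuad_odd m F) (H11.bOdd_sep m (H11.two_ne_zero_of_odd_card hodd))
  exact H10.isMaximalIn_subfield hθ P
    (fun g => (H10.mem_omegaGL_iff h (by simp; omega) g).trans (h.mem_om_pull (H11.glEquiv _ F P) _))
    (H10.max_sub_quad7 hθ (by simp; omega) hr (by rw [← hcard, Nat.card_eq_fintype_card]) _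
      one_ne_zero fun x => by rw [one_mul]; exact hP _ fun i => (x i).2)

end Cfsg.Agent.H10.Ag
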