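import Mathlib
import Cfsg.Agent.H10.SpTv

/-! Self-adjoint matrices for the six-dimensional symplectic form: the cubic relation. -/

set_option autoImplicit false

namespace Cfsg.Agent.H10.Cov

open Matrix

variable {F : Type} [Field F]

abbrev I6 := Fin 3 ⊕ Fin 3

local notation "𝕄" => Matrix I6 I6 F
local notation "𝐉" => Matrix.J (Fin 3) F

/-- Self-adjoint for the standard symplectic form. -/
def SA (x : 𝕄) : Prop := xᵀ * 𝐉 = 𝐉 * x

theorem SA.shape {x : 𝕄} (h : SA x) (h2 : (2 : F) ≠ 0) :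
    ∃ a0 a1 a2 a3 a4 a5 a6 a7 a8 b0 b1 b2 c0 c1 c2 : F,
      x = fromBlocks !![a0, a1, a2; a3, a4, a5; a6, a7, a8] !![0, b0, b1; -b0, 0, b2; -b1, -b2, 0]
        !![0, c0, c1; -c0, 0, c2; -c1, -c2, 0] !![a0, a3, a6; a1, a4, a7; a2, a5, a8] := by
  obtain ⟨a, b, c, d, rfl⟩ : ∃ a b c d, x = fromBlocks a b c d :=
    ⟨_, _, _, _, (fromBlocks_toBlocks x).symm⟩
  simp only [SA, Matrix.J, fromBlocks_transpose, fromBlocks_multiply, Matrix.mul_zero,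
    Matrix.zero_mul, Matrix.mul_one, Matrix.one_mul, Matrix.mul_neg, Matrix.neg_mul, zero_add,
    add_zero, fromBlocks_inj] at h
  obtain ⟨hc, ha, -, hb⟩ := h
  have hd : d = aᵀ := (neg_injective ha).symm
  subst hd
  have hb' : ∀ i j, b j i = - b i j := fun i j => by
    have := congrFun (congrFun hb i) j
    simp only [Matrix.neg_apply, transpose_apply] at this
    rw [← this, neg_neg]
  have hc' : ∀ i j, c j i = - c i j := fun i j => by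
    have := congrFun (congrFun hc i) j
    simpa only [Matrix.neg_apply, transpose_apply] using this
  have hb0 : ∀ i, b i i = 0 := fun i =>
    (mul_eq_zero.1 (by linear_combination hb' i i : 2 * b i i = 0)).resolve_left h2
  have hc0 : ∀ i, c i i = 0 := fun i =>
    (mul_eq_zero.1 (by linear_combination hc' i i : 2 * c i i = 0)).resolve_left h2
  refine ⟨a 0 0, a 0 1, a 0 2, a 1 0, a 1 1, a 1 2, a 2 0, a 2 1, a 2 2, b 0 1, b 0 2, b 1 2,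
    c 0 1, c 0 2, c 1 2, ?_⟩
  rw [fromBlocks_inj]
  refine ⟨eta_fin_three a, ?_, ?_, ?_⟩
  · rw [eta_fin_three b]
    simp [hb0, hb' 0 1, hb' 0 2, hb' 1 2]
  · rw [eta_fin_three c]
    simp [hc0, hc' 0 1, hc' 0 2, hc' 1 2]
  · exact eta_fin_three aᵀ

theorem add3 (a0 a1 a2 a3 a4 a5 a6 a7 a8 b0 b1 b2 b3 b4 b5 b6 b7 b8 : F) :
    !![a0, a1, a2; a3, a4, a5; a6, a7, a8] + !![b0, b1, b2; b3, b4, b5; b6, b7, b8] =
    !![a0 + b0, a1 + b1, a2 + b2; a3 + b3, a4 + b4, a5 + b5; a6 + b6, a7 + b7, a8 + b8] := by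
  ext i j; fin_cases i <;> fin_cases j <;> rfl

theorem smul3 (t a0 a1 a2 a3 a4 a5 a6 a7 a8 : F) :
    t • !![a0, a1, a2; a3, a4, a5; a6, a7, a8] =
    !![t * a0, t * a1, t * a2; t * a3, t * a4, t * a5; t * a6, t * a7, t * a8] := by
  ext i j; fin_cases i <;> fin_cases j <;> rfl

theorem zero3 : (0 : Matrix (Fin 3) (Fin 3) F) = !![0, 0, 0; 0, 0, 0; 0, 0, 0] := by
  ext i j; fin_cases i <;> fin_cases j <;> rfl

theorem ext3 {a0 a1 a2 a3 a4 a5 a6 a7 a8 b0 b1 b2 b3 b4 b5 b6 b7 b8 : F} (h0 : a0 = b0)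
    (h1 : a1 = b1) (h2 : a2 = b2) (h3 : a3 = b3) (h4 : a4 = b4) (h5 : a5 = b5) (h6 : a6 = b6)
    (h7 : a7 = b7) (h8 : a8 = b8) :
    !![a0, a1, a2; a3, a4, a5; a6, a7, a8] = !![b0, b1, b2; b3, b4, b5; b6, b7, b8] := by
  subst h0 h1 h2 h3 h4 h5 h6 h7 h8; rfl

theorem trace_fb (a b c d : Matrix (Fin 3) (Fin 3) F) :
    (fromBlocks a b c d).trace = a.trace + d.trace := by
  simp [Matrix.trace, Fintype.sum_sum_type]

theorem cubic_aux (a0 a1 a2 a3 a4 a5 a6 a7 a8 b0 b1 b2 c0 c1 c2 : F) (x : 𝕄)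
    (hx : x = fromBlocks !![a0, a1, a2; a3, a4, a5; a6, a7, a8]
      !![0, b0, b1; -b0, 0, b2; -b1, -b2, 0]
      !![0, c0, c1; -c0, 0, c2; -c1, -c2, 0] !![a0, a3, a6; a1, a4, a7; a2, a5, a8]) :
    ∃ e1 e2 e3 : F, x.trace = 2 * e1 ∧ (x * x).trace = 2 * e1 ^ 2 - 4 * e2 ∧
      x * (x * x) = e1 • (x * x) + (-e2) • x + e3 • (1 : 𝕄) := by
  refine ⟨a0 + a4 + a8, a0 * a4 + a0 * a8 + a4 * a8 - a1 * a3 - a2 * a6 - a5 * a7 +
    (b0 * c0 + b1 * c1 + b2 * c2),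
    a0 * a4 * a8 - a0 * a5 * a7 - a1 * a3 * a8 + a1 * a5 * a6 + a2 * a3 * a7 - a2 * a4 * a6 +
    (b2 * (a0 * c2 - a1 * c1 + a2 * c0) - b1 * (a3 * c2 - a4 * c1 + a5 * c0) +
      b0 * (a6 * c2 - a7 * c1 + a8 * c0)), ?_, ?_, ?_⟩
  · subst hx
    simp only [trace_fb, trace_fin_three_of]
    ring
  · subst hx
    simp only [fromBlocks_multiply, mul_fin_three, add3, trace_fb, trace_fin_three_of]
    ring
  · subst hx
    rw [← fromBlocks_one, one_fin_three, zero3]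
    simp only [fromBlocks_multiply, mul_fin_three, add3, smul3, fromBlocks_smul, fromBlocks_add,
      fromBlocks_inj]
    refine ⟨?_, ?_, ?_, ?_⟩ <;> apply ext3 <;> ring

theorem SA.cubic {x : 𝕄} (h : SA x) (h2 : (2 : F) ≠ 0) :
    ∃ e1 e2 e3 : F, x.trace = 2 * e1 ∧ (x * x).trace = 2 * e1 ^ 2 - 4 * e2 ∧
      x * (x * x) = e1 • (x * x) + (-e2) • x + e3 • (1 : 𝕄) := by
  obtain ⟨a0, a1, a2, a3, a4, a5, a6, a7, a8, b0, b1, b2, c0, c1, c2, hx⟩ := h.shape h2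
  exact cubic_aux a0 a1 a2 a3 a4 a5 a6 a7 a8 b0 b1 b2 c0 c1 c2 x hx

end Cfsg.Agent.H10.Cov
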