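import Mathlib
import Cfsg.Agent.H10.Cov1

/-! In characteristic three every element of `Sp₆` centralises a self-adjoint idempotent of trace
two or normalises (modulo scalars) a self-adjoint root of an Artin–Schreier polynomial. -/

set_option autoImplicit false

namespace Cfsg.Agent.H10.Cov

open Matrix Polynomial

variable {F : Type} [Field F]

local notation "𝕄" => Matrix I6 I6 F
local notation "𝐉" => Matrix.J (Fin 3) F

theorem SA.add {x y : 𝕄} (hx : SA x) (hy : SA y) : SA (x + y) := by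
  simp only [SA] at *
  rw [transpose_add, Matrix.add_mul, Matrix.mul_add, hx, hy]

theorem SA.smul {x : 𝕄} (hx : SA x) (t : F) : SA (t • x) := by
  simp only [SA] at *
  rw [transpose_smul, Matrix.smul_mul, Matrix.mul_smul, hx]

theorem SA.neg {x : 𝕄} (hx : SA x) : SA (-x) := by
  simpa using hx.smul (-1)

theorem SA.sub {x y : 𝕄} (hx : SA x) (hy : SA y) : SA (x - y) := by
  rw [sub_eq_add_neg]; exact hx.add hy.neg

theorem SA.one : SA (1 : 𝕄) := by simp [SA]

theorem SA.mul {x y : 𝕄} (hx : SA x) (hy : SA y) (h : x * y = y * x) : SA (x * y) := by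
  simp only [SA] at *
  rw [transpose_mul, Matrix.mul_assoc, hx, ← Matrix.mul_assoc, hy, Matrix.mul_assoc, h]

theorem SA.pow {x : 𝕄} (hx : SA x) (n : ℕ) : SA (x ^ n) := by
  induction n with
  | zero => simpa using SA.one
  | succ n ih => rw [pow_succ]; exact ih.mul hx (Commute.self_pow x n).symm.eq

theorem SA.aeval {x : 𝕄} (hx : SA x) (f : F[X]) : SA (aeval x f) := by
  induction f using Polynomial.induction_on' with
  | add p q hp hq => rw [map_add]; exact hp.add hq
  | monomial n a =>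
    rw [aeval_monomial, ← Algebra.smul_def]; exact (hx.pow n).smul a

theorem commute_aeval {x g : 𝕄} (h : g * x = x * g) (f : F[X]) :
    g * aeval x f = aeval x f * g := by
  induction f using Polynomial.induction_on' with
  | add p q hp hq => rw [map_add, Matrix.add_mul, Matrix.mul_add, hp, hq]
  | monomial n a =>
    rw [aeval_monomial, ← Algebra.smul_def, Matrix.mul_smul, Matrix.smul_mul,
      ((show Commute g x from h).pow_right n).eq]

/-- The adjoint. -/
def adj (y : 𝕄) : 𝕄 := -(𝐉 * yᵀ * 𝐉)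

theorem JJ (z : 𝕄) : 𝐉 * (𝐉 * z) = -z := by
  rw [← Matrix.mul_assoc, J_squared, Matrix.neg_mul, Matrix.one_mul]

theorem adj_mul (a b : 𝕄) : adj (a * b) = adj b * adj a := by
  simp only [adj, transpose_mul, Matrix.mul_assoc, Matrix.neg_mul, Matrix.mul_neg, neg_neg, JJ]

theorem SA.add_adj (y : 𝕄) : SA (y + adj y) := by
  simp only [SA, adj, transpose_add, transpose_neg, transpose_mul, transpose_transpose, J_transpose,
    Matrix.add_mul, Matrix.mul_add, Matrix.mul_assoc, Matrix.neg_mul, Matrix.mul_neg, neg_neg, JJ,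
    J_squared, Matrix.mul_one]
  abel

theorem trace_adj (y : 𝕄) : (adj y).trace = y.trace := by
  rw [adj, trace_neg, trace_mul_comm, JJ, trace_neg, neg_neg, trace_transpose]

theorem adj_sp (g : symplecticGroup (Fin 3) F) : adj g.1 = (g⁻¹).1 := by
  rw [SymplecticGroup.coe_inv, adj, Matrix.neg_mul, Matrix.neg_mul]

theorem adj_add (a b : 𝕄) : adj (a + b) = adj a + adj b := by
  simp only [adj, transpose_add, Matrix.add_mul, Matrix.mul_add, neg_add]

theorem adj_smul (t : F) (a : 𝕄) : adj (t • a) = t • adj a := by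
  simp only [adj, transpose_smul, Matrix.smul_mul, Matrix.mul_smul, smul_neg]

theorem adj_rel (g : symplecticGroup (Fin 3) F) {y : 𝕄} {t : F}
    (h : g.1 * y = y * g.1 + t • g.1) : g.1 * adj y = adj y * g.1 + t • g.1 := by
  have h1 := congrArg adj h
  rw [adj_mul, adj_add, adj_mul, adj_smul, adj_sp] at h1
  have h2 := congrArg (fun z => g.1 * z * g.1) h1
  simp only [Matrix.mul_add, Matrix.add_mul, Matrix.mul_smul, Matrix.smul_mul, Matrix.mul_assoc,
    sp_inv_mul, Matrix.mul_one] at h2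
  rw [h2, ← Matrix.mul_assoc, sp_mul_inv, Matrix.one_mul]

theorem dichotomy (g : 𝕄) :
    (∃ y : 𝕄, g * y = y * g + g) ∨ ∃ x : 𝕄, g * x = x * g ∧ x.trace ≠ 0 := by
  let L : 𝕄 →ₗ[F] 𝕄 := LinearMap.mulLeft F g - LinearMap.mulRight F g
  by_cases h : g ∈ LinearMap.range L
  · obtain ⟨y, hy⟩ := h
    left
    refine ⟨y, ?_⟩
    have : g * y - y * g = g := hy
    exact sub_eq_iff_eq_add'.1 this
  · right
    obtain ⟨f, hf, hle⟩ := Submodule.exists_le_ker_of_notMem h
    let z : 𝕄 := Matrix.of fun j i => f (single i j 1)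
    have hz : ∀ y, f y = (z * y).trace := fun y => by
      conv_lhs => rw [matrix_eq_sum_single y]
      simp only [map_sum, Matrix.trace, Matrix.diag, Matrix.mul_apply, z, of_apply]
      rw [Finset.sum_comm]
      refine Finset.sum_congr rfl fun i _ => Finset.sum_congr rfl fun j _ => ?_
      rw [mul_comm, ← smul_eq_mul, ← map_smul, smul_single, smul_eq_mul, mul_one]
    have hc : z * g = g * z := by
      rw [ext_iff_trace_mul_right]
      intro y
      have : f (g * y - y * g) = 0 := hle ⟨y, rfl⟩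
      rw [map_sub, hz, hz, sub_eq_zero] at this
      rw [Matrix.mul_assoc, this, ← Matrix.mul_assoc, trace_mul_comm, Matrix.mul_assoc]
    exact ⟨z * g, by rw [← Matrix.mul_assoc, hc], by rwa [← hz]⟩

theorem as_ring {R : Type*} [Ring R] (h3 : (3 : R) = 0) {v a b : R} (ha : a * v = v * a + a)
    (hb : b * v = v * b - b) (hab : b * a = a * b) :
    (v + (a + b)) * ((v + (a + b)) * (v + (a + b))) =
      v * (v * v) + (a + b) + (a * (a * a) + b * (b * b)) := by
  have ha' : ∀ z, a * (v * z) = v * (a * z) + a * z := fun z => by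
    rw [← mul_assoc, ha, add_mul, mul_assoc]
  have hb' : ∀ z, b * (v * z) = v * (b * z) - b * z := fun z => by
    rw [← mul_assoc, hb, sub_mul, mul_assoc]
  have hab' : ∀ z, b * (a * z) = a * (b * z) := fun z => by
    rw [← mul_assoc, hab, mul_assoc]
  have : (v + (a + b)) * ((v + (a + b)) * (v + (a + b))) =
      v * (v * v) + (a + b) + (a * (a * a) + b * (b * b)) + 3 * (v * (v * a) + v * a +
        v * (v * b) - v * b + v * (a * a) + a * a + v * (b * b) - b * b + 2 * (v * (a * b)) +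
        a * (a * b) + a * (b * b)) := by
    simp only [mul_add, add_mul, mul_sub, ha, hb, hab, ha', hb', hab']
    noncomm_ring
  rw [this, h3, zero_mul, add_zero]

section Three

variable (h3 : (3 : F) = 0)
include h3

theorem two_ne : (2 : F) ≠ 0 := fun h => one_ne_zero (by linear_combination h3 - h : (1 : F) = 0)

theorem three_mat : (3 : 𝕄) = 0 := by
  have : (3 : 𝕄) = (3 : F) • (1 : 𝕄) := by
    rw [← Algebra.algebraMap_eq_smul_one, map_ofNat]
  rw [this, h3, zero_smul]

theorem trace_one6 : (1 : 𝕄).trace = 0 := by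
  rw [trace_one]
  simp only [Fintype.card_sum, Fintype.card_fin]
  push_cast
  linear_combination 2 * h3

/-- A self-adjoint `v` with `g v g⁻¹ = v + 1` satisfies `v³ - v = c`. -/
theorem as_scalar {v g g' : 𝕄} (hv : SA v) (hg : g * g' = 1) (h : g * v = v * g + g) :
    ∃ c : F, v * (v * v) = v + c • (1 : 𝕄) := by
  obtain ⟨e1, e2, e3, h1, h2, hc⟩ := hv.cubic (two_ne h3)
  have hg' : g' * g = 1 := mul_eq_one_comm.1 hg
  have hv1 : g * v * g' = v + 1 := by rw [h, Matrix.add_mul, Matrix.mul_assoc, hg, Matrix.mul_one]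
  have hm : ∀ y z : 𝕄, g * (y * z) * g' = (g * y * g') * (g * z * g') := fun y z => by
    simp only [Matrix.mul_assoc]
    rw [← Matrix.mul_assoc g' g, hg', Matrix.one_mul]
  have ht : ((v + 1) * (v + 1)).trace = (v * v).trace := by
    rw [← hv1, ← hm, trace_mul_comm, ← Matrix.mul_assoc, hg', Matrix.one_mul]
  simp only [Matrix.add_mul, Matrix.mul_add, Matrix.mul_one, Matrix.one_mul, trace_add,
    trace_one6 h3, h1] at ht
  have he1 : e1 = 0 := by linear_combination ht - e1 * h3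
  subst he1
  rw [zero_smul, zero_add] at hc
  have h4 := congrArg (fun z => g * z * g') hc
  simp only [hm, hv1] at h4
  simp only [Matrix.mul_add g, Matrix.add_mul _ _ g', Matrix.mul_smul, Matrix.smul_mul,
    Matrix.mul_one, hg, hv1] at h4
  have h5 : (1 + e2) • (1 : 𝕄) = 0 := by
    have h6 : (v + 1) * ((v + 1) * (v + 1)) = v * (v * v) + 1 + 3 * (v * v + v) := by noncomm_ring
    rw [h6, three_mat h3, Matrix.zero_mul, add_zero] at h4
    linear_combination (norm := module) h4 - hc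
  have he2 : e2 = -1 := by
    rcases smul_eq_zero.1 h5 with h | h
    · linear_combination h
    · exact absurd h one_ne_zero
  exact ⟨e3, by rw [hc, he2, neg_neg, one_smul]⟩

theorem shift (h : symplecticGroup (Fin 3) F) {v : 𝕄} {c : F} (hh : h.1 * v = v * h.1 + h.1)
    (hc : v * (v * v) = v + c • (1 : 𝕄)) (s : F) :
    (v + s • (h.1 + adj h.1)) * ((v + s • (h.1 + adj h.1)) * (v + s • (h.1 + adj h.1))) =
      (v + s • (h.1 + adj h.1)) + (c • (1 : 𝕄) + s ^ 3 • ((h * (h * h)).1 + (h * (h * h))⁻¹.1)) := by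
  have hb : (h⁻¹).1 * v = v * (h⁻¹).1 - (h⁻¹).1 := by
    have h2 := congrArg (fun z => (h⁻¹).1 * z * (h⁻¹).1) hh
    simp only [Matrix.mul_add, Matrix.add_mul, Matrix.mul_assoc, sp_mul_inv, Matrix.mul_one] at h2
    rw [← Matrix.mul_assoc, sp_inv_mul, Matrix.one_mul] at h2
    rw [h2, add_sub_cancel_right]
  have := as_ring (three_mat h3) (v := v) (a := s • h.1) (b := s • (h⁻¹).1)
    (by rw [Matrix.smul_mul, hh, smul_add, Matrix.mul_smul])
    (by rw [Matrix.smul_mul, hb, smul_sub, Matrix.mul_smul])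
    (by simp only [Matrix.smul_mul, Matrix.mul_smul, sp_mul_inv, sp_inv_mul])
  rw [adj_sp, smul_add, this, hc]
  simp only [_root_.mul_inv_rev, spv_mul, Matrix.smul_mul, Matrix.mul_smul, Matrix.mul_assoc]
  module

omit h3 in
theorem shift_rel (g h : symplecticGroup (Fin 3) F) (hgh : g * h = h * g) {v : 𝕄}
    (hg : g.1 * v = v * g.1 + g.1) (s : F) :
    g.1 * (v + s • (h.1 + adj h.1)) = (v + s • (h.1 + adj h.1)) * g.1 + g.1 := by
  have h1 : g.1 * h.1 = h.1 * g.1 := congrArg Subtype.val hgh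
  have h2 : g.1 * (h⁻¹).1 = (h⁻¹).1 * g.1 :=
    congrArg Subtype.val (Commute.inv_right (show Commute g h from hgh)).eq
  simp only [adj_sp, Matrix.mul_add, Matrix.add_mul, Matrix.mul_smul, Matrix.smul_mul, h1, h2, hg]
  abel

theorem fix_const [Finite F] (c0 : F) (g h : symplecticGroup (Fin 3) F) (hgh : g * h = h * g)
    {v : 𝕄} (hv : SA v) (hg : g.1 * v = v * g.1 + g.1) (hh : h.1 * v = v * h.1 + h.1)
    (hne : (h * (h * h)).1 + (h * (h * h))⁻¹.1 ≠ 0) :
    ∃ w : 𝕄, SA w ∧ w * (w * w) = w + c0 • (1 : 𝕄) ∧ g.1 * w = w * g.1 + g.1 := by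
  obtain ⟨c, hc⟩ := as_scalar h3 hv (sp_mul_inv g) hg
  obtain ⟨c', hc'⟩ := as_scalar h3 (hv.add ((SA.add_adj h.1).smul 1)) (sp_mul_inv g)
    (shift_rel g h hgh hg 1)
  rw [shift h3 h hh hc, add_right_inj, one_pow, one_smul] at hc'
  have hτ : (h * (h * h)).1 + (h * (h * h))⁻¹.1 = (c' - c) • (1 : 𝕄) := by
    linear_combination (norm := module) hc'
  have hτ0 : c' - c ≠ 0 := fun h0 => hne (by rw [hτ, h0, zero_smul])
  have hcube : Function.Surjective fun s : F => s ^ 3 := by
    refine Finite.surjective_of_injective fun a b hab => ?_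
    have : (a - b) ^ 3 = 0 := by
      linear_combination hab - (a ^ 2 * b - a * b ^ 2) * h3
    exact sub_eq_zero.1 (pow_eq_zero_iff (by norm_num) |>.1 this)
  obtain ⟨s, hs⟩ := hcube ((c0 - c) / (c' - c))
  refine ⟨v + s • (h.1 + adj h.1), hv.add ((SA.add_adj h.1).smul s), ?_, shift_rel g h hgh hg s⟩
  simp only at hs
  rw [shift h3 h hh hc, hτ, hs, smul_smul, div_mul_cancel₀ _ hτ0, ← add_smul, add_sub_cancel]

theorem case_two [Finite F] (c0 : F) (g : symplecticGroup (Fin 3) F) {y : 𝕄}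
    (hy : g.1 * y = y * g.1 + g.1) :
    ∃ w : 𝕄, SA w ∧ w * (w * w) = w + c0 • (1 : 𝕄) ∧ g.1 * w = w * g.1 + g.1 := by
  have h1 := adj_rel g (t := 1) (by rw [one_smul]; exact hy)
  rw [one_smul] at h1
  have hv : SA (-(y + adj y)) := (SA.add_adj y).neg
  have h3g : ∀ z : 𝕄, z + z + z = 0 := fun z => by
    have : (3 : F) • z = 0 := by rw [h3, zero_smul]
    linear_combination (norm := module) this
  have hg : g.1 * -(y + adj y) = -(y + adj y) * g.1 + g.1 := by
    rw [Matrix.mul_neg, Matrix.neg_mul, Matrix.mul_add, Matrix.add_mul, h1, hy]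
    linear_combination (norm := module) -h3g g.1
  generalize -(y + adj y) = v at hv hg
  by_cases hne : (g * (g * g)).1 + (g * (g * g))⁻¹.1 = 0
  · have hG : (g * (g * g)).1 * (g * (g * g)).1 = -1 := by
      have := congrArg (fun z => (g * (g * g)).1 * z) hne
      simp only [Matrix.mul_add, sp_mul_inv, Matrix.mul_zero] at this
      exact eq_neg_of_add_eq_zero_left this
    have h4 : g ^ 4 * (g ^ 4 * g ^ 4) = 1 := by
      have : g ^ 4 * (g ^ 4 * g ^ 4) =
          (g * (g * g) * (g * (g * g))) * (g * (g * g) * (g * (g * g))) := by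
        simp only [pow_succ, pow_zero, one_mul, mul_assoc]
      rw [this]
      apply Subtype.ext
      rw [spv_mul, spv_mul, hG, spv_one, neg_mul_neg, Matrix.mul_one]
    refine fix_const h3 c0 g (g ^ 4) (by group) hv hg ?_ ?_
    · have : g ^ 4 = g * (g * (g * g)) := by simp only [pow_succ, pow_zero, one_mul, mul_assoc]
      have hg' : ∀ z, v * (g.1 * z) = g.1 * (v * z) - g.1 * z := fun z => by
        rw [← Matrix.mul_assoc g.1, hg, Matrix.add_mul, Matrix.mul_assoc, add_sub_cancel_right]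
      have hg2 : v * g.1 = g.1 * v - g.1 := by rw [hg, add_sub_cancel_right]
      rw [this]
      simp only [spv_mul, hg', hg2, Matrix.mul_sub, Matrix.mul_assoc]
      linear_combination (norm := module) h3g (g.1 * (g.1 * (g.1 * g.1)))
    · rw [h4, inv_one, spv_one, ← two_smul F]
      exact smul_ne_zero (two_ne h3) one_ne_zero
  · exact fix_const h3 c0 g g rfl hv hg hg hne

/-- A simple root of the cubic gives an idempotent. -/
theorem idem_of_root {x g : 𝕄} (hx : SA x) (hg : g * x = x * g) {e1 e2 e3 a : F}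
    (h1 : x.trace = 2 * e1) (h2 : (x * x).trace = 2 * e1 ^ 2 - 4 * e2)
    (hc : x * (x * x) = e1 • (x * x) + (-e2) • x + e3 • (1 : 𝕄))
    (ha : a ^ 3 - e1 * a ^ 2 + e2 * a - e3 = 0) (hd : 3 * a ^ 2 - 2 * e1 * a + e2 ≠ 0) :
    ∃ e : 𝕄, SA e ∧ e * e = e ∧ e.trace = 2 ∧ g * e = e * g := by
  obtain ⟨Q, hQ⟩ : ∃ Q : 𝕄, Q = x * x + (a - e1) • x + (a ^ 2 - e1 * a + e2) • (1 : 𝕄) := ⟨_, rfl⟩
  have he3 : e3 = a ^ 3 - e1 * a ^ 2 + e2 * a := by linear_combination -ha
  have hxQ : x * Q = a • Q := by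
    simp only [hQ, Matrix.mul_add, Matrix.mul_smul, Matrix.mul_one, hc, he3]
    module
  have hQQ : Q * Q = (3 * a ^ 2 - 2 * e1 * a + e2) • Q := by
    nth_rewrite 1 [hQ]
    simp only [Matrix.add_mul, Matrix.smul_mul, Matrix.one_mul, Matrix.mul_assoc, hxQ,
      Matrix.mul_smul]
    module
  refine ⟨(3 * a ^ 2 - 2 * e1 * a + e2)⁻¹ • Q, SA.smul ?_ _, ?_, ?_, ?_⟩
  · rw [hQ]; exact ((hx.mul hx rfl).add (hx.smul _)).add (SA.one.smul _)
  · rw [Matrix.smul_mul, Matrix.mul_smul, hQQ, smul_smul _ _ Q, inv_mul_cancel₀ hd, one_smul]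
  · rw [trace_smul, hQ, trace_add, trace_add, trace_smul, trace_smul, h1, h2, trace_one6 h3,
      smul_eq_mul, inv_mul_eq_iff_eq_mul₀ hd]
    simp only [smul_eq_mul]
    linear_combination (2 * a * e1 - 2 * a ^ 2 - 2 * e2) * h3
  · simp only [hQ, Matrix.mul_add, Matrix.add_mul, Matrix.mul_smul, Matrix.smul_mul,
      Matrix.mul_one, Matrix.one_mul, hg]
    rw [← Matrix.mul_assoc, hg, Matrix.mul_assoc, hg, Matrix.mul_assoc]

omit h3 in
theorem cubic_irr {a b c : F} (h : ∀ t : F, t ^ 3 + a * t ^ 2 + b * t + c ≠ 0) :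
    Irreducible (X ^ 3 + C a * X ^ 2 + C b * X + C c : F[X]) ∧
      (X ^ 3 + C a * X ^ 2 + C b * X + C c : F[X]).natDegree = 3 := by
  have hd : (X ^ 3 + C a * X ^ 2 + C b * X + C c : F[X]).natDegree = 3 := by compute_degree!
  refine ⟨irreducible_of_degree_le_three_of_not_isRoot (by rw [hd]; decide) fun t ht => h t ?_, hd⟩
  simpa using ht

omit h3 in
theorem exists_root_poly [Finite F] {p q : F[X]} (hp : Irreducible p) (hq : Irreducible q)
    (h : q.natDegree = p.natDegree) : ∃ f : F[X], p ∣ q.comp f := by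
  have := Fact.mk hp
  have := Fact.mk hq
  have : Module.Finite F (AdjoinRoot p) := (AdjoinRoot.powerBasis hp.ne_zero).finite
  have : Finite (AdjoinRoot p) := Module.finite_of_finite F
  have hr : ∀ {r : F[X]} (hr : r ≠ 0), Module.finrank F (AdjoinRoot r) = r.natDegree :=
    fun hr => (AdjoinRoot.powerBasis hr).finrank
  obtain ⟨φ⟩ := FiniteField.nonempty_algHom_of_finrank_dvd (F := F) (K := AdjoinRoot q)
    (L := AdjoinRoot p) (by rw [hr hp.ne_zero, hr hq.ne_zero, h])
  obtain ⟨f, hf⟩ := AdjoinRoot.mk_surjective (φ (AdjoinRoot.root q))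
  refine ⟨f, AdjoinRoot.mk_eq_zero.1 ?_⟩
  rw [← AdjoinRoot.aeval_eq, aeval_comp, AdjoinRoot.aeval_eq, hf, aeval_algHom_apply,
    AdjoinRoot.aeval_eq, AdjoinRoot.mk_self, map_zero]

theorem case_one [Finite F] {c0 : F} (hc0 : ∀ t : F, t ^ 3 - t ≠ c0)
    (g : symplecticGroup (Fin 3) F) {y : 𝕄} (hy : g.1 * y = y * g.1) (ht : y.trace ≠ 0) :
    (∃ e : 𝕄, SA e ∧ e * e = e ∧ e.trace = 2 ∧ g.1 * e = e * g.1) ∨
      ∃ w : 𝕄, SA w ∧ w * (w * w) = w + c0 • (1 : 𝕄) ∧ g.1 * w = w * g.1 := by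
  have h0 := adj_rel g (y := y) (t := 0) (by rw [zero_smul, add_zero]; exact hy)
  rw [zero_smul, add_zero] at h0
  have hx : SA (y + adj y) := SA.add_adj y
  have hg : g.1 * (y + adj y) = (y + adj y) * g.1 := by
    rw [Matrix.mul_add, Matrix.add_mul, h0, hy]
  have htx : (y + adj y).trace ≠ 0 := by
    rw [trace_add, trace_adj, ← two_mul]
    exact mul_ne_zero (two_ne h3) ht
  generalize y + adj y = x at hx hg htx
  obtain ⟨e1, e2, e3, h1, h2, hc⟩ := hx.cubic (two_ne h3)
  have he1 : e1 ≠ 0 := fun h => htx (by rw [h1, h, mul_zero])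
  by_cases hr : ∃ a : F, a ^ 3 + (-e1) * a ^ 2 + e2 * a + (-e3) = 0
  · left
    obtain ⟨a, ha⟩ := hr
    by_cases hd : 3 * a ^ 2 - 2 * e1 * a + e2 = 0
    · refine idem_of_root h3 hx hg (a := e1 - 2 * a) h1 h2 hc ?_ fun h => ?_
      · linear_combination ha + (e1 - 3 * a) * hd
      · apply pow_ne_zero 2 he1
        linear_combination h - hd + (2 * a * e1 - 3 * a ^ 2) * h3
    · exact idem_of_root h3 hx hg (a := a) h1 h2 hc (by linear_combination ha) hd
  · right
    push Not at hr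
    obtain ⟨hp, hpd⟩ := cubic_irr hr
    obtain ⟨hq, hqd⟩ := cubic_irr (a := 0) (b := -1) (c := -c0) fun t h => hc0 t (by
      linear_combination h)
    obtain ⟨f, r, hf⟩ := exists_root_poly hp hq (by rw [hpd, hqd])
    refine ⟨aeval x f, hx.aeval f, ?_, commute_aeval hg f⟩
    have h4 := congrArg (aeval x) hf
    have h5 : aeval x (X ^ 3 + C (-e1) * X ^ 2 + C e2 * X + C (-e3) : F[X]) = 0 := by
      simp only [map_add, map_mul, map_pow, aeval_X, aeval_C, Algebra.algebraMap_eq_smul_one,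
        Matrix.smul_mul, Matrix.one_mul, pow_three, pow_two, hc]
      module
    rw [map_mul, h5, Matrix.zero_mul, aeval_comp] at h4
    simp only [map_add, map_mul, map_pow, aeval_X, aeval_C, Algebra.algebraMap_eq_smul_one,
        Matrix.smul_mul, Matrix.one_mul, pow_three, pow_two] at h4
    linear_combination (norm := module) h4

theorem main_alg [Finite F] {c0 : F} (hc0 : ∀ t : F, t ^ 3 - t ≠ c0)
    (g : symplecticGroup (Fin 3) F) :
    (∃ e : 𝕄, SA e ∧ e * e = e ∧ e.trace = 2 ∧ g.1 * e = e * g.1) ∨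
      ∃ (w : 𝕄) (t : F), SA w ∧ w * (w * w) = w + c0 • (1 : 𝕄) ∧
        g.1 * w = w * g.1 + t • g.1 := by
  rcases dichotomy g.1 with ⟨y, hy⟩ | ⟨y, hy, ht⟩
  · obtain ⟨w, h1, h2, h⟩ := case_two h3 c0 g hy
    exact .inr ⟨w, 1, h1, h2, by rw [one_smul]; exact h⟩
  · rcases case_one h3 hc0 g hy ht with h | ⟨w, h1, h2, h⟩
    · exact .inl h
    · exact .inr ⟨w, 0, h1, h2, by rw [zero_smul, add_zero]; exact h⟩

end Three

end Cfsg.Agent.H10.Cov
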