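import Mathlib
import Cfsg.Agent.H10.Cov2

/-! `PSp₆(3^a)` is the union of the conjugates of two proper subgroups. -/

set_option autoImplicit false

namespace Cfsg.Agent.H10.Cov

open Matrix

variable {F : Type} [Field F]

local notation "𝕄" => Matrix I6 I6 F
local notation "𝐉" => Matrix.J (Fin 3) F
local notation "𝔅" => spBilin (Fin 3) _

theorem SA.form {x : 𝕄} (h : SA x) (y z : I6 → F) : 𝔅 y (x *ᵥ z) = 𝔅 (x *ᵥ y) z := by
  rw [spBilin_apply, spBilin_apply, mulVec_mulVec, ← h, ← mulVec_mulVec, dotProduct_mulVec,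
    vecMul_transpose]

theorem SA.form_self {x : 𝕄} (h : SA x) (h2 : (2 : F) ≠ 0) (y : I6 → F) : 𝔅 (x *ᵥ y) y = 0 := by
  have h1 := h.form y y
  rw [spB_swap] at h1
  exact (mul_eq_zero.1 (by linear_combination -h1 : 2 * 𝔅 (x *ᵥ y) y = 0)).resolve_left h2

theorem exists_repr (f : (I6 → F) →ₗ[F] F) : ∃ w, ∀ z, 𝔅 z w = f z := by
  refine ⟨(-𝐉) *ᵥ fun i => f (Pi.single i 1), fun z => ?_⟩
  rw [spBilin_apply, mulVec_mulVec, Matrix.mul_neg, J_squared, neg_neg, one_mulVec]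
  conv_rhs => rw [pi_eq_sum_univ' z]
  simp only [map_sum, map_smul, smul_eq_mul, dotProduct]

/-- The projection onto a hyperbolic plane. -/
def pr (u w : I6 → F) : 𝕄 := vecMulVec u (𝐉 *ᵥ w) - vecMulVec w (𝐉 *ᵥ u)

theorem pr_mulVec (u w z : I6 → F) : pr u w *ᵥ z = 𝔅 z w • u - 𝔅 z u • w := by
  simp only [pr, sub_mulVec, vecMulVec_mulVec, spBilin_apply, dotProduct_comm z, op_smul_eq_smul]

theorem SA.of_form {x : 𝕄} (h : ∀ y z : I6 → F, 𝔅 y (x *ᵥ z) = 𝔅 (x *ᵥ y) z) : SA x := by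
  ext i j
  have := h (Pi.single i 1) (Pi.single j 1)
  rw [spBilin_apply, spBilin_apply, mulVec_mulVec, ← vecMul_transpose x, ← dotProduct_mulVec,
    mulVec_mulVec] at this
  simpa [mulVec_single, single_dotProduct] using this.symm

theorem SA.pr (u w : I6 → F) : SA (pr u w) := SA.of_form fun y z => by
  simp only [pr_mulVec, map_sub, map_smul, LinearMap.sub_apply, LinearMap.smul_apply, smul_eq_mul,
    spB_swap u z, spB_swap w z]
  ring

theorem trace_pr (u w : I6 → F) : (pr u w).trace = 2 * 𝔅 u w := by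
  rw [pr, trace_sub, trace_vecMulVec, trace_vecMulVec, ← spBilin_apply, ← spBilin_apply,
    spB_swap w u]
  ring

theorem pr_conj (k : symplecticGroup (Fin 3) F) (u w : I6 → F) :
    k.1 * pr u w = pr (k.1 *ᵥ u) (k.1 *ᵥ w) * k.1 := by
  rw [Matrix.ext_iff_mulVec]
  intro z
  rw [← mulVec_mulVec, ← mulVec_mulVec, pr_mulVec, pr_mulVec, sp_form, sp_form, mulVec_sub,
    mulVec_smul, mulVec_smul]

theorem idem_eq_pr (h3 : (3 : F) = 0) {e : 𝕄} (he : SA e) (hee : e * e = e) (ht : e.trace = 2) :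
    ∃ u w, 𝔅 u w = 1 ∧ e = pr u w := by
  have h2 := two_ne h3
  have hne : e ≠ 0 := fun h => h2 (by rw [← ht, h, trace_zero])
  obtain ⟨z, hz⟩ : ∃ z, e *ᵥ z ≠ 0 := by
    by_contra hc
    push Not at hc
    exact hne (Matrix.ext_iff_mulVec.2 fun z => by rw [hc, zero_mulVec])
  obtain ⟨y, hy⟩ := exists_spB_eq_one hz
  obtain ⟨w, hw⟩ : ∃ w, w = e *ᵥ z := ⟨_, rfl⟩
  obtain ⟨u, hu⟩ : ∃ u, u = e *ᵥ y := ⟨_, rfl⟩
  have hew : e *ᵥ w = w := by rw [hw, mulVec_mulVec, hee]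
  have heu : e *ᵥ u = u := by rw [hu, mulVec_mulVec, hee]
  have huw : 𝔅 u w = 1 := by rw [hu, ← he.form, hew, hw, hy]
  refine ⟨u, w, huw, ?_⟩
  have h1 : e * pr u w = pr u w := Matrix.ext_iff_mulVec.2 fun x => by
    rw [← mulVec_mulVec, pr_mulVec, mulVec_sub, mulVec_smul, mulVec_smul, hew, heu]
  have h1' : pr u w * e = pr u w := Matrix.ext_iff_mulVec.2 fun x => by
    rw [← mulVec_mulVec, pr_mulVec, pr_mulVec, ← he.form, ← he.form, hew, heu]
  have hpu : pr u w *ᵥ u = u := by rw [pr_mulVec, huw, spB_self, one_smul, zero_smul, sub_zero]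
  have hpw : pr u w *ᵥ w = w := by
    rw [pr_mulVec, spB_swap w u, huw, spB_self, zero_smul, neg_smul, one_smul, zero_sub, neg_neg]
  have h1'' : pr u w * pr u w = pr u w := Matrix.ext_iff_mulVec.2 fun x => by
    rw [← mulVec_mulVec]
    nth_rewrite 2 3 [pr_mulVec]
    rw [mulVec_sub, mulVec_smul, mulVec_smul, hpu, hpw]
  have hd : (e - pr u w) * (e - pr u w) = e - pr u w := by
    rw [Matrix.sub_mul, Matrix.mul_sub, Matrix.mul_sub, hee, h1, h1', h1'', sub_self, sub_zero]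
  have htd : (e - pr u w).trace = 0 := by rw [trace_sub, ht, trace_pr, huw, mul_one, sub_self]
  obtain ⟨e1, e2, e3, k1, k2, k3⟩ := (he.sub (SA.pr u w)).cubic h2
  rw [hd] at k2 k3
  rw [hd] at k3
  have q1 : e1 = 0 := (mul_eq_zero.1 (k1.symm.trans htd)).resolve_left h2
  have q2 : e2 = 0 := by
    rw [htd, q1] at k2
    linear_combination k2 - e2 * h3
  rw [q1, q2, neg_zero, zero_smul, zero_add, zero_add] at k3
  have k4 := congrArg (· *ᵥ u) k3
  simp only [sub_mulVec, heu, hpu, sub_self, smul_mulVec, one_mulVec] at k4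
  have hu0 : u ≠ 0 := fun h => by simp [h] at huw
  rw [(smul_eq_zero.1 k4.symm).resolve_right hu0, zero_smul] at k3
  exact sub_eq_zero.1 k3

/-- The standard root of `X³ - X - c`. -/
def v0 (c : F) : 𝕄 := fromBlocks !![0, 0, c; 1, 0, 1; 0, 1, 0] 0 0 !![0, 1, 0; 0, 0, 1; c, 1, 0]

theorem exists_std (h3 : (3 : F) = 0) {c : F} (hc : ∀ t : F, t ^ 3 - t ≠ c) {v : 𝕄} (hv : SA v)
    (h : v * (v * v) = v + c • (1 : 𝕄)) :
    ∃ k : symplecticGroup (Fin 3) F, v * k.1 = k.1 * v0 c := by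
  have h2 := two_ne h3
  have hv3 : ∀ y, v *ᵥ (v *ᵥ (v *ᵥ y)) = v *ᵥ y + c • y := fun y => by
    rw [mulVec_mulVec, mulVec_mulVec, Matrix.mul_assoc, h, add_mulVec, smul_mulVec, one_mulVec]
  obtain ⟨u, hu⟩ : ∃ u : I6 → F, u ≠ 0 := exists_ne 0
  have hns : v *ᵥ (v *ᵥ u) ∉ Submodule.span F {u, v *ᵥ u} := by
    rw [Submodule.mem_span_pair]
    rintro ⟨a, b, hab⟩
    have e1 := hv3 u
    rw [← hab, mulVec_add, mulVec_smul, mulVec_smul, ← hab] at e1
    by_cases h0 : a + b ^ 2 - 1 = 0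
    · have : (c - a * b) • u = 0 := by
        have ha : a = 1 - b ^ 2 := by linear_combination h0
        subst ha
        linear_combination (norm := module) -e1
      exact hc (-b) (by
        have := (smul_eq_zero.1 this).resolve_right hu
        linear_combination -this - b * h0)
    · have e2 : v *ᵥ u = ((c - a * b) / (a + b ^ 2 - 1)) • u := by
        rw [div_eq_inv_mul, mul_smul, eq_inv_smul_iff₀ h0]
        linear_combination (norm := module) e1
      generalize (c - a * b) / (a + b ^ 2 - 1) = t at e2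
      have e3 := hv3 u
      simp only [e2, mulVec_smul] at e3
      have : (t ^ 3 - t - c) • u = 0 := by linear_combination (norm := module) e3
      exact hc t (sub_eq_zero.1 ((smul_eq_zero.1 this).resolve_right hu))
  obtain ⟨f, hf, hle⟩ := Submodule.exists_le_ker_of_notMem hns
  obtain ⟨w, hw⟩ := exists_repr ((-(f (v *ᵥ (v *ᵥ u)))⁻¹) • f)
  have b0 : 𝔅 u w = 0 := by
    rw [hw, LinearMap.smul_apply,
      LinearMap.mem_ker.1 (hle (Submodule.subset_span (by simp : u ∈ _))), smul_zero]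
  have b1 : 𝔅 (v *ᵥ u) w = 0 := by
    rw [hw, LinearMap.smul_apply,
      LinearMap.mem_ker.1 (hle (Submodule.subset_span (by simp : v *ᵥ u ∈ _))), smul_zero]
  have b2 : 𝔅 (v *ᵥ (v *ᵥ u)) w = -1 := by
    rw [hw, LinearMap.smul_apply, smul_eq_mul, neg_mul, inv_mul_cancel₀ hf]
  have c0 : 𝔅 w u = 0 := by rw [spB_swap, b0, neg_zero]
  have c1 : 𝔅 (v *ᵥ w) u = 0 := by rw [spB_swap, hv.form, b1, neg_zero]
  have c2 : 𝔅 (v *ᵥ (v *ᵥ w)) u = 1 := by rw [spB_swap, hv.form, hv.form, b2, neg_neg]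
  have s1 := hv.form_self h2
  have s2 : ∀ y, 𝔅 (v *ᵥ (v *ᵥ y)) y = 0 := fun y => by rw [← hv.form, spB_self]
  let col : I6 → I6 → F :=
    Sum.elim ![u, v *ᵥ u, v *ᵥ (v *ᵥ u)] ![v *ᵥ (v *ᵥ w) - w, v *ᵥ w, w]
  let P : 𝕄 := Matrix.of fun i j => col j i
  have hP : ∀ j k, (Pᵀ * 𝐉 * P) j k = 𝔅 (col j) (col k) := fun j k => by
    rw [spBilin_apply, Matrix.mul_assoc, Matrix.mul_apply]
    rfl
  have hQ : ∀ j, (fun i => (v * P) i j) = v *ᵥ col j := fun j => rfl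
  have hR : ∀ j, (fun i => (P * v0 c) i j) = ∑ k, v0 c k j • col k := fun j => by
    ext i
    simp only [Matrix.mul_apply, Finset.sum_apply, Pi.smul_apply, smul_eq_mul, P, of_apply,
      mul_comm]
  refine ⟨⟨P, SymplecticGroup.mem_iff'.2 ?_⟩, ?_⟩
  · ext j k
    rw [hP]
    rcases j with j | j <;> rcases k with k | k <;> fin_cases j <;> fin_cases k <;>
      simp [col, hv.form, hv3, mulVec_add, mulVec_sub, mulVec_smul, b0, b1, b2, c0, c1, c2, s1, s2,
        spB_self, Matrix.J, -mulVec_mulVec]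
  · ext i j
    refine (congrFun (hQ j) i).trans (Eq.trans (congrFun ?_ i) (congrFun (hR j) i).symm)
    rcases j with j | j <;> fin_cases j <;>
      simp [col, v0, Fintype.sum_sum_type, Fin.sum_univ_three, hv3, mulVec_sub, add_comm,
        -mulVec_mulVec]

theorem cover_quot {G : Type*} [Group G] (N : Subgroup G) [N.Normal] {H K : Subgroup G}
    (hH : H ≠ ⊤) (hK : K ≠ ⊤) (hNH : N ≤ H) (hNK : N ≤ K)
    (h : ∀ g : G, ∃ x : G, x * g * x⁻¹ ∈ H ∨ x * g * x⁻¹ ∈ K) :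
    ∃ H K : Subgroup (G ⧸ N), H ≠ ⊤ ∧ K ≠ ⊤ ∧
      ∀ g : G ⧸ N, ∃ x : G ⧸ N, x * g * x⁻¹ ∈ H ∨ x * g * x⁻¹ ∈ K := by
  have key : ∀ {L : Subgroup G}, L ≠ ⊤ → N ≤ L → L.map (QuotientGroup.mk' N) ≠ ⊤ :=
    fun {L} h1 h2 h3 => h1 (by
      have := congrArg (Subgroup.comap (QuotientGroup.mk' N)) h3
      rwa [Subgroup.comap_map_eq, QuotientGroup.ker_mk', sup_eq_left.2 h2,
        Subgroup.comap_top] at this)
  refine ⟨_, _, key hH hNH, key hK hNK, fun g => ?_⟩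
  obtain ⟨g, rfl⟩ := QuotientGroup.mk'_surjective N g
  obtain ⟨x, hx⟩ := h g
  refine ⟨QuotientGroup.mk' N x, ?_⟩
  rw [← map_inv, ← map_mul, ← map_mul]
  exact hx.imp (Subgroup.mem_map_of_mem _) (Subgroup.mem_map_of_mem _)

/-- The elements normalising `v` modulo scalars. -/
def nrm (v : 𝕄) (S : AddSubgroup F) : Subgroup (symplecticGroup (Fin 3) F) where
  carrier := {g | ∃ t ∈ S, g.1 * v = v * g.1 + t • g.1}
  one_mem' := ⟨0, zero_mem _, by simp [spv_one]⟩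
  mul_mem' := by
    rintro a b ⟨s, hs, ha⟩ ⟨t, ht, hb⟩
    refine ⟨s + t, add_mem hs ht, ?_⟩
    rw [spv_mul, Matrix.mul_assoc, hb, Matrix.mul_add, ← Matrix.mul_assoc, ha, Matrix.add_mul,
      Matrix.mul_smul, Matrix.smul_mul, Matrix.mul_assoc, add_smul, add_assoc]
  inv_mem' := by
    rintro a ⟨s, hs, ha⟩
    refine ⟨-s, neg_mem hs, ?_⟩
    have h2 := congrArg (fun z => (a⁻¹).1 * z * (a⁻¹).1) ha
    simp only [Matrix.mul_add, Matrix.add_mul, Matrix.mul_assoc, sp_mul_inv, Matrix.mul_one,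
      Matrix.mul_smul, Matrix.smul_mul] at h2
    rw [← Matrix.mul_assoc, sp_inv_mul, Matrix.one_mul] at h2
    rw [h2, neg_smul, add_neg_cancel_right]

theorem center_le_nrm (v : 𝕄) (S : AddSubgroup F) : Subgroup.center _ ≤ nrm v S := fun g hg => by
  refine ⟨0, zero_mem _, ?_⟩
  rcases (mem_center_sp_iff g).1 hg with h | h <;> simp [h]

theorem conj_mem_nrm {v v' : 𝕄} {S : AddSubgroup F} {g k : symplecticGroup (Fin 3) F}
    (hk : k.1 * v = v' * k.1) (hg : g ∈ nrm v S) : k * g * k⁻¹ ∈ nrm v' S := by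
  obtain ⟨t, ht, hg⟩ := hg
  refine ⟨t, ht, ?_⟩
  have h1 : (k⁻¹).1 * v' = v * (k⁻¹).1 := by
    have h2 := congrArg (fun z => (k⁻¹).1 * z * (k⁻¹).1) hk
    simp only [Matrix.mul_assoc, sp_mul_inv, Matrix.mul_one] at h2
    rw [← h2, ← Matrix.mul_assoc, sp_inv_mul, Matrix.one_mul]
  rw [spv_mul, spv_mul, Matrix.mul_assoc, h1, Matrix.mul_assoc, ← Matrix.mul_assoc g.1, hg,
    Matrix.add_mul, Matrix.mul_add, ← Matrix.mul_assoc, ← Matrix.mul_assoc, hk]
  simp only [Matrix.mul_assoc, Matrix.mul_smul, Matrix.smul_mul]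

theorem psp6_cover {F : Type} [Field F] [Fintype F] :
    ∀ a : ℕ, 1 ≤ a → Fintype.card F = 3 ^ a → (∃ H K : Subgroup (Cfsg.PSp 3 F), H ≠ ⊤ ∧ K ≠ ⊤ ∧
      ∀ g : (Cfsg.PSp 3 F), ∃ x : (Cfsg.PSp 3 F), x * g * x⁻¹ ∈ H ∨ x * g * x⁻¹ ∈ K) := by
  intro a ha hcard
  have h3 : (3 : F) = 0 := by
    have := FiniteField.cast_card_eq_zero F
    rw [hcard, Nat.cast_pow] at this
    exact_mod_cast pow_eq_zero_iff (by omega) |>.1 this
  obtain ⟨c, hc⟩ : ∃ c : F, ∀ t : F, t ^ 3 - t ≠ c := by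
    by_contra hs
    push Not at hs
    have := (Finite.injective_iff_surjective (f := fun t : F => t ^ 3 - t)).2 hs
    exact zero_ne_one (this (a₁ := 0) (a₂ := 1) (by simp))
  let u0 : I6 → F := Pi.single (.inl 0) 1
  let w0 : I6 → F := Pi.single (.inr 0) (-1)
  have huw : 𝔅 u0 w0 = 1 := by simp [u0, w0, spBilin_apply_sum, Fin.sum_univ_three]
  have hli : ∀ u w : I6 → F, 𝔅 u w = 1 → LinearIndependent F ![u, w] := fun u w h => by
    rw [LinearIndependent.pair_iff]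
    intro s t hst
    have e1 := congrArg (𝔅 u) hst
    have e2 := congrArg (𝔅 w) hst
    simp only [map_add, map_smul, spB_self, spB_swap w u, h, map_zero, smul_eq_mul] at e1 e2
    exact ⟨by linear_combination -e2, by linear_combination e1⟩
  refine cover_quot _ (H := nrm (pr u0 w0) ⊥) (K := nrm (v0 c) ⊤) (fun hH => ?_) (fun hK => ?_)
    (center_le_nrm _ _) (center_le_nrm _ _) fun g => ?_
  · obtain ⟨k, hk⟩ := exists_sp_apply_eq (v := u0) (w := Pi.single (.inl 1) (1 : F))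
      (by simp [u0]) (by simp)
    obtain ⟨t, ht, h⟩ : k ∈ nrm (pr u0 w0) ⊥ := hH ▸ Subgroup.mem_top k
    rw [AddSubgroup.mem_bot.1 ht, zero_smul, add_zero] at h
    have := congrArg (· *ᵥ u0) h
    simp only [← mulVec_mulVec, hk, pr_mulVec, huw, spB_self, one_smul, zero_smul, sub_zero] at this
    have := congrFun this (.inl 1)
    simp [u0, w0] at this
  · obtain ⟨t, -, h⟩ : stv u0 1 ∈ nrm (v0 c) ⊤ := hK ▸ Subgroup.mem_top _
    have := congrFun (congrArg (· *ᵥ w0) h) (.inl 1)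
    simp only [add_mulVec, smul_mulVec, ← mulVec_mulVec, stv_mulVec, spB_swap w0 u0, huw] at this
    simp [u0, w0, v0, mulVec_add, mulVec_smul, mulVec_neg, mulVec_single] at this
  · rcases main_alg h3 hc g with ⟨e, h1, h2, h4, h5⟩ | ⟨v, t, h1, h2, h4⟩
    · obtain ⟨u, w, h6, rfl⟩ := idem_eq_pr h3 h1 h2 h4
      obtain ⟨k, hk1, hk2⟩ := exists_sp_pair (hli u w h6) (hli u0 w0 huw) (by rw [h6, huw])
      refine ⟨k, .inl (conj_mem_nrm (v := pr u w) (by rw [pr_conj, hk1, hk2]) ⟨0, zero_mem _, ?_⟩)⟩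
      rw [h5, zero_smul, add_zero]
    · obtain ⟨k, hk⟩ := exists_std h3 hc h1 h2
      refine ⟨k⁻¹, .inr (conj_mem_nrm (v := v) ?_ ⟨t, trivial, h4⟩)⟩
      have h2 := congrArg (fun z => (k⁻¹).1 * z * (k⁻¹).1) hk
      simp only [Matrix.mul_assoc, sp_mul_inv, Matrix.mul_one] at h2
      rw [h2, ← Matrix.mul_assoc, sp_inv_mul, Matrix.one_mul]

end Cfsg.Agent.H10.Cov
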