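import Mathlib
import Cfsg.Agent.H10.Elus1

/-! Isometries of odd prime order and their invariant subspaces. -/

namespace Cfsg.Agent.H10

open Module Polynomial H11 L0

universe u

variable {F : Type u} [Field F] {σ : F →+* F} {ε κ : F} {τ : F →+ F} {r d D t : ℕ}
  {s : Multiset F[X]}

/-- Numerical data attached to an odd prime `r`. -/
structure OD (σ : F →+* F) (r d D t : ℕ) : Prop where
  prime : r.Prime
  odd : r ≠ 2
  ne : (r : F) ≠ 0
  invol : ∀ a, σ (σ a) = a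
  hd : d = orderOf ((Nat.card F : ℕ) : ZMod r)
  ht : t = Nat.card (PF F r)
  cases : (∀ u : PF F r, du σ r u.1 = u.1) ∧ D = d ∨ (∀ u : PF F r, du σ r u.1 ≠ u.1) ∧ D = 2 * d

/-- Multisets of non-trivial factors of `X ^ r - 1`. -/
def NT (r : ℕ) (s : Multiset F[X]) : Prop := ∀ u ∈ s, IrrD r u ∧ u ≠ X - 1

/-- The guaranteed number of blocks in an invariant isotropic subspace. -/
def JJ (d D t k : ℕ) : ℕ := if D = d then (k - t + 1) / 2 else k

theorem NT.mono {s' : Multiset F[X]} (h : NT r s) (hle : s' ≤ s) : NT r s' :=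
  fun u hu => h u (Multiset.mem_of_le hle hu)

theorem inv_zero : Inv σ r (0 : Multiset F[X]) := ⟨by simp, by simp⟩

namespace OD
variable [Finite F] (O : OD σ r d D t)
include O

theorem mul_eq : t * d = r - 1 := by rw [O.ht, O.hd]; exact (card_PF O.prime O.ne).2

theorem pos : 0 < d ∧ 0 < t ∧ 0 < D := by
  have h1 := O.mul_eq
  have h2 := O.prime.two_le
  have h3 : 0 < d := Nat.pos_of_ne_zero fun e => by rw [e] at h1; omega
  exact ⟨h3, Nat.pos_of_ne_zero fun e => by rw [e] at h1; omega, by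
    rcases O.cases with ⟨-, h⟩ | ⟨-, h⟩ <;> omega⟩

theorem deg (h : NT r s) : (s.map natDegree).sum = s.card * d := by
  rw [Multiset.map_congr rfl fun u hu => (natDegree_eq_orderOf_of_prime (h u hu).1.1 (h u hu).1.2.1
    O.prime (h u hu).1.2.2 (h u hu).2).trans O.hd.symm]
  simp

omit [Finite F] in
theorem nt_orb {u : F[X]} (hu : IrrD r u ∧ u ≠ X - 1) : NT r (orb σ r u) := fun v hv => by
  rcases mem_orb.mp hv with rfl | rfl
  exacts [hu, ⟨hu.1.du O.prime.pos, hu.1.du_ne O.invol O.prime.pos hu.2⟩]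

theorem deg_orb {u : F[X]} (hu : IrrD r u ∧ u ≠ X - 1) : ((orb σ r u).map natDegree).sum = D := by
  rw [O.deg (O.nt_orb hu)]
  rcases O.cases with ⟨h, rfl⟩ | ⟨h, rfl⟩ <;> simp [orb, h ⟨u, hu⟩]

theorem exists_mul (h : Inv σ r s) (h' : NT r s) : ∃ k, (s.map natDegree).sum = k * D :=
  h.induction O.invol O.prime.pos (p := fun s => ∃ k, (s.map natDegree).sum = k * D) ⟨0, by simp⟩
    fun u hu t ⟨k, hk⟩ => ⟨k + 1, by
      rw [Multiset.map_add, Multiset.sum_add, hk, O.deg_orb (h' u hu)]; ring⟩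

theorem exists_inv_le (h : Inv σ r s) (h' : NT r s) {j : ℕ} (hj : j * D ≤ (s.map natDegree).sum) :
    ∃ s' ≤ s, Inv σ r s' ∧ (s'.map natDegree).sum = j * D := by
  induction j generalizing s with
  | zero => exact ⟨0, zero_le, inv_zero, by simp⟩
  | succ j ih =>
    have := O.pos
    obtain ⟨u, hu⟩ := Multiset.exists_mem_of_ne_zero (s := s) (by
      rintro rfl; simp at hj; omega)
    obtain ⟨s, rfl, hs⟩ := h.step O.invol O.prime.pos hu
    rw [Multiset.map_add, Multiset.sum_add, O.deg_orb (h' u hu), add_mul] at hj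
    obtain ⟨s', h1, h2, h3⟩ := ih hs (h'.mono (Multiset.le_add_left _ _)) (by omega)
    exact ⟨_, add_le_add le_rfl h1, ((h' u hu).1.inv_orb O.invol O.prime.pos).add h2, by
      rw [Multiset.map_add, Multiset.sum_add, h3, O.deg_orb (h' u hu)]; ring⟩

theorem exists_finset : ∃ U : Finset F[X], U.card = t ∧ ∀ u, u ∈ U ↔ IrrD r u ∧ u ≠ X - 1 := by
  have h : {u : F[X] | IrrD r u ∧ u ≠ X - 1}.Finite := (card_PF O.prime O.ne).1
  exact ⟨h.toFinset, by rw [O.ht, ← Set.ncard_eq_toFinset_card _ h]; rfl, by simp⟩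

theorem exists_half (h : Inv σ r s) (h' : NT r s) {k j : ℕ} (hk : (s.map natDegree).sum = k * D)
    (hj : j ≤ JJ d D t k) : ∃ s' : Multiset F[X], s' + s'.map (du σ r) ≤ s ∧ s'.card = j := by
  classical
  have := O.pos
  rcases O.cases with ⟨h1, rfl⟩ | ⟨h1, h2⟩
  · obtain rfl : s.card = k := Nat.eq_of_mul_eq_mul_right this.1 (O.deg h' ▸ hk)
    obtain ⟨U, h2, h3⟩ := O.exists_finset
    simp only [JJ, if_true] at hj
    clear hk h
    induction j generalizing s with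
    | zero => exact ⟨0, by simp, rfl⟩
    | succ j ih =>
      obtain ⟨u, hu⟩ : ∃ u, u ::ₘ u ::ₘ 0 ≤ s := by
        by_contra h4
        have h5 := Multiset.nodup_iff_le.mpr (not_exists.mp h4)
        have := Finset.card_le_card (s := ⟨s, h5⟩) (t := U) fun u hu => (h3 u).mpr (h' u hu)
        simp only [Finset.card_mk] at this
        omega
      obtain ⟨s, rfl⟩ := Multiset.le_iff_exists_add.mp hu
      obtain ⟨s', h4, h5⟩ := ih (h'.mono (Multiset.le_add_left _ _)) (by simp at hj; omega)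
      refine ⟨u ::ₘ s', ?_, by simp [h5]⟩
      rw [Multiset.map_cons, h1 ⟨u, h' u (by simp)⟩]
      simpa using h4
  · rw [JJ, if_neg (by omega)] at hj
    obtain ⟨s', h3, h4, h5⟩ := O.exists_inv_le h h' (j := j) (hk ▸ Nat.mul_le_mul_right _ hj)
    obtain ⟨a, ha⟩ := h4.induction O.invol O.prime.pos (p := fun s => ∃ a : Multiset F[X],
      a + a.map (du σ r) = s) ⟨0, by simp⟩ fun u hu t ⟨a, ha⟩ => ⟨u ::ₘ a, by
        simp [orb, h1 ⟨u, h'.mono h3 u hu⟩, ← ha, Multiset.cons_swap]⟩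
    refine ⟨a, ha ▸ h3, Nat.eq_of_mul_eq_mul_right this.2.2 ?_⟩
    rw [← h5, O.deg (h'.mono h3), ← ha, h2]
    simp; ring

theorem exists_bad (k : ℕ) : ∃ s, Inv σ r s ∧ NT r s ∧ (s.map natDegree).sum = k * D ∧
    ∀ s' : Multiset F[X], s' + s'.map (du σ r) ≤ s → s'.card ≤ JJ d D t k := by
  classical
  have := O.pos
  obtain ⟨U, h2, h3⟩ := O.exists_finset
  obtain ⟨u, hu⟩ := Finset.card_pos.mp (h2 ▸ this.2.1)
  rcases O.cases with ⟨h1, rfl⟩ | ⟨h1, h4⟩
  · suffices ∃ s : Multiset F[X], NT r s ∧ s.card = k ∧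
        ∀ s' : Multiset F[X], s' + s' ≤ s → s'.card ≤ (k - t + 1) / 2 by
      obtain ⟨s, h4, h5, h6⟩ := this
      refine ⟨s, ⟨fun u hu => (h4 u hu).1, fun u hu => ?_⟩, h4, h5 ▸ O.deg h4, fun s' hs' => ?_⟩
      · by_cases e : u = X - 1
        · rw [e, du_X_sub_one O.prime.pos]
        · rw [h1 ⟨u, hu, e⟩]
      · rw [Multiset.map_congr rfl (g := id) fun u hu =>
          h1 ⟨u, h4 u (Multiset.mem_of_le hs' (by simp [hu]))⟩, Multiset.map_id] at hs'
        simpa [JJ] using h6 s' hs'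
    rcases le_total k t with h | h
    · obtain ⟨A, h4, h5⟩ := Finset.exists_subset_card_eq (s := U) (h2 ▸ h)
      refine ⟨A.val, fun u hu => (h3 u).mp (h4 hu), h5, fun s' hs' => ?_⟩
      have := (Multiset.nodup_add.mp (Multiset.nodup_of_le hs' A.nodup)).2.2
      simp [disjoint_self.mp this]
    · refine ⟨U.val + Multiset.replicate (k - t) u, fun v hv => (h3 v).mp ?_, by simp; omega,
        fun s' hs' => ?_⟩
      · exact (Multiset.mem_add.mp hv).elim id fun h => Multiset.eq_of_mem_replicate h ▸ hu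
      · have h5 := fun v => Multiset.count_le_of_le v hs'
        have h6 := Multiset.nodup_iff_count_le_one.mp U.nodup
        simp only [Multiset.count_add, Multiset.count_replicate] at h5
        rw [← (Multiset.count_eq_card (a := u)).mpr fun v hv => by_contra fun e => by
          have := h5 v; have := h6 v; have := Multiset.count_pos.mpr hv
          simp only [e, if_false] at *
          omega]
        have := h5 u; have := h6 u
        simp only [if_true] at *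
        omega
  · have h5 : NT r (k • orb σ r u) := fun v hv =>
      O.nt_orb ((h3 u).mp hu) v (Multiset.mem_of_mem_nsmul hv)
    have h6 : ((k • orb σ r u).map natDegree).sum = k * D := by
      simp [Multiset.map_nsmul, Multiset.sum_nsmul, O.deg_orb ((h3 u).mp hu)]
    refine ⟨_, ?_, h5, h6, fun s' hs' => ?_⟩
    · clear h5 h6
      induction k with
      | zero => exact inv_zero
      | succ k ih => rw [succ_nsmul]; exact ih.add (((h3 u).mp hu).1.inv_orb O.invol O.prime.pos)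
    · have h7 := Multiset.card_le_card hs'
      rw [O.deg h5, h4, ← mul_assoc] at h6
      rw [Nat.eq_of_mul_eq_mul_right this.1 h6] at h7
      rw [JJ, if_neg (by omega)]
      simp at h7
      omega

theorem real (P : Par σ ε κ τ) (h : Inv σ r s) (h' : NT r s) : Real σ ε κ τ s := by
  refine P.real_inv O.ne h ?_
  by_cases e : σ = RingHom.id F
  · refine .inr ⟨e, fun u hu h1 => ?_⟩
    rw [← orderOf_root_dvd_iff, orderOf_root_eq_prime (h' u hu).1.1 (h' u hu).1.2.1 O.prime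
      (h' u hu).1.2.2 (h' u hu).2] at h1
    exact O.odd ((Nat.prime_dvd_prime_iff_eq O.prime Nat.prime_two).mp h1)
  · exact ((Unq.good (g := (1 : End F (Fin 0 → F))) (s := 0) (.inl e) ε zero_le).imp_right
      fun h => absurd h.1 e)

end OD

variable {V : Type*} [AddCommGroup V] [Module F V] [FiniteDimensional F V]
  {B : V →ₛₗ[σ] V →ₗ[F] F} {Q : V → F} {y : Isom B Q} {W : Submodule F V}

omit [FiniteDimensional F V] in
theorem isom_lin_pow {n : ℕ} (h : y ^ n = 1) : y.1.toLinearMap ^ n = 1 := by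
  rw [← isom_pow_coe, h]; rfl

omit [FiniteDimensional F V] in
theorem isom_pow_of_lin {n : ℕ} (h : y.1.toLinearMap ^ n = 1) : y ^ n = 1 :=
  Subtype.ext (LinearEquiv.toLinearMap_injective ((isom_pow_coe y n).trans h))

omit [FiniteDimensional F V] in
theorem isom_disjoint {n : ℕ} (h : y ^ n = 1) (hn : (n : F) ≠ 0) : Disjoint (movS y.1) (H11.fixS y.1) :=
  disjoint_movS_fixS (congrArg Subtype.val h) hn

omit [FiniteDimensional F V] in
theorem movS_inv (g : V ≃ₗ[F] V) : ∀ x ∈ movS g, g.toLinearMap x ∈ movS g :=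
  movS_invariant g fun _ => rfl

theorem tyOn_of_fix {g : End F V} (h : ∀ x ∈ W, g x = x) :
    TyOn g W (Multiset.replicate (finrank F W) (X - 1)) :=
  ⟨fun x hx => (h x hx).symm ▸ hx, by
    rw [← tyE_one]; exact congrArg _ (LinearMap.ext fun x => Subtype.ext (h _ x.2))⟩

theorem exists_sub_eq {g : End F V} (hW : ∀ x ∈ W, g x ∈ W) (h : ∀ x ∈ W, g x = x → x = 0)
    {w : V} (hw : w ∈ W) : ∃ x ∈ W, g x - x = w := by
  obtain ⟨x, hx⟩ := LinearMap.injective_iff_surjective.mp ((injective_iff_map_eq_zero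
    (g.restrict hW - 1)).mpr fun x hx => Subtype.ext (h _ x.2 (sub_eq_zero.mp
      (congrArg Subtype.val hx)))) ⟨w, hw⟩
  exact ⟨x, x.2, congrArg Subtype.val hx⟩

theorem inf_mov_sup_fix {g : V ≃ₗ[F] V} (hd : Disjoint (movS g) (H11.fixS g))
    (hW : ∀ x ∈ W, g x ∈ W) : W ⊓ movS g ⊔ W ⊓ H11.fixS g = W := by
  refine le_antisymm (sup_le inf_le_left inf_le_left) fun w hw => ?_
  obtain ⟨x, h1, h2⟩ := exists_sub_eq (g := g.toLinearMap) (W := W ⊓ movS g)
    (fun x hx => ⟨hW x hx.1, movS_inv g x hx.2⟩)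
    (fun x hx e => Submodule.disjoint_def.mp hd x hx.2 (H11.mem_fixS.mpr e))
    ⟨W.sub_mem (hW w hw) hw, mem_movS.mpr ⟨w, rfl⟩⟩
  refine Submodule.mem_sup.mpr ⟨x, h1, w - x, ⟨W.sub_mem hw h1.1, H11.mem_fixS.mpr ?_⟩, by simp⟩
  have h2 : g x - x = g w - w := h2
  rw [map_sub]
  linear_combination (norm := module) -h2

theorem finrank_sup_of_disjoint {U W : Submodule F V} (h : Disjoint U W) :
    finrank F ↥(U ⊔ W) = finrank F U + finrank F W := by
  rw [← Submodule.finrank_sup_add_finrank_inf_eq U W, h.eq_bot, finrank_bot, add_zero]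

theorem totSing_of_fpf (h : IsForm ε κ τ B Q) (hW : ∀ x ∈ W, y.1 x ∈ W)
    (h1 : ∀ x ∈ W, y.1 x = x → x = 0) (h2 : ∀ x ∈ W, ∀ z ∈ W, B x z = 0) : TotSing B Q W := by
  refine ⟨fun w hw => ?_, h2⟩
  obtain ⟨x, hx, rfl⟩ := exists_sub_eq (g := y.1.toLinearMap) hW h1 hw
  exact (Q_sub_isom h y.2 x).trans (by rw [h2 x hx x hx, h2 _ (hW x hx) x hx, sub_self])

omit [FiniteDimensional F V] in
theorem totSing_sup (h : IsForm ε κ τ B Q) {U W : Submodule F V} (hU : TotSing B Q U)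
    (hW : TotSing B Q W) (ho : ∀ a ∈ U, ∀ b ∈ W, B a b = 0) : TotSing B Q (U ⊔ W) := by
  constructor
  · intro x hx
    obtain ⟨a, ha, b, hb, rfl⟩ := Submodule.mem_sup.mp hx
    simp [h.add, hU.1 a ha, hW.1 b hb, ho a ha b hb]
  · intro x hx z hz
    obtain ⟨a, ha, b, hb, rfl⟩ := Submodule.mem_sup.mp hx
    obtain ⟨c, hc, e, he, rfl⟩ := Submodule.mem_sup.mp hz
    simp [hU.2 a ha c hc, hW.2 b hb e he, ho a ha e he, h.refl (ho c hc b hb)]

omit [FiniteDimensional F V] in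
theorem nondegOn_sup (h : IsForm ε κ τ B Q) {U W : Submodule F V} (hU : NondegOn B U)
    (hW : NondegOn B W) (ho : ∀ a ∈ U, ∀ b ∈ W, B a b = 0) : NondegOn B (U ⊔ W) := by
  intro x hx h1
  obtain ⟨a, ha, b, hb, rfl⟩ := Submodule.mem_sup.mp hx
  rw [hU a ha fun z hz => by simpa [h.refl (ho z hz b hb)] using h1 z (Submodule.mem_sup_left hz),
    hW b hb fun z hz => by simpa [ho a ha z hz] using h1 z (Submodule.mem_sup_right hz), add_zero]

omit [FiniteDimensional F V] in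
theorem nondegOn_of_sup {U W : Submodule F V} (hU : NondegOn B (U ⊔ W))
    (ho : ∀ a ∈ U, ∀ b ∈ W, B a b = 0) : NondegOn B U := fun x hx h1 =>
  hU x (Submodule.mem_sup_left hx) fun z hz => by
    obtain ⟨a, ha, b, hb, rfl⟩ := Submodule.mem_sup.mp hz
    simp [h1 a ha, ho x hx b hb]

omit [FiniteDimensional F V] in
theorem disjoint_of_nondeg {U W : Submodule F V} (hU : NondegOn B U)
    (ho : ∀ a ∈ U, ∀ b ∈ W, B a b = 0) (h : IsForm ε κ τ B Q) : Disjoint U W :=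
  Submodule.disjoint_def.mpr fun x h1 h2 => hU x h1 fun z hz => h.refl (ho z hz x h2)

theorem exists_totSing_le (h : IsForm ε κ τ B Q) (hW : NondegOn B W) {ν b : ℕ}
    (hν : WittIdx (pull B W.subtype) (fun x => Q x) ν) :
    (∃ U ≤ W, TotSing B Q U ∧ finrank F U = b) ↔ b ≤ ν := by
  constructor
  · rintro ⟨U, h1, h2, rfl⟩
    rw [← (Submodule.comapSubtypeEquivOfLe h1).finrank_eq]
    exact (h.restrict W).finrank_le_wittIdx (nondegOn_iff.mp hW) hν
      ⟨fun x hx => h2.1 _ hx, fun x hx z hz => h2.2 _ hx _ hz⟩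
  · intro hb
    obtain ⟨U, h1, rfl⟩ := hν
    obtain ⟨U', h2, rfl⟩ := exists_le_finrank_eq U hb
    refine ⟨U'.map W.subtype, W.map_subtype_le _, ⟨?_, ?_⟩, Submodule.finrank_map_subtype_eq _ _⟩
    · rintro _ ⟨x, hx, rfl⟩; exact h1.1.1 x (h2 hx)
    · rintro _ ⟨x, hx, rfl⟩ _ ⟨z, hz, rfl⟩; exact h1.1.2 x (h2 hx) z (h2 hz)

namespace OD
variable (O : OD σ r d D t) (h : IsForm ε κ τ B Q) (hB : B.SeparatingLeft) (hy : y ^ r = 1)
include O hy

omit [FiniteDimensional F V] in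
theorem unq : Unq σ (y.1.toLinearMap.restrict (movS_inv y.1)) := .inr fun w hw => by
  obtain ⟨k, hk⟩ := O.prime.odd_of_ne_two O.odd
  have h1 : ∀ j, (y.1.toLinearMap ^ (2 * j)) w = w := fun j => by
    induction j with
    | zero => rfl
    | succ j ih =>
      rw [mul_add, pow_add, End.mul_apply, mul_one, sq]
      exact (congrArg _ (congrArg Subtype.val hw)).trans ih
  have h2 := LinearMap.congr_fun (isom_lin_pow hy) w
  rw [hk, pow_succ', End.mul_apply, h1] at h2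
  exact Subtype.ext (Submodule.disjoint_def.mp (isom_disjoint hy O.ne) _ w.2 (H11.mem_fixS.mpr h2))

theorem nt_of_le (hW : TyOn y.1.toLinearMap W s) (hle : W ≤ movS y.1) : NT r s := fun u hu => by
  obtain ⟨h1, rfl⟩ := hW
  refine ⟨irrD_of_mem O.ne (restrict_pow_eq_one (isom_lin_pow hy) _) hu, ?_⟩
  rintro rfl
  obtain ⟨w, h2, h3⟩ := exists_ker_of_mem_tyE hu dvd_rfl
  exact h2 (Subtype.ext (Submodule.disjoint_def.mp (isom_disjoint hy O.ne) _ (hle w.2)
    (H11.mem_fixS.mpr (by simpa [sub_eq_zero] using congrArg Subtype.val h3))))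

include h hB

theorem tyOn_movS {k : ℕ} (hs : NT r s)
    (he : tyE y.1.toLinearMap = s + Multiset.replicate k (X - 1)) :
    TyOn y.1.toLinearMap (movS y.1) s := by
  classical
  obtain ⟨s', h1⟩ := exists_tyOn (movS_inv y.1)
  have h2 := h1.eq_add (tyOn_of_fix fun x => H11.mem_fixS.mp)
    (isCompl_movS h hB y.2 (isom_disjoint hy O.ne))
  have h3 : ∀ s k, NT r s → (s + Multiset.replicate k (X - 1 : F[X])).filter (· ≠ X - 1) = s :=
    fun s k hs => by
      rw [Multiset.filter_add, Multiset.filter_eq_self.mpr fun u hu => (hs u hu).2,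
        Multiset.filter_eq_nil.mpr fun u hu => not_not.mpr (Multiset.eq_of_mem_replicate hu),
        add_zero]
  rwa [← h3 s k hs, ← he, h2, h3 _ _ (O.nt_of_le hy h1 le_rfl)]

variable [Finite F]

omit hB in
theorem exists_finrank (hW : ∀ x ∈ W, y.1 x ∈ W) (hn : NondegOn B W) (hle : W ≤ movS y.1) :
    ∃ k, finrank F W = k * D := by
  obtain ⟨s, hs⟩ := exists_tyOn (g := y.1.toLinearMap) hW
  exact hs.finrank_eq ▸ O.exists_mul (hs.isInv h y.2.1 O.ne (isom_lin_pow hy) hn)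
    (O.nt_of_le hy hs hle)

theorem exists_finrank_movS : ∃ k, finrank F (movS y.1) = k * D :=
  O.exists_finrank h hy (movS_inv _) (nondegOn_movS h hB y.2 (isom_disjoint hy O.ne)) le_rfl

theorem exists_nondeg (P : Par σ ε κ τ) {j : ℕ} (hj : j * D ≤ finrank F (movS y.1)) :
    ∃ W ≤ movS y.1, NondegOn B W ∧ (∀ x ∈ W, y.1 x ∈ W) ∧ finrank F W = j * D := by
  obtain ⟨s, hs⟩ := exists_tyOn (movS_inv y.1)
  have hn := nondegOn_movS h hB y.2 (isom_disjoint hy O.ne)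
  obtain ⟨s', h1, h2, h3⟩ := O.exists_inv_le (hs.isInv h y.2.1 O.ne (isom_lin_pow hy) hn)
    (O.nt_of_le hy hs le_rfl) (hs.finrank_eq ▸ hj)
  obtain ⟨W, h4, h5⟩ := exists_nondeg_of_le P (h.restrict _) (nondegOn_iff.mp hn)
    (fun a b => y.2.1 a b) O.ne (restrict_pow_eq_one (isom_lin_pow hy) _) (O.unq hy) h2 (hs.2 ▸ h1)
  refine ⟨_, Submodule.map_subtype_le _ _, ?_, h5.of_restrict.inv, h5.of_restrict.finrank_eq ▸ h3⟩
  rintro _ ⟨x, hx, rfl⟩ h6
  exact congrArg Subtype.val (h4 x hx fun z hz => h6 _ ⟨z, hz, rfl⟩)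

/-- Invariant totally singular subspaces. -/
theorem exists_totSing_iff (P : Par σ ε κ τ) (hs : TyOn y.1.toLinearMap (movS y.1) s) {ν m : ℕ}
    (hν : WittIdx (pull B (H11.fixS y.1).subtype) (fun x => Q x) ν) :
    (∃ W : Submodule F V, finrank F W = m ∧ TotSing B Q W ∧ ∀ x ∈ W, y.1 x ∈ W) ↔
      ∃ s' : Multiset F[X], s' + s'.map (du σ r) ≤ s ∧ ∃ b ≤ ν, m = s'.card * d + b := by
  have hd := isom_disjoint hy O.ne
  have hn := nondegOn_movS h hB y.2 hd
  have hn' := nondegOn_fixS h hB y.2 hd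
  have h0 := restrict_pow_eq_one (isom_lin_pow hy) (movS_inv y.1)
  constructor
  · rintro ⟨W, rfl, h1, h2⟩
    obtain ⟨s', hs'⟩ := exists_tyOn (g := y.1.toLinearMap) (W := W ⊓ movS y.1)
      fun x hx => ⟨h2 x hx.1, movS_inv _ x hx.2⟩
    refine ⟨s', hs.2 ▸ (hs'.comap _ inf_le_right).add_du_le (h.restrict _) (nondegOn_iff.mp hn)
      (fun a b => y.2.1 a b) O.ne h0 fun a ha b hb => h1.2 _ ha.1 _ hb.1, _,
      (exists_totSing_le h hn' hν).mp ⟨_, inf_le_right, h1.mono inf_le_left, rfl⟩, ?_⟩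
    rw [← O.deg (O.nt_of_le hy hs' inf_le_right), ← hs'.finrank_eq,
      ← finrank_sup_of_disjoint (hd.mono inf_le_right inf_le_right), inf_mov_sup_fix hd h2]
  · rintro ⟨s', h1, b, hb, rfl⟩
    obtain ⟨U, -, -, h2, -, h3, -⟩ := exists_iso_of_le P (h.restrict _) (nondegOn_iff.mp hn)
      (fun a b => y.2.1 a b) O.ne h0 (O.unq hy) (hs.2 ▸ h1)
    obtain ⟨W, h4, h5, rfl⟩ := (exists_totSing_le h hn' hν).mpr hb
    have h6 := h3.of_restrict
    have h7 := (movS y.1).map_subtype_le U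
    refine ⟨_, ?_, totSing_sup h (totSing_of_fpf h h6.inv (fun x hx e =>
      Submodule.disjoint_def.mp hd x (h7 hx) (H11.mem_fixS.mpr e)) ?_) h5
      fun a ha b hb => (orth_movS_fixS h hB y.2 (h7 ha) (h4 hb)).1, fun x hx => ?_⟩
    · rw [finrank_sup_of_disjoint (hd.mono h7 h4), h6.finrank_eq, O.deg (O.nt_of_le hy h6 h7)]
    · rintro _ ⟨x, hx, rfl⟩ _ ⟨z, hz, rfl⟩; exact h2 x hx z hz
    · exact (h6.sup (tyOn_of_fix fun x hx => H11.mem_fixS.mp (h4 hx)) (hd.mono h7 h4)).inv x hx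

/-- Invariant non-degenerate subspaces: decomposition. -/
theorem nondeg_decomp (hW : ∀ x ∈ W, y.1 x ∈ W) (hn : NondegOn B W) :
    ∃ U ≤ movS y.1, ∃ U' ≤ H11.fixS y.1, NondegOn B U ∧ NondegOn B U' ∧ U ⊔ U' = W ∧
      (∀ x ∈ U, y.1 x ∈ U) ∧ (∀ a ∈ U, ∀ b ∈ U', B a b = 0) ∧
      ∃ j, finrank F U = j * D ∧ finrank F W = j * D + finrank F U' := by
  have hd := isom_disjoint hy O.ne
  have h1 := inf_mov_sup_fix hd hW
  have h2 : ∀ a ∈ W ⊓ movS y.1, ∀ b ∈ W ⊓ H11.fixS y.1, B a b = 0 := fun a ha b hb =>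
    (orth_movS_fixS h hB y.2 ha.2 hb.2).1
  have h3 := nondegOn_of_sup (h1.symm ▸ hn) h2
  have h4 : ∀ x ∈ W ⊓ movS y.1, y.1 x ∈ W ⊓ movS y.1 := fun x hx => ⟨hW x hx.1, movS_inv _ x hx.2⟩
  obtain ⟨j, hj⟩ := O.exists_finrank h hy h4 h3 inf_le_right
  exact ⟨_, inf_le_right, _, inf_le_right, h3, nondegOn_of_sup (sup_comm (α := Submodule F V) _ _ ▸
    h1.symm ▸ hn) fun a ha b hb => h.refl (h2 b hb a ha), h1, h4, h2, j, hj, by
      rw [← hj, ← finrank_sup_of_disjoint (hd.mono inf_le_right inf_le_right), h1]⟩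

/-- Invariant non-degenerate subspaces: construction. -/
theorem nondeg_build (P : Par σ ε κ τ) {j : ℕ} (hj : j * D ≤ finrank F (movS y.1))
    (hW : W ≤ H11.fixS y.1) (hn : NondegOn B W) : ∃ U ≤ movS y.1, NondegOn B U ∧
      (∀ x ∈ U, y.1 x ∈ U) ∧ finrank F U = j * D ∧ (∀ a ∈ U, ∀ b ∈ W, B a b = 0) ∧
      NondegOn B (U ⊔ W) ∧ (∀ x ∈ U ⊔ W, y.1 x ∈ U ⊔ W) ∧
      finrank F ↥(U ⊔ W) = j * D + finrank F W := by
  obtain ⟨U, h1, h2, h3, h4⟩ := O.exists_nondeg h hB hy P hj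
  have h5 : ∀ a ∈ U, ∀ b ∈ W, B a b = 0 := fun a ha b hb =>
    (orth_movS_fixS h hB y.2 (h1 ha) (hW hb)).1
  have hd := (isom_disjoint hy O.ne).mono h1 hW
  obtain ⟨s, hs⟩ := exists_tyOn (g := y.1.toLinearMap) h3
  exact ⟨U, h1, h2, h3, h4, h5, nondegOn_sup h h2 hn h5,
    (hs.sup (tyOn_of_fix fun x hx => H11.mem_fixS.mp (hW hx)) hd).inv, by
      rw [finrank_sup_of_disjoint hd, h4]⟩

omit hy

/-- The admissible numbers of blocks are realised. -/
def Adm (ε κ : F) (τ : F →+ F) (B : V →ₛₗ[σ] V →ₗ[F] F) (Q : V → F) (r n : ℕ) : Prop :=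
  ∀ s, Real σ ε κ τ s → NT r s → (s.map natDegree).sum = n →
    ∃ l, RealIn B Q (s + Multiset.replicate l (X - 1))

omit [Finite F] in
theorem exists_elt (hs : NT r s) {l : ℕ} (H : RealIn B Q (s + Multiset.replicate l (X - 1))) :
    ∃ y : Isom B Q, y ^ r = 1 ∧ TyOn y.1.toLinearMap (movS y.1) s := by
  obtain ⟨y, hy⟩ := H
  have h1 : y ^ r = 1 := isom_pow_of_lin ((pow_eq_one_iff_tyE _ _).mpr fun u hu => by
    rcases Multiset.mem_add.mp (hy ▸ hu) with hu | hu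
    · exact (hs u hu).1.2.2
    · exact Multiset.eq_of_mem_replicate hu ▸ irrD_X_sub_one.2.2)
  exact ⟨y, h1, O.tyOn_movS h hB h1 hs hy⟩

theorem exists_elt' (P : Par σ ε κ τ) {k : ℕ} (H : Adm ε κ τ B Q r (k * D)) :
    ∃ y : Isom B Q, y ^ r = 1 ∧ finrank F (movS y.1) = k * D := by
  obtain ⟨s, h1, h2, h3, -⟩ := O.exists_bad k
  obtain ⟨l, hl⟩ := H s (O.real P h1 h2) h2 h3
  obtain ⟨y, h4, h5⟩ := O.exists_elt h hB h2 hl
  exact ⟨y, h4, h5.finrank_eq.trans h3⟩

/-- Reduction of the totally singular case to arithmetic. -/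
theorem totSing_iff (P : Par σ ε κ τ) {A : ℕ → Prop} {ν : ℕ → ℕ} {m : ℕ}
    (H1 : ∀ (y : Isom B Q) k, y ^ r = 1 → finrank F (movS y.1) = k * D →
      A k ∧ WittIdx (pull B (H11.fixS y.1).subtype) (fun x => Q x) (ν k))
    (H2 : ∀ k, A k → Adm ε κ τ B Q r (k * D)) :
    (∀ y : Isom B Q, y ^ r = 1 → y ≠ 1 →
      ∃ W : Submodule F V, finrank F W = m ∧ TotSing B Q W ∧ ∀ x ∈ W, y.1 x ∈ W) ↔
      ∀ k, 0 < k → A k → ∃ j ≤ JJ d D t k, ∃ b ≤ ν k, m = j * d + b := by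
  have := O.pos
  constructor
  · intro H k hk hA
    obtain ⟨s, h1, h2, h3, h4⟩ := O.exists_bad k
    obtain ⟨l, hl⟩ := H2 k hA s (O.real P h1 h2) h2 h3
    obtain ⟨y, h5, h6⟩ := O.exists_elt h hB h2 hl
    have h7 := h6.finrank_eq.trans h3
    obtain ⟨s', h8, h9⟩ := (O.exists_totSing_iff h hB h5 P h6 (H1 y k h5 h7).2).mp (H y h5
      fun e => (Nat.mul_pos hk this.2.2).ne' (h7 ▸ finrank_movS_eq_zero.mpr (by rw [e]; rfl)))
    exact ⟨_, h4 s' h8, h9⟩
  · intro H y hy h1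
    obtain ⟨k, hk⟩ := O.exists_finrank_movS h hB hy
    obtain ⟨j, h2, h3⟩ := H k (Nat.pos_of_ne_zero fun e => h1 (Subtype.ext
      (finrank_movS_eq_zero.mp (by simp [hk, e])))) (H1 y k hy hk).1
    obtain ⟨s, hs⟩ := exists_tyOn (movS_inv y.1)
    obtain ⟨s', h4, rfl⟩ := O.exists_half (hs.isInv h y.2.1 O.ne (isom_lin_pow hy)
      (nondegOn_movS h hB y.2 (isom_disjoint hy O.ne))) (O.nt_of_le hy hs le_rfl)
      (hs.finrank_eq ▸ hk) h2
    exact (O.exists_totSing_iff h hB hy P hs (H1 y k hy hk).2).mpr ⟨s', h4, h3⟩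

end OD

end Cfsg.Agent.H10
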