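import Mathlib
import Cfsg.Agent.H10.Elus2

/-! Orbits of subspaces whose length is divisible by a prime. -/

namespace Cfsg.Agent.H10

open Module Polynomial H11 L0

universe u

variable {F : Type u} [Field F] {σ : F →+* F} {ε κ : F} {τ : F →+ F} {r d D t : ℕ}
  {V : Type*} [AddCommGroup V] [Module F V] [FiniteDimensional F V]
  {B : V →ₛₗ[σ] V →ₗ[F] F} {Q : V → F} [Finite F]

instance finite_linearEquiv : Finite (V ≃ₗ[F] V) :=
  have : Finite V := Module.finite_of_finite F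
  Finite.of_injective _ (DFunLike.coe_injective (F := V ≃ₗ[F] V))

omit [Finite F] [FiniteDimensional F V] in
theorem max_elt_aux {V₁ V₂ : Type*} [AddCommGroup V₁] [Module F V₁] [FiniteDimensional F V₁]
    [AddCommGroup V₂] [Module F V₂] [FiniteDimensional F V₂] {B₁ : V₁ →ₛₗ[σ] V₁ →ₗ[F] F}
    {Q₁ : V₁ → F} {B₂ : V₂ →ₛₗ[σ] V₂ →ₗ[F] F} {Q₂ : V₂ → F} {e : (V₁ × V₂) ≃ₗ[F] V}
    (hs : IsOrthSum B₁ Q₁ B₂ Q₂ B Q e) (n1 : B₁.SeparatingLeft) (n2 : B₁.SeparatingRight)
    {y g : Isom B Q} (hy : y ^ r = 1)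
    (hm : ∀ z : Isom B Q, z ^ r = 1 → finrank F (movS z.1) ≤ finrank F (movS y.1))
    (h1 : ∀ x, y.1 (e (x, 0)) = e (x, 0)) (h2 : ∀ x, ∃ x', g.1 (e (x, 0)) = e (x', 0)) {k : ℕ}
    (hk : g ^ r ^ k = 1) (x : V₁) : g.1 (e (x, 0)) = e (x, 0) := by
  obtain ⟨⟨a, b⟩, rfl⟩ := mem_range_orthSumHom hs n1 n2 g h2
  obtain ⟨⟨a', b'⟩, rfl⟩ := mem_range_orthSumHom hs n1 n2 y fun x => ⟨x, h1 x⟩
  obtain rfl : a' = 1 := Subtype.ext (LinearEquiv.ext fun x => by
    simpa [orthSumHom_apply] using h1 x)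
  rw [← map_pow, map_eq_one_iff _ (orthSumHom_injective hs), Prod.pow_mk, Prod.mk_eq_one] at hk hy
  have h4 : ∀ a : Isom B₁ Q₁, a ^ r = 1 → a = 1 := fun a ha => by
    have := hm (orthSumHom hs (a, b')) (by rw [← map_pow, Prod.pow_mk, ha, hy.2]; exact map_one _)
    simp only [finrank_movS_orthSumHom, add_le_add_iff_right] at this
    exact Subtype.ext (finrank_movS_eq_zero.mp
      (Nat.le_zero.mp (this.trans (finrank_movS_eq_zero.mpr rfl).le)))
  obtain rfl : a = 1 := by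
    replace hk := hk.1
    clear h2
    induction k with
    | zero => simpa using hk
    | succ k ih => exact ih (h4 _ (by rw [← pow_mul, ← pow_succ, hk]))
  simp [orthSumHom_apply]

/-- A Sylow subgroup fixes the fixed space of a suitable element pointwise. -/
theorem exists_max_elt (h : IsForm ε κ τ B Q) (hB : B.SeparatingLeft) (hr : r.Prime)
    (h0 : (r : F) ≠ 0) : ∃ y : Isom B Q, y ^ r = 1 ∧ ¬ r ∣ (fixSub B Q (H11.fixS y.1)).index := by
  have := Fact.mk hr
  have : Nonempty {y : Isom B Q // y ^ r = 1} := ⟨⟨1, one_pow r⟩⟩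
  obtain ⟨⟨y, hy⟩, hm⟩ := Finite.exists_max fun y : {y : Isom B Q // y ^ r = 1} =>
    finrank F (movS y.1.1)
  obtain ⟨S, hS⟩ := IsPGroup.exists_le_sylow (p := r) (P := Subgroup.zpowers y)
    (by rintro ⟨_, k, rfl⟩; exact ⟨1, Subtype.ext (show (y ^ k) ^ r ^ 1 = 1 by
      rw [pow_one, ← zpow_natCast, ← zpow_mul, mul_comm, zpow_mul, zpow_natCast, hy, one_zpow])⟩)
  refine ⟨y, hy, fun h1 => S.not_dvd_index (h1.trans (Subgroup.index_dvd_of_le ?_))⟩
  by_contra h1
  have := S.isPGroup'.isNilpotent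
  obtain ⟨g, g1, g2⟩ := SetLike.exists_of_lt (Group.normalizerCondition_of_isNilpotent
    ((fixSub B Q (H11.fixS y.1)).subgroupOf S) (lt_top_iff_ne_top.mpr
      (mt Subgroup.subgroupOf_eq_top.mp h1)))
  have g3 := (Subgroup.mem_normalizer_iff''.mp g1 ⟨y, hS (Subgroup.mem_zpowers y)⟩).mp
    (mem_fixSub.mpr fun x => H11.mem_fixS.mp)
  have hd := isom_disjoint hy h0
  have hs := h.isOrthSum_of_isCompl (isCompl_movS h hB y.2 hd).symm fun a ha b hb =>
    (orth_movS_fixS h hB y.2 hb ha).2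
  have n1 := nondegOn_iff.mp (nondegOn_fixS h hB y.2 hd)
  obtain ⟨k, hk⟩ := S.isPGroup' g
  refine g2 (mem_fixSub.mpr fun x hx => ?_)
  simpa using max_elt_aux hs n1 (fun y => (h.restrict _).separatingRight n1 (y := y)) (g := g.1) hy
    (fun z hz => hm ⟨z, hz⟩) (fun x => by simpa using H11.mem_fixS.mp x.2)
    (fun x => ⟨⟨g.1.1 x, H11.mem_fixS.mpr (by
      simpa using congrArg g.1.1 (mem_fixSub.mp g3 x x.2))⟩, by simp⟩)
    (congrArg Subtype.val hk) ⟨x, hx⟩

theorem card_eq_index {G X : Type*} [Group G] [Finite G] (K : Subgroup G) (φ : G → X)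
    (hφ : ∀ a b, φ a = φ b ↔ a⁻¹ * b ∈ K) (hs : Function.Surjective φ) : Nat.card X = K.index :=
  Nat.eq_of_mul_eq_mul_right Nat.card_pos
    ((card_eq_mul_of_fibers K φ hφ hs).symm.trans K.index_mul_card.symm)

theorem card_orbit_eq {Ω : Submodule F V → Prop} {W : Submodule F V}
    (H : ∀ U, Ω U ↔ ∃ g : Isom B Q, W.map g.1.toLinearMap = U) :
    Nat.card {U // Ω U} = (stabSub B Q W).index :=
  card_eq_index _ (fun g => ⟨_, (H _).mpr ⟨g, rfl⟩⟩) (fun a b => by
    rw [mem_stabSub, map_mul_isom, Subtype.mk.injEq]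
    constructor
    · intro e; rw [← e, ← map_mul_isom, inv_mul_cancel]; exact W.map_id
    · intro e; conv_lhs => rw [← e, ← map_mul_isom, ← map_mul_isom, mul_inv_cancel, one_mul]
    ) fun U => ((H _).mp U.2).imp fun _ => Subtype.ext

theorem exists_elt_of_dvd (h : IsForm ε κ τ B Q) (hB : B.SeparatingLeft) (hr : r.Prime)
    (h0 : (r : F) ≠ 0) {Ω : Submodule F V → Prop} (hne : ∃ W, Ω W)
    (H : ∀ W, Ω W → ∀ U, Ω U ↔ ∃ g : Isom B Q, W.map g.1.toLinearMap = U)
    (hd : r ∣ Nat.card {U // Ω U}) :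
    ∃ y : Isom B Q, y ^ r = 1 ∧ y ≠ 1 ∧ ∀ W ≤ H11.fixS y.1, ¬ Ω W := by
  obtain ⟨y, h1, h2⟩ := exists_max_elt h hB hr h0
  have h3 : ∀ W ≤ H11.fixS y.1, ¬ Ω W := fun W h3 h4 => h2 ((card_orbit_eq (H W h4) ▸ hd).trans
    (Subgroup.index_dvd_of_le fun g hg => mem_stabSub_of_le fun x hx =>
      (mem_fixSub.mp hg x (h3 hx)).symm ▸ hx))
  obtain ⟨W, hW⟩ := hne
  exact ⟨y, h1, fun e => h3 W (fun x _ => H11.mem_fixS.mpr (by rw [e]; rfl)) hW, h3⟩

omit [Finite F] in
theorem totSing_orbit (h : IsForm ε κ τ B Q) (hB : B.SeparatingLeft) {m : ℕ} (W : Submodule F V)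
    (hW : finrank F W = m ∧ TotSing B Q W) (U : Submodule F V) :
    (finrank F U = m ∧ TotSing B Q U) ↔ ∃ g : Isom B Q, W.map g.1.toLinearMap = U := by
  constructor
  · intro hU
    obtain ⟨g, h1, h2⟩ := h.exists_map_eq_totSing hB hW.2 hU.2 (hW.1.trans hU.1.symm)
    exact ⟨⟨g, h1⟩, h2⟩
  · rintro ⟨g, rfl⟩
    exact ⟨(g.1.finrank_map_eq W).trans hW.1, hW.2.map_isom g.2⟩

omit [Finite F] [FiniteDimensional F V] in
theorem nondegOn_map_isom {W : Submodule F V} (hW : NondegOn B W) (g : Isom B Q) :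
    NondegOn B (W.map g.1.toLinearMap) := by
  rintro _ ⟨x, hx, rfl⟩ h1
  rw [hW x hx fun z hz => (g.2.1 x z).symm.trans (h1 _ ⟨z, hz, rfl⟩), map_zero]

omit [Finite F] in
theorem exists_map_eq_of_equiv (h : IsForm ε κ τ B Q) (hB : B.SeparatingLeft)
    {W U : Submodule F V} (e : W ≃ₗ[F] U) (h1 : ∀ x y : W, B (e x) (e y) = B x y)
    (h2 : ∀ x : W, Q (e x) = Q x) : ∃ g : Isom B Q, W.map g.1.toLinearMap = U := by
  obtain ⟨g, h3, h4⟩ := h.witt' hB W (U.subtype ∘ₗ e.toLinearMap)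
    (U.injective_subtype.comp e.injective) h1 h2
  refine ⟨⟨g, h3⟩, le_antisymm ?_ fun x hx => ⟨e.symm ⟨x, hx⟩, Subtype.property _, by simp [h4]⟩⟩
  rintro _ ⟨x, hx, rfl⟩
  exact (h4 ⟨x, hx⟩).symm ▸ (e ⟨x, hx⟩).2

theorem exists_card_isom_hypSys {p : ℕ} [Fact p.Prime] [CharP F p] (h : IsForm ε κ τ B Q)
    (hB : B.SeparatingLeft) (m : ℕ) : ∀ {e f : Fin m → V}, HypSys B Q e f →
    (2 * m < finrank F V ∨ Nat.card τ.ker ≠ 1) → ∃ a, ¬ p ∣ a ∧ Nat.card (Isom B Q) =
      a * Nat.card τ.ker ^ m * Nat.card F ^ (m * (finrank F V - 2 * m) + m * (m - 1)) *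
      Nat.card (fixSub B Q (Submodule.span F (Set.range (Sum.elim e f)))) := by
  induction m with
  | zero =>
    intro e f _ _
    refine ⟨1, (Fact.out : p.Prime).not_dvd_one, ?_⟩
    rw [show fixSub B Q _ = ⊤ from eq_top_iff.mpr fun g _ => mem_fixSub_span.mpr (by simp)]
    simp
  | succ m ih =>
    intro e f hs hm
    have h1 : HypSys B Q (Fin.init e) (Fin.init f) := ⟨fun i => hs.Qe _, fun i => hs.Qf _,
      fun i j => hs.ee _ _, fun i j => hs.ff _ _, fun i j => by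
        simpa [Fin.init] using hs.ef i.castSucc j.castSucc⟩
    obtain ⟨a, h2, h3⟩ := ih h1 (hm.imp_left fun h => by omega)
    rw [h.card_fixSub_nondeg hB (h1.nondegOn h)] at h3
    rw [h.card_fixSub_nondeg hB (hs.nondegOn h)]
    have h4 := h1.finrank_perp h hB
    have h5 := hs.finrank_perp h hB
    have h6 := nondegOn_iff.mp (h.nondegOn_perp hB (h1.nondegOn h))
    have h7 : ∀ x, x ∈ perp B (Submodule.span F (Set.range (Sum.elim e f))) ↔
        x ∈ perp B (Submodule.span F (Set.range (Sum.elim (Fin.init e) (Fin.init f)))) ∧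
          B (e (Fin.last m)) x = 0 ∧ B (f (Fin.last m)) x = 0 := fun x => by
      simp only [HypSys.mem_perp_iff, Fin.forall_fin_succ', Fin.init]; tauto
    have he : e (Fin.last m) ∈ perp B (Submodule.span F (Set.range (Sum.elim (Fin.init e)
        (Fin.init f)))) := HypSys.mem_perp_iff.mpr ⟨fun i => hs.ee _ _, fun i => by
      simp [Fin.init, hs.fe h, Fin.castSucc_ne_last]⟩
    have hf : f (Fin.last m) ∈ perp B (Submodule.span F (Set.range (Sum.elim (Fin.init e)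
        (Fin.init f)))) := HypSys.mem_perp_iff.mpr ⟨fun i => by
      simp [Fin.init, hs.ef, Fin.castSucc_ne_last], fun i => hs.ff _ _⟩
    generalize perp B (Submodule.span F (Set.range (Sum.elim (Fin.init e) (Fin.init f)))) = X at *
    generalize perp B (Submodule.span F (Set.range (Sum.elim e f))) = Y at *
    have : Finite V := Module.finite_of_finite F
    have h8 : hperp (pull B X.subtype) ⟨_, he⟩ ⟨_, hf⟩ = Y.comap X.subtype :=
      Submodule.ext fun x => by simp [mem_hperp, h7]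
    have h9 := (h.restrict X).card_isom_pair h6 (e := ⟨_, he⟩) (f := ⟨_, hf⟩) (hs.Qe _) (hs.Qf _)
      (by simpa using hs.ef (Fin.last m) (Fin.last m))
    have h10 := (h.restrict X).card_level (e := ⟨_, he⟩) (f := ⟨_, hf⟩) (hs.Qe _) (hs.Qf _)
      (by simpa using hs.ef (Fin.last m) (Fin.last m)) (c := 0) ⟨0, by simp⟩
    rw [← (h.restrict X).card_nonzero_singular] at h10
    let φ := Submodule.comapSubtypeEquivOfLe (fun x hx => ((h7 x).mp hx).1 : Y ≤ X)
    rw [h8] at h9 h10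
    rw [Nat.card_congr φ.toEquiv, Module.natCard_eq_pow_finrank (K := F) (V := Y)] at h9 h10
    rw [Nat.card_congr (isomCongr (B := pull (pull B X.subtype) (Y.comap X.subtype).subtype)
      (Q := fun x => Q x.1) (B' := pull B Y.subtype) (Q' := fun x => Q x) φ
      (fun _ _ => rfl) fun _ => rfl).toEquiv] at h9
    have := Fintype.ofFinite F
    obtain ⟨n, -, hn⟩ := FiniteField.card F p
    rw [← Nat.card_eq_fintype_card] at hn
    have hp : p ∣ Nat.card F := hn ▸ dvd_pow_self _ n.ne_zero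
    simp only [Fintype.card_fin] at h4 h5
    have h12 : p ∣ Nat.card F ^ finrank F Y * Nat.card τ.ker := by
      rcases hm with hm | hm
      · exact (hp.trans (dvd_pow_self _ (by omega))).mul_right _
      · obtain ⟨k, -, hk⟩ := (Nat.dvd_prime_pow Fact.out).mp (hn ▸ τ.ker.card_addSubgroup_dvd_card)
        exact Dvd.dvd.mul_left (hk ▸ dvd_pow_self _ fun e => hm (by rw [hk, e, pow_zero])) _
    refine ⟨a * _, (Fact.out : p.Prime).not_dvd_mul h2 fun h11 => (Fact.out : p.Prime).not_dvd_one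
      ((Nat.dvd_add_right h11).mp (h10 ▸ dvd_add (hp.mul_right _) (h12.mul_left _))), ?_⟩
    rw [h3, h9, show finrank F V - 2 * m = finrank F Y + 2 by omega,
      show finrank F V - 2 * (m + 1) = finrank F Y by omega]
    cases m <;> simp only [Nat.add_sub_cancel] <;> ring

theorem prod_pow_sub_dvd (q m : ℕ) : q ^ (m * (m - 1) / 2) ∣ ∏ i : Fin m, (q ^ m - q ^ (i : ℕ)) := by
  rw [← Finset.sum_range_id_mul_two, Nat.mul_div_cancel _ two_pos, ← Finset.prod_pow_eq_pow_sum,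
    Finset.prod_range]
  exact Finset.prod_dvd_prod_of_dvd _ _ fun i _ => Nat.dvd_sub (pow_dvd_pow _ i.2.le) dvd_rfl

theorem not_dvd_card_totSing {p : ℕ} [Fact p.Prime] [CharP F p] (h : IsForm ε κ τ B Q)
    (hB : B.SeparatingLeft) {m : ℕ} (hW : ∃ W : Submodule F V, finrank F W = m ∧ TotSing B Q W)
    (hm : 2 * m < finrank F V ∨ Nat.card τ.ker ≠ 1) :
    ¬ p ∣ Nat.card {U : Submodule F V // finrank F U = m ∧ TotSing B Q U} := by
  obtain ⟨W, h1, h2⟩ := hW
  obtain ⟨e, f, hs, rfl⟩ := h.exists_hypSys_of_totSing hB h2 h1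
  obtain ⟨a, h3, h4⟩ := exists_card_isom_hypSys (p := p) h hB m hs hm
  obtain ⟨c, hc⟩ := prod_pow_sub_dvd (Nat.card F) m
  rw [h.card_isom_eq_totSing hB h2, h.card_stabSub_hypSys hB hs, h1, hc,
    h.card_fixSub_nondeg hB (hs.nondegOn h)] at h4
  obtain ⟨k, hk⟩ := Nat.even_mul_pred_self m
  rw [hk, show (k + k) / 2 = k by omega] at h4
  refine fun h5 => h3 ((h5.mul_right c).trans (dvd_of_eq (Nat.eq_of_mul_eq_mul_right
    (show 0 < Nat.card τ.ker ^ m * Nat.card F ^ (m * (finrank F V - 2 * m) + (k + k)) *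
      Nat.card (Isom (pull B (perp B (Submodule.span F (Set.range
        (Sum.elim e f)))).subtype) fun x => Q x) from
      mul_pos (mul_pos (pow_pos Nat.card_pos _) (pow_pos Nat.card_pos _)) Nat.card_pos) ?_)))
  linear_combination h4

theorem od_id {p q i c : ℕ} [Fact p.Prime] [CharP F p] (hr : r.Prime) (h2 : r ≠ 2) (hp : r ≠ p)
    (hq : Nat.card F = q) (hi : i = orderOf (q : ZMod r)) (hc : c = if Even i then i else 2 * i) :
    OD (RingHom.id F) r i c ((r - 1) / i) := by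
  subst hq
  have h0 : (r : F) ≠ 0 := natCast_ne_zero_of_coprime ((Nat.coprime_primes hr Fact.out).mpr hp)
  have h1 := (card_PF hr h0).2
  rw [← hi] at h1
  obtain ⟨-, h3, h4⟩ := dual_data_id hr h2 hp hi h1
  refine ⟨hr, h2, h0, fun _ => rfl, hi, by rw [← h1, Nat.mul_div_cancel _ h3], ?_⟩
  rw [← hi] at h4
  rcases Nat.even_or_odd i with e | e
  · simp only [Nat.not_odd_iff_even.mpr e, if_false] at h4
    exact .inl ⟨(h4.resolve_right fun h => by omega).1, by simp [hc, e]⟩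
  · simp only [e, if_true] at h4
    exact .inr ⟨(h4.resolve_left fun h => by omega).1, by simp [hc, e]⟩

omit [Finite F] in
theorem od_herm {p q i b c : ℕ} [Fact p.Prime] [CharP F p] (hq : QConj σ q) (hr : r.Prime)
    (h2 : r ≠ 2) (hp : r ≠ p) (hi : i = orderOf (q : ZMod r)) (hb : b = if Even i then i / 2 else i)
    (hc : c = if i % 4 = 0 then i else if i % 4 = 2 then i / 2 else 2 * i) :
    OD σ r b c ((r - 1) / b) ∧ (c = b ↔ i % 4 = 2) := by
  have := Fact.mk hr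
  have := hq.finite
  have := Fintype.ofFinite F
  have h0 : (r : F) ≠ 0 := natCast_ne_zero_of_coprime ((Nat.coprime_primes hr Fact.out).mpr hp)
  have h5 : b = orderOf ((Nat.card F : ℕ) : ZMod r) := by
    rw [hq.card, Nat.cast_pow, orderOf_pow' _ two_ne_zero, ← hi, hb]
    split_ifs with h
    · rw [Nat.gcd_eq_right h.two_dvd]
    · rw [Nat.coprime_two_right.mpr (Nat.not_even_iff_odd.mp h), Nat.div_one]
  have h3 := (card_PF hr h0).2
  rw [← h5] at h3
  have h1 : 0 < b := Nat.pos_of_ne_zero fun e => by have := hr.two_le; rw [e] at h3; omega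
  have h4 : 0 < i := Nat.pos_of_ne_zero fun e => by simp [hb, e] at h1
  obtain ⟨k, hk⟩ := exists_eq_char_pow (Nat.card_eq_fintype_card.symm.trans hq.card)
  rw [ringChar.eq F p] at hk
  have h6 := fun u => (du_eq_iff hq.invol (p := p) (k := k) (hk ▸ hq.eq) hr u).trans (by
    simpa [-Nat.card_eq_fintype_card, hq.card, ← hk, ← pow_mul, ← pow_succ] using
      (exists_pow_eq_neg_one_iff h2 (hi ▸ h4)).2)
  simp only [Nat.even_iff] at hb
  refine ⟨⟨hr, h2, h0, hq.invol, h5, by rw [← h3, Nat.mul_div_cancel _ h1], ?_⟩, by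
    split_ifs at hb hc <;> omega⟩
  by_cases e : i % 4 = 2
  · exact .inl ⟨fun u => (h6 u).mpr (hi ▸ e), by split_ifs at hb hc <;> omega⟩
  · exact .inr ⟨fun u => (h6 u).not.mpr (hi ▸ e), by split_ifs at hb hc <;> omega⟩

omit [Finite F] in
theorem sum_add_replicate (s : Multiset F[X]) (k : ℕ) :
    ((s + Multiset.replicate k (X - 1)).map natDegree).sum = (s.map natDegree).sum + k := by
  simp [natDegree_X_sub_one]

omit [Finite F] in
theorem adm_alt {B : LinearMap.BilinForm F V} (hA : B.IsAlt) (hB : B.SeparatingLeft) {n : ℕ}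
    (hn : n ≤ finrank F V) : OD.Adm (σ := RingHom.id F) (-1) 0 0 B (fun _ => 0) r n := by
  rintro s s1 - rfl
  obtain ⟨k, hk⟩ : Even (finrank F V - (s.map natDegree).sum) := by
    obtain ⟨W, _, _, _, C, R, w1, w2, w3⟩ := s1
    have hC : C.IsAlt := fun x => by simpa using w1.diag x
    exact (Nat.even_sub hn).mpr (iff_of_true (even_finrank_of_alt
      (hA.isRefl.nondegenerate_iff_separatingLeft.mpr hB) hA) (w3.finrank_eq ▸
        even_finrank_of_alt (hC.isRefl.nondegenerate_iff_separatingLeft.mpr w2) hC))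
  exact ⟨_, (s1.add ⟨_, _, _, _, _, _, isForm_alt (spBilin_isAlt (l := Fin k)),
    spBilin_nondegenerate.1, realIn_one _ _⟩).alt hA hB (by rw [sum_add_replicate]; simp; omega)⟩

theorem adm_herm (hH : IsHerm B) (hB : B.SeparatingLeft) {n : ℕ} (hn : n ≤ finrank F V) :
    OD.Adm 1 1 (trHom σ) B (fun x => B x x) r n := by
  rintro s s1 - rfl
  exact ⟨_, (s1.add (real_herm_unip hH.ne hH.invol
    (s := Multiset.replicate (finrank F V - (s.map natDegree).sum) (X - 1))
    fun u hu => ⟨1, one_pos, by simp [Multiset.eq_of_mem_replicate hu]⟩)).herm hH hB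
      (by rw [sum_add_replicate]; omega)⟩

theorem adm_odd {B : V →ₗ[F] V →ₗ[F] F} (h : IsQuad B Q) (hB : B.SeparatingLeft) (h2 : (2 : F) ≠ 0)
    (ho : Odd (finrank F V)) {n : ℕ} (hn : n ≤ finrank F V) :
    OD.Adm (σ := RingHom.id F) 1 2 (AddMonoidHom.id F) B Q r n := by
  classical
  rintro s s1 - rfl
  obtain ⟨W, _, _, _, C, R, w1, w2, w3⟩ := s1.add (real_quad_unip h2
    (s := Multiset.replicate (finrank F V - (s.map natDegree).sum) (X - 1))
    (fun u hu => ⟨1, one_pos, by simp [Multiset.eq_of_mem_replicate hu]⟩) fun j j1 j2 => by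
      rw [Multiset.count_eq_zero.mpr fun hu => by
        have := congrArg natDegree (Multiset.eq_of_mem_replicate hu)
        rw [natDegree_X_sub_one_pow, natDegree_X_sub_one] at this
        simp [this] at j1]
      exact Even.zero)
  have w4 : finrank F W = finrank F V := by rw [w3.finrank_eq, sum_add_replicate]; omega
  obtain ⟨c, e, -, e1, e2⟩ := IsQuad.exists_equiv_of_odd w1 w2 h hB (w4 ▸ ho) w4
  exact ⟨_, w3.sim e e1 e2⟩

theorem eq_div_mod {m j d b : ℕ} (h : m = j * d + b) (hb : b < d) : j = m / d ∧ b = m % d := by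
  have := (Nat.div_mod_unique (a := m) (b := d) (c := b) (d := j) (by omega)).mpr
    ⟨by rw [h, mul_comm, add_comm], hb⟩
  exact ⟨this.1.symm, this.2.symm⟩

theorem arith_ts {n m : ℕ} (hd : 0 < d) (ht : 0 < t) (hD : D = d ∨ D = 2 * d) (hm : 2 * m ≤ n)
    (h0 : ∃ k, 0 < k ∧ k * D ≤ n ∧ (n - k * D) / 2 < m) :
    (∀ k, 0 < k → k * D ≤ n → ∃ j ≤ JJ d D t k, ∃ b ≤ (n - k * D) / 2, m = j * d + b) ↔
      d ≤ m ∧ 2 * (m % d) ≤ n % D ∧ (D ≠ d ∨ t + 2 * (m / d) ≤ n / d) := by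
  have h1 := Nat.div_add_mod' n D
  have h2 := Nat.div_add_mod' m d
  have h3 := Nat.mod_lt n (show 0 < D by omega)
  have h4 := Nat.mod_lt m hd
  have h5 : ∀ k, k * D ≤ n → ∃ x, n / D = k + x ∧ n - k * D = x * D + n % D := fun k hk => by
    obtain ⟨x, hx⟩ := Nat.exists_eq_add_of_le ((Nat.le_div_iff_mul_le (by omega)).mpr hk)
    rw [hx, add_mul] at h1
    exact ⟨x, hx, by omega⟩
  constructor
  · intro H
    obtain ⟨k, k1, k2, k3⟩ := h0
    obtain ⟨x, x1, x2⟩ := h5 k k2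
    obtain ⟨j, j1, b, b1, e⟩ := H (n / D) (by omega) (by omega)
    obtain ⟨rfl, rfl⟩ := eq_div_mod e (by omega)
    have h6 : 0 < m / d := Nat.pos_of_ne_zero fun e => by rw [e] at h2; omega
    refine ⟨(Nat.div_pos_iff.mp h6).2, by omega, or_iff_not_imp_left.mpr fun e => ?_⟩
    obtain rfl := not_not.mp e
    simp only [JJ, if_true] at H j1
    by_contra h7
    obtain ⟨l, hl⟩ := Nat.exists_eq_add_of_le' (show 1 ≤ n / D by omega)
    rw [hl, add_mul] at h1
    obtain ⟨j, j2, b, b1, e⟩ := H l (by omega) (by omega)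
    obtain ⟨rfl, rfl⟩ := eq_div_mod e (by omega)
    omega
  · rintro ⟨-, h6, h7⟩ k - hk
    obtain ⟨x, x1, x2⟩ := h5 k hk
    by_cases h8 : m / d ≤ JJ d D t k
    · exact ⟨_, h8, m % d, by omega, h2.symm⟩
    obtain ⟨z, hz⟩ := Nat.exists_eq_add_of_le (not_le.mp h8).le
    refine ⟨_, le_rfl, z * d + m % d, ?_, by rw [← add_assoc, ← add_mul, ← hz, h2]⟩
    rcases hD with rfl | rfl
    · have : 2 * z * D ≤ x * D := Nat.mul_le_mul_right _ (by simp [JJ] at hz h7; omega)
      rw [mul_assoc] at this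
      omega
    · rw [JJ, if_neg (by omega)] at hz
      rw [hz, add_mul] at h2
      rw [mul_left_comm]
      omega

end Cfsg.Agent.H10
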