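import Mathlib
import Cfsg.Agent.H10.Elus3

/-! Types of non-degenerate subspaces of quadratic spaces. -/

namespace Cfsg.Agent.H10

open Module Polynomial H11 L0

universe u

theorem arith_nd {c n m : ℕ} (hc : 0 < c) (hm : 0 < m) (hmn : m < n) (hn : c ≤ n) {A : Prop}
    {P : ℕ → Prop} {S : ℕ → ℕ → Prop}
    (hS : ∀ k j, n / c = k + 1 → m / c = j + 1 → ¬ A → ¬ P (j + 1) → S k j) :
    (∀ k, 0 < k → (k * c ≤ n ∧ (k * c = n → A)) → ∃ j ≤ k, ∃ b ≤ n - k * c, m = j * c + b ∧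
      (b = 0 → P j) ∧ (b = n - k * c → S k j)) ↔ ((n % c = 0 → A) → m % c ≤ n % c ∧
        (m % c = 0 → P (m / c)) ∧ (m % c = n % c → S (n / c) (m / c))) := by
  have h1 := Nat.div_add_mod' n c
  have h2 := Nat.div_add_mod' m c
  have h3 := Nat.mod_lt n hc
  have h4 := Nat.mod_lt m hc
  have h5 : m / c ≤ n / c := Nat.div_le_div_right hmn.le
  constructor
  · intro H hA
    obtain ⟨j, -, b, b1, e, b2, b3⟩ := H (n / c) (Nat.div_pos hn hc) ⟨by omega, fun e => hA (by omega)⟩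
    obtain ⟨rfl, rfl⟩ := eq_div_mod e (by omega)
    exact ⟨by omega, b2, fun e => b3 (by omega)⟩
  rintro H k - ⟨hk, hA⟩
  obtain ⟨x, hx⟩ := Nat.exists_eq_add_of_le ((Nat.le_div_iff_mul_le hc).mpr hk)
  rw [hx, add_mul] at h1
  rcases lt_or_ge k (m / c) with h6 | h6
  · obtain ⟨z, hz⟩ := Nat.exists_eq_add_of_lt h6
    rw [hz, add_mul, add_mul] at h2
    exact ⟨k, le_rfl, m - k * c, by omega, by omega, fun e => by omega, fun e => by omega⟩
  rcases x with _ | x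
  · obtain ⟨h7, h8, h9⟩ := H fun e => hA (by omega)
    exact ⟨_, h6, m % c, by omega, h2.symm, h8, fun e => by simpa [hx] using h9 (by omega)⟩
  rw [add_mul] at h1
  by_cases h7 : m % c = 0 → P (m / c)
  · exact ⟨_, h6, m % c, by omega, h2.symm, h7, fun e => by omega⟩
  obtain ⟨h7, h8⟩ := Classical.not_imp.mp h7
  obtain ⟨j, hj⟩ := Nat.exists_eq_add_of_le' (show 1 ≤ m / c from Nat.pos_of_ne_zero fun e => by
    rw [e] at h2; omega)
  obtain ⟨h9, h10⟩ := Classical.not_imp.mp (mt H fun h => h8 (h.2.1 h7))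
  rw [hj, add_mul] at h2
  refine ⟨j, by omega, c, by omega, by omega, fun e => by omega, fun e => hS k j ?_ hj h10 (hj ▸ h8)⟩
  obtain rfl : x = 0 := (Nat.mul_eq_zero.mp (show x * c = 0 by omega)).resolve_right hc.ne'
  omega

theorem arith_nd0 {c n m k : ℕ} (hk : 0 < k) (h1 : k * c ≤ n) {A : Prop} {S : ℕ → Prop}
    (hA : k * c = n → A) (h : ¬ (m ≤ n - k * c ∧ (m = n - k * c → S k))) : c ≤ n ∧ (m < c →
      m / c = 0 ∧ m % c = m ∧ (n % c = 0 → A) ∧ ¬ (m ≤ n % c ∧ (m = n % c → S (n / c)))) := by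
  refine ⟨(Nat.le_mul_of_pos_left c hk).trans h1, fun hm => ?_⟩
  obtain ⟨rfl, e⟩ := eq_div_mod (m := n) (j := k) (d := c) (b := n - k * c) (by omega) (by
    by_contra h2
    exact h ⟨by omega, fun e => by omega⟩)
  exact ⟨Nat.div_eq_of_lt hm, Nat.mod_eq_of_lt hm, fun e => hA (by omega), e ▸ h⟩

theorem arith_ts2_lin {N a M l i t k0 e : ℕ} {δ : ℕ → ℕ} (hδ : ∀ k, δ k = (k + e) % 2)
    (hi : Even i) (ha : Even a) (h3 : a < i) (h4 : l < i) (ht : 0 < t)
    (h8 : 2 * M ≤ N ∧ (2 * M = N → 2 * l < a) ∧ (2 * M + 1 = N → 2 * l < i + a)) (k1 : 0 < k0)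
    (k2 : k0 ≤ N ∧ (k0 = N → a = 0 → δ k0 = 0)) {G : ℕ → ℕ → Prop}
    (hG : ∀ k j, G k j ↔ j ≤ M ∧ (k + 2 * M + 2 ≤ N + 2 * j ∨ k + 2 * M + 1 = N + 2 * j ∧
      2 * l + 2 * δ k ≤ i + a ∨ k + 2 * M = N + 2 * j ∧ 2 * l + 2 * δ k ≤ a))
    (k4 : ¬ G k0 0) : (∀ k, 0 < k → (k ≤ N ∧ (k = N → a = 0 → δ k = 0)) →
      ∃ j ≤ (k - t + 1) / 2, G k j) ↔ 0 < M ∧ t + 2 * M ≤ N ∧ ((2 * l ≤ i ∧ a = 0 ∧ δ N = 1 ∧
        t + 2 * M < N) ∨ (2 * l ≤ a ∧ δ N = 0) ∨ (2 * l < a ∧ δ N = 1)) := by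
  simp only [hG] at k4 ⊢
  clear hG
  obtain ⟨i, rfl⟩ := hi
  obtain ⟨a, rfl⟩ := ha
  have h1 := hδ N
  have h2 := hδ k0
  constructor
  · intro H
    replace H : ∀ k x, k + x = N → 0 < k → (x = 0 → a = 0 → δ k = 0) → ∃ j ≤ M,
        (j = 0 ∨ 2 * j + t ≤ k + 1) ∧ (2 * M + 2 ≤ x + 2 * j ∨ 2 * M + 1 = x + 2 * j ∧
          l + δ k ≤ i + a ∨ 2 * M = x + 2 * j ∧ l + δ k ≤ a) := fun k x e1 e2 e3 =>
      (H k e2 ⟨by omega, by omega⟩).imp fun j hj => by omega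
    have hM : 0 < M := by
      by_contra hM
      obtain ⟨j, _, _⟩ := H k0 (N - k0) (by omega) k1 (by omega)
      omega
    clear k4 k2 h2
    obtain ⟨k, rfl⟩ : ∃ k, N = k + 1 := ⟨N - 1, by omega⟩
    have := hδ k
    obtain ⟨j1, a1⟩ := H k 1 rfl (by omega) (by omega)
    by_cases b0 : a = 0 → δ (k + 1) = 0
    · obtain ⟨j0, a0⟩ := H _ 0 rfl (by omega) fun _ => b0
      exact ⟨hM, by omega, by omega⟩
    obtain ⟨k, rfl⟩ : ∃ j, k = j + 1 := ⟨k - 1, by omega⟩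
    have := hδ k
    obtain ⟨j2, a2⟩ := H k 2 rfl (by omega) (by omega)
    exact ⟨hM, by omega, by omega⟩
  · intro H k _ k5
    have := hδ k
    exact ⟨min M ((k - t + 1) / 2), min_le_right _ _, by omega⟩

theorem arith_ts2 {n m i t e : ℕ} (hi : Even i) (hn : Even n) (h0 : 0 < i) (ht : 0 < t)
    (hm : 2 * m < n) (hk : ∃ k, 0 < k ∧ (k * i ≤ n ∧ (k * i = n → (k + e) % 2 = 0)) ∧
      (n - k * i) / 2 - (k + e) % 2 < m) :
    (∀ k, 0 < k → (k * i ≤ n ∧ (k * i = n → (k + e) % 2 = 0)) → ∃ j ≤ JJ i i t k,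
      ∃ b ≤ (n - k * i) / 2 - (k + e) % 2, m = j * i + b) ↔
      i ≤ m ∧ t + 2 * (m / i) ≤ n / i ∧ ((2 * (m % i) ≤ i ∧ n % i = 0 ∧ (n / i + e) % 2 = 1 ∧
        t + 2 * (m / i) < n / i) ∨ (2 * (m % i) ≤ n % i ∧ (n / i + e) % 2 = 0) ∨
        (2 * (m % i) < n % i ∧ (n / i + e) % 2 = 1)) := by
  have h1 := Nat.div_add_mod' n i
  have h2 := Nat.div_add_mod' m i
  have h3 := Nat.mod_lt n h0
  have h4 := Nat.mod_lt m h0
  have h5 : n % i % 2 = 0 := by rw [Nat.mod_mod_of_dvd _ hi.two_dvd]; exact Nat.even_iff.mp hn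
  rw [Nat.even_iff] at hi hn
  have key : ∀ k j, k * i ≤ n ∧ (k * i = n → (k + e) % 2 = 0) →
      ((∃ b ≤ (n - k * i) / 2 - (k + e) % 2, m = j * i + b) ↔ j ≤ m / i ∧
        (k + 2 * (m / i) + 2 ≤ n / i + 2 * j ∨ k + 2 * (m / i) + 1 = n / i + 2 * j ∧
          2 * (m % i) + 2 * ((k + e) % 2) ≤ i + n % i ∨ k + 2 * (m / i) = n / i + 2 * j ∧
          2 * (m % i) + 2 * ((k + e) % 2) ≤ n % i)) := fun k j ⟨k1, k2⟩ => by
    obtain ⟨x, hx⟩ := Nat.exists_eq_add_of_le ((Nat.le_div_iff_mul_le h0).mpr k1)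
    rw [hx, add_mul] at h1
    rcases lt_or_ge (m / i) j with h6 | h6
    · have := Nat.mul_le_mul_right i h6
      rw [Nat.succ_mul] at this
      exact iff_of_false (fun ⟨b, _, _⟩ => by omega) (by omega)
    obtain ⟨z, hz⟩ := Nat.exists_eq_add_of_le h6
    rw [hz, add_mul] at h2
    have h7 : x * i % 2 = 0 := by rw [Nat.mul_mod, hi]; simp
    rw [show (∃ b ≤ (n - k * i) / 2 - (k + e) % 2, m = j * i + b) ↔
      2 * (z * i) + 2 * (m % i) + 2 * ((k + e) % 2) ≤ x * i + n % i from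
        ⟨fun ⟨b, _, _⟩ => by omega, fun _ => ⟨z * i + m % i, by omega, by omega⟩⟩, hx, hz]
    rcases lt_trichotomy x (2 * z) with h8 | rfl | h8
    · have := Nat.mul_le_mul_right i h8
      rw [Nat.succ_mul, mul_assoc] at this
      omega
    · rw [mul_assoc]; omega
    · obtain ⟨y, rfl⟩ := Nat.exists_eq_add_of_lt h8
      rcases y with _ | y <;> simp only [add_mul, mul_assoc] <;> omega
  have h6 : ∀ k, k * i ≤ n ∧ (k * i = n → (k + e) % 2 = 0) ↔
      k ≤ n / i ∧ (k = n / i → n % i = 0 → (k + e) % 2 = 0) := fun k => by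
    rw [Nat.le_div_iff_mul_le h0]
    refine and_congr_right fun k1 => ⟨fun h e1 e2 => h (by rw [e1]; omega), fun h e1 => ?_⟩
    exact h (by rw [← e1, Nat.mul_div_cancel _ h0]) (by rw [← e1]; simp)
  have h7 : i ≤ m ↔ 0 < m / i := by rw [Nat.div_pos_iff]; omega
  have h8 : 2 * (m / i) ≤ n / i ∧ (2 * (m / i) = n / i → 2 * (m % i) < n % i) ∧
      (2 * (m / i) + 1 = n / i → 2 * (m % i) < i + n % i) := by
    refine ⟨(Nat.le_div_iff_mul_le h0).mpr (by rw [mul_assoc]; omega), fun e => ?_, fun e => ?_⟩ <;>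
      rw [← e] at h1 <;> simp only [add_mul, mul_assoc] at h1 <;> omega
  obtain ⟨k0, k1, k2, k3⟩ := hk
  rw [h7, ← arith_ts2_lin (δ := fun k => (k + e) % 2) (fun k => rfl) (Nat.even_iff.mpr hi)
    (Nat.even_iff.mpr h5) h3 h4 ht h8 k1 ((h6 _).mp k2) (fun _ _ => Iff.rfl)
    ((key k0 0 k2).not.mp fun ⟨b, _, _⟩ => by omega)]
  refine forall₂_congr fun k _ => ?_
  rw [← h6]
  exact forall_congr' fun k5 => exists_congr fun j => and_congr (by simp [JJ]) (key k j k5)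

variable {F : Type u} [Field F] {σ : F →+* F} {ε κ : F} {τ : F →+ F}
  {V : Type*} [AddCommGroup V] [Module F V] [FiniteDimensional F V]
  {B : V →ₛₗ[σ] V →ₗ[F] F} {Q : V → F} {U W X : Submodule F V}

/-- `W` contains a totally singular subspace of half its dimension. -/
def Pl (B : V →ₛₗ[σ] V →ₗ[F] F) (Q : V → F) (W : Submodule F V) : Prop :=
  ∃ U ≤ W, TotSing B Q U ∧ 2 * finrank F U = finrank F W

omit [FiniteDimensional F V] in
theorem pl_bot (h : IsForm ε κ τ B Q) : Pl B Q ⊥ := ⟨⊥, le_rfl, h.totSing_bot, by simp⟩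

theorem pl_iff_wittIdx (h : IsForm ε κ τ B Q) (hW : NondegOn B W) {m : ℕ}
    (hm : finrank F W = 2 * m) : Pl B Q W ↔ WittIdx (pull B W.subtype) (fun x => Q x) m := by
  obtain ⟨ν, hν⟩ := (h.restrict W).exists_wittIdx
  have h1 := (h.restrict W).two_mul_wittIdx_le (nondegOn_iff.mp hW) hν
  constructor
  · rintro ⟨U, h2, h3, h4⟩
    have := (exists_totSing_le h hW hν).mp ⟨U, h2, h3, rfl⟩
    rwa [show m = ν by omega]
  · intro h2
    obtain ⟨U, h3, h4, h5⟩ := (exists_totSing_le h hW h2).mpr le_rfl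
    exact ⟨U, h3, h4, by omega⟩

theorem Pl.sup (h : IsForm ε κ τ B Q) (hU : Pl B Q U) (hW : Pl B Q W) (hd : Disjoint U W)
    (ho : ∀ a ∈ U, ∀ b ∈ W, B a b = 0) : Pl B Q (U ⊔ W) := by
  obtain ⟨U', h1, h2, h3⟩ := hU
  obtain ⟨W', h4, h5, h6⟩ := hW
  refine ⟨U' ⊔ W', sup_le_sup h1 h4, totSing_sup h h2 h5 fun a ha b hb => ho a (h1 ha) b (h4 hb), ?_⟩
  rw [finrank_sup_of_disjoint hd, finrank_sup_of_disjoint (hd.mono h1 h4)]
  omega

theorem Pl.of_sup (h : IsForm ε κ τ B Q) (hU : NondegOn B U) (hW : NondegOn B W)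
    (ho : ∀ a ∈ U, ∀ b ∈ W, B a b = 0) (h1 : Pl B Q U) (h2 : Pl B Q (U ⊔ W)) : Pl B Q W := by
  obtain ⟨T, t1, t2, t3⟩ := h1
  obtain ⟨M, m1, m2, m3⟩ := h2
  have hd := disjoint_of_nondeg hU ho h
  have hn := nondegOn_iff.mp (nondegOn_sup h hU hW ho)
  obtain ⟨N, n1, n2⟩ := (h.restrict (U ⊔ W)).exists_maxTotSing_ge (W := T.comap (U ⊔ W).subtype)
    ⟨fun x hx => t2.1 _ hx, fun x hx z hz => t2.2 _ hx _ hz⟩
  have n3 := (h.restrict (U ⊔ W)).finrank_le_of_maxTotSing hn (W := M.comap (U ⊔ W).subtype)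
    ⟨fun x hx => m2.1 _ hx, fun x hx z hz => m2.2 _ hx _ hz⟩ n1
  have n4 := (h.restrict (U ⊔ W)).two_mul_finrank_le hn n1.1
  have n5 := (h.restrict U).perp_eq_self (nondegOn_iff.mp hU) (U := T.comap U.subtype)
    ⟨fun x hx => t2.1 _ hx, fun x hx z hz => t2.2 _ hx _ hz⟩
    (by rw [(Submodule.comapSubtypeEquivOfLe t1).finrank_eq, t3])
  rw [(Submodule.comapSubtypeEquivOfLe m1).finrank_eq,
    ← Submodule.finrank_map_subtype_eq (U ⊔ W) N] at n3
  rw [← Submodule.finrank_map_subtype_eq (U ⊔ W) N] at n4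
  have n6 : TotSing B Q (N.map (U ⊔ W).subtype) :=
    ⟨by rintro _ ⟨x, hx, rfl⟩; exact n1.1.1 x hx,
      by rintro _ ⟨x, hx, rfl⟩ _ ⟨z, hz, rfl⟩; exact n1.1.2 x hx z hz⟩
  have n7 : T ≤ N.map (U ⊔ W).subtype := fun x hx =>
    ⟨⟨x, Submodule.mem_sup_left (t1 hx)⟩, n2 hx, rfl⟩
  have n8 := (U ⊔ W).map_subtype_le N
  generalize N.map (U ⊔ W).subtype = N' at *
  have n9 : T ⊔ N' ⊓ W = N' := le_antisymm (sup_le n7 inf_le_left) fun x hx => by
    obtain ⟨a, ha, b, hb, rfl⟩ := Submodule.mem_sup.mp (n8 hx)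
    have : (⟨a, ha⟩ : U) ∈ T.comap U.subtype := n5 ▸ mem_perp.mpr fun z hz => by
      simpa [ho _ z.2 b hb] using n6.2 _ (n7 hz) _ hx
    exact Submodule.add_mem_sup this ⟨by simpa using N'.sub_mem hx (n7 this), hb⟩
  refine ⟨N' ⊓ W, inf_le_right, n6.mono inf_le_left, ?_⟩
  rw [← n9, finrank_sup_of_disjoint (hd.mono t1 inf_le_right)] at n3 n4
  rw [finrank_sup_of_disjoint hd] at m3 n4
  omega

theorem exists_orth_compl (h : IsForm ε κ τ B Q) (hB : B.SeparatingLeft) (hW : NondegOn B W)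
    (hU : NondegOn B U) (hle : U ≤ W) : ∃ U' ≤ W, NondegOn B U' ∧ U ⊔ U' = W ∧
      (∀ a ∈ U, ∀ b ∈ U', B a b = 0) ∧ finrank F U + finrank F U' = finrank F W := by
  obtain ⟨h1, h2⟩ := h.nondegOn_inf_perp hB hW hU hle
  have ho : ∀ a ∈ U, ∀ b ∈ W ⊓ perp B U, B a b = 0 := fun a ha b hb => mem_perp.mp hb.2 a ha
  exact ⟨_, inf_le_left, h1, Submodule.eq_of_le_of_finrank_eq (sup_le hle inf_le_left) (by
    rw [finrank_sup_of_disjoint (disjoint_of_nondeg hU ho h)]; omega), ho, by omega⟩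

theorem exists_hyp_le (h : IsForm ε κ τ B Q) (hW : NondegOn B W) {ν j : ℕ}
    (hν : WittIdx (pull B W.subtype) (fun x => Q x) ν) (hj : j ≤ ν) :
    ∃ U ≤ W, NondegOn B U ∧ Pl B Q U ∧ finrank F U = 2 * j := by
  obtain ⟨T, t1, t2, t3⟩ := (exists_totSing_le h hW hν).mpr hj
  obtain ⟨e, f, hs, -⟩ := (h.restrict W).exists_hypSys_of_totSing (nondegOn_iff.mp hW)
    (W := T.comap W.subtype) ⟨fun x hx => t2.1 _ hx, fun x hx z hz => t2.2 _ hx _ hz⟩
    ((Submodule.comapSubtypeEquivOfLe t1).finrank_eq.trans t3)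
  have hs' : HypSys B Q (fun i => (e i : V)) fun i => (f i : V) := ⟨hs.Qe, hs.Qf, hs.ee, hs.ff, hs.ef⟩
  have h1 := finrank_span_eq_card (hs'.linearIndependent h)
  refine ⟨_, Submodule.span_le.mpr ?_, hs'.nondegOn h, ⟨_, Submodule.span_mono ?_, hs'.totSing_e h,
    ?_⟩, by simpa [two_mul] using h1⟩
  · rintro _ ⟨i | i, rfl⟩ <;> exact Subtype.property _
  · rintro _ ⟨i, rfl⟩; exact ⟨.inl i, rfl⟩
  · rw [h1, finrank_span_eq_card (hs'.linearIndependent_e h)]; simp [two_mul]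

omit [FiniteDimensional F V] in
theorem orth_span {v : V} (hv : ∀ a ∈ U, B a v = 0) :
    ∀ a ∈ U, ∀ b ∈ Submodule.span F {v}, B a b = 0 := fun a ha b hb => by
  obtain ⟨c, rfl⟩ := Submodule.mem_span_singleton.mp hb
  simp [hv a ha]

theorem nondegOn_sup_span (h : IsForm ε κ τ B Q) (hU : NondegOn B U) {v : V} (hv : B v v ≠ 0)
    (ho : ∀ a ∈ U, B a v = 0) : NondegOn B (U ⊔ Submodule.span F {v}) ∧
      finrank F ↥(U ⊔ Submodule.span F {v}) = finrank F U + 1 :=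
  ⟨nondegOn_sup h hU (IsForm.nondegOn_span_singleton hv) (orth_span ho), by
    rw [finrank_sup_of_disjoint (disjoint_of_nondeg hU (orth_span ho) h),
      finrank_span_singleton (by rintro rfl; simp at hv)]⟩

theorem exists_nondeg_le_of (h : IsForm ε κ τ B Q) (hB : B.SeparatingLeft)
    (hex : ∀ U, NondegOn B U → U ≠ ⊥ → ∃ v ∈ U, B v v ≠ 0) (hW : NondegOn B W) (b : ℕ)
    (hb : b ≤ finrank F W) : ∃ U ≤ W, NondegOn B U ∧ finrank F U = b := by
  induction b with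
  | zero => exact ⟨⊥, bot_le, fun x hx _ => hx, finrank_bot F V⟩
  | succ b ih =>
    obtain ⟨U, h1, h2, h3⟩ := ih (by omega)
    obtain ⟨U', h4, h5, -, h6, h7⟩ := exists_orth_compl h hB hW h2 h1
    obtain ⟨v, h8, h9⟩ := hex U' h5 (by rintro rfl; simp at h7; omega)
    obtain ⟨h10, h11⟩ := nondegOn_sup_span h h2 h9 fun a ha => h6 a ha v h8
    exact ⟨_, sup_le h1 ((Submodule.span_singleton_le_iff_mem _ _).mpr (h4 h8)), h10, by omega⟩

theorem pl_two (h : IsForm ε κ τ B Q) (h2 : finrank F W = 2) :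
    Pl B Q W ↔ ∃ u ∈ W, u ≠ 0 ∧ Q u = 0 := by
  constructor
  · rintro ⟨U, h3, h4, h5⟩
    obtain ⟨u, h6, h7⟩ := U.ne_bot_iff.mp (by rintro rfl; simp [h2] at h5)
    exact ⟨u, h3 h6, h7, h4.1 u h6⟩
  · rintro ⟨u, h3, h4, h5⟩
    exact ⟨_, (Submodule.span_singleton_le_iff_mem _ _).mpr h3, h.totSing_span (by simpa)
      (by simpa using h.diag_zero h5), by rw [finrank_span_singleton h4, h2]⟩

theorem Pl.map (h : Pl B Q W) (g : Isom B Q) : Pl B Q (W.map g.1.toLinearMap) := by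
  obtain ⟨U, h1, h2, h3⟩ := h
  exact ⟨_, Submodule.map_mono h1, h2.map_isom g.2, by
    rw [g.1.finrank_map_eq, g.1.finrank_map_eq, h3]⟩

theorem pl_map_iff (g : Isom B Q) : Pl B Q (W.map g.1.toLinearMap) ↔ Pl B Q W :=
  ⟨fun h => by
    have := h.map g⁻¹
    rwa [← map_mul_isom, inv_mul_cancel, show W.map (1 : Isom B Q).1.toLinearMap = W from
      W.map_id] at this, fun h => h.map g⟩

section quad
variable {B : V →ₗ[F] V →ₗ[F] F} [Finite F] (h : IsQuad B Q)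
include h

theorem wittIdx_of_not_pl (hW : NondegOn B W) {m : ℕ} (hm : finrank F W = 2 * (m + 1))
    (H : ¬ Pl B Q W) : WittIdx (pull B W.subtype) (fun x => Q x) m :=
  (IsQuad.wittIdx_even_cases (h.restrict W) (nondegOn_iff.mp hW) hm).resolve_left
    ((pl_iff_wittIdx h hW hm).not.mp H)

open Classical in
theorem wittIdx_on (hW : NondegOn B W) : WittIdx (pull B W.subtype) (fun x => Q x)
    (finrank F W / 2 - if Even (finrank F W) ∧ ¬ Pl B Q W then 1 else 0) := by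
  obtain ⟨ν, hν⟩ := (h.restrict W).exists_wittIdx
  have h1 := (h.restrict W).two_mul_wittIdx_le (nondegOn_iff.mp hW) hν
  have h2 := IsQuad.finrank_le_wittIdx' (h.restrict W) (nondegOn_iff.mp hW) hν
  have h3 := fun m hm => (pl_iff_wittIdx h hW (m := m) hm).trans ⟨fun a =>
    (h.restrict W).wittIdx_unique (nondegOn_iff.mp hW) a hν, fun a => a ▸ hν⟩
  convert hν
  have := h3 (finrank F W / 2)
  simp only [Nat.even_iff]
  split_ifs with e
  · have := (this (by omega)).not.mp e.2; omega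
  · rcases Nat.mod_two_eq_zero_or_one (finrank F W) with e' | e'
    · exact (this (by omega)).mp (not_not.mp fun a => e ⟨e', a⟩)
    · omega

theorem exists_equiv_of_pl {V' : Type*} [AddCommGroup V'] [Module F V'] [FiniteDimensional F V']
    {B' : V' →ₗ[F] V' →ₗ[F] F} {Q' : V' → F} (h' : IsQuad B' Q') {W' : Submodule F V'}
    (hW : NondegOn B W) (hW' : NondegOn B' W') (he : Even (finrank F W))
    (hn : finrank F W = finrank F W') (hp : Pl B Q W ↔ Pl B' Q' W') :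
    ∃ e : W ≃ₗ[F] W', (∀ x y, B' (e x) (e y) = B x y) ∧ ∀ x, Q' (e x) = Q x :=
  IsQuad.exists_equiv_of_wittIdx (h.restrict W) (nondegOn_iff.mp hW) (h'.restrict W')
    (nondegOn_iff.mp hW') he hn (wittIdx_on h hW) (by rw [hn, propext hp]; exact wittIdx_on h' hW')

theorem exists_map_of_pl (hB : B.SeparatingLeft) (hW : NondegOn B W) (hU : NondegOn B U)
    (he : Even (finrank F W)) (hn : finrank F W = finrank F U) (hp : Pl B Q W ↔ Pl B Q U) :
    ∃ g : Isom B Q, W.map g.1.toLinearMap = U :=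
  have ⟨e, h1, h2⟩ := exists_equiv_of_pl h h hW hU he hn hp
  exists_map_eq_of_equiv h hB e h1 h2

theorem pl_graph (hU : NondegOn B U) (hW : NondegOn B W) (ho : ∀ a ∈ U, ∀ b ∈ W, B a b = 0)
    (he : Even (finrank F U)) (hn : finrank F U = finrank F W) (hp : Pl B Q U ↔ Pl B Q W) :
    Pl B Q (U ⊔ W) := by
  have hd := disjoint_of_nondeg hU ho h
  obtain ⟨e, -, h2⟩ := exists_equiv_of_pl (h.smul_form (-1)) h (W := U)
    (fun x hx H => hU x hx (by simpa using H)) hW he hn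
    (Iff.trans (by simp [Pl, TotSing]) hp)
  refine ⟨LinearMap.range (U.subtype + W.subtype ∘ₗ e.toLinearMap), ?_, h.totSing_iff.mpr ?_, ?_⟩
  · rintro _ ⟨x, rfl⟩; exact Submodule.add_mem_sup x.2 (e x).2
  · rintro _ ⟨x, rfl⟩; simp [h.add', h2, ho _ x.2 _ (e x).2]
  · rw [LinearMap.finrank_range_of_inj, finrank_sup_of_disjoint hd, ← hn, two_mul]
    refine (injective_iff_map_eq_zero _).mpr fun x hx => Subtype.ext
      (Submodule.disjoint_def.mp hd _ x.2 ?_)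
    rw [show (x : V) = -(e x : V) from eq_neg_of_add_eq_zero_left hx]
    exact W.neg_mem (e x).2

theorem exists_ell_split (hB : B.SeparatingLeft) (hW : NondegOn B W) (he : Even (finrank F W))
    (hp : ¬ Pl B Q W) : ∃ H A, NondegOn B H ∧ NondegOn B A ∧ H ⊔ A = W ∧ Pl B Q H ∧ ¬ Pl B Q A ∧
      finrank F A = 2 ∧ ∀ a ∈ H, ∀ b ∈ A, B a b = 0 := by
  obtain ⟨m, hm⟩ := he
  obtain ⟨m, rfl⟩ : ∃ j, m = j + 1 := ⟨m - 1, by
    rcases m with _ | m
    · exact absurd (Submodule.finrank_eq_zero.mp hm ▸ pl_bot h) hp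
    · rfl⟩
  obtain ⟨H, h1, h2, h3, h4⟩ := exists_hyp_le h hW (wittIdx_of_not_pl h hW (m := m) (by omega) hp) le_rfl
  obtain ⟨A, -, h5, h6, h7, h8⟩ := exists_orth_compl h hB hW h2 h1
  exact ⟨H, A, h2, h5, h6, h3, fun a => hp (h6 ▸ h3.sup h a (disjoint_of_nondeg h2 h7 h) h7),
    by omega, h7⟩

/-- The type is multiplicative in orthogonal sums. -/
theorem pl_sup (hB : B.SeparatingLeft) (hU : NondegOn B U) (hW : NondegOn B W)
    (ho : ∀ a ∈ U, ∀ b ∈ W, B a b = 0) (he : Even (finrank F U)) (he' : Even (finrank F W)) :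
    Pl B Q (U ⊔ W) ↔ (Pl B Q U ↔ Pl B Q W) := by
  have hd := disjoint_of_nondeg hU ho h
  by_cases h1 : Pl B Q U
  · exact ⟨fun a => iff_of_true h1 (h1.of_sup h hU hW ho a), fun a => h1.sup h (a.mp h1) hd ho⟩
  by_cases h2 : Pl B Q W
  · exact iff_of_false (fun a => h1 (h2.of_sup h hW hU (fun a ha b hb => h.refl (ho b hb a ha))
      (sup_comm U W ▸ a))) fun a => h1 (a.mpr h2)
  obtain ⟨H, A, a1, a2, rfl, a4, a5, a6, a7⟩ := exists_ell_split h hB hU he h1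
  obtain ⟨H', A', b1, b2, rfl, b4, b5, b6, b7⟩ := exists_ell_split h hB hW he' h2
  have o1 : ∀ a ∈ H, ∀ b ∈ H', B a b = 0 := fun a ha b hb =>
    ho a (Submodule.mem_sup_left ha) b (Submodule.mem_sup_left hb)
  have o2 : ∀ a ∈ H ⊔ H', ∀ b ∈ A ⊔ A', B a b = 0 := fun _ hx _ hy => by
    obtain ⟨a, ha, a', ha', rfl⟩ := Submodule.mem_sup.mp hx
    obtain ⟨b, hb, b', hb', rfl⟩ := Submodule.mem_sup.mp hy
    simp [a7 a ha b hb, b7 a' ha' b' hb',
      ho a (Submodule.mem_sup_left ha) b' (Submodule.mem_sup_right hb'),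
      h.refl (ho b (Submodule.mem_sup_right hb) a' (Submodule.mem_sup_left ha'))]
  refine iff_of_true ?_ (iff_of_false h1 h2)
  rw [sup_sup_sup_comm]
  exact (a4.sup h b4 (disjoint_of_nondeg a1 o1 h) o1).sup h (pl_graph h a2 b2 (fun a ha b hb =>
    ho a (Submodule.mem_sup_right ha) b (Submodule.mem_sup_right hb)) (a6 ▸ even_two)
    (a6.trans b6.symm) (iff_of_false a5 b5)) (disjoint_of_nondeg (nondegOn_sup h a1 b1 o1) o2 h) o2

theorem exists_ell_plane (hW : NondegOn B W) (h3 : 3 ≤ finrank F W) :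
    ∃ A ≤ W, NondegOn B A ∧ finrank F A = 2 ∧ ¬ Pl B Q A := by
  have h' : IsQuad _ _ := h.restrict W
  have hB := nondegOn_iff.mp hW
  obtain ⟨e, e0, he⟩ := h'.exists_singular h3
  obtain ⟨f, hf, hef⟩ := h'.exists_partner hB he e0
  obtain ⟨w, hw, hc⟩ := h'.exists_nonsingular_hperp hB h3 he hf hef
  obtain ⟨z, hz⟩ : ∃ z : F, ∀ t, t ^ 2 + t + z ≠ 0 := by
    by_contra H
    push Not at H
    have : Function.Surjective fun t : F => -(t ^ 2 + t) := fun z =>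
      (H z).imp fun t ht => by linear_combination -ht
    simpa using Finite.injective_iff_surjective.mpr this (a₁ := 0) (a₂ := -1) (by simp)
  have hz' : ∀ a b : F, a ^ 2 + 1 * a * b + z * b ^ 2 = 0 → a = 0 ∧ b = 0 := fun a b H => by
    obtain rfl : b = 0 := by_contra fun e => hz (a / b) (by field_simp; linear_combination H)
    simpa using H
  obtain ⟨w1, w2⟩ := mem_hperp.mp hw
  simp only [pull_apply, Submodule.subtype_apply] at he hf hef hc w1 w2
  have hm : ∀ x ∈ Submodule.span F {w.1 + Q w • f.1, e.1 + (Q w * z) • f.1}, ∃ a b : F,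
      x = a • (w.1 + Q w • f.1) + b • (e.1 + (Q w * z) • f.1) := fun x hx => by
    obtain ⟨a, b, rfl⟩ := Submodule.mem_span_pair.mp hx
    exact ⟨a, b, rfl⟩
  have hQ : ∀ a b : F, Q (a • (w.1 + Q w • f.1) + b • (e.1 + (Q w * z) • f.1)) = 0 →
      a = 0 ∧ b = 0 := fun a b H => hz' a b (mul_left_cancel₀ hc (by
    simp [h.add', h.smul', he, hf, hef, w1, w2, h.comm w.1, h.comm f.1 e.1, h.diag'] at H
    linear_combination H))
  have h2 : finrank F (Submodule.span F {w.1 + Q w • f.1, e.1 + (Q w * z) • f.1}) = 2 := by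
    have := finrank_span_eq_card (LinearIndependent.pair_iff.mpr fun a b H =>
      hQ a b ((congrArg Q H).trans h.map_zero))
    rwa [Matrix.range_cons, Matrix.range_cons, Matrix.range_empty, Set.union_empty,
      Set.singleton_union] at this
  refine ⟨_, Submodule.span_le.mpr ?_, fun x hx H => ?_, h2, fun H => ?_⟩
  · rintro _ (rfl | rfl) <;> exact W.add_mem (Subtype.property _) (W.smul_mem _ f.2)
  · obtain ⟨a, b, rfl⟩ := hm x hx
    have h4 := H _ (Submodule.subset_span (.inl rfl))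
    have h5 := H _ (Submodule.subset_span (.inr rfl))
    have h6 := disc_ne_zero_of_aniso hz'
    simp [he, hf, hef, w1, w2, h.comm w.1 e.1, h.comm w.1 f.1, h.comm f.1 e.1, h.diag'] at h4 h5
    obtain rfl : b = 0 := mul_left_cancel₀ (mul_ne_zero hc h6) (by linear_combination h4 - 2 * h5)
    obtain rfl : a = 0 := mul_left_cancel₀ hc (by linear_combination h5)
    simp
  · obtain ⟨u, h4, h5, h6⟩ := (pl_two h h2).mp H
    obtain ⟨a, b, rfl⟩ := hm u h4
    obtain ⟨rfl, rfl⟩ := hQ a b h6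
    simp at h5

/-- Subspaces of both types exist in every proper even dimension. -/
theorem exists_type_le (hB : B.SeparatingLeft) (hW : NondegOn B W) {b : ℕ} (he : Even b)
    (h0 : 0 < b) (hb : b < finrank F W) (η : Prop) :
    ∃ U ≤ W, NondegOn B U ∧ finrank F U = b ∧ (Pl B Q U ↔ η) := by
  obtain ⟨ν, hν⟩ := (h.restrict W).exists_wittIdx
  have h2 := IsQuad.finrank_le_wittIdx' (h.restrict W) (nondegOn_iff.mp hW) hν
  obtain ⟨j, rfl⟩ := he
  by_cases hη : η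
  · obtain ⟨U, h3, h4, h5, h6⟩ := exists_hyp_le h hW hν (j := j) (by omega)
    exact ⟨U, h3, h4, by omega, iff_of_true h5 hη⟩
  obtain ⟨U, h3, h4, h5, h6⟩ := exists_hyp_le h hW hν (j := j - 1) (by omega)
  obtain ⟨C, h7, h8, -, h9, h10⟩ := exists_orth_compl h hB hW h4 h3
  obtain ⟨A, a1, a2, a3, a4⟩ := exists_ell_plane h h8 (by omega)
  have ho : ∀ a ∈ U, ∀ b ∈ A, B a b = 0 := fun a ha b hb => h9 a ha b (a1 hb)
  exact ⟨U ⊔ A, sup_le h3 (a1.trans h7), nondegOn_sup h h4 a2 ho, by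
    rw [finrank_sup_of_disjoint (disjoint_of_nondeg h4 ho h)]; omega,
    iff_of_false (fun a => a4 (h5.of_sup h h4 a2 ho a)) hη⟩

omit [Finite F] in
theorem pl_plane {z v : V} (hz : B z z ≠ 0) (hv : B v v ≠ 0) (ho : B z v = 0) :
    Pl B Q (Submodule.span F {z} ⊔ Submodule.span F {v}) ↔ IsSquare (-Q z * Q v) := by
  have h1 := (nondegOn_sup_span h (IsForm.nondegOn_span_singleton hz) hv fun a ha =>
    h.refl (orth_span (U := Submodule.span F {v}) (fun b hb => h.refl (orth_span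
      (U := Submodule.span F {z}) (v := v) (by
        intro a ha; obtain ⟨c, rfl⟩ := Submodule.mem_span_singleton.mp ha; simp [ho])
      z (Submodule.mem_span_singleton_self z) b hb)) v (Submodule.mem_span_singleton_self v) a ha)).2
  rw [finrank_span_singleton (by rintro rfl; simp at hz)] at h1
  have hz' : Q z ≠ 0 := fun e => hz (h.diag_zero e)
  rw [pl_two h h1, ← Submodule.span_union, Set.singleton_union]
  constructor
  · rintro ⟨u, h2, h3, h4⟩
    obtain ⟨a, b, rfl⟩ := Submodule.mem_span_pair.mp h2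
    simp only [h.add', h.smul', map_smul, LinearMap.smul_apply, ho, smul_zero] at h4
    have hb : b ≠ 0 := by
      rintro rfl
      simp [show a = 0 by simpa [hz'] using h4] at h3
    exact ⟨a * Q z / b, by field_simp; linear_combination -h4⟩
  · rintro ⟨s, hs⟩
    refine ⟨s • z + Q z • v, Submodule.mem_span_pair.mpr ⟨_, _, rfl⟩, fun e => ?_, ?_⟩
    · simpa [h.refl ho, hz', hv] using congrArg (B v) e
    · simp only [h.add', h.smul', map_smul, LinearMap.smul_apply, ho, smul_zero]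
      linear_combination (-Q z) * hs

theorem exists_pl_sup_span (hB : B.SeparatingLeft) (h2 : (2 : F) ≠ 0) (hX : NondegOn B X)
    (he : Odd (finrank F X)) (hW : NondegOn B W) (hn : 2 ≤ finrank F W)
    (ho : ∀ a ∈ X, ∀ b ∈ W, B a b = 0) (η : Prop) :
    ∃ v ∈ W, B v v ≠ 0 ∧ (Pl B Q (X ⊔ Submodule.span F {v}) ↔ η) := by
  obtain ⟨z, z1, z2⟩ := h.exists_nonsingular hX (by rintro rfl; simp at he)
  have z3 : B z z ≠ 0 := h.diag' z ▸ mul_ne_zero h2 z2
  obtain ⟨Z, z4, z5, rfl, z6, z7⟩ := exists_orth_compl h hB hX (IsForm.nondegOn_span_singleton z3)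
    ((Submodule.span_singleton_le_iff_mem _ _).mpr z1)
  obtain ⟨δ, hδ⟩ := FiniteField.exists_nonsquare (ringChar_ne_two_of h2)
  obtain ⟨c, c1, c2⟩ : ∃ c, c ≠ 0 ∧ (IsSquare (-Q z * c) ↔ (Pl B Q Z ↔ η)) := by
    by_cases H : (Pl B Q Z ↔ η)
    · exact ⟨-Q z, by simpa, iff_of_true ⟨_, rfl⟩ H⟩
    · exact ⟨-Q z * δ, mul_ne_zero (by simpa) (by rintro rfl; simp at hδ), iff_of_false (by
        rwa [← mul_assoc, isSquare_mul_iff_of_isSquare (by simpa) ⟨_, rfl⟩]) H⟩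
  obtain ⟨v, v1, rfl⟩ := h.exists_eq_on hW hn c
  have v2 : B v v ≠ 0 := h.diag' v ▸ mul_ne_zero h2 c1
  have o1 := fun a (ha : a ∈ Submodule.span F {z}) => ho a (Submodule.mem_sup_left ha) v v1
  obtain ⟨v3, v4⟩ := nondegOn_sup_span h (IsForm.nondegOn_span_singleton z3) v2 o1
  rw [finrank_span_singleton (by rintro rfl; simp at z3)] at z7 v4
  refine ⟨v, v1, v2, ?_⟩
  rw [sup_right_comm, pl_sup h hB v3 z5 (fun _ hx b hb => by
    obtain ⟨a, ha, a', ha', rfl⟩ := Submodule.mem_sup.mp hx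
    simp [z6 a ha b hb, h.refl (orth_span (fun b hb => ho b (z4 hb) v v1) b hb a' ha')])
    (v4 ▸ even_two) (by rw [← z7] at he; simpa [add_comm 1, parity_simps] using he),
    pl_plane h z3 v2 (ho z z1 v v1), c2]
  tauto

theorem exists_map_eq_sup_span (hB : B.SeparatingLeft) (h2 : (2 : F) ≠ 0) (hU : NondegOn B U)
    (hX : NondegOn B X) (he : Even (finrank F X)) (hd : finrank F U = finrank F X + 1)
    (hW : NondegOn B W) (hn : 2 ≤ finrank F W) (ho : ∀ a ∈ X, ∀ b ∈ W, B a b = 0) :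
    ∃ v ∈ W, B v v ≠ 0 ∧ ∃ g : Isom B Q, U.map g.1.toLinearMap = X ⊔ Submodule.span F {v} := by
  obtain ⟨Y, y1, y2, y3, y4⟩ : ∃ Y ≤ U, NondegOn B Y ∧ finrank F Y = finrank F X ∧
      (Pl B Q Y ↔ Pl B Q X) := by
    rcases Nat.eq_zero_or_pos (finrank F X) with e | e
    · obtain rfl := Submodule.finrank_eq_zero.mp e
      exact ⟨⊥, bot_le, hX, rfl, Iff.rfl⟩
    · exact exists_type_le h hB hU he e (by omega) _
  obtain ⟨g, rfl⟩ := exists_map_of_pl h hB y2 hX (y3 ▸ he) y3 y4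
  obtain ⟨Z, z1, z2, -, z3, z4⟩ := exists_orth_compl h hB hU y2 y1
  obtain ⟨z, z5, z6⟩ := h.exists_nonsingular z2 (by rintro rfl; simp at z4; omega)
  have z7 : B z z ≠ 0 := h.diag' z ▸ mul_ne_zero h2 z6
  obtain ⟨v, v1, v2⟩ := h.exists_eq_on hW hn (Q z)
  have v3 : B v v ≠ 0 := h.diag' v ▸ mul_ne_zero h2 (v2 ▸ z6)
  have o1 : ∀ a ∈ Y.map g.1.toLinearMap, B a (g.1 z) = 0 := by
    rintro _ ⟨a, ha, rfl⟩; exact (g.2.1 a z).trans (z3 a ha z z5)
  obtain ⟨k, k1, k2, k3⟩ := h.witt_step hB (Y.map g.1.toLinearMap) (u := g.1 z) (u' := v)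
    (fun a => z7 ((g.2.1 z z).symm.trans (o1 _ a))) (fun a => v3 (ho v a v v1))
    (v2.trans (g.2.2 z).symm) fun a ha => (ho a ha v v1).trans (o1 a ha).symm
  refine ⟨v, v1, v3, ⟨k, k1⟩ * g, ?_⟩
  rw [← Submodule.eq_of_le_of_finrank_eq (sup_le y1 ((Submodule.span_singleton_le_iff_mem _ _).mpr
    (z1 z5))) (by rw [(nondegOn_sup_span h y2 z7 fun a ha => z3 a ha z z5).2]; omega),
    map_mul_isom, Submodule.map_sup, Submodule.map_sup, Submodule.map_span, Submodule.map_span,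
    Set.image_singleton, Set.image_singleton]
  congr 1
  · exact le_antisymm (by rintro _ ⟨a, ha, rfl⟩; exact (k2 a ha).symm ▸ ha)
      fun a ha => ⟨a, ha, k2 a ha⟩
  · exact congrArg (fun x => Submodule.span F {x}) k3

end quad

end Cfsg.Agent.H10
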