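import Mathlib
import Cfsg.Prelude.Def_GeometricClasses
import Cfsg.Agent.H10.Elus4

/-! Elements of prime order of projective classical groups fixing a subspace of a given class. -/

namespace Cfsg.Agent.H10

open Module Polynomial H11 L0

universe u

variable {F : Type u} [Field F] {σ : F →+* F} {ε κ : F} {τ : F →+ F} {r d D t : ℕ}
  {V : Type*} [AddCommGroup V] [Module F V]
  {B : V →ₛₗ[σ] V →ₗ[F] F} {Q : V → F} {U W : Submodule F V} {y : Isom B Q}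
  {Ω : Submodule F V → Prop}

/-- `y` fixes a member of `Ω`. -/
def Fx (y : Isom B Q) (Ω : Submodule F V → Prop) : Prop := ∃ W, Ω W ∧ ∀ x ∈ W, y.1 x ∈ W

/-- Every element of order `r` of the projective group fixes a member of `Ω`. -/
def Elu (G : Subgroup (Isom B Q)) (r : ℕ) (Ω : Submodule F V → Prop) : Prop :=
  ∀ y ∈ G, (∃ z : F, ∀ v, (y ^ r).1 v = z • v) → (∀ z : F, ¬ ∀ v, y.1 v = z • v) → Fx y Ω

theorem Fx.conj (hΩ : ∀ W (g : Isom B Q), Ω W → Ω (W.map g.1.toLinearMap)) {y' : Isom B Q}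
    (h : Fx y Ω) (hc : IsConj y y') : Fx y' Ω := by
  obtain ⟨W, h1, h2⟩ := h
  obtain ⟨g, rfl⟩ := isConj_iff.mp hc
  exact ⟨_, hΩ W g h1, by rintro _ ⟨x, hx, rfl⟩; exact ⟨_, h2 x hx, by simp⟩⟩

theorem Fx.of_smul {y' : Isom B Q} {c : F} (h : Fx y' Ω) (hc : ∀ v, y.1 v = c • y'.1 v) : Fx y Ω :=
  h.imp fun W h => ⟨h.1, fun x hx => hc x ▸ W.smul_mem c (h.2 x hx)⟩

theorem elu_congr {G : Subgroup (Isom B Q)} {Ω' : Submodule F V → Prop} (h : ∀ W, Ω W ↔ Ω' W) :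
    Elu G r Ω ↔ Elu G r Ω' := by rw [funext fun W => propext (h W)]

theorem elu_iff_mat {ι : Type} [Fintype ι] [DecidableEq ι] {B : (ι → F) →ₛₗ[σ] (ι → F) →ₗ[F] F}
    {Q : (ι → F) → F} {G : Subgroup (Isom B Q)} {H : Type*} [Monoid H] (ρ : H →* Matrix ι ι F)
    (P : H → Prop) (h1 : ∀ x, P x → ∃ y ∈ G, ∀ v, y.1 v = (ρ x).mulVec v)
    (h2 : ∀ y ∈ G, ∃ x, P x ∧ ∀ v, y.1 v = (ρ x).mulVec v) {Ω : Submodule F (ι → F) → Prop} :
    (∀ x, P x → (∃ z : F, ρ (x ^ r) = z • 1) → (∀ z : F, ρ x ≠ z • 1) →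
      ∃ W, Ω W ∧ W.map (Matrix.toLin' (ρ x)) ≤ W) ↔ Elu G r Ω := by
  have key : ∀ x (y : Isom B Q), (∀ v, y.1 v = (ρ x).mulVec v) →
      (((∃ z : F, ρ (x ^ r) = z • 1) → (∀ z : F, ρ x ≠ z • 1) →
        ∃ W, Ω W ∧ W.map (Matrix.toLin' (ρ x)) ≤ W) ↔ ((∃ z : F, ∀ v, (y ^ r).1 v = z • v) →
          (∀ z : F, ¬ ∀ v, y.1 v = z • v) → Fx y Ω)) := fun x y e => by
    have e' : ∀ k v, (y ^ k).1 v = (ρ (x ^ k)).mulVec v := fun k => by
      induction k with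
      | zero => simp
      | succ k ih => intro v; rw [pow_succ, pow_succ, map_mul, ← Matrix.mulVec_mulVec, ← e, ← ih]; rfl
    simp only [matrix_eq_iff_mulVec, Matrix.smul_mulVec, Matrix.one_mulVec, e, e', Fx, Ne,
      Submodule.map_le_iff_le_comap]
    rfl
  exact ⟨fun H y hy => have ⟨x, a, b⟩ := h2 y hy; (key x y b).mp (H x a),
    fun H x hx => have ⟨y, a, b⟩ := h1 x hx; (key x y b).mpr (H y a)⟩

theorem elu_sp {l : Type} [Fintype l] [DecidableEq l] {Ω : Submodule F (l ⊕ l → F) → Prop} :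
    (∀ x : Matrix.symplecticGroup l F, (∃ z : F, (x ^ r).1 = z • 1) → (∀ z : F, x.1 ≠ z • 1) →
      ∃ W, Ω W ∧ W.map (Matrix.toLin' x.1) ≤ W) ↔
      Elu (σ := RingHom.id F) (B := spBilin l F) (Q := fun _ => 0) ⊤ r Ω := by
  rw [← elu_iff_mat (G := ⊤) (Matrix.symplecticGroup l F).subtype (fun _ => True)
    (fun x _ => ⟨spIso l F x, trivial, spIso_apply x⟩) fun y _ => ⟨(spIso l F).symm y, trivial,
      fun v => by simpa using spIso_apply ((spIso l F).symm y) v⟩]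
  simp

theorem elu_omega {ι : Type} [Fintype ι] [DecidableEq ι] {B : (ι → F) →ₗ[F] (ι → F) →ₗ[F] F}
    {Q : (ι → F) → F} (h : IsQuad B Q) {Ω : Submodule F (ι → F) → Prop} :
    (∀ x : GL ι F, x ∈ Geo.omegaGL Q → (∃ z : F, (x ^ r).1 = z • 1) → (∀ z : F, x.1 ≠ z • 1) →
      ∃ W, Ω W ∧ W.map (Matrix.toLin' x.1) ≤ W) ↔ Elu (commutator (Isom B Q)) r Ω :=
  elu_iff_mat (Units.coeHom _) _ (by
    rintro _ ⟨x, hx, rfl⟩; exact ⟨_, (mem_Omega_iff h x).mp hx, oEquiv_apply h x⟩)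
    fun y hy => ⟨_, ⟨(oEquiv h).symm y, (mem_Omega_iff h _).mpr (by simpa), rfl⟩,
      fun v => (oEquiv_symm_mulVec h y v).symm⟩

theorem elu_omega' {ι : Type} [Fintype ι] [DecidableEq ι] {B : (ι → F) →ₗ[F] (ι → F) →ₗ[F] F}
    {Q : (ι → F) → F} (h : IsQuad B Q) [Fact r.Prime] {Ω : Submodule F (ι → F) → Prop} :
    (∀ x : GL ι F, x ∈ Geo.omegaGL Q → orderOf x = r → ∃ W, Ω W ∧ W.map (Matrix.toLin' x.1) ≤ W) ↔
      ∀ y ∈ commutator (Isom B Q), y ^ r = 1 → y ≠ 1 → Fx y Ω := by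
  have key : ∀ x : isometryGroup F Q, (orderOf x.1 = r → ∃ W, Ω W ∧ W.map (Matrix.toLin' x.1.1) ≤ W)
      ↔ ((oEquiv h x) ^ r = 1 → oEquiv h x ≠ 1 → Fx (oEquiv h x) Ω) := fun x => by
    rw [Subgroup.orderOf_coe, ← (oEquiv h).orderOf_eq, orderOf_eq_prime_iff, and_imp]
    simp only [Fx, oEquiv_apply, Submodule.map_le_iff_le_comap]
    rfl
  constructor
  · intro H y hy
    obtain ⟨x, rfl⟩ := (oEquiv h).surjective y
    exact (key x).mp (H _ ⟨x, (mem_Omega_iff h x).mpr hy, rfl⟩)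
  · rintro H _ ⟨x, hx, rfl⟩
    exact (key x).mpr (H _ ((mem_Omega_iff h x).mp hx))

theorem elu_su {q n : ℕ} (hq : QConj σ q) {Ω : Submodule F (Fin n → F) → Prop} :
    (∀ x : Matrix.SpecialLinearGroup (Fin n) F, x ∈ SU n F q → (∃ z : F, (x ^ r).1 = z • 1) →
      (∀ z : F, x.1 ≠ z • 1) → ∃ W, Ω W ∧ W.map (Matrix.toLin' x.1) ≤ W) ↔
      Elu (SIsom (hermB (Fin n) σ)) r Ω :=
  elu_iff_mat (H := Matrix.SpecialLinearGroup (Fin n) F) ⟨⟨Subtype.val, rfl⟩, fun _ _ => rfl⟩ _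
    (fun x hx => ⟨_, (suEquiv hq n ⟨x, hx⟩).2, suEquiv_apply hq _⟩) fun y hy =>
      ⟨_, ((suEquiv hq n).symm ⟨y, hy⟩).2, fun v => by
        have := suEquiv_apply hq ((suEquiv hq n).symm ⟨y, hy⟩) v
        rwa [MulEquiv.apply_symm_apply] at this⟩

theorem norm_of_scalar (hB : B.SeparatingLeft) [Nontrivial V] {z : F} (hz : ∀ v, y.1 v = z • v) :
    σ z * z = 1 := by
  obtain ⟨v, hv⟩ := exists_ne (0 : V)
  by_contra h
  refine hv (hB v fun w => mul_left_cancel₀ (sub_ne_zero.mpr h) ?_)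
  have := y.2.1 v w
  simp only [hz, map_smulₛₗ, LinearMap.smul_apply, smul_eq_mul, RingHom.id_apply] at this
  linear_combination this

theorem isom_pow_of_scalar {z : F} (hz : ∀ v, y.1 v = z • v) (k : ℕ) (v : V) :
    (y ^ k).1 v = z ^ k • v := by
  induction k with
  | zero => simp
  | succ k ih => rw [pow_succ', pow_succ', mul_smul, ← ih, ← hz]; rfl

section id
variable {B : V →ₗ[F] V →ₗ[F] F} {G : Subgroup (Isom B Q)} [Nontrivial V]

theorem elu_odd (hB : B.SeparatingLeft) (hr : Odd r) (hG : ∀ y : Isom B Q, y * y ∈ G) :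
    Elu G r Ω ↔ ∀ y : Isom B Q, y ^ r = 1 → y ≠ 1 → Fx y Ω := by
  obtain ⟨k, rfl⟩ := hr
  constructor
  · refine fun H y h1 h2 => H y ?_ ⟨1, by simp [h1]⟩ fun z hz => h2 ?_
    · rw [show y = y ^ (k + 1) * y ^ (k + 1) by
        rw [← pow_add, show k + 1 + (k + 1) = 2 * k + 1 + 1 by ring, pow_succ, h1, one_mul]]
      exact hG _
    · have h3 : z * z = 1 := norm_of_scalar hB hz
      refine Subtype.ext (LinearEquiv.ext fun v => ?_)
      have := isom_pow_of_scalar hz (2 * k + 1) v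
      rw [h1, pow_succ, pow_mul, sq, h3, one_pow, one_mul, ← hz] at this
      exact this.symm
  · rintro H y - ⟨z, hz⟩ h1
    have h3 : z * z = 1 := norm_of_scalar hB hz
    have h4 : ∀ v, y.1 v = z • (y ^ (2 * k + 1 + 1)).1 v := fun v => by
      rw [pow_succ]; change _ = z • (y ^ (2 * k + 1)).1 (y.1 v); rw [hz, smul_smul, h3, one_smul]
    refine (H _ (Subtype.ext (LinearEquiv.ext fun v => ?_)) fun e => h1 z ?_).of_smul h4
    · rw [← pow_mul, mul_comm, pow_mul, isom_pow_of_scalar hz, show 2 * k + 1 + 1 = 2 * (k + 1) by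
        ring, pow_mul, sq, h3]
      simp
    · simpa [e] using h4

theorem elu_two (hB : B.SeparatingLeft) (h2 : (2 : F) ≠ 0) : Elu G 2 Ω ↔
    (∀ y ∈ G, y * y = 1 → y ≠ 1 → (¬ ∀ v, y.1 v = -v) → Fx y Ω) ∧
      ∀ y ∈ G, (∀ v, y.1 (y.1 v) = -v) → Fx y Ω := by
  constructor
  · refine fun H => ⟨fun y hy h1 h3 h4 => H y hy ⟨1, by simp [sq, h1]⟩ fun z hz => ?_,
      fun y hy h1 => H y hy ⟨-1, by simpa [sq] using h1⟩ fun z hz => ?_⟩
    · rcases mul_self_eq_one_iff.mp (norm_of_scalar hB hz) with rfl | rfl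
      · exact h3 (Subtype.ext (LinearEquiv.ext (by simpa using hz)))
      · exact h4 (by simpa using hz)
    · obtain ⟨v, hv⟩ := exists_ne (0 : V)
      have h3 : z * z = 1 := norm_of_scalar hB hz
      have := h1 v
      rw [hz, hz, smul_smul, h3, one_smul, eq_neg_iff_add_eq_zero, ← two_smul F] at this
      exact hv ((smul_eq_zero.mp this).resolve_left h2)
  · rintro ⟨H, H'⟩ y hy ⟨z, hz⟩ h1
    rcases mul_self_eq_one_iff.mp (norm_of_scalar hB hz) with rfl | rfl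
    · exact H y hy (Subtype.ext (LinearEquiv.ext (by simpa [sq] using hz)))
        (fun e => h1 1 (by simp [e])) fun e => h1 (-1) (by simpa using e)
    · exact H' y hy (by simpa [sq] using hz)

theorem elu_char_two (hB : B.SeparatingLeft) [CharP F 2] : Elu G 2 Ω ↔
    ∀ y ∈ G, y * y = 1 → y ≠ 1 → Fx y Ω := by
  have h0 : ∀ (y : Isom B Q) (z : F), (∀ v, y.1 v = z • v) → y = 1 := fun y z hz => by
    obtain rfl : z = 1 := by
      simpa [CharTwo.neg_eq] using mul_self_eq_one_iff.mp (norm_of_scalar hB hz)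
    exact Subtype.ext (LinearEquiv.ext (by simpa using hz))
  exact ⟨fun H y hy h1 h3 => H y hy ⟨1, by simp [sq, h1]⟩ fun z hz => h3 (h0 y z hz),
    fun H y hy ⟨z, hz⟩ h1 => H y hy (sq y ▸ h0 _ z hz) fun e => h1 1 (by simp [e])⟩

end id

variable [FiniteDimensional F V]

theorem exists_isom_restrict (hW : ∀ x ∈ W, y.1 x ∈ W) :
    ∃ g : Isom (pull B W.subtype) fun x => Q x, ∀ x, (g.1 x : V) = y.1 x :=
  ⟨⟨LinearEquiv.ofInjectiveEndo (y.1.toLinearMap.restrict hW) fun _ _ e =>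
    Subtype.ext (y.1.injective (congrArg Subtype.val e)), fun a b => y.2.1 a b, fun a => y.2.2 a⟩,
    fun _ => rfl⟩

variable [Finite F]

namespace OD
variable (O : OD σ r d D t) (h : IsForm ε κ τ B Q) (hB : B.SeparatingLeft)
include O h hB

/-- Reduction of the non-degenerate case to arithmetic. -/
theorem fix_iff (P : Par σ ε κ τ) (hΩ : ∀ W, Ω W → NondegOn B W) {A : ℕ → Prop}
    {R : ℕ → ℕ → Prop} (H1 : ∀ (y : Isom B Q) k, y ^ r = 1 → finrank F (movS y.1) = k * D →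
      A k ∧ ∀ j, ∀ U ≤ movS y.1, NondegOn B U → (∀ x ∈ U, y.1 x ∈ U) → finrank F U = j * D →
        ((∃ U' ≤ H11.fixS y.1, NondegOn B U' ∧ Ω (U ⊔ U')) ↔ R k j))
    (H2 : ∀ k, A k → Adm ε κ τ B Q r (k * D)) :
    (∀ y : Isom B Q, y ^ r = 1 → y ≠ 1 → Fx y Ω) ↔ ∀ k, 0 < k → A k → ∃ j ≤ k, R k j := by
  have := O.pos
  constructor
  · intro H k hk hA
    obtain ⟨y, h1, h2⟩ := O.exists_elt' h hB P (H2 k hA)
    obtain ⟨W, h3, h4⟩ := H y h1
      fun e => (Nat.mul_pos hk this.2.2).ne' (h2 ▸ finrank_movS_eq_zero.mpr (by rw [e]; rfl))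
    obtain ⟨U, u1, U', u2, u3, u4, rfl, u5, -, j, u6, -⟩ := O.nondeg_decomp h hB h1 h4 (hΩ _ h3)
    exact ⟨j, Nat.le_of_mul_le_mul_right (u6 ▸ h2 ▸ Submodule.finrank_mono u1) this.2.2,
      ((H1 y k h1 h2).2 j U u1 u3 u5 u6).mp ⟨U', u2, u4, h3⟩⟩
  · intro H y hy h1
    obtain ⟨k, hk⟩ := O.exists_finrank_movS h hB hy
    obtain ⟨j, h2, h3⟩ := H k (Nat.pos_of_ne_zero fun e => h1 (Subtype.ext
      (finrank_movS_eq_zero.mp (by simp [hk, e])))) (H1 y k hy hk).1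
    obtain ⟨U, u1, u2, u3, u4⟩ := O.exists_nondeg h hB hy P (j := j) (hk ▸ Nat.mul_le_mul_right _ h2)
    obtain ⟨U', u5, -, u6⟩ := ((H1 y k hy hk).2 j U u1 u2 u3 u4).mpr h3
    refine ⟨_, u6, fun x hx => ?_⟩
    obtain ⟨a, ha, b, hb, rfl⟩ := Submodule.mem_sup.mp hx
    rw [map_add, H11.mem_fixS.mp (u5 hb)]
    exact Submodule.add_mem_sup (u3 a ha) hb

theorem exists_k (hne : ∃ W, Ω W)
    (H : ∀ W, Ω W → ∀ U, Ω U ↔ ∃ g : Isom B Q, W.map g.1.toLinearMap = U)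
    (hd : r ∣ Nat.card {U // Ω U}) : ∃ (y : Isom B Q) (k : ℕ), y ^ r = 1 ∧ 0 < k ∧
      finrank F (movS y.1) = k * D ∧ ∀ W ≤ H11.fixS y.1, ¬ Ω W := by
  obtain ⟨y, h1, h2, h3⟩ := exists_elt_of_dvd h hB O.prime O.ne hne H hd
  obtain ⟨k, hk⟩ := O.exists_finrank_movS h hB h1
  exact ⟨y, k, h1, Nat.pos_of_ne_zero fun e => h2 (Subtype.ext
    (finrank_movS_eq_zero.mp (by simp [hk, e]))), hk, h3⟩

/-- The totally singular case when all Witt indices are maximal. -/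
theorem totSing_max (P : Par σ ε κ τ) {m : ℕ} (hm : 2 * m ≤ finrank F V)
    (H1 : ∀ y : Isom B Q, y ^ r = 1 →
      WittIdx (pull B (H11.fixS y.1).subtype) (fun x => Q x) (finrank F (H11.fixS y.1) / 2))
    (H2 : ∀ k, k * D ≤ finrank F V → Adm ε κ τ B Q r (k * D))
    (hd : r ∣ Nat.card {U : Submodule F V // finrank F U = m ∧ TotSing B Q U}) :
    (∀ y : Isom B Q, y ^ r = 1 → y ≠ 1 → Fx y fun W => finrank F W = m ∧ TotSing B Q W) ↔
      d ≤ m ∧ 2 * (m % d) ≤ finrank F V % D ∧ (D ≠ d ∨ t + 2 * (m / d) ≤ finrank F V / d) := by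
  have h1 : ∀ y : Isom B Q, y ^ r = 1 → ∀ b, (∃ U ≤ H11.fixS y.1, TotSing B Q U ∧ finrank F U = b)
      ↔ b ≤ finrank F (H11.fixS y.1) / 2 := fun y hy b =>
    exists_totSing_le h (nondegOn_fixS h hB y.2 (isom_disjoint hy O.ne)) (H1 y hy)
  obtain ⟨y, k, y1, y2, y3, y4⟩ := O.exists_k h hB (by
    obtain ⟨U, -, u⟩ := (h1 1 (one_pow r) m).mpr (by
      rw [(fixS_eq_top (g := (1 : Isom B Q).1)).mpr rfl, finrank_top]; omega)
    exact ⟨U, u.symm⟩) (totSing_orbit h hB) hd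
  have y5 := finrank_movS_add y.1
  have y6 := (h1 y y1 m).not.mp fun ⟨U, u1, u2⟩ => y4 U u1 u2.symm
  rw [← arith_ts O.pos.1 O.pos.2.1 (O.cases.imp And.right And.right) hm
    ⟨k, y2, by omega, by rw [← y3]; omega⟩, ← O.totSing_iff h hB P (fun y k a b => by
      have := finrank_movS_add y.1
      exact ⟨by omega, by rw [← b, ← this, add_tsub_cancel_left]; exact H1 y a⟩) H2]
  simp only [Fx, and_assoc]

/-- The non-degenerate case. -/
theorem nondeg_red (P : Par σ ε κ τ) {m : ℕ} (hm : 0 < m) (hmn : m < finrank F V)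
    (hΩ : ∀ W, Ω W → NondegOn B W) {A : Prop} {T : ℕ → Prop} {S : ℕ → ℕ → Prop}
    (hS : ∀ k j, finrank F V / D = k + 1 → m / D = j + 1 → ¬ A → ¬ T (j + 1) → S k j)
    (H1 : ∀ (y : Isom B Q) k, y ^ r = 1 → finrank F (movS y.1) = k * D →
      (k * D = finrank F V → A) ∧ ∀ j, ∀ U ≤ movS y.1, NondegOn B U → (∀ x ∈ U, y.1 x ∈ U) →
        finrank F U = j * D → ((∃ U' ≤ H11.fixS y.1, NondegOn B U' ∧ Ω (U ⊔ U')) ↔
          ∃ b ≤ finrank F (H11.fixS y.1), m = j * D + b ∧ (b = 0 → T j) ∧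
            (b = finrank F (H11.fixS y.1) → S k j)))
    (H2 : ∀ k, k * D ≤ finrank F V → (k * D = finrank F V → A) → Adm ε κ τ B Q r (k * D))
    (hne : ∃ W, Ω W) (H : ∀ W, Ω W → ∀ U, Ω U ↔ ∃ g : Isom B Q, W.map g.1.toLinearMap = U)
    (hd : r ∣ Nat.card {U // Ω U}) :
    (m < D → m / D = 0 ∧ m % D = m ∧ (finrank F V % D = 0 → A) ∧
      ¬ (m ≤ finrank F V % D ∧ (m = finrank F V % D → S (finrank F V / D) 0))) ∧
    ((∀ y : Isom B Q, y ^ r = 1 → y ≠ 1 → Fx y Ω) ↔ ((finrank F V % D = 0 → A) →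
      m % D ≤ finrank F V % D ∧ (m % D = 0 → T (m / D)) ∧
        (m % D = finrank F V % D → S (finrank F V / D) (m / D)))) := by
  obtain ⟨y, k, y1, y2, y3, y4⟩ := O.exists_k h hB hne H hd
  have y5 := finrank_movS_add y.1
  obtain ⟨y6, y7⟩ := H1 y k y1 y3
  obtain ⟨a1, a2⟩ := arith_nd0 (m := m) (S := fun k => S k 0) y2 (show k * D ≤ finrank F V by omega)
    y6 fun ⟨a, b⟩ => by
      obtain ⟨U, u1, -, u2⟩ := (y7 0 ⊥ bot_le (fun x hx _ => hx) (by simp) (by simp)).mpr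
        ⟨m, by omega, by simp, by omega, fun e => b (by omega)⟩
      exact y4 U u1 (by simpa using u2)
  refine ⟨a2, ?_⟩
  rw [← arith_nd O.pos.2.2 hm hmn a1 hS]
  refine O.fix_iff h hB P hΩ (fun y k a b => ?_) fun k a => H2 k a.1 a.2
  have := finrank_movS_add y.1
  rw [show finrank F V - k * D = finrank F (H11.fixS y.1) by omega]
  exact ⟨⟨by omega, (H1 y k a b).1⟩, (H1 y k a b).2⟩

end OD

section quad
variable {B : V →ₗ[F] V →ₗ[F] F} {y : Isom B Q} (O : OD (RingHom.id F) r d D t) (h : IsQuad B Q)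
  (hD : Even D)
include O h hD

theorem OD.pl_top (hB : B.SeparatingLeft) (hy : y ^ r = 1) (h1 : X - 1 ∉ tyE y.1.toLinearMap) {j : ℕ}
    (hj : finrank F V = j * D) : WittIdx B Q (finrank F V / 2) ↔ (D = d → Even j) := by
  have := Fact.mk O.prime
  have : Fact (2 < r) := ⟨lt_of_le_of_ne O.prime.two_le O.odd.symm⟩
  obtain ⟨m, hm⟩ := hD.mul_left j
  rcases m with _ | m
  · obtain rfl : j = 0 := by have := O.pos; simp at hm; omega
    exact iff_of_true (by simpa [hj] using h.wittIdx_of_totSing hB h.totSing_bot (by simp [hj]))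
      (by simp)
  have h2 : finrank F V = 2 * (m + 1) := by omega
  have h3 := fpf_congr h hB O.prime O.ne y (isom_lin_pow hy) h1 h2
  rw [show finrank F V / 2 = m + 1 by omega]
  trans ((Nat.card F : ℕ) : ZMod r) ^ (m + 1) = 1
  · exact ⟨h3.1, fun e => (h.wittIdx_even_cases hB h2).resolve_right fun a =>
      ZMod.neg_one_ne_one ((h3.2 a).symm.trans e)⟩
  rw [← orderOf_dvd_iff_pow_eq_one, ← O.hd]
  have h4 := O.pos.1
  rcases O.cases with ⟨-, rfl⟩ | ⟨-, rfl⟩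
  · refine ⟨fun ⟨c, hc⟩ _ => ⟨c, Nat.eq_of_mul_eq_mul_right h4 (by rw [hm, hc]; ring)⟩, fun e => ?_⟩
    obtain ⟨c, rfl⟩ := e rfl
    exact ⟨c, by rw [add_mul] at hm; rw [mul_comm]; omega⟩
  · exact iff_of_true ⟨j, by rw [mul_left_comm] at hm; rw [mul_comm]; omega⟩ (by omega)

theorem OD.pl_iff (hy : y ^ r = 1) (hU : NondegOn B U) (h1 : ∀ x ∈ U, y.1 x ∈ U)
    (h2 : U ≤ movS y.1) {j : ℕ} (hj : finrank F U = j * D) : Pl B Q U ↔ (D = d → Even j) := by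
  obtain ⟨g, hg⟩ := exists_isom_restrict h1
  have h3 : g.1.toLinearMap = y.1.toLinearMap.restrict h1 := LinearMap.ext fun x => Subtype.ext (hg x)
  rw [← O.pl_top (h.restrict U) hD (nondegOn_iff.mp hU) (y := g) (isom_pow_of_lin
    (h3 ▸ restrict_pow_eq_one (isom_lin_pow hy) h1)) (fun e => (O.nt_of_le hy ⟨h1, h3 ▸ rfl⟩ h2 _ e).2
      rfl) hj]
  exact pl_iff_wittIdx h hU (Nat.two_mul_div_two_of_even (hj ▸ hD.mul_left j)).symm

omit O hD in
theorem pl_top_iff (hB : B.SeparatingLeft) {m : ℕ} (hm : finrank F V = 2 * m) :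
    Pl B Q ⊤ ↔ WittIdx B Q m :=
  (pl_iff_wittIdx h (nondegOn_top hB) (by simpa)).trans
    ⟨.congr Submodule.topEquiv (by simp) (by simp), .congr Submodule.topEquiv.symm (by simp) (by simp)⟩

theorem OD.adm_even (hB : B.SeparatingLeft) (he : Even (finrank F V)) {k : ℕ}
    (hk : k * D ≤ finrank F V) (hA : k * D = finrank F V → ((D = d → Even k) ↔ Pl B Q ⊤)) :
    OD.Adm (σ := RingHom.id F) 1 2 (AddMonoidHom.id F) B Q r (k * D) := by
  intro s s1 s2 s3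
  rcases hk.lt_or_eq with hk | hk
  · obtain ⟨a, ha⟩ := hD.mul_left k
    obtain ⟨b, hb⟩ := id he
    exact realIn_quad_even h hB s1 he (j := b - a - 1) (by omega)
  obtain ⟨W, _, _, _, C, R, w1, w2, w3⟩ := s1
  have w4 := w3.finrank_eq.trans s3
  obtain ⟨g, rfl⟩ := id w3
  have w5 := O.pl_top w1 hD w2 (y := g) (isom_pow_of_lin ((pow_eq_one_iff_tyE _ _).mpr
    fun u hu => (s2 u hu).1.2.2)) (fun hu => (s2 _ hu).2 rfl) w4
  rw [← pl_top_iff w1 w2 (Nat.two_mul_div_two_of_even (w4 ▸ hD.mul_left k)).symm, hA hk] at w5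
  obtain ⟨e, e1, e2⟩ := exists_equiv_of_pl w1 h (nondegOn_top w2) (nondegOn_top hB)
    (by simpa [w4] using hD.mul_left k) (by simp [w4, hk]) w5
  exact ⟨0, by
    simpa using w3.sim (Submodule.topEquiv.symm.trans (e.trans Submodule.topEquiv)) (a := 1)
      (by simp [e1]) (by simp [e2])⟩

theorem OD.pl_fix (hB : B.SeparatingLeft) (he : Even (finrank F V)) (hy : y ^ r = 1) {k : ℕ}
    (hk : finrank F (movS y.1) = k * D) : Even (finrank F (H11.fixS y.1)) ∧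
      (Pl B Q (H11.fixS y.1) ↔ ((D = d → Even k) ↔ Pl B Q ⊤)) := by
  have hd := isom_disjoint hy O.ne
  have h1 := hk ▸ hD.mul_left k
  have h2 := ((Nat.even_add.mp (finrank_movS_add y.1 ▸ he)).mp h1)
  rw [← O.pl_iff h hD hy (nondegOn_movS h hB y.2 hd) (movS_inv y.1) le_rfl hk,
    ← (isCompl_movS h hB y.2 hd).sup_eq_top, pl_sup h hB (nondegOn_movS h hB y.2 hd)
      (nondegOn_fixS h hB y.2 hd) (fun a ha b hb => (orth_movS_fixS h hB y.2 ha hb).1) h1 h2]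
  tauto

end quad

end Cfsg.Agent.H10
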