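import Mathlib
import Cfsg.Agent.H10.Elus5

/-! Involutions of projective classical groups and their invariant subspaces. -/

namespace Cfsg.Agent.H10

open Module Polynomial H11 L0

universe u

variable {F : Type u} [Field F] {σ : F →+* F} {ε κ : F} {τ : F →+ F}
  {V : Type*} [AddCommGroup V] [Module F V]
  {B : V →ₛₗ[σ] V →ₗ[F] F} {Q : V → F} {U W : Submodule F V} {y : Isom B Q}
  {Ω : Submodule F V → Prop}

theorem isom_mul_self (hy : y * y = 1) (v : V) : y.1 (y.1 v) = v :=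
  LinearEquiv.congr_fun (congrArg Subtype.val hy) v

theorem mem_movS_invol (hy : y * y = 1) (h2 : (2 : F) ≠ 0) {x : V} :
    x ∈ movS y.1 ↔ y.1 x = -x := by
  refine mem_movS.trans ⟨?_, fun h => ⟨-(2 : F)⁻¹ • x, ?_⟩⟩
  · rintro ⟨v, rfl⟩; simp [isom_mul_self hy]
  · rw [map_smul, h, ← smul_sub, ← neg_add', ← two_smul F, smul_neg, smul_smul, neg_mul,
      inv_mul_cancel₀ h2]
    simp

theorem invol_disjoint (hy : y * y = 1) (h2 : (2 : F) ≠ 0) : Disjoint (movS y.1) (H11.fixS y.1) :=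
  isom_disjoint (n := 2) (sq y ▸ hy) (by exact_mod_cast h2)

theorem fx_of_split (hy : y * y = 1) (h2 : (2 : F) ≠ 0) (hU : U ≤ movS y.1)
    (hW : W ≤ H11.fixS y.1) (h : Ω (U ⊔ W)) : Fx y Ω := ⟨_, h, fun x hx => by
  obtain ⟨a, ha, b, hb, rfl⟩ := Submodule.mem_sup.mp hx
  rw [map_add, (mem_movS_invol hy h2).mp (hU ha), H11.mem_fixS.mp (hW hb)]
  exact Submodule.add_mem_sup (U.neg_mem ha) hb⟩

variable [FiniteDimensional F V]

theorem Fx.split (hy : y * y = 1) (h2 : (2 : F) ≠ 0) (h : Fx y Ω) :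
    ∃ U ≤ movS y.1, ∃ W ≤ H11.fixS y.1, Ω (U ⊔ W) :=
  have ⟨_, h1, h3⟩ := h
  ⟨_, inf_le_right, _, inf_le_right, (inf_mov_sup_fix (invol_disjoint hy h2) h3).symm ▸ h1⟩

theorem exists_invol_neg (h : IsForm ε κ τ B Q) (hB : B.SeparatingLeft) (h2 : (2 : F) ≠ 0)
    (hW : NondegOn B W) : ∃ y : Isom B Q, y * y = 1 ∧ movS y.1 = W := by
  have hs := h.isOrthSum_of_isCompl (h.isCompl_perp hB hW) fun a ha b hb => mem_perp.mp hb a ha
  let n : Isom (pull B W.subtype) fun x => Q x :=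
    ⟨LinearEquiv.neg F, fun a b => by simp, fun a => by simpa using h.neg a⟩
  have h1 : orthSumHom hs (n, 1) * orthSumHom hs (n, 1) = 1 := by
    rw [← map_mul, ← map_one (orthSumHom hs)]
    congr 1
    exact Prod.ext (Subtype.ext (LinearEquiv.ext fun x => neg_neg x)) (mul_one _)
  refine ⟨_, h1, Submodule.ext fun x => (mem_movS_invol h1 h2).trans ?_⟩
  obtain ⟨⟨a, b⟩, rfl⟩ := (W.prodEquivOfIsCompl _ (h.isCompl_perp hB hW)).surjective x
  rw [orthSumHom_apply, ← map_neg, EmbeddingLike.apply_eq_iff_eq]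
  simp only [n, Prod.neg_mk, Prod.mk.injEq, Submodule.coe_prodEquivOfIsCompl']
  refine ⟨fun e => ?_, fun e => ⟨rfl, ?_⟩⟩
  · have : (2 : F) • b = 0 := by rw [two_smul]; exact eq_neg_iff_add_eq_zero.mp e.2
    simp [(smul_eq_zero.mp this).resolve_left h2]
  · obtain rfl : b = 0 := Subtype.ext (Submodule.disjoint_def.mp (h.isCompl_perp hB hW).disjoint _
      (by simpa using W.sub_mem e a.2) b.2)
    simp

theorem invol_data (h : IsForm ε κ τ B Q) (hB : B.SeparatingLeft) (h2 : (2 : F) ≠ 0)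
    (hy : y * y = 1) : NondegOn B (movS y.1) ∧ NondegOn B (H11.fixS y.1) ∧
      (∀ a ∈ movS y.1, ∀ b ∈ H11.fixS y.1, B a b = 0) ∧ movS y.1 ⊔ H11.fixS y.1 = ⊤ ∧
      finrank F (movS y.1) + finrank F (H11.fixS y.1) = finrank F V ∧
      (y ≠ 1 ↔ 0 < finrank F (movS y.1)) ∧
      ((¬ ∀ v, y.1 v = -v) ↔ 0 < finrank F (H11.fixS y.1)) := by
  have hd := invol_disjoint hy h2
  have h1 := finrank_movS_add y.1
  refine ⟨nondegOn_movS h hB y.2 hd, nondegOn_fixS h hB y.2 hd, fun a ha b hb =>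
    (orth_movS_fixS h hB y.2 ha hb).1, (isCompl_movS h hB y.2 hd).sup_eq_top, h1, ?_, ?_⟩
  · rw [pos_iff_ne_zero, Ne, Ne, finrank_movS_eq_zero, Subtype.ext_iff]; rfl
  · simp only [← mem_movS_invol hy h2, ← Submodule.eq_top_iff']
    exact ⟨fun e => Nat.pos_of_ne_zero fun a => e (Submodule.eq_top_of_finrank_eq (by omega)),
      fun e a => by rw [a, finrank_top] at h1; omega⟩

theorem exists_orth_compl_inv (h : IsForm ε κ τ B Q) (hB : B.SeparatingLeft) (hW : NondegOn B W)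
    (hU : NondegOn B U) (hle : U ≤ W) (h1 : ∀ x ∈ W, y.1 x ∈ W) (h2 : ∀ x ∈ U, y.1 x ∈ U) :
    ∃ U' ≤ W, NondegOn B U' ∧ U ⊔ U' = W ∧ (∀ a ∈ U, ∀ b ∈ U', B a b = 0) ∧
      finrank F U + finrank F U' = finrank F W ∧ ∀ x ∈ U', y.1 x ∈ U' := by
  obtain ⟨h3, h4⟩ := h.nondegOn_inf_perp hB hW hU hle
  have ho : ∀ a ∈ U, ∀ b ∈ W ⊓ perp B U, B a b = 0 := fun a ha b hb => mem_perp.mp hb.2 a ha
  exact ⟨_, inf_le_left, h3, Submodule.eq_of_le_of_finrank_eq (sup_le hle inf_le_left) (by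
    rw [finrank_sup_of_disjoint (disjoint_of_nondeg hU ho h)]; omega), ho, by omega,
    fun x hx => ⟨h1 x hx.1, isom_inv_perp (g := y.1.toLinearMap) hB y.2.1 h2 x hx.2⟩⟩

theorem inv_induction (h : IsForm ε κ τ B Q) (hB : B.SeparatingLeft) {p b : Submodule F V → Prop}
    (hb : ∀ W, NondegOn B W → (∀ x ∈ W, y.1 x ∈ W) → W ≠ ⊥ → ∃ P ≤ W, P ≠ ⊥ ∧ NondegOn B P ∧
      (∀ x ∈ P, y.1 x ∈ P) ∧ b P) (h0 : p ⊥)
    (hs : ∀ P U, b P → NondegOn B P → (∀ x ∈ P, y.1 x ∈ P) → NondegOn B U → (∀ x ∈ U, y.1 x ∈ U) →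
      (∀ a ∈ P, ∀ b ∈ U, B a b = 0) → p U → p (P ⊔ U))
    (hW : NondegOn B W) (h1 : ∀ x ∈ W, y.1 x ∈ W) : p W := by
  induction hn : finrank F W using Nat.strong_induction_on generalizing W with
  | _ n ih =>
    by_cases e : W = ⊥
    · exact e ▸ h0
    obtain ⟨P, p1, p2, p3, p4, p5⟩ := hb W hW h1 e
    obtain ⟨U, -, u1, u2, u3, u4, u5⟩ := exists_orth_compl_inv h hB hW p3 p1 h1 p4
    have := Nat.pos_of_ne_zero (mt Submodule.finrank_eq_zero.mp p2)
    exact u2 ▸ hs P U p5 p3 p4 u1 u5 u3 (ih _ (by omega) u1 u5 rfl)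

section cx
variable {B : V →ₗ[F] V →ₗ[F] F} {y : Isom B Q} (hy : ∀ v, y.1 (y.1 v) = -v)
include hy

theorem cx_even (h1 : ¬ IsSquare (-1 : F)) (hW : ∀ x ∈ W, y.1 x ∈ W) : Even (finrank F W) := by
  by_contra h2
  refine h1 ⟨LinearMap.det (y.1.toLinearMap.restrict hW), ?_⟩
  rw [← map_mul, show y.1.toLinearMap.restrict hW * y.1.toLinearMap.restrict hW = (-1 : F) • 1 from
    LinearMap.ext fun x => Subtype.ext (by simpa using hy x), LinearMap.det_smul,
    (Nat.not_even_iff_odd.mp h2).neg_one_pow]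
  simp

omit [FiniteDimensional F V] in
theorem cx_adj (a b : V) : B (y.1 a) b = -B a (y.1 b) := by rw [← y.2.1 a, hy, map_neg, neg_neg]

omit [FiniteDimensional F V] in
theorem cx_plane_inv (v : V) : ∀ x ∈ Submodule.span F {v, y.1 v},
    y.1 x ∈ Submodule.span F {v, y.1 v} := fun x hx => by
  obtain ⟨a, b, rfl⟩ := Submodule.mem_span_pair.mp hx
  exact Submodule.mem_span_pair.mpr ⟨-b, a, by simp [hy, add_comm]⟩

theorem cx_nondeg (h : IsForm ε κ τ B Q) (hB : B.SeparatingLeft)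
    (hb : ∀ W, NondegOn B W → (∀ x ∈ W, y.1 x ∈ W) → W ≠ ⊥ → ∃ P ≤ W, NondegOn B P ∧
      (∀ x ∈ P, y.1 x ∈ P) ∧ finrank F P = 2) (hW : NondegOn B W) (h1 : ∀ x ∈ W, y.1 x ∈ W) (j : ℕ) :
    2 * j ≤ finrank F W → ∃ U ≤ W, NondegOn B U ∧ (∀ x ∈ U, y.1 x ∈ U) ∧ finrank F U = 2 * j := by
  refine inv_induction h hB (b := fun P => finrank F P = 2) (p := fun W => ∀ j, 2 * j ≤ finrank F W →
    ∃ U ≤ W, NondegOn B U ∧ (∀ x ∈ U, y.1 x ∈ U) ∧ finrank F U = 2 * j) (fun W a b c => ?_)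
    (fun j hj => ⟨⊥, le_rfl, fun x hx _ => hx, by simp, by simp at hj; simp [hj]⟩)
    (fun P U p1 p2 p3 u1 u2 o ih j hj => ?_) hW h1 j
  · obtain ⟨P, p1, p2, p3, p4⟩ := hb W a b c
    exact ⟨P, p1, by rintro rfl; simp at p4, p2, p3, p4⟩
  rcases j with _ | j
  · exact ⟨⊥, bot_le, fun x hx _ => hx, by simp, by simp⟩
  rw [finrank_sup_of_disjoint (disjoint_of_nondeg p2 o h)] at hj
  obtain ⟨U', a1, a2, a3, a4⟩ := ih j (by omega)
  have o' := fun a ha b hb => o a ha b (a1 hb)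
  refine ⟨P ⊔ U', sup_le_sup_left a1 _, nondegOn_sup h p2 a2 o', fun x hx => ?_, by
    rw [finrank_sup_of_disjoint (disjoint_of_nondeg p2 o' h)]; omega⟩
  obtain ⟨a, ha, b, hb, rfl⟩ := Submodule.mem_sup.mp hx
  exact map_add y.1 a b ▸ Submodule.add_mem_sup (p3 a ha) (a3 b hb)

theorem cx_eigen (h : IsForm ε κ τ B Q) (hB : B.SeparatingLeft) (h2 : (2 : F) ≠ 0) {i : F}
    (hi : i * i = -1) : ∃ U W : Submodule F V, TotSing B Q U ∧ TotSing B Q W ∧ IsCompl U W ∧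
      2 * finrank F U = finrank F V ∧ (∀ x ∈ U, y.1 x = i • x) ∧ ∀ x ∈ W, y.1 x = -i • x := by
  have key : ∀ i : F, i * i = -1 → TotSing B Q (End.eigenspace y.1.toLinearMap i) := fun i hi =>
    ⟨fun x hx => mul_left_cancel₀ h2 (by
      have := y.2.2 x
      rw [show y.1 x = i • x from End.mem_eigenspace_iff.mp hx, h.smul, RingHom.id_apply, hi] at this
      linear_combination -this), fun x hx z hz => mul_left_cancel₀ h2 (by
      have := y.2.1 x z
      simp only [show y.1 x = i • x from End.mem_eigenspace_iff.mp hx, show y.1 z = i • z from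
        End.mem_eigenspace_iff.mp hz, map_smul, LinearMap.smul_apply, smul_eq_mul] at this
      linear_combination -this + B x z * hi)⟩
  have h1 := key i hi
  have h3 := key (-i) (by simpa)
  have h4 : End.eigenspace y.1.toLinearMap i ⊔ End.eigenspace y.1.toLinearMap (-i) = ⊤ :=
    eq_top_iff.mpr fun v _ => Submodule.mem_sup.mpr ⟨(2 : F)⁻¹ • (v - i • y.1 v),
      Submodule.smul_mem _ _ (End.mem_eigenspace_iff.mpr (by
        simp [hy, smul_sub, smul_smul, hi, add_comm])), (2 : F)⁻¹ • (v + i • y.1 v),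
      Submodule.smul_mem _ _ (End.mem_eigenspace_iff.mpr (by
        simp [hy, smul_smul, hi, add_comm])), by
      rw [← smul_add, sub_add_add_cancel, ← two_smul F, smul_smul, inv_mul_cancel₀ h2, one_smul]⟩
  have h5 := Submodule.finrank_sup_add_finrank_inf_eq (End.eigenspace y.1.toLinearMap i)
    (End.eigenspace y.1.toLinearMap (-i))
  have h6 := h.two_mul_finrank_le hB h1
  have h7 := h.two_mul_finrank_le hB h3
  rw [h4, finrank_top] at h5
  exact ⟨_, _, h1, h3, ⟨disjoint_iff.mpr (Submodule.finrank_eq_zero.mp (by omega)),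
    codisjoint_iff.mpr h4⟩, by omega, fun x => End.mem_eigenspace_iff.mp,
    fun x => End.mem_eigenspace_iff.mp⟩

theorem cx_totSing_iff (h : IsForm ε κ τ B Q) (hB : B.SeparatingLeft) (h2 : (2 : F) ≠ 0)
    (hb : ∀ W, NondegOn B W → (∀ x ∈ W, y.1 x ∈ W) → W ≠ ⊥ → ∃ P ≤ W, NondegOn B P ∧
      (∀ x ∈ P, y.1 x ∈ P) ∧ finrank F P = 2)
    (hu : ∀ W : Submodule F V, 3 ≤ finrank F W → ∃ u ∈ W, u ≠ 0 ∧ Q u = 0 ∧ B u (y.1 u) = 0)
    {m : ℕ} (hm : 2 * m ≤ finrank F V) :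
    (Fx y fun W => finrank F W = m ∧ TotSing B Q W) ↔ Even m ∨ IsSquare (-1 : F) := by
  by_cases h1 : IsSquare (-1 : F)
  · obtain ⟨i, hi⟩ := id h1
    obtain ⟨U, -, u1, -, -, u2, u3, -⟩ := cx_eigen hy h hB h2 hi.symm
    obtain ⟨W, w1, w2⟩ := exists_le_finrank_eq U (k := m) (by omega)
    exact iff_of_true ⟨W, ⟨w2, u1.mono w1⟩, fun x hx => u3 x (w1 hx) ▸ W.smul_mem _ hx⟩ (.inr h1)
  refine ⟨fun ⟨W, a, b⟩ => .inl (a.1 ▸ cx_even hy h1 b), fun a => ?_⟩
  obtain ⟨j, rfl⟩ := a.resolve_right h1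
  suffices H : ∀ W, NondegOn B W → (∀ x ∈ W, y.1 x ∈ W) → 2 * (j + j) ≤ finrank F W →
      ∃ T ≤ W, (finrank F T = j + j ∧ TotSing B Q T) ∧ ∀ x ∈ T, y.1 x ∈ T from
    (H ⊤ (nondegOn_top hB) (by simp) (by simpa)).imp fun _ => And.right
  clear hm a
  induction j with
  | zero => exact fun W _ _ _ => ⟨⊥, bot_le, ⟨by simp, h.totSing_bot⟩, by simp⟩
  | succ j ih =>
    intro W w1 w2 w3
    obtain ⟨X, x1, x2, x3, x4⟩ := cx_nondeg hy h hB hb w1 w2 2 (by omega)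
    obtain ⟨U, u0, u1, -, u3, u4, u5⟩ := exists_orth_compl_inv h hB w1 x2 x1 w2 x3
    obtain ⟨T, t1, ⟨t2, t3⟩, t4⟩ := ih U u1 u5 (by omega)
    obtain ⟨u, a1, a2, a3, a4⟩ := hu X (by omega)
    have b1 : Submodule.span F {u, y.1 u} ≤ X := Submodule.span_le.mpr (by
      rintro _ (rfl | rfl); exacts [a1, x3 u a1])
    have b2 : finrank F (Submodule.span F {u, y.1 u}) = 2 := by
      classical
      have c1 := cx_even hy h1 (cx_plane_inv hy u)
      have c2 := finrank_span_finset_le_card (R := F) ({u, y.1 u} : Finset V)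
      have c3 : finrank F (Submodule.span F {u, y.1 u}) ≠ 0 := fun e => a2 (by
        have := Submodule.finrank_eq_zero.mp e ▸ Submodule.subset_span (R := F) (s := {u, y.1 u})
          (.inl rfl)
        simpa using this)
      have c4 := Finset.card_le_two (a := u) (b := y.1 u)
      rw [Set.finrank, Finset.coe_pair] at c2
      obtain ⟨k, hk⟩ := c1
      omega
    have o := fun a ha b hb => u3 a (b1 ha) b (t1 hb)
    refine ⟨_ ⊔ T, sup_le (b1.trans x1) (t1.trans u0), ⟨?_, totSing_sup h (h.totSing_span ?_ ?_) t3 o⟩,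
      fun x hx => ?_⟩
    · rw [finrank_sup_of_disjoint ((disjoint_of_nondeg x2 u3 h).mono b1 t1)]; omega
    · rintro _ (rfl | rfl); exacts [a3, (y.2.2 u).trans a3]
    · rintro _ (rfl | rfl) _ (rfl | rfl)
      exacts [h.diag_zero a3, a4, h.refl a4, (y.2.1 u u).trans (h.diag_zero a3)]
    · obtain ⟨a, ha, b, hb, rfl⟩ := Submodule.mem_sup.mp hx
      exact map_add y.1 a b ▸ Submodule.add_mem_sup (cx_plane_inv hy u a ha) (t4 b hb)

omit [FiniteDimensional F V] in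
theorem cx_quad_orth (h : IsQuad B Q) (h2 : (2 : F) ≠ 0) (v : V) : B v (y.1 v) = 0 :=
  mul_left_cancel₀ h2 (by linear_combination cx_adj hy v v + h.comm v (y.1 v))

theorem cx_quad_plane (h : IsQuad B Q) (h2 : (2 : F) ≠ 0) {v : V} (hv : Q v ≠ 0) :
    NondegOn B (Submodule.span F {v, y.1 v}) ∧ finrank F (Submodule.span F {v, y.1 v}) = 2 ∧
      (Pl B Q (Submodule.span F {v, y.1 v}) ↔ IsSquare (-1 : F)) := by
  have h1 : B v v ≠ 0 := h.diag' v ▸ mul_ne_zero h2 hv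
  have h3 := nondegOn_sup_span h (IsForm.nondegOn_span_singleton h1) ((y.2.1 v v).symm ▸ h1)
    fun a ha => by
      obtain ⟨c, rfl⟩ := Submodule.mem_span_singleton.mp ha
      simp [cx_quad_orth hy h h2]
  rw [finrank_span_singleton (by rintro rfl; simp at h1)] at h3
  rw [← Set.singleton_union, Submodule.span_union]
  refine ⟨h3.1, h3.2, ?_⟩
  rw [pl_plane h h1 ((y.2.1 v v).symm ▸ h1) (cx_quad_orth hy h h2 v), y.2.2,
    show -Q v * Q v = Q v * Q v * -1 by ring, isSquare_mul_iff_of_isSquare (by simpa) ⟨_, rfl⟩]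

theorem cx_quad_hb (h : IsQuad B Q) (h2 : (2 : F) ≠ 0) (W : Submodule F V) (h1 : NondegOn B W)
    (h3 : ∀ x ∈ W, y.1 x ∈ W) (h4 : W ≠ ⊥) : ∃ P ≤ W, NondegOn B P ∧ (∀ x ∈ P, y.1 x ∈ P) ∧
      finrank F P = 2 ∧ ∃ v, Q v ≠ 0 ∧ P = Submodule.span F {v, y.1 v} := by
  obtain ⟨v, v1, v2⟩ := h.exists_nonsingular h1 h4
  exact ⟨_, Submodule.span_le.mpr (by rintro _ (rfl | rfl); exacts [v1, h3 v v1]),
    (cx_quad_plane hy h h2 v2).1, cx_plane_inv hy v, (cx_quad_plane hy h h2 v2).2.1, v, v2, rfl⟩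

omit hy [FiniteDimensional F V] in
theorem prod_reflO_fix (h : IsQuad B Q) {l : List V} {x : V} (hl : ∀ v ∈ l, B v x = 0) :
    (l.map h.reflO).prod.1 x = x := by
  induction l with
  | nil => rfl
  | cons a l ih =>
    rw [List.map_cons, List.prod_cons]
    change (h.reflO a).1 ((l.map h.reflO).prod.1 x) = x
    rw [ih fun v hv => hl v (.tail _ hv), h.reflO_of_perp (hl a (.head _))]

variable [Finite F]

theorem cx_quad (h : IsQuad B Q) (hB : B.SeparatingLeft) (h2 : (2 : F) ≠ 0) (hW : NondegOn B W)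
    (h1 : ∀ x ∈ W, y.1 x ∈ W) : ∃ k, finrank F W = 2 * k ∧ (Pl B Q W ↔ Even k ∨ IsSquare (-1 : F)) ∧
      ∃ l : List V, (∀ v ∈ l, Q v ≠ 0 ∧ v ∈ W) ∧ (∀ x ∈ W, (l.map h.reflO).prod.1 x = y.1 x) ∧
        l.length = 2 * k ∧ ∃ s, s ≠ 0 ∧ (l.map Q).prod = 2 ^ k * (s * s) := by
  refine inv_induction h hB (b := fun P => ∃ v, Q v ≠ 0 ∧ P = Submodule.span F {v, y.1 v})
    (p := fun W => ∃ k, finrank F W = 2 * k ∧ (Pl B Q W ↔ Even k ∨ IsSquare (-1 : F)) ∧
      ∃ l : List V, (∀ v ∈ l, Q v ≠ 0 ∧ v ∈ W) ∧ (∀ x ∈ W, (l.map h.reflO).prod.1 x = y.1 x) ∧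
        l.length = 2 * k ∧ ∃ s, s ≠ 0 ∧ (l.map Q).prod = 2 ^ k * (s * s)) (fun W a b c => ?_)
    ⟨0, by simp, by simp [pl_bot h], [], by simp, by simp, rfl, 1, by simp⟩ ?_ hW h1
  · obtain ⟨P, p1, p2, p3, p4, p5⟩ := cx_quad_hb hy h h2 W a b c
    exact ⟨P, p1, by rintro rfl; simp at p4, p2, p3, p5⟩
  rintro _ U ⟨v, hv, rfl⟩ p2 p3 u1 u2 o ⟨k, k1, k2, l, l1, l2, l3, s, s1, s2⟩
  obtain ⟨-, p4, p5⟩ := cx_quad_plane hy h h2 hv
  have m1 : v ∈ Submodule.span F {v, y.1 v} := Submodule.subset_span (.inl rfl)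
  have m2 : y.1 v ∈ Submodule.span F {v, y.1 v} := Submodule.subset_span (.inr rfl)
  have q1 : Q (v - y.1 v) = 2 * Q v := by rw [h.sub', y.2.2, cx_quad_orth hy h h2]; ring
  refine ⟨k + 1, by rw [finrank_sup_of_disjoint (disjoint_of_nondeg p2 o h)]; omega, ?_,
    (v - y.1 v) :: y.1 v :: l, ?_, fun x hx => ?_, by simp [l3]; ring, s * Q v, by simp [s1, hv],
    by simp [q1, s2, y.2.2]; ring⟩
  · rw [pl_sup h hB p2 u1 o (p4 ▸ even_two) (k1 ▸ even_two_mul k), p5, k2, Nat.even_add_one]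
    tauto
  · simp only [List.forall_mem_cons]
    exact ⟨⟨q1 ▸ mul_ne_zero h2 hv, Submodule.mem_sup_left (Submodule.sub_mem _ m1 m2)⟩,
      ⟨(y.2.2 v).symm ▸ hv, Submodule.mem_sup_left m2⟩,
      fun w hw => ⟨(l1 w hw).1, Submodule.mem_sup_right (l1 w hw).2⟩⟩
  obtain ⟨a, ha, b, hb, rfl⟩ := Submodule.mem_sup.mp hx
  change (h.reflO (v - y.1 v)).1 ((h.reflO (y.1 v)).1 ((l.map h.reflO).prod.1 (a + b))) = _
  rw [map_add, l2 b hb, prod_reflO_fix h fun w hw => h.refl (o a ha w (l1 w hw).2), map_add,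
    h.reflO_of_perp (o _ m2 _ (u2 b hb)), map_add,
    h.reflO_of_perp (o _ (Submodule.sub_mem _ m1 m2) _ (u2 b hb)), map_add]
  congr 1
  obtain ⟨c, e, rfl⟩ := Submodule.mem_span_pair.mp ha
  have e1 := h.reflO_sub (y.2.2 v).symm (q1 ▸ mul_ne_zero h2 hv)
  have e2 : (h.reflO (v - y.1 v)).1 (y.1 v) = v := by
    conv_lhs => rw [← e1]
    rw [e1]
    exact (congrArg _ e1.symm).trans (isom_mul_self (h.reflO_mul_self _) v)
  simp [h.reflO_of_perp (h.refl (cx_quad_orth hy h h2 v)), h.reflO_self ((y.2.2 v).symm ▸ hv), e1, e2,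
    hy]

theorem cx_mem_iff (h : IsQuad B Q) (hB : B.SeparatingLeft) (h2 : (2 : F) ≠ 0) {k : ℕ}
    (hk : finrank F V = 2 * k) : (Pl B Q ⊤ ↔ Even k ∨ IsSquare (-1 : F)) ∧
      (y ∈ commutator (Isom B Q) ↔ Even k ∨ IsSquare (2 : F)) := by
  classical
  have := Fintype.ofFinite F
  obtain ⟨j, j1, j2, l, l1, l2, l3, s, s1, s2⟩ := cx_quad hy h hB h2 (nondegOn_top hB) (by simp)
  obtain rfl : k = j := by rw [finrank_top] at j1; omega
  refine ⟨j2, ?_⟩
  rw [show y = (l.map h.reflO).prod from Subtype.ext (LinearEquiv.ext fun x => (l2 x trivial).symm),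
    h.prod_mem_commutator_iff hB (h.nonExc_of_exists hB ⟨2 - 1 - 2, by norm_num, fun e => h2 (by
      linear_combination -e)⟩) l fun v hv => (l1 v hv).1, l3, s2, mul_comm (2 ^ k : F),
    isSquare_mul_iff_of_isSquare (by simpa) ⟨_, rfl⟩]
  rcases Nat.even_or_odd' k with ⟨a, rfl | rfl⟩
  · simp [pow_mul', IsSquare.sq]
  · rw [pow_succ, isSquare_mul_iff_of_isSquare (pow_ne_zero _ h2) (by simp [pow_mul', IsSquare.sq])]
    simp

theorem cx_quad_totSing (h : IsQuad B Q) (hB : B.SeparatingLeft) (h2 : (2 : F) ≠ 0) {m : ℕ}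
    (hm : 2 * m ≤ finrank F V) :
    (Fx y fun W => finrank F W = m ∧ TotSing B Q W) ↔ Even m ∨ IsSquare (-1 : F) :=
  cx_totSing_iff hy h hB h2 (fun W a b c => (cx_quad_hb hy h h2 W a b c).imp fun _ h =>
    ⟨h.1, h.2.1, h.2.2.1, h.2.2.2.1⟩) (fun W a => by
      obtain ⟨u, u1, u2⟩ := IsQuad.exists_singular (h.restrict W) a
      exact ⟨u, u.2, by simpa, u2, cx_quad_orth hy h h2 _⟩) hm

theorem cx_quad_nondeg (h : IsQuad B Q) (hB : B.SeparatingLeft) (h2 : (2 : F) ≠ 0) {k : ℕ}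
    (hm : 2 * k ≤ finrank F V) (η : Prop) :
    (Fx y fun W => finrank F W = 2 * k ∧ NondegOn B W ∧ (Pl B Q W ↔ η)) ↔
      (Even k ∨ IsSquare (-1 : F) ↔ η) := by
  have key : ∀ W, NondegOn B W → (∀ x ∈ W, y.1 x ∈ W) → finrank F W = 2 * k →
      (Pl B Q W ↔ Even k ∨ IsSquare (-1 : F)) := fun W a b c => by
    obtain ⟨j, j1, j2, -⟩ := cx_quad hy h hB h2 a b
    rwa [show k = j by omega]
  refine ⟨fun ⟨W, a, b⟩ => (key W a.2.1 b a.1).symm.trans a.2.2, fun a => ?_⟩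
  obtain ⟨U, -, u1, u2, u3⟩ := cx_nondeg hy h hB (fun W a b c => (cx_quad_hb hy h h2 W a b c).imp
    fun _ h => ⟨h.1, h.2.1, h.2.2.1, h.2.2.2.1⟩) (nondegOn_top hB) (by simp) k (by simpa)
  exact ⟨U, ⟨u3, u1, (key U u1 u2 u3).trans a⟩, u2⟩

omit hy in
theorem exists_cx_quad (h : IsQuad B Q) (hB : B.SeparatingLeft) (h2 : (2 : F) ≠ 0) {k : ℕ}
    (hk : finrank F V = 2 * k) (hp : Pl B Q ⊤ ↔ Even k ∨ IsSquare (-1 : F)) :
    ∃ y : Isom B Q, ∀ v, y.1 (y.1 v) = -v := by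
  have h' := IsQuad.of_symm h2 (B := prodB (hermB (Fin k) (RingHom.id F)) (hermB (Fin k) _))
    fun x y => by simp [hermB_apply, mul_comm]
  have hB' := (isOrthSum_prod (hermB (Fin k) (RingHom.id F)) 0 (hermB (Fin k) _) 0).sep
    (hermB_sep _) (hermB_sep _)
  let J : Isom (prodB (hermB (Fin k) (RingHom.id F)) (hermB (Fin k) _)) _ :=
    ⟨(LinearEquiv.prodComm F _ _).trans ((LinearEquiv.neg F).prodCongr (.refl F _)),
      (h'.mem_isom).mpr fun x => by simp [add_comm]⟩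
  have hJ : ∀ v, J.1 (J.1 v) = -v := fun v => rfl
  have hk' : finrank F ((Fin k → F) × (Fin k → F)) = 2 * k := by simp [two_mul]
  obtain ⟨e, e1, e2⟩ := exists_equiv_of_pl h' h (nondegOn_top hB') (nondegOn_top hB)
    (by simp) (by simp [hk, two_mul]) ((cx_mem_iff hJ h' hB' h2 hk').1.trans hp.symm)
  let e' := Submodule.topEquiv.symm.trans (e.trans Submodule.topEquiv)
  refine ⟨isomCongr e' (by simp [e', e1]) (by simp [e', e2]) J, fun v => ?_⟩
  obtain ⟨v, rfl⟩ := e'.surjective v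
  exact (congrArg _ (isomCongr_apply e' _ _ J v)).trans ((isomCongr_apply e' _ _ J _).trans
    (by rw [hJ, map_neg]))

end cx

section alt
variable {B : LinearMap.BilinForm F V} {y : Isom (σ := RingHom.id F) B fun _ => 0} (hA : B.IsAlt)
  (h2 : (2 : F) ≠ 0) (hy : ∀ v, y.1 (y.1 v) = -v)
include hA h2 hy

omit [FiniteDimensional F V] in
theorem cx_alt_quad : IsQuad (pull B LinearMap.id ∘ₗ LinearMap.id |>.compl₂ y.1.toLinearMap)
    fun x => B x (y.1 x) / 2 :=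
  IsQuad.of_symm h2 fun a b => by simpa [cx_adj hy] using (hA.neg_eq (y.1 b) a).symm

omit [FiniteDimensional F V] in
theorem cx_alt_hb (W : Submodule F V) (h1 : NondegOn B W) (h3 : ∀ x ∈ W, y.1 x ∈ W) (h4 : W ≠ ⊥) :
    ∃ P ≤ W, NondegOn B P ∧ (∀ x ∈ P, y.1 x ∈ P) ∧ finrank F P = 2 ∧
      ∃ v, P = Submodule.span F {v, y.1 v} := by
  obtain ⟨v, v1, v2⟩ := (cx_alt_quad hA h2 hy).exists_nonsingular (W := W) (fun x hx H => h1 x hx
    fun z hz => by simpa [hy] using H _ (h3 z hz)) h4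
  have v3 : B v (y.1 v) ≠ 0 := fun e => v2 (by simp [e])
  refine ⟨_, Submodule.span_le.mpr (by rintro _ (rfl | rfl); exacts [v1, h3 v v1]),
    (isForm_alt hA).nondegOn_span_pair rfl rfl v3, cx_plane_inv hy v, ?_, v, rfl⟩
  have := finrank_span_eq_card ((isForm_alt hA).linearIndependent_pair rfl v3)
  rwa [Matrix.range_cons, Matrix.range_cons, Matrix.range_empty, Set.union_empty,
    Set.singleton_union] at this

theorem cx_alt_totSing [Finite F] (hB : B.SeparatingLeft) {m : ℕ} (hm : 2 * m ≤ finrank F V) :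
    (Fx y fun W => finrank F W = m ∧ TotSing (σ := RingHom.id F) B (fun _ => 0) W) ↔
      Even m ∨ IsSquare (-1 : F) :=
  cx_totSing_iff hy (isForm_alt hA) hB h2 (fun W a b c => (cx_alt_hb hA h2 hy W a b c).imp
    fun _ h => ⟨h.1, h.2.1, h.2.2.1, h.2.2.2.1⟩) (fun W a => by
      obtain ⟨u, u1, u2⟩ := IsQuad.exists_singular ((cx_alt_quad hA h2 hy).restrict W) a
      exact ⟨u, u.2, by simpa, rfl, by simpa [h2] using u2⟩) hm

end alt

theorem invol_mem_iff [Finite F] {B : V →ₗ[F] V →ₗ[F] F} {y : Isom B Q} (h : IsQuad B Q)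
    (hB : B.SeparatingLeft) (h2 : (2 : F) ≠ 0) (hy : y * y = 1) : y ∈ commutator (Isom B Q) ↔
      ∃ k, finrank F (movS y.1) = 2 * k ∧ (Pl B Q (movS y.1) ↔ Even k ∨ IsSquare (-1 : F)) := by
  classical
  have := Fintype.ofFinite F
  obtain ⟨h3, h4, h5, -⟩ := invol_data h hB h2 hy
  have hs := h.isOrthSum_of_isCompl (isCompl_movS h hB y.2 (invol_disjoint hy h2)) h5
  have h1 : IsQuad _ _ := h.restrict (movS y.1)
  have h6 := nondegOn_iff.mp h3
  have ha : ∃ a : F, a ≠ 0 ∧ a ≠ 1 := ⟨2 - 1 - 2, by norm_num, fun e => h2 (by linear_combination -e)⟩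
  have h7 : y = orthSumHom hs (h1.negI, 1) := Subtype.ext (LinearEquiv.ext fun x => by
    obtain ⟨⟨a, b⟩, rfl⟩ := (Submodule.prodEquivOfIsCompl _ _
      (isCompl_movS h hB y.2 (invol_disjoint hy h2))).surjective x
    rw [orthSumHom_apply]
    simp [(mem_movS_invol hy h2).mp a.2, H11.mem_fixS.mp b.2])
  trans h1.negI ∈ commutator _
  · rw [← mem_commutator_orthSumHom_left hs h1 (h.restrict _) h h6 hB (h1.nonExc_of_exists h6 ha)
      (h.nonExc_of_exists hB ha), ← h7]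
  rcases Nat.even_or_odd' (finrank F (movS y.1)) with ⟨k, hk | hk⟩
  · have b := Module.finBasis F (movS y.1)
    have h8 := gram_det_ne_zero (fun _ => rfl) h6 b
    rw [h1.neg_mem_commutator_iff h6 h2 (hk ▸ even_two_mul k) b _ h1.negI_apply]
    simp only [hk, mul_right_inj' two_ne_zero, exists_eq_left']
    rw [pl_iff_wittIdx h h3 hk, h1.wittIdx_iff_disc h6 h2 hk b]
    rcases Nat.even_or_odd k with e | e
    · simp [e, e.neg_one_pow]
    rw [e.neg_one_pow, or_iff_right (Nat.not_even_iff_odd.mpr e)]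
    by_cases e' : IsSquare (-1 : F)
    · simp only [isSquare_mul_iff_of_isSquare (by simp) e', e', iff_true]
    refine ⟨fun a => iff_of_false (fun b => e' ?_) e', fun a => ?_⟩
    · rwa [mul_comm, isSquare_mul_iff_of_isSquare h8 a] at b
    · simpa using isSquare_mul_of_not_isSquare e' (a.not.mpr e')
  · exact iff_of_false (h1.negI_notMem_of_odd h6 (hk ▸ odd_two_mul_add_one k))
      fun ⟨j, a, _⟩ => by omega

omit [FiniteDimensional F V] in
theorem char_facts [Fintype F] {p q : ℕ} [Fact p.Prime] [CharP F p] (hq : Fintype.card F = q) :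
    (p = 2 ↔ q % 2 = 0) ∧ (p ≠ 2 → (2 : F) ≠ 0 ∧ (IsSquare (-1 : F) ↔ q % 4 = 1) ∧
      (IsSquare (2 : F) ↔ q % 8 = 1 ∨ q % 8 = 7)) := by
  subst hq
  have h1 := FiniteField.even_card_iff_char_two (F := F)
  rw [ringChar.eq F p] at h1
  refine ⟨h1, fun h => ?_⟩
  have := h1.not.mp h
  rw [FiniteField.isSquare_neg_one_iff, FiniteField.isSquare_two_iff]
  exact ⟨Ring.two_ne_zero (by rwa [ringChar.eq F p]), by omega, by omega⟩

/-- Totally singular subspaces invariant under an involution. -/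
theorem invol_totSing (h : IsForm ε κ τ B Q) (hB : B.SeparatingLeft) (h2 : (2 : F) ≠ 0)
    (hy : y * y = 1) {a b m : ℕ} (ha : WittIdx (pull B (movS y.1).subtype) (fun x => Q x) a)
    (hb : WittIdx (pull B (H11.fixS y.1).subtype) (fun x => Q x) b) :
    (Fx y fun W => finrank F W = m ∧ TotSing B Q W) ↔ m ≤ a + b := by
  obtain ⟨h3, h4, h5, -⟩ := invol_data h hB h2 hy
  have hd := invol_disjoint hy h2
  constructor
  · intro H
    obtain ⟨U, u, W, w, rfl, e⟩ := H.split hy h2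
    rw [finrank_sup_of_disjoint (hd.mono u w)]
    exact add_le_add ((exists_totSing_le h h3 ha).mp ⟨U, u, e.mono le_sup_left, rfl⟩)
      ((exists_totSing_le h h4 hb).mp ⟨W, w, e.mono le_sup_right, rfl⟩)
  · intro H
    obtain ⟨U, u1, u2, u3⟩ := (exists_totSing_le h h3 ha (b := min a m)).mpr (min_le_left _ _)
    obtain ⟨W, w1, w2, w3⟩ := (exists_totSing_le h h4 hb (b := m - min a m)).mpr (by omega)
    exact fx_of_split hy h2 u1 w1 ⟨by rw [finrank_sup_of_disjoint (hd.mono u1 w1)]; omega,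
      totSing_sup h u2 w2 fun x hx z hz => h5 x (u1 hx) z (w1 hz)⟩

theorem alt_on {B : LinearMap.BilinForm F V} (hA : B.IsAlt) (hW : NondegOn B W) :
    Even (finrank F W) ∧ WittIdx (σ := RingHom.id F) (pull B W.subtype) (fun _ => 0)
      (finrank F W / 2) ∧ ∀ b, Even b → b ≤ finrank F W →
        ∃ U ≤ W, NondegOn B U ∧ finrank F U = b := by
  have hA' : LinearMap.BilinForm.IsAlt (pull B W.subtype) := fun x => hA x
  have h1 := nondegOn_iff.mp hW
  have h2 := even_finrank_of_alt (hA'.isRefl.nondegenerate_iff_separatingLeft.mpr h1) hA'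
  have h3 := wittIdx_alt hA' h1 (Nat.two_mul_div_two_of_even h2).symm
  refine ⟨h2, h3, ?_⟩
  rintro _ ⟨j, rfl⟩ hj
  obtain ⟨U, u1, u2, -, u3⟩ := exists_hyp_le (isForm_alt hA) hW h3 (j := j) (by omega)
  exact ⟨U, u1, u2, by omega⟩

theorem herm_on [Finite F] (hH : IsHerm B) (hB : B.SeparatingLeft) (hW : NondegOn B W) :
    WittIdx (pull B W.subtype) (fun x => B x x) (finrank F W / 2) ∧ ∀ b, b ≤ finrank F W →
        ∃ U ≤ W, NondegOn B U ∧ finrank F U = b := by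
  constructor
  · have h := hH.form.restrict W
    have h1 := nondegOn_iff.mp hW
    obtain ⟨ν, hν⟩ := h.exists_wittIdx
    obtain ⟨e, f, hs, h2⟩ := h.exists_witt_decomp h1 hν
    have h3 := hs.finrank_perp h h1
    have h4 := nondegOn_iff.mp (h.nondegOn_perp h1 (hs.nondegOn h))
    have h5 := mt (((hH.pull W.subtype).pull _).exists_isotropic h4) fun ⟨u, u1, u2⟩ =>
      u1 (Subtype.ext (h2 u (HypSys.mem_perp_iff.mp u.2).1 (HypSys.mem_perp_iff.mp u.2).2 u2))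
    rwa [show finrank F W / 2 = ν by simp at h3; omega]
  · refine exists_nondeg_le_of hH.form hB (fun U h1 h2 => ?_) hW
    obtain ⟨x, hx⟩ := (hH.pull U.subtype).exists_self_eq (nondegOn_iff.mp h1)
      (Nat.pos_of_ne_zero (mt Submodule.finrank_eq_zero.mp h2)) (map_one σ)
    exact ⟨x, x.2, fun e => one_ne_zero (hx.symm.trans e)⟩

theorem quad_le {B : V →ₗ[F] V →ₗ[F] F} (h : IsQuad B Q) (hB : B.SeparatingLeft) (h2 : (2 : F) ≠ 0)
    (hW : NondegOn B W) (b : ℕ) (hb : b ≤ finrank F W) : ∃ U ≤ W, NondegOn B U ∧ finrank F U = b :=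
  exists_nondeg_le_of h hB (fun _ h1 h3 => (h.exists_nonsingular h1 h3).imp fun v hv =>
    ⟨hv.1, h.diag' v ▸ mul_ne_zero h2 hv.2⟩) hW b hb

end Cfsg.Agent.H10
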