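import Mathlib
import Cfsg.Agent.H10.Elus6

/-! Invariant subspaces of elements of prime order in orthogonal groups. -/

namespace Cfsg.Agent.H10

open Module Polynomial H11 L0

universe u

theorem c_facts {i c : ℕ} (hc : c = if Even i then i else 2 * i) (hi : 0 < i) :
    Even c ∧ (c = i ↔ i % 2 = 0) ∧ (i % 2 = 1 → c = 2 * i) := by
  simp only [Nat.even_iff] at hc ⊢
  split_ifs at hc <;> omega

variable {F : Type u} [Field F] {σ : F →+* F} {ε κ : F} {τ : F →+ F} {r d D t : ℕ}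
  {V : Type*} [AddCommGroup V] [Module F V] [FiniteDimensional F V]
  {Q : V → F} {U W : Submodule F V} {Ω : Submodule F V → Prop}

section general
variable {B : V →ₛₗ[σ] V →ₗ[F] F} {y : Isom B Q}

theorem nondeg_ext (h : IsForm ε κ τ B Q) (hU : NondegOn B U) (ho : ∀ a ∈ U, ∀ b ∈ W, B a b = 0)
    {m : ℕ} (H : ∀ b ≤ finrank F W, m = finrank F U + b → ∃ X ≤ W, NondegOn B X ∧ finrank F X = b) :
    (∃ X ≤ W, NondegOn B X ∧ finrank F ↥(U ⊔ X) = m ∧ NondegOn B (U ⊔ X)) ↔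
      ∃ b ≤ finrank F W, m = finrank F U + b ∧ (b = 0 → True) ∧ (b = finrank F W → True) := by
  have hd := disjoint_of_nondeg hU ho h
  refine ⟨fun ⟨X, x1, _, x2, _⟩ => ⟨_, Submodule.finrank_mono x1, by
    rw [← x2, finrank_sup_of_disjoint (hd.mono_right x1)], by simp⟩, fun ⟨b, b1, b2, _⟩ => ?_⟩
  obtain ⟨X, x1, x2, rfl⟩ := H b b1 b2
  exact ⟨X, x1, x2, by rw [b2, finrank_sup_of_disjoint (hd.mono_right x1)],
    nondegOn_sup h hU x2 fun a ha b hb => ho a ha b (x1 hb)⟩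

theorem OD.nondeg_plain [Finite F] (O : OD σ r d D t) (h : IsForm ε κ τ B Q) (hB : B.SeparatingLeft)
    (P : Par σ ε κ τ) {m : ℕ} (hm : 0 < m) (hmn : m < finrank F V)
    (H : ∀ W j b, NondegOn B W → b ≤ finrank F W → m = j * D + b →
      ∃ X ≤ W, NondegOn B X ∧ finrank F X = b)
    (H2 : ∀ k, k * D ≤ finrank F V → Adm ε κ τ B Q r (k * D))
    (H3 : ∀ U W, NondegOn B U → NondegOn B W → finrank F U = finrank F W →
      ∃ g : Isom B Q, U.map g.1.toLinearMap = W)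
    (hd : r ∣ Nat.card {U : Submodule F V // finrank F U = m ∧ NondegOn B U}) :
    (∀ y : Isom B Q, y ^ r = 1 → y ≠ 1 → Fx y fun U => finrank F U = m ∧ NondegOn B U) ↔
      D ≤ m ∧ m % D ≤ finrank F V % D := by
  obtain ⟨h1, h2⟩ := O.nondeg_red h hB P hm hmn (fun _ => And.right) (A := True) (T := fun _ => True)
    (S := fun _ _ => True) (by simp) (fun y k a b => ⟨by simp, fun j U u1 u2 _ u3 => by
      have hd := isom_disjoint a O.ne
      rw [← u3]
      exact nondeg_ext h u2 (fun a ha b hb => (orth_movS_fixS h hB y.2 (u1 ha) hb).1)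
        fun b b1 b2 => H _ j b (nondegOn_fixS h hB y.2 hd) b1 (u3 ▸ b2)⟩) (fun k a _ => H2 k a)
    ((H ⊤ 0 m (nondegOn_top hB) (by simpa using hmn.le) (by simp)).imp fun _ a => a.2.symm)
    (fun W a U => ⟨fun b => H3 W U a.2 b.2 (a.1.trans b.1.symm), by
      rintro ⟨g, rfl⟩; exact ⟨(g.1.finrank_map_eq W).trans a.1, nondegOn_map_isom a.2 g⟩⟩) hd
  rw [h2]
  simp only [implies_true, and_true, true_implies] at h1 ⊢
  refine ⟨fun a => ⟨not_lt.mp fun b => ?_, a⟩, And.right⟩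
  obtain ⟨-, c, -, e⟩ := h1 b
  exact e (c ▸ a)

theorem invol_fx (h : IsForm ε κ τ B Q) (hB : B.SeparatingLeft) (h2 : (2 : F) ≠ 0) (hy : y * y = 1)
    (hle : ∀ W b, NondegOn B W → b ≤ finrank F W → ∃ U ≤ W, NondegOn B U ∧ finrank F U = b)
    (h3 : 2 ≤ finrank F (movS y.1)) {m : ℕ} (hm : m + 1 < finrank F V)
    (hΩ : ∀ Z C, NondegOn B Z → finrank F Z = m → NondegOn B C → 2 ≤ finrank F C →
      (∀ a ∈ Z, ∀ b ∈ C, B a b = 0) → ∃ v ∈ C, Ω (Z ⊔ Submodule.span F {v})) : Fx y Ω := by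
  obtain ⟨a1, a2, a3, -, a4, -⟩ := invol_data h hB h2 hy
  obtain ⟨Y, y1, y2, y3⟩ := hle _ (min m (finrank F (movS y.1) - 2)) a1 (by omega)
  obtain ⟨X, x1, x2, x3⟩ := hle _ (m - min m (finrank F (movS y.1) - 2)) a2 (by omega)
  obtain ⟨C, c1, c2, -, c3, c4⟩ := exists_orth_compl h hB a1 y2 y1
  have o := fun a ha b hb => a3 a (y1 ha) b (x1 hb)
  obtain ⟨v, v1, v2⟩ := hΩ (Y ⊔ X) C (nondegOn_sup h y2 x2 o) (by
    rw [finrank_sup_of_disjoint (disjoint_of_nondeg y2 o h)]; omega) c2 (by omega) fun _ hx b hb => by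
      obtain ⟨a, ha, a', ha', rfl⟩ := Submodule.mem_sup.mp hx
      simp [c3 a ha b hb, h.refl (a3 b (c1 hb) a' (x1 ha'))]
  exact fx_of_split hy h2 (sup_le y1 ((Submodule.span_singleton_le_iff_mem _ _).mpr (c1 v1))) x1
    (sup_right_comm Y X _ ▸ v2)

theorem finrank_movS_restrict (h : IsForm ε κ τ B Q) (hB : B.SeparatingLeft) (hW : NondegOn B W)
    (h1 : ∀ x ∈ W, y.1 x ∈ W) : ∃ (a : Isom (pull B W.subtype) fun x => Q x)
      (b : Isom (pull B (perp B W).subtype) fun x => Q x), (∀ x, (a.1 x : V) = y.1 x) ∧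
      (∀ x, (b.1 x : V) = y.1 x) ∧
      finrank F (movS y.1) = finrank F (movS a.1) + finrank F (movS b.1) := by
  obtain ⟨a, ha⟩ := exists_isom_restrict h1
  obtain ⟨b, hb⟩ := exists_isom_restrict (isom_inv_perp (g := y.1.toLinearMap) hB y.2.1 h1)
  have hs := h.isOrthSum_of_isCompl (h.isCompl_perp hB hW) fun a ha b hb => mem_perp.mp hb a ha
  refine ⟨a, b, ha, hb, ?_⟩
  rw [← finrank_movS_orthSumHom hs (a, b)]
  refine congrArg (fun g => finrank F (movS g)) (LinearEquiv.ext fun x => ?_)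
  obtain ⟨⟨u, v⟩, rfl⟩ := (W.prodEquivOfIsCompl _ (h.isCompl_perp hB hW)).surjective x
  rw [orthSumHom_apply]
  simp [ha, hb]

end general

variable {B : V →ₗ[F] V →ₗ[F] F} {y : Isom B Q}

/-- The Wall form of `g` is alternating. -/
def WA (B : V →ₗ[F] V →ₗ[F] F) (g : V ≃ₗ[F] V) : Prop := ∀ v, B v (g v - v) = 0

theorem WA.even (h : IsForm 1 κ τ B Q) (hB : B.SeparatingLeft) (H : WA B y.1) :
    Even (finrank F (movS y.1)) ∧ TotSing B Q (movS y.1) := by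
  obtain ⟨π, χ, w⟩ := exists_wallD h hB y.2
  have hA : LinearMap.BilinForm.IsAlt χ := fun a => by
    obtain ⟨x, rfl⟩ := w.surj a
    rw [w.form, w.eq]; exact H x
  exact ⟨even_finrank_of_alt (hA.isRefl.nondegenerate_iff_separatingLeft.mpr (w.sep h hB y.2)) hA,
    fun x hx => by simpa [hA.self_eq_zero] using w.quad h y.2 ⟨x, hx⟩, fun x hx z hz => by
      simpa [hA.neg_eq] using w.gram h y.2 ⟨x, hx⟩ ⟨z, hz⟩⟩

theorem WA.le (h : IsForm 1 κ τ B Q) (hB : B.SeparatingLeft) (H : WA B y.1) (hW : NondegOn B W)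
    (h1 : ∀ x ∈ W, y.1 x ∈ W) {a b : ℕ} (ha : WittIdx (pull B W.subtype) (fun x => Q x) a)
    (hb : WittIdx (pull B (perp B W).subtype) (fun x => Q x) b) :
    finrank F (movS y.1) ≤ 2 * (a / 2) + 2 * (b / 2) := by
  obtain ⟨u, v, h2, h3, h4⟩ := finrank_movS_restrict h hB hW h1
  have h5 := nondegOn_iff.mp hW
  have h6 := nondegOn_iff.mp (h.nondegOn_perp hB hW)
  obtain ⟨⟨i, hi⟩, u2⟩ := WA.even (y := u) (h.restrict W) h5 fun x => by simpa [h2] using H x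
  obtain ⟨⟨j, hj⟩, v2⟩ := WA.even (y := v) (h.restrict _) h6 fun x => by simpa [h3] using H x
  have := (h.restrict W).finrank_le_wittIdx h5 ha u2
  have := (h.restrict _).finrank_le_wittIdx h6 hb v2
  omega

theorem exists_wa (h : IsForm 1 κ τ B Q) (hB : B.SeparatingLeft) {ν k p : ℕ} [CharP F p]
    (hν : WittIdx B Q ν) (hk : 2 * k ≤ ν) :
    ∃ y : Isom B Q, WA B y.1 ∧ finrank F (movS y.1) = 2 * k ∧ y ^ p = 1 := by
  obtain ⟨W, hW, rfl⟩ := hν
  obtain ⟨U, u1, u2⟩ := exists_le_finrank_eq W hk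
  have hU := hW.1.mono u1
  let e : U ≃ₗ[F] (Fin k ⊕ Fin k → F) := LinearEquiv.ofFinrankEq _ _ (by simp [u2, two_mul])
  have hA : (spBilin (Fin k) F).IsAlt := spBilin_isAlt
  obtain ⟨y, π, w⟩ := exists_isom_wallD h hB (χ := spBilin (Fin k) F)
    (ι := U.subtype.comp e.symm.toLinearMap) (Subtype.val_injective.comp e.symm.injective)
    spBilin_nondegenerate.1 (fun a b => by simp [hU.2 _ (e.symm a).2 _ (e.symm b).2, hA.neg_eq])
    fun a => by simp [hA.self_eq_zero, hU.1 _ (e.symm a).2]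
  have H : WA B y.1 := fun v => by rw [← w.eq, ← w.form, hA.self_eq_zero]
  refine ⟨y, H, by simp [← w.finrank_eq, two_mul], Subtype.ext (LinearEquiv.ext fun v => ?_)⟩
  have h1 : y.1 (y.1 v - v) = y.1 v - v := H11.mem_fixS.mp (h.perp_movS hB y.2 ▸
    (H.even h hB).2.le_perp (mem_movS.mpr ⟨v, rfl⟩))
  have h2 : ∀ n : ℕ, (y ^ n).1 v = v + (n : F) • (y.1 v - v) := fun n => by
    induction n with
    | zero => simp
    | succ n ih =>
      rw [pow_succ']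
      change y.1 ((y ^ n).1 v) = _
      rw [ih, map_add, map_smul, h1]; push_cast; module
  exact (h2 p).trans (by simp)

theorem Two.exists_rank [CharP F 2] (T : Two ε κ τ B Q) {ν s : ℕ} (hν : WittIdx B Q ν)
    (hna : ∀ k, 2 * (k + 1) ≤ finrank F V → ∃ (U : Submodule F V) (u : V), TotSing B Q U ∧
      finrank F U = k ∧ u ∉ U ∧ (∀ x ∈ U, B x u = 0) ∧ Q u = τ 1) (a : Prop)
    (h1 : a → Even s ∧ s ≤ ν) (h2 : ¬ a → 0 < s ∧ 2 * s ≤ finrank F V) :
    ∃ g : Isom B Q, g * g = 1 ∧ finrank F (movS g.1) = s ∧ (AltT B g.1 ↔ a) := by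
  by_cases ha : a
  · obtain ⟨⟨k, rfl⟩, h3⟩ := h1 ha
    obtain ⟨W, hW, rfl⟩ := hν
    obtain ⟨U, u1, u2⟩ := exists_le_finrank_eq W h3
    obtain ⟨g, g1, g2, g3⟩ := T.exists_invol_alt (hW.1.mono u1) (k := k) (by omega)
    exact ⟨g, g1, g2 ▸ u2, iff_of_true g3 ha⟩
  · obtain ⟨h3, h4⟩ := h2 ha
    obtain ⟨U, u, u1, u2, u3, u4, u5⟩ := hna (s - 1) (by omega)
    obtain ⟨g, g1, g2, g3⟩ := T.exists_invol_nonalt u1 u3 u4 u5
    exact ⟨g, g1, by omega, iff_of_false g3 ha⟩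

/-- Non-degenerate subspaces invariant under involutions in characteristic two. -/
theorem Two.fx_iff [CharP F 2] [Finite F] (T : Two ε κ τ B Q) (hW : NondegOn B W)
    (hΩ : ∀ U, Ω U ↔ ∃ g : Isom B Q, W.map g.1.toLinearMap = U)
    (hna : ∀ W, NondegOn B W → ∀ k, 2 * (k + 1) ≤ finrank F W → ∃ (U : Submodule F W) (u : W),
      TotSing (pull B W.subtype) (fun x => Q x) U ∧ finrank F U = k ∧ u ∉ U ∧
        (∀ x ∈ U, B x.1 u = 0) ∧ Q u = τ 1) {a b : ℕ}
    (ha : WittIdx (pull B W.subtype) (fun x => Q x) a)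
    (hb : WittIdx (pull B (perp B W).subtype) (fun x => Q x) b) (hy : y * y = 1) :
    Fx y Ω ↔ (AltT B y.1 → finrank F (movS y.1) ≤ 2 * (a / 2) + 2 * (b / 2)) := by
  have h := T.form
  obtain rfl := T.eps
  have hΩ' : ∀ U (g : Isom B Q), Ω U → Ω (U.map g.1.toLinearMap) := fun U g H => by
    obtain ⟨k, rfl⟩ := (hΩ U).mp H
    exact (hΩ _).mpr ⟨g * k, map_mul_isom _ _ _⟩
  have h0 : Ω W := (hΩ W).mpr ⟨1, W.map_id⟩
  constructor
  · rintro ⟨U, u1, u2⟩ H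
    obtain ⟨g, rfl⟩ := (hΩ U).mp u1
    have h1 : IsConj y (g⁻¹ * y * g) := _root_.isConj_iff.mpr ⟨g⁻¹, by simp⟩
    have h2 : g⁻¹ * y * g * (g⁻¹ * y * g) = 1 := by
      simpa [mul_assoc] using congrArg (fun x => g⁻¹ * x * g) hy
    obtain ⟨h3, h4⟩ := (T.isConj_iff hy h2).mp h1
    refine h3 ▸ WA.le h T.sep (fun v => by simpa [T.alt] using h4.mp H v) hW (fun x hx => ?_) ha hb
    obtain ⟨z, hz, e⟩ := u2 _ ⟨x, hx, rfl⟩
    change g.1.symm (y.1 (g.1 x)) ∈ W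
    rwa [← show g.1 z = y.1 (g.1 x) from e, g.1.symm_apply_apply]
  intro H
  have hW' := h.nondegOn_perp T.sep hW
  have T1 : Two 1 κ τ (pull B W.subtype) fun x => Q x :=
    ⟨h.restrict _, nondegOn_iff.mp hW, rfl, fun x => T.alt x, T.lin⟩
  have T2 : Two 1 κ τ (pull B (perp B W).subtype) fun x => Q x :=
    ⟨h.restrict _, nondegOn_iff.mp hW', rfl, fun x => T.alt x, T.lin⟩
  have hs := h.isOrthSum_of_isCompl (h.isCompl_perp T.sep hW) fun a ha b hb => mem_perp.mp hb a ha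
  have h1 := T.two_mul_rank_le hy
  have h2 := h.finrank_perp T.sep W
  have h3 := even_finrank_of_alt ((LinearMap.IsAlt.isRefl T1.alt).nondegenerate_iff_separatingLeft.mpr
    T1.sep) T1.alt
  have h4 := even_finrank_of_alt ((LinearMap.IsAlt.isRefl T2.alt).nondegenerate_iff_separatingLeft.mpr
    T2.sep) T2.alt
  have h5 : ¬ AltT B y.1 → 0 < finrank F (movS y.1) := fun e => Nat.pos_of_ne_zero fun e' =>
    e fun v => by simp [finrank_movS_eq_zero.mp e', T.alt]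
  obtain ⟨s, s', a1, a2, e1, e2, e3, e4, e5, e6⟩ : ∃ (s s' : ℕ) (a1 a2 : Prop),
      (a1 → Even s ∧ s ≤ a) ∧ (¬ a1 → 0 < s ∧ 2 * s ≤ finrank F W) ∧ (a2 → Even s' ∧ s' ≤ b) ∧
      (¬ a2 → 0 < s' ∧ 2 * s' ≤ finrank F (perp B W)) ∧ s + s' = finrank F (movS y.1) ∧
      (AltT B y.1 ↔ a1 ∧ a2) := by
    simp only [Nat.even_iff] at h3 h4 ⊢
    by_cases e : AltT B y.1
    · have := Nat.even_iff.mp (T.even_of_altT hy e)
      have := H e
      exact ⟨min (finrank F (movS y.1)) (2 * (a / 2)), finrank F (movS y.1) -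
        min (finrank F (movS y.1)) (2 * (a / 2)), True, True, by omega, by simp, by omega, by simp,
        by omega, by simp [e]⟩
    · have := h5 e
      refine ⟨min (finrank F (movS y.1)) (finrank F W / 2), finrank F (movS y.1) -
        min (finrank F (movS y.1)) (finrank F W / 2), _ = 0, _ = 0, fun e => by omega,
        fun e => ⟨Nat.pos_of_ne_zero e, by omega⟩, fun e => by omega,
        fun e => ⟨Nat.pos_of_ne_zero e, by omega⟩, by omega, iff_of_false e (by omega)⟩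
  obtain ⟨g, g1, g2, g3⟩ := T1.exists_rank ha (hna _ hW) a1 e1 e2
  obtain ⟨g', g1', g2', g3'⟩ := T2.exists_rank hb (hna _ hW') a2 e3 e4
  refine Fx.conj hΩ' (y := orthSumHom hs (g, g')) ⟨W, h0, fun x hx => ?_⟩ ((T.isConj_iff (by
    rw [← map_mul, Prod.mk_mul_mk, g1, g1']; exact map_one _) hy).mpr ⟨by
      rw [finrank_movS_orthSumHom, g2, g2', e5], ?_⟩)
  · have := orthSumHom_apply hs (g, g') (⟨x, hx⟩, 0)
    simp only [Submodule.coe_prodEquivOfIsCompl', map_zero, ZeroMemClass.coe_zero, add_zero] at this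
    exact this ▸ Subtype.property _
  · rw [e6, ← g3, ← g3']
    refine ⟨fun e => ⟨fun v => ?_, fun v => ?_⟩, fun e v => ?_⟩
    · simpa only [orthSumHom_apply, hs.hB, map_zero, add_zero] using
        e (W.prodEquivOfIsCompl _ (h.isCompl_perp T.sep hW) (v, 0))
    · simpa only [orthSumHom_apply, hs.hB, map_zero, zero_add] using
        e (W.prodEquivOfIsCompl _ (h.isCompl_perp T.sep hW) (0, v))
    · obtain ⟨⟨u, v⟩, rfl⟩ := (W.prodEquivOfIsCompl _ (h.isCompl_perp T.sep hW)).surjective v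
      rw [orthSumHom_apply, hs.hB, e.1, e.2, add_zero]

variable [Finite F] (h : IsQuad B Q) (hB : B.SeparatingLeft)
include h hB

theorem forall_omega_odd (hn : finrank F V ≠ 4) (hr : Odd r) :
    (∀ y ∈ commutator (Isom B Q), y ^ r = 1 → y ≠ 1 → Fx y Ω) ↔
      ∀ y : Isom B Q, y ^ r = 1 → y ≠ 1 → Fx y Ω := by
  obtain ⟨k, rfl⟩ := hr
  refine ⟨fun H y h1 => H y ?_ h1, fun H y _ => H y⟩
  rw [show y = y ^ (k + 1) * y ^ (k + 1) by
    rw [← pow_add, show k + 1 + (k + 1) = 2 * k + 1 + 1 by ring, pow_succ, h1, one_mul]]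
  exact h.mul_self_mem_commutator hB (h.nonExc_of_finrank hB hn) _

theorem elu_omega_odd (hn : 4 < finrank F V) (hr : Odd r) : Elu (commutator (Isom B Q)) r Ω ↔
    ∀ y : Isom B Q, y ^ r = 1 → y ≠ 1 → Fx y Ω :=
  have := Module.nontrivial_of_finrank_pos (R := F) (M := V) (by omega)
  elu_odd hB hr (h.mul_self_mem_commutator hB (h.nonExc_of_finrank hB hn.ne'))

theorem elu_omega_two (h2 : (2 : F) ≠ 0) {k : ℕ} (hn : finrank F V = 2 * k) (hk : 0 < k) {P : Prop}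
    (hP : ∀ y : Isom B Q, (∀ v, y.1 (y.1 v) = -v) → (Fx y Ω ↔ P)) :
    Elu (commutator (Isom B Q)) 2 Ω ↔ (∀ y : Isom B Q, y * y = 1 → ∀ j, 0 < j → j < k →
      finrank F (movS y.1) = 2 * j → (Pl B Q (movS y.1) ↔ Even j ∨ IsSquare (-1 : F)) → Fx y Ω) ∧
      ((Pl B Q ⊤ ↔ Even k ∨ IsSquare (-1 : F)) → Even k ∨ IsSquare (2 : F) → P) := by
  have := Module.nontrivial_of_finrank_pos (R := F) (M := V) (by omega)
  rw [elu_two hB h2]
  refine and_congr ⟨fun H y h1 j j1 j2 j3 j4 => ?_, fun H y h0 h1 h3 h4 => ?_⟩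
    ⟨fun H a b => ?_, fun H y h0 h1 => ?_⟩
  · obtain ⟨-, -, -, -, a1, a2, a3⟩ := invol_data h hB h2 h1
    exact H y ((invol_mem_iff h hB h2 h1).mpr ⟨j, j3, j4⟩) h1 (a2.mpr (by omega)) (a3.mpr (by omega))
  · obtain ⟨-, -, -, -, a1, a2, a3⟩ := invol_data h hB h2 h1
    obtain ⟨j, j1, j2⟩ := (invol_mem_iff h hB h2 h1).mp h0
    have := a2.mp h3
    have := a3.mp h4
    exact H y h1 j (by omega) (by omega) j1 j2
  · obtain ⟨y, hy⟩ := exists_cx_quad h hB h2 hn a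
    exact (hP y hy).mp (H y ((cx_mem_iff hy h hB h2 hn).2.mpr b) hy)
  · exact (hP y h1).mpr (H (cx_mem_iff h1 h hB h2 hn).1 ((cx_mem_iff h1 h hB h2 hn).2.mp h0))

theorem invol_fx_type (h2 : (2 : F) ≠ 0) (hy : y * y = 1) (h3 : 2 ≤ finrank F (movS y.1)) {m : ℕ}
    (he : Even m) (h0 : 0 < m) (hm : m < finrank F V) (η : Prop) :
    Fx y fun W => finrank F W = m ∧ NondegOn B W ∧ (Pl B Q W ↔ η) :=
  invol_fx h hB h2 hy (fun _ b a => quad_le h hB h2 a b) h3 (m := m - 1) (by omega)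
    fun Z C z1 z2 c1 c2 o => by
      obtain ⟨v, v1, v2, v3⟩ := exists_pl_sup_span h hB h2 z1
        (by rw [z2, Nat.odd_iff]; have := Nat.even_iff.mp he; omega) c1 c2 o η
      obtain ⟨v4, v5⟩ := nondegOn_sup_span h z1 v2 fun a ha => o a ha v v1
      exact ⟨v, v1, by omega, v4, v3⟩

theorem invol_fx_class (h2 : (2 : F) ≠ 0) (hy : y * y = 1) (h3 : 2 ≤ finrank F (movS y.1))
    (hW : NondegOn B W) (he : Odd (finrank F W)) (hm : finrank F W < finrank F V) :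
    Fx y fun U => ∃ g : Isom B Q, W.map g.1.toLinearMap = U := by
  have := Nat.odd_iff.mp he
  refine invol_fx h hB h2 hy (fun _ b a => quad_le h hB h2 a b) h3 (m := finrank F W - 1) (by omega)
    fun Z C z1 z2 c1 c2 o => ?_
  obtain ⟨v, v1, -, v2⟩ := exists_map_eq_sup_span h hB h2 hW z1
    (by rw [z2, Nat.even_iff]; omega) (by omega) c1 c2 o
  exact ⟨v, v1, v2⟩

theorem type_ext (hU : NondegOn B U) (hW : NondegOn B W) (ho : ∀ a ∈ U, ∀ b ∈ W, B a b = 0)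
    (he : Even (finrank F U)) {m : ℕ} (hm : Even m) (η : Prop) :
    (∃ X ≤ W, NondegOn B X ∧ finrank F ↥(U ⊔ X) = m ∧ NondegOn B (U ⊔ X) ∧ (Pl B Q (U ⊔ X) ↔ η)) ↔
      ∃ b ≤ finrank F W, m = finrank F U + b ∧ (b = 0 → (Pl B Q U ↔ η)) ∧
        (b = finrank F W → ((Pl B Q U ↔ Pl B Q W) ↔ η)) := by
  have hd := disjoint_of_nondeg hU ho h
  have key : ∀ X ≤ W, NondegOn B X → m = finrank F U + finrank F X →
      finrank F ↥(U ⊔ X) = m ∧ NondegOn B (U ⊔ X) ∧ (Pl B Q (U ⊔ X) ↔ (Pl B Q U ↔ Pl B Q X)) :=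
    fun X x1 x2 x3 => ⟨by rw [x3, finrank_sup_of_disjoint (hd.mono_right x1)],
      nondegOn_sup h hU x2 fun a ha b hb => ho a ha b (x1 hb), pl_sup h hB hU x2
        (fun a ha b hb => ho a ha b (x1 hb)) he ((Nat.even_add.mp (x3 ▸ hm)).mp he)⟩
  constructor
  · rintro ⟨X, x1, x2, x3, -, x4⟩
    rw [finrank_sup_of_disjoint (hd.mono_right x1)] at x3
    rw [(key X x1 x2 x3.symm).2.2] at x4
    refine ⟨_, Submodule.finrank_mono x1, x3.symm, fun e => ?_, fun e => ?_⟩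
    · obtain rfl := Submodule.finrank_eq_zero.mp e
      simpa [pl_bot h] using x4
    · exact Submodule.eq_of_le_of_finrank_eq x1 e ▸ x4
  rintro ⟨b, b1, b2, b3, b4⟩
  obtain ⟨X, x1, x2, rfl, x4⟩ : ∃ X ≤ W, NondegOn B X ∧ finrank F X = b ∧
      ((Pl B Q U ↔ Pl B Q X) ↔ η) := by
    rcases b1.eq_or_lt with e | e
    · exact ⟨W, le_rfl, hW, e.symm, b4 e⟩
    rcases Nat.eq_zero_or_pos b with rfl | e'
    · exact ⟨⊥, bot_le, fun x hx _ => hx, by simp, by simpa [pl_bot h] using b3 rfl⟩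
    obtain ⟨X, x1, x2, x3, x4⟩ := exists_type_le h hB hW ((Nat.even_add.mp (b2 ▸ hm)).mp he) e' e
      (Pl B Q U ↔ η)
    exact ⟨X, x1, x2, x3, by tauto⟩
  obtain ⟨k1, k2, k3⟩ := key X x1 x2 b2
  exact ⟨X, x1, x2, k1, k2, k3.trans x4⟩

theorem class_ext (h2 : (2 : F) ≠ 0) {W₀ : Submodule F V} (h0 : NondegOn B W₀)
    (hm : Odd (finrank F W₀)) (hU : NondegOn B U) (hW : NondegOn B W)
    (ho : ∀ a ∈ U, ∀ b ∈ W, B a b = 0) (he : Even (finrank F U)) (he' : Even (finrank F W)) :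
    (∃ X ≤ W, NondegOn B X ∧ ∃ g : Isom B Q, W₀.map g.1.toLinearMap = U ⊔ X) ↔
      ∃ b ≤ finrank F W, finrank F W₀ = finrank F U + b ∧ (b = 0 → True) ∧
        (b = finrank F W → True) := by
  have hd := disjoint_of_nondeg hU ho h
  refine ⟨fun ⟨X, x1, _, g, x2⟩ => ⟨_, Submodule.finrank_mono x1, by
    rw [← finrank_sup_of_disjoint (hd.mono_right x1), ← x2, g.1.finrank_map_eq], by simp⟩,
    fun ⟨b, b1, b2, _⟩ => ?_⟩
  rw [Nat.odd_iff] at hm
  rw [Nat.even_iff] at he he'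
  obtain ⟨Y, y1, y2, y3⟩ := quad_le h hB h2 hW (b - 1) (by omega)
  obtain ⟨C, c1, c2, -, c3, c4⟩ := exists_orth_compl h hB hW y2 y1
  have o := fun a ha b hb => ho a ha b (y1 hb)
  have e := finrank_sup_of_disjoint (disjoint_of_nondeg hU o h)
  obtain ⟨v, v1, v2, v3⟩ := exists_map_eq_sup_span h hB h2 h0 (nondegOn_sup h hU y2 o)
    (by rw [e, Nat.even_iff]; omega) (by omega) c2 (by omega) fun _ hx b hb => by
      obtain ⟨a, ha, a', ha', rfl⟩ := Submodule.mem_sup.mp hx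
      simp [c3 a' ha' b hb, ho a ha b (c1 hb)]
  exact ⟨_, sup_le y1 ((Submodule.span_singleton_le_iff_mem _ _).mpr (c1 v1)),
    (nondegOn_sup_span h y2 v2 fun a ha => c3 a ha v v1).1, sup_assoc U Y _ ▸ v3⟩

theorem type_orbit {m : ℕ} (hm : Even m) {η : Prop} (W : Submodule F V)
    (hW : finrank F W = m ∧ NondegOn B W ∧ (Pl B Q W ↔ η)) (U : Submodule F V) :
    (finrank F U = m ∧ NondegOn B U ∧ (Pl B Q U ↔ η)) ↔
      ∃ g : Isom B Q, W.map g.1.toLinearMap = U :=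
  ⟨fun a => exists_map_of_pl h hB hW.2.1 a.2.1 (hW.1 ▸ hm) (hW.1.trans a.1.symm)
    (hW.2.2.trans a.2.2.symm), by
    rintro ⟨g, rfl⟩
    exact ⟨(g.1.finrank_map_eq W).trans hW.1, nondegOn_map_isom hW.2.1 g, (pl_map_iff g).trans hW.2.2⟩⟩

variable (O : OD (RingHom.id F) r d D t) (hD : Even D)
include O hD

theorem OD.type_odd (h2 : (2 : F) ≠ 0) (hn : Odd (finrank F V)) {m : ℕ} (hm : Even m) (h0 : 0 < m)
    (hmn : m < finrank F V) {η : Prop}
    (hd : r ∣ Nat.card {W : Submodule F V // finrank F W = m ∧ NondegOn B W ∧ (Pl B Q W ↔ η)}) :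
    (∀ y : Isom B Q, y ^ r = 1 → y ≠ 1 →
      Fx y fun W => finrank F W = m ∧ NondegOn B W ∧ (Pl B Q W ↔ η)) ↔
      D ≤ m ∧ m % D ≤ finrank F V % D ∧ (m % D = 0 → ((D = d → Even (m / D)) ↔ η)) := by
  obtain ⟨h3, h4⟩ := O.nondeg_red h hB par_quad h0 hmn (fun _ a => a.2.1) (A := True)
    (T := fun j => (D = d → Even j) ↔ η) (S := fun _ _ => True) (by simp)
    (fun y k a b => ⟨by simp, fun j U u1 u2 u3 u4 => by
      rw [type_ext h hB u2 (nondegOn_fixS h hB y.2 (isom_disjoint a O.ne)) (fun a ha b hb =>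
        (orth_movS_fixS h hB y.2 (u1 ha) hb).1) (u4 ▸ hD.mul_left j) hm,
        O.pl_iff h hD a u2 u3 u1 u4, u4]
      refine exists_congr fun x => and_congr_right fun _ => and_congr_right fun e =>
        and_congr_right fun _ => iff_of_true (fun e' => ?_) (by simp)
      have := finrank_movS_add y.1
      have := Nat.even_iff.mp (hD.mul_left j)
      have := Nat.even_iff.mp (hD.mul_left k)
      rw [Nat.odd_iff] at hn
      rw [Nat.even_iff] at hm
      omega⟩) (fun k a _ => adm_odd h hB h2 hn a)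
    ((exists_type_le h hB (nondegOn_top hB) hm h0 (by simpa) η).imp fun _ a => ⟨a.2.2.1, a.2.1, a.2.2.2⟩)
    (type_orbit h hB hm) hd
  rw [h4]
  simp only [implies_true, and_true, true_implies] at h3 ⊢
  refine ⟨fun a => ⟨not_lt.mp fun b => ?_, a⟩, And.right⟩
  obtain ⟨-, c, -, e⟩ := h3 b
  exact e (c ▸ a.1)

theorem OD.type_even (hn : Even (finrank F V)) {m : ℕ} (hm : Even m) (h0 : 0 < m)
    (hmn : m < finrank F V) {η : Prop}
    (hd : r ∣ Nat.card {W : Submodule F V // finrank F W = m ∧ NondegOn B W ∧ (Pl B Q W ↔ η)}) :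
    (m < D → m / D = 0 ∧ m % D = m ∧
      (finrank F V % D = 0 → ((D = d → Even (finrank F V / D)) ↔ Pl B Q ⊤)) ∧
      ¬ (m ≤ finrank F V % D ∧ (m = finrank F V % D →
        (((D = d → Even (finrank F V / D)) ↔ Pl B Q ⊤) ↔ η)))) ∧
    ((∀ y : Isom B Q, y ^ r = 1 → y ≠ 1 →
      Fx y fun W => finrank F W = m ∧ NondegOn B W ∧ (Pl B Q W ↔ η)) ↔
      ((finrank F V % D = 0 → ((D = d → Even (finrank F V / D)) ↔ Pl B Q ⊤)) →
        m % D ≤ finrank F V % D ∧ (m % D = 0 → ((D = d → Even (m / D)) ↔ η)) ∧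
        (m % D = finrank F V % D → (((D = d → Even (m / D)) ↔
          ((D = d → Even (finrank F V / D)) ↔ Pl B Q ⊤)) ↔ η)))) := by
  have e0 : ∀ k, k * D = finrank F V → finrank F V / D = k := fun k e => by
    rw [← e, Nat.mul_div_cancel _ O.pos.2.2]
  simpa using O.nondeg_red h hB par_quad h0 hmn (fun _ a => a.2.1)
    (A := (D = d → Even (finrank F V / D)) ↔ Pl B Q ⊤) (T := fun j => (D = d → Even j) ↔ η)
    (S := fun k j => ((D = d → Even j) ↔ ((D = d → Even k) ↔ Pl B Q ⊤)) ↔ η)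
    (fun k j e _ => by rw [e, Nat.even_add_one, Nat.even_add_one]; tauto)
    (fun y k a b => ⟨fun e => by
      have := finrank_movS_add y.1
      rw [e0 k e, ← (O.pl_fix h hD hB hn a b).2, Submodule.finrank_eq_zero.mp
        (show finrank F (H11.fixS y.1) = 0 by omega)]
      exact pl_bot h, fun j U u1 u2 u3 u4 => by
      rw [type_ext h hB u2 (nondegOn_fixS h hB y.2 (isom_disjoint a O.ne)) (fun a ha b hb =>
        (orth_movS_fixS h hB y.2 (u1 ha) hb).1) (u4 ▸ hD.mul_left j) hm,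
        O.pl_iff h hD a u2 u3 u1 u4, u4, (O.pl_fix h hD hB hn a b).2]⟩)
    (fun k a b => O.adm_even h hD hB hn a fun e => e0 k e ▸ b e)
    ((exists_type_le h hB (nondegOn_top hB) hm h0 (by simpa) η).imp fun _ a => ⟨a.2.2.1, a.2.1, a.2.2.2⟩)
    (type_orbit h hB hm) hd

theorem OD.class_even (h2 : (2 : F) ≠ 0) (hn : Even (finrank F V)) (hW : NondegOn B W) {m : ℕ}
    (hm : finrank F W = m) (ho : Odd m) (hmn : m < finrank F V)
    (hd : r ∣ Nat.card {U : Submodule F V // ∃ g : Isom B Q, W.map g.1.toLinearMap = U}) :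
    (m < D → (finrank F V % D = 0 → ((D = d → Even (finrank F V / D)) ↔ Pl B Q ⊤)) ∧
      finrank F V % D < m) ∧
    ((∀ y : Isom B Q, y ^ r = 1 → y ≠ 1 → Fx y fun U => ∃ g : Isom B Q, W.map g.1.toLinearMap = U) ↔
      ((finrank F V % D = 0 → ((D = d → Even (finrank F V / D)) ↔ Pl B Q ⊤)) →
        m % D ≤ finrank F V % D)) := by
  subst hm
  have e0 : ∀ k, k * D = finrank F V → finrank F V / D = k := fun k e => by
    rw [← e, Nat.mul_div_cancel _ O.pos.2.2]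
  have := O.nondeg_red h hB par_quad ho.pos hmn (by rintro _ ⟨g, rfl⟩; exact nondegOn_map_isom hW g)
    (A := (D = d → Even (finrank F V / D)) ↔ Pl B Q ⊤) (T := fun _ => True) (S := fun _ _ => True)
    (by simp) (fun y k a b => ⟨fun e => by
      have := finrank_movS_add y.1
      rw [e0 k e, ← (O.pl_fix h hD hB hn a b).2, Submodule.finrank_eq_zero.mp
        (show finrank F (H11.fixS y.1) = 0 by omega)]
      exact pl_bot h, fun j U u1 u2 u3 u4 => by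
      rw [class_ext h hB h2 hW ho u2 (nondegOn_fixS h hB y.2 (isom_disjoint a O.ne)) (fun a ha b hb =>
        (orth_movS_fixS h hB y.2 (u1 ha) hb).1) (u4 ▸ hD.mul_left j) (O.pl_fix h hD hB hn a b).1, u4]⟩)
    (fun k a b => O.adm_even h hD hB hn a fun e => e0 k e ▸ b e) ⟨W, 1, W.map_id⟩ (by
      rintro _ ⟨g, rfl⟩ U
      exact ⟨by rintro ⟨k, rfl⟩; exact ⟨k * g⁻¹, by rw [← map_mul_isom]; simp⟩,
        by rintro ⟨k, rfl⟩; exact ⟨k * g, map_mul_isom _ _ _⟩⟩) hd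
  exact ⟨fun a => ⟨(this.1 a).2.2.1, by simpa using (this.1 a).2.2.2⟩, by simpa using this.2⟩

theorem OD.totSing_even (hn : Even (finrank F V)) {m e : ℕ} (hm : 2 * m < finrank F V)
    (he : Pl B Q ⊤ ↔ e % 2 = 0) {δ : ℕ → ℕ} (hδ : ∀ k, δ k = if D = d then (k + e) % 2 else e % 2)
    (hd : r ∣ Nat.card {U : Submodule F V // finrank F U = m ∧ TotSing B Q U}) :
    (∃ k, 0 < k ∧ (k * D ≤ finrank F V ∧ (k * D = finrank F V → δ k = 0)) ∧
      (finrank F V - k * D) / 2 - δ k < m) ∧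
    ((∀ y : Isom B Q, y ^ r = 1 → y ≠ 1 → Fx y fun W => finrank F W = m ∧ TotSing B Q W) ↔
      ∀ k, 0 < k → (k * D ≤ finrank F V ∧ (k * D = finrank F V → δ k = 0)) →
        ∃ j ≤ JJ d D t k, ∃ b ≤ (finrank F V - k * D) / 2 - δ k, m = j * d + b) := by
  have h0 : ∀ k, (((D = d → Even k) ↔ Pl B Q ⊤) ↔ δ k = 0) ∧ δ k ≤ 1 := fun k => by
    rw [hδ, he, Nat.even_iff]; split_ifs <;> omega
  have H1 : ∀ (y : Isom B Q) k, y ^ r = 1 → finrank F (movS y.1) = k * D →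
      (k * D ≤ finrank F V ∧ (k * D = finrank F V → δ k = 0)) ∧ WittIdx (pull B
        (H11.fixS y.1).subtype) (fun x => Q x) ((finrank F V - k * D) / 2 - δ k) := fun y k a b => by
    have h1 := finrank_movS_add y.1
    obtain ⟨h2, h3⟩ := O.pl_fix h hD hB hn a b
    rw [(h0 k).1] at h3
    refine ⟨⟨by omega, fun e => h3.mp (Submodule.finrank_eq_zero.mp
      (show finrank F (H11.fixS y.1) = 0 by omega) ▸ pl_bot h)⟩, ?_⟩
    convert wittIdx_on h (nondegOn_fixS h hB y.2 (isom_disjoint a O.ne)) using 2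
    · congr 1; omega
    · have := (h0 k).2
      simp only [h2, h3, true_and]; split_ifs <;> omega
  obtain ⟨y, k, y1, y2, y3, y4⟩ := O.exists_k h hB (by
    obtain ⟨ν, hν⟩ := (h.restrict ⊤).exists_wittIdx
    have := IsQuad.finrank_le_wittIdx' (h.restrict ⊤) (nondegOn_iff.mp (nondegOn_top hB)) hν
    obtain ⟨U, -, u⟩ := (exists_totSing_le h (nondegOn_top hB) hν (b := m)).mpr (by
      rw [finrank_top] at this; rw [Nat.even_iff] at hn; omega)
    exact ⟨U, u.symm⟩) (totSing_orbit h hB) hd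
  refine ⟨⟨k, y2, (H1 y k y1 y3).1, not_le.mp fun a => ?_⟩, ?_⟩
  · obtain ⟨U, u1, u2⟩ := (exists_totSing_le h (nondegOn_fixS h hB y.2 (isom_disjoint y1 O.ne))
      (H1 y k y1 y3).2).mpr a
    exact y4 U u1 u2.symm
  rw [← O.totSing_iff h hB par_quad H1 fun k a => O.adm_even h hD hB hn a.1 fun e =>
    (h0 k).1.mpr (a.2 e)]
  simp only [Fx, and_assoc]

end Cfsg.Agent.H10
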