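import Mathlib
import Cfsg.Agent.H10.Elus7

/-! Fixed subspaces of elements of prime order of orthogonal groups. -/

namespace Cfsg.Agent.H10
open Module Polynomial H11 L0
universe u

theorem add_sub_div {n m i : ℕ} (hi : 0 < i) (h : m % i = n % i) :
    (n + m - 2 * (n % i)) / i = n / i + m / i := by
  have h1 := Nat.div_add_mod n i
  have h2 := Nat.div_add_mod m i
  rw [show n + m - 2 * (n % i) = i * (n / i + m / i) by rw [mul_add]; omega,
    Nat.mul_div_cancel_left _ hi]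

theorem sub_two_mod {n c : ℕ} (hc : Even c) (h0 : 0 < c) (hn : Even n) (h2 : 2 ≤ n) :
    (n % c = 0 → (n - 2) % c + 2 = c) ∧ (n % c ≠ 0 → (n - 2) % c + 2 = n % c) := by
  obtain ⟨k, rfl⟩ : ∃ k, n = k + 2 := ⟨n - 2, by omega⟩
  have h1 := Nat.mod_lt k h0
  have h3 : k % c % 2 = 0 := by
    rw [Nat.mod_mod_of_dvd _ hc.two_dvd]; have := Nat.even_iff.mp hn; omega
  have h4 := Nat.even_iff.mp hc
  rw [Nat.add_sub_cancel, ← Nat.mod_add_mod]
  rcases (show k % c + 2 = c ∨ k % c + 2 < c by omega) with e | e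
  · simp [e]
  · rw [Nat.mod_eq_of_lt e]; omega

theorem te_arith {a b m c : ℕ} {A E η : Prop} (hm : 0 < m)
    (h : m < c → E ∧ a = m ∧ (b = 0 → A) ∧ ¬ (m ≤ b ∧ (m = b → (A ↔ η)))) :
    ((b = 0 → A) → a ≤ b ∧ (a = 0 → (E ↔ η)) ∧ (a = b → ((E ↔ A) ↔ η))) ↔
      (b = 0 ∧ (¬ A ∨ (c ≤ m ∧ a = 0 ∧ (E ↔ η)))) ∨ (0 < b ∧ c ≤ m ∧ ((0 < a ∧ a < b) ∨
        (a = 0 ∧ (E ↔ η)) ∨ (0 < a ∧ a = b ∧ ((E ↔ A) ↔ η)))) := by
  by_cases h1 : A <;> by_cases h2 : E <;> by_cases h3 : η <;> simp [h1, h2, h3] at h ⊢ <;> omega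

variable {F : Type u} [Field F] {r : ℕ}

section bridge
variable {ι : Type} [Fintype ι] [DecidableEq ι] {B : (ι → F) →ₗ[F] (ι → F) →ₗ[F] F}
  {Q : (ι → F) → F} (h : IsQuad B Q) {W : Submodule F (ι → F)}
include h

omit [Fintype ι] [DecidableEq ι] in
theorem nd_iff' : (∀ u ∈ W, u ≠ 0 → ∃ v ∈ W, QuadraticMap.polar Q u v ≠ 0) ↔ NondegOn B W := by
  simp only [h.polar_eq, NondegOn]
  exact forall₂_congr fun x _ => by rw [← not_imp_not]; push Not; rfl

omit [Fintype ι] [DecidableEq ι] in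
theorem nd_iff : Geo.IsNondegenerateOn (QuadraticMap.polar Q) W ↔ NondegOn B W := by
  rw [← nd_iff' h]
  refine forall₃_congr fun x _ _ => and_iff_right_of_imp fun ⟨v, a, b⟩ => ⟨v, a, ?_⟩
  rwa [h.polar_eq, h.comm, ← h.polar_eq]

omit [Fintype ι] [DecidableEq ι] in
theorem plus_iff : Geo.IsPlusTypeOn Q W ↔ Pl B Q W := by
  simp only [Geo.IsPlusTypeOn, Pl, h.totSing_iff, Geo.IsTotallySingularQuad]

omit [DecidableEq ι] in
theorem iso_iff (hB : B.SeparatingLeft) {W₀ : Submodule F (ι → F)} {m : ℕ}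
    (h0 : finrank F W₀ = m ∧ Geo.IsNondegenerateOn (QuadraticMap.polar Q) W₀) :
    (finrank F W = m ∧ Geo.IsNondegenerateOn (QuadraticMap.polar Q) W ∧ Geo.AreIsometricFor Q W W₀) ↔
      ∃ g : Isom B Q, W₀.map g.1.toLinearMap = W := by
  rw [nd_iff h] at h0 ⊢
  constructor
  · rintro ⟨-, -, e, he⟩
    have : ∀ x, Q (e.symm x) = Q x := fun x => by rw [← he, e.apply_symm_apply]
    exact exists_map_eq_of_equiv h hB e.symm (fun x y => by
      have := this (x + y)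
      simp only [map_add, Submodule.coe_add, h.add'] at this
      simpa [*] using this) this
  · rintro ⟨g, rfl⟩
    refine ⟨by rw [LinearEquiv.finrank_map_eq, h0.1], nondegOn_map_isom h0.2 g,
      (g.1.submoduleMap W₀).symm, fun w => ?_⟩
    obtain ⟨w, rfl⟩ := (g.1.submoduleMap W₀).surjective w
    simpa using (g.2.2 w).symm

end bridge

theorem pl_plus (d : ℕ) : Pl (bPlus d F) (quadFormPlus d F) ⊤ := by
  obtain ⟨W, h1, h2⟩ := wittIdx_plus d F
  exact ⟨W, le_top, h1.1, by simp [h2, two_mul]⟩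

theorem minus_data [Finite F] {d : ℕ} (hd : 0 < d) {a b : F}
    (hab : ∀ x y : F, x ^ 2 + a * x * y + b * y ^ 2 = 0 → x = 0 ∧ y = 0) :
    finrank F ((Fin (d - 1) ⊕ Fin (d - 1)) ⊕ Fin 2 → F) = 2 * d ∧
      ¬ Pl (bMinus (d - 1) F a b) (quadFormMinus (d - 1) F a b) ⊤ := by
  have hn : finrank F ((Fin (d - 1) ⊕ Fin (d - 1)) ⊕ Fin 2 → F) = 2 * d := by simp; omega
  refine ⟨hn, fun ⟨U, _, u1, u2⟩ => ?_⟩
  have := (isQuad_minus (d - 1) F a b).finrank_le_wittIdx (bMinus_sep _ hab) (wittIdx_minus _ hab) u1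
  rw [finrank_top] at u2
  omega

variable {V : Type*} [AddCommGroup V] [Module F V] [FiniteDimensional F V]
  {Q : V → F} {B : V →ₗ[F] V →ₗ[F] F} [Finite F] (h : IsQuad B Q) (hB : B.SeparatingLeft)
  {Ω : Submodule F V → Prop} {W : Submodule F V}
include h hB

theorem elu_ts_two (h2 : (2 : F) ≠ 0) {k m : ℕ} (hn : finrank F V = 2 * k) (hk : 2 ≤ k) (hm : m < k) :
    Elu (commutator (Isom B Q)) 2 (fun W => finrank F W = m ∧ TotSing B Q W) ↔
      (Pl B Q ⊤ → IsSquare (-1 : F) ∨ m + 2 ≤ k) ∧ ((Pl B Q ⊤ ↔ Even k ∨ IsSquare (-1 : F)) →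
        Even k ∨ IsSquare (2 : F) → Even m ∨ IsSquare (-1 : F)) := by
  rw [elu_omega_two h hB h2 hn (by omega) fun y hy => cx_quad_totSing hy h hB h2 (by omega)]
  have key : ∀ y : Isom B Q, y * y = 1 → ∀ j, 0 < j → j < k → finrank F (movS y.1) = 2 * j →
      ((Fx y fun W => finrank F W = m ∧ TotSing B Q W) ↔
        (Pl B Q ⊤ → Pl B Q (movS y.1) ∨ m + 2 ≤ k)) := fun y h1 j j1 j2 j3 => by
    obtain ⟨a1, a2, a3, a4, a5, -⟩ := invol_data h hB h2 h1
    have a6 : Even (finrank F (H11.fixS y.1)) := ⟨k - j, by omega⟩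
    rw [invol_totSing h hB h2 h1 (wittIdx_on h a1) (wittIdx_on h a2), ← a4,
      pl_sup h hB a1 a2 a3 (j3 ▸ even_two_mul j) a6]
    by_cases e : Pl B Q (movS y.1) <;> by_cases e' : Pl B Q (H11.fixS y.1) <;>
      simp [e, e', j3, a6] <;> omega
  refine and_congr_left fun _ => ⟨fun H a => ?_, fun H y h1 j j1 j2 j3 j4 =>
    (key y h1 j j1 j2 j3).mpr fun a => (H a).imp_left fun b => j4.mpr (.inr b)⟩
  obtain ⟨W, -, w1, w2, w3⟩ := exists_type_le h hB (nondegOn_top hB) even_two two_pos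
    (by rw [finrank_top]; omega) (IsSquare (-1 : F))
  obtain ⟨y, y1, rfl⟩ := exists_invol_neg h hB h2 w1
  exact ((key y y1 1 one_pos (by omega) w2).mp (H y y1 1 one_pos (by omega) w2 (by simpa)) a).imp_left
    w3.mp

theorem elu_ts_odd {p q i c e m : ℕ} [Fact p.Prime] [CharP F p] (hr : r.Prime) (h2 : r ≠ 2)
    (hp : r ≠ p) (hq : Nat.card F = q) (hi : i = orderOf (q : ZMod r))
    (hc : c = if Even i then i else 2 * i) {n : ℕ} (hn : finrank F V = n) (he : Even n) (h4 : 4 < n)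
    (hm : 2 * m < n) (hP : Pl B Q ⊤ ↔ e % 2 = 0)
    (hd : r ∣ Nat.card {U : Submodule F V // finrank F U = m ∧ TotSing B Q U}) :
    Elu (commutator (Isom B Q)) r (fun W => finrank F W = m ∧ TotSing B Q W) ↔
      (Odd i ∧ i ≤ m ∧ 2 * (m % i) ≤ (n - 2 * (e % 2)) % c) ∨ (Even i ∧ i ≤ m ∧
        (r - 1) / i + 2 * (m / i) ≤ n / i ∧ ((2 * (m % i) ≤ i ∧ n % c = 0 ∧ (n / i + e) % 2 = 1 ∧
        (r - 1) / i + 2 * (m / i) < n / i) ∨ (2 * (m % i) ≤ n % c ∧ (n / i + e) % 2 = 0) ∨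
        (2 * (m % i) < n % c ∧ (n / i + e) % 2 = 1))) := by
  subst hn
  have O := od_id (F := F) hr h2 hp hq hi hc
  obtain ⟨hD, h5, h6⟩ := c_facts hc O.pos.1
  obtain ⟨h7, h8⟩ := O.totSing_even h hB hD he hm hP (fun _ => rfl) hd
  rw [elu_omega_odd h hB h4 (hr.odd_of_ne_two h2), h8]
  clear h8
  rcases Nat.even_or_odd i with e1 | e1
  · obtain rfl := h5.mpr (Nat.even_iff.mp e1)
    simp only [if_true] at h7 ⊢
    rw [arith_ts2 e1 he O.pos.1 O.pos.2.1 hm h7]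
    simp [e1]
  · have h9 := h6 (Nat.odd_iff.mp e1)
    have e2 : c ≠ i := by have := O.pos.1; omega
    have e3 := Nat.even_iff.mp he
    have e4 : ∀ k, (k * c ≤ finrank F V ∧ (k * c = finrank F V → e % 2 = 0) ↔
        k * c ≤ finrank F V - 2 * (e % 2)) ∧ (finrank F V - k * c) / 2 - e % 2 =
        (finrank F V - 2 * (e % 2) - k * c) / 2 := fun k => by
      have := Nat.even_iff.mp (hD.mul_left k)
      omega
    simp only [e2, if_false, (e4 _).1, (e4 _).2] at h7 ⊢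
    rw [arith_ts O.pos.1 O.pos.2.1 (.inr h9) (by omega) h7]
    simp [e1, e2]

theorem Elu.fx_char {p : ℕ} [Fact p.Prime] [CharP F p] (h4 : 4 < finrank F V)
    (H : Elu (commutator (Isom B Q)) p Ω) {y : Isom B Q} (h1 : y ^ p = 1) (h2 : y ≠ 1)
    (h3 : Even (finrank F (movS y.1))) : Fx y Ω := by
  have := Module.nontrivial_of_finrank_pos (R := F) (M := V) (by omega)
  rcases (Fact.out : p.Prime).eq_two_or_odd' with rfl | e
  · exact (elu_char_two hB).mp H y ((h.mem_commutator_iff_of_char_two hB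
      (h.nonExc_of_finrank hB h4.ne') CharTwo.two_eq_zero y).mpr (dick_eq_zero_iff.mpr h3))
      (sq y ▸ h1) h2
  · exact (elu_omega_odd h hB h4 e).mp H y h1 h2

open Classical in
theorem witt_perp (hW : NondegOn B W) (he : Even (finrank F W)) (hn : Even (finrank F V)) :
    WittIdx (pull B (perp B W).subtype) (fun x => Q x)
      ((finrank F V - finrank F W) / 2 - if Pl B Q W ↔ Pl B Q ⊤ then 0 else 1) := by
  have h1 := h.nondegOn_perp hB hW
  have h2 := h.finrank_perp hB W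
  have h3 : Even (finrank F (perp B W)) := by
    rw [Nat.even_iff] at he hn ⊢; omega
  have h4 := pl_sup h hB hW h1 (fun a ha b hb => mem_perp.mp hb a ha) he h3
  rw [(h.isCompl_perp hB hW).sup_eq_top] at h4
  convert wittIdx_on h h1 using 2
  · congr 1; omega
  · by_cases e : Pl B Q W <;> by_cases e' : Pl B Q (perp B W) <;> simp [h3, h4, e, e']

open Classical in
theorem wittIdx_top (hn : Even (finrank F V)) :
    WittIdx B Q (finrank F V / 2 - if Pl B Q ⊤ then 0 else 1) := by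
  obtain ⟨k, hk⟩ := hn
  rw [← two_mul] at hk
  split_ifs with e
  · simpa [hk] using (pl_top_iff h hB hk).mp e
  · rcases k with _ | k
    · rw [show (⊤ : Submodule F V) = ⊥ from Submodule.finrank_eq_zero.mp (by simpa using hk)] at e
      exact absurd (pl_bot h) e
    · simpa [hk] using (h.wittIdx_even_cases hB hk).resolve_left (mt (pl_top_iff h hB hk).mpr e)

open Classical in
theorem elu_type_char {p : ℕ} [Fact p.Prime] [CharP F p] {k j : ℕ} (hn : finrank F V = 2 * k)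
    (hk : 3 ≤ k) (h0 : 0 < j) (hj : j < k) (η : Prop) :
    (Elu (commutator (Isom B Q)) p (fun W => finrank F W = 2 * j ∧ NondegOn B W ∧ (Pl B Q W ↔ η)) →
      (k - if Pl B Q ⊤ then 0 else 1) / 2 ≤
        (j - if η then 0 else 1) / 2 + (k - j - if η ↔ Pl B Q ⊤ then 0 else 1) / 2) ∧
    (p = 2 → (k - if Pl B Q ⊤ then 0 else 1) / 2 ≤
        (j - if η then 0 else 1) / 2 + (k - j - if η ↔ Pl B Q ⊤ then 0 else 1) / 2 →
      Elu (commutator (Isom B Q)) p fun W => finrank F W = 2 * j ∧ NondegOn B W ∧ (Pl B Q W ↔ η)) := by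
  have hν := wittIdx_top h hB (hn ▸ even_two_mul k)
  rw [hn, Nat.mul_div_cancel_left _ two_pos] at hν
  have hw : ∀ W, NondegOn B W → finrank F W = 2 * j → (Pl B Q W ↔ η) →
      WittIdx (pull B W.subtype) (fun x => Q x) (j - if η then 0 else 1) ∧
      WittIdx (pull B (perp B W).subtype) (fun x => Q x)
        (k - j - if η ↔ Pl B Q ⊤ then 0 else 1) := fun W a b c => ⟨by
      convert wittIdx_on h a using 2
      · omega
      · by_cases e : η <;> simp [b, c, e], by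
      convert witt_perp h hB a (b ▸ even_two_mul j) (hn ▸ even_two_mul k) using 2
      · omega
      · simp only [c]⟩
  constructor
  · intro H
    obtain ⟨y, y1, y2, y3⟩ := exists_wa (p := p) h hB hν (Nat.mul_div_le _ 2)
    obtain ⟨W, ⟨w1, w2, w3⟩, w4⟩ := H.fx_char h hB (by omega) y3 (fun e => by
      rw [e, finrank_movS_eq_zero.mpr (by rfl)] at y2
      split_ifs at y2 <;> omega) (y2 ▸ even_two_mul _)
    have := y1.le h hB w2 w4 (hw W w2 w1 w3).1 (hw W w2 w1 w3).2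
    omega
  rintro rfl H
  have := Module.nontrivial_of_finrank_pos (R := F) (M := V) (by omega)
  obtain ⟨W, -, w1, w2, w3⟩ := exists_type_le h hB (nondegOn_top hB) (even_two_mul j) (by omega)
    (by rw [finrank_top]; omega) η
  have T := two_quad h hB
  refine (elu_char_two hB).mpr fun y _ y1 _ => (T.fx_iff w1 (type_orbit h hB (even_two_mul j) W
    ⟨w2, w1, w3⟩) (fun W a k hk => ?_) (hw W w1 w2 w3).1 (hw W w1 w2 w3).2 y1).mpr fun e => ?_
  · obtain ⟨ν, hν⟩ : ∃ ν, WittIdx (pull B W.subtype) (fun x => Q x) ν := ⟨_, wittIdx_on h a⟩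
    obtain ⟨l, hl⟩ := (alt_on (B := B) T.alt a).1
    exact exists_nonalt_data (h.restrict W) (nondegOn_iff.mp a) (m := l) (by omega) hν k (by omega)
  · have := h.finrank_le_wittIdx hB hν ((totSing_movS_iff h hB y).mpr e)
    have := Nat.even_iff.mp (T.even_of_altT y1 e)
    omega

theorem elu_type_two (h2 : (2 : F) ≠ 0) {k j : ℕ} (hn : finrank F V = 2 * k) (h0 : 0 < j)
    (hj : j < k) (η : Prop) :
    Elu (commutator (Isom B Q)) 2 (fun W => finrank F W = 2 * j ∧ NondegOn B W ∧ (Pl B Q W ↔ η)) ↔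
      ((Pl B Q ⊤ ↔ Even k ∨ IsSquare (-1 : F)) → Even k ∨ IsSquare (2 : F) →
        (Even j ∨ IsSquare (-1 : F) ↔ η)) := by
  rw [elu_omega_two h hB h2 hn (by omega) fun y hy => cx_quad_nondeg hy h hB h2 (by omega) η]
  exact and_iff_right fun y h1 l _ _ _ _ => invol_fx_type h hB h2 h1 (by omega) (even_two_mul j)
    (by omega) (by omega) η

theorem elu_class_two (h2 : (2 : F) ≠ 0) {k : ℕ} (hn : finrank F V = 2 * k) (hW : NondegOn B W)
    (he : Odd (finrank F W)) :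
    Elu (commutator (Isom B Q)) 2 (fun U => ∃ g : Isom B Q, W.map g.1.toLinearMap = U) ↔
      ((Pl B Q ⊤ ↔ Even k ∨ IsSquare (-1 : F)) → ¬ (Even k ∨ IsSquare (2 : F))) := by
  have h3 := W.finrank_le
  have h4 := Nat.odd_iff.mp he
  rw [elu_omega_two h hB h2 hn (by omega) (P := False) fun y hy => iff_false_intro ?_]
  · exact and_iff_right fun y h1 l _ _ _ _ => invol_fx_class h hB h2 h1 (by omega) hW he (by omega)
  · rintro ⟨_, ⟨g, rfl⟩, u⟩
    obtain ⟨l, hl, -⟩ := cx_quad hy h hB h2 (nondegOn_map_isom hW g) u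
    rw [LinearEquiv.finrank_map_eq] at hl
    omega

theorem elu_type_odd {p q i c m n : ℕ} [Fact p.Prime] [CharP F p] (hr : r.Prime) (h2 : r ≠ 2)
    (hp : r ≠ p) (hq : Nat.card F = q) (hi : i = orderOf (q : ZMod r))
    (hc : c = if Even i then i else 2 * i) (hn : finrank F V = n) (he : Even n) (h4 : 4 < n)
    (hm : Even m) (h0 : 0 < m) (hmn : m < n) {η P : Prop} (hP : Pl B Q ⊤ ↔ P)
    (hd : r ∣ Nat.card {W : Submodule F V // finrank F W = m ∧ NondegOn B W ∧ (Pl B Q W ↔ η)}) :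
    Elu (commutator (Isom B Q)) r (fun W => finrank F W = m ∧ NondegOn B W ∧ (Pl B Q W ↔ η)) ↔
      (Odd i ∧ ((n % c = 0 ∧ (¬ P ∨ (c ≤ m ∧ m % c = 0 ∧ η))) ∨ (0 < n % c ∧ c ≤ m ∧
        ((0 < m % c ∧ m % c < n % c) ∨ (m % c = 0 ∧ η) ∨ (0 < m % c ∧ m % c = n % c ∧ (P ↔ η)))))) ∨
      (Even i ∧ ((n % c = 0 ∧ (¬ (Even (n / i) ↔ P) ∨ (m % c = 0 ∧ (Even (m / i) ↔ η)))) ∨
        (0 < n % c ∧ i ≤ m ∧ ((0 < m % c ∧ m % c < n % c) ∨ (m % c = 0 ∧ (Even (m / i) ↔ η)) ∨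
          (0 < m % c ∧ m % c = n % c ∧ ((Even ((n + m - 2 * (n % c)) / i) ↔ P) ↔ η)))))) := by
  subst hn
  have O := od_id (F := F) hr h2 hp hq hi hc
  obtain ⟨hD, h5, h6⟩ := c_facts hc O.pos.1
  obtain ⟨h7, h8⟩ := O.type_even h hB hD he hm h0 hmn hd
  rw [elu_omega_odd h hB h4 (hr.odd_of_ne_two h2), h8, te_arith h0 fun e =>
    ⟨fun _ => by simp [(h7 e).1], (h7 e).2⟩, hP]
  rcases Nat.even_or_odd i with e1 | e1
  · obtain rfl := h5.mpr (Nat.even_iff.mp e1)
    simp only [forall_const, e1, Nat.not_odd_iff_even.mpr e1, false_and, false_or, true_and]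
    refine or_congr (and_congr_right fun _ => or_congr_right ⟨fun a => a.2, fun a =>
      ⟨Nat.le_of_dvd h0 (Nat.dvd_of_mod_eq_zero a.1), a⟩⟩) (and_congr_right fun _ =>
      and_congr_right fun _ => or_congr_right (or_congr_right (and_congr_right fun _ =>
        and_congr_right fun a => ?_)))
    rw [add_sub_div O.pos.1 a, Nat.even_add]
    by_cases e : P <;> by_cases e' : Even (m / c) <;> simp [e, e']
  · have e2 : c ≠ i := by have := O.pos.1; have := h6 (Nat.odd_iff.mp e1); omega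
    simp [e1, e2]

theorem elu_class_odd {p q i c m n : ℕ} [Fact p.Prime] [CharP F p] (hr : r.Prime) (h2 : r ≠ 2)
    (hp : r ≠ p) (hq : Nat.card F = q) (hi : i = orderOf (q : ZMod r))
    (hc : c = if Even i then i else 2 * i) (hn : finrank F V = n) (he : Even n) (h4 : 4 < n)
    (h3 : (2 : F) ≠ 0) (hW : NondegOn B W) (hm : finrank F W = m) (ho : Odd m) {P : Prop}
    (hP : Pl B Q ⊤ ↔ P)
    (hd : r ∣ Nat.card {U : Submodule F V // ∃ g : Isom B Q, W.map g.1.toLinearMap = U}) :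
    Elu (commutator (Isom B Q)) r (fun U => ∃ g : Isom B Q, W.map g.1.toLinearMap = U) ↔
      (Odd i ∧ ((n % c = 0 ∧ ¬ P) ∨ (c ≤ m ∧ 0 < m % c ∧ m % c < n % c))) ∨
      (Even i ∧ ((n % c = 0 ∧ ¬ (Even (n / i) ↔ P)) ∨ (i ≤ m ∧ 0 < m % c ∧ m % c < n % c))) := by
  subst hn
  have O := od_id (F := F) hr h2 hp hq hi hc
  obtain ⟨hD, h5, h6⟩ := c_facts hc O.pos.1
  have := W.finrank_le
  have e3 := Nat.even_iff.mp he
  have e4 := Nat.odd_iff.mp ho
  obtain ⟨h7, h8⟩ := O.class_even h hB hD h3 he hW hm ho (by omega) hd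
  rw [elu_omega_odd h hB h4 (hr.odd_of_ne_two h2), h8]
  rw [hP] at h7 ⊢
  have e5 := Nat.mod_mod_of_dvd m hD.two_dvd
  have e6 := Nat.mod_mod_of_dvd (finrank F V) hD.two_dvd
  have e7 : m < c → m % c = m := Nat.mod_eq_of_lt
  clear h8 hd hi hc
  rcases Nat.even_or_odd i with e1 | e1
  · obtain rfl := h5.mpr (Nat.even_iff.mp e1)
    simp only [forall_const, e1, Nat.not_odd_iff_even.mpr e1, false_and, false_or, true_and] at h7 ⊢
    by_cases e : Even (finrank F V / c) ↔ P <;> simp [e] at h7 ⊢ <;> omega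
  · have e2 : c ≠ i := by have := O.pos.1; have := h6 (Nat.odd_iff.mp e1); omega
    by_cases e : P <;> simp [e1, e2, e, Nat.not_even_iff_odd.mpr e1] at h7 ⊢ <;> omega

end Cfsg.Agent.H10
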