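import Mathlib
import Cfsg.Agent.H10.Elus8

/-! Subspaces invariant under unipotent isometries. -/

namespace Cfsg.Agent.H10
open Module Polynomial H11 L0
universe u

theorem sum_of_le3 {ν : Multiset ℕ} {a b c : ℕ}
    (h : ν ≤ Multiset.replicate a 3 + Multiset.replicate b 1 + Multiset.replicate c 2) :
    ν.count 3 ≤ a ∧ ν.count 1 ≤ b ∧ ν.count 2 ≤ c ∧
      ν.sum = 3 * ν.count 3 + ν.count 1 + 2 * ν.count 2 ∧
      ν.card = ν.count 3 + ν.count 1 + ν.count 2 := by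
  have h1 : ν.toFinset ⊆ {3, 1, 2} := fun x hx => by
    have := Multiset.mem_of_le h (Multiset.mem_toFinset.mp hx)
    simp only [Multiset.mem_add, Multiset.mem_replicate] at this
    simp; omega
  refine ⟨by simpa [Multiset.count_replicate] using Multiset.count_le_of_le 3 h,
    by simpa [Multiset.count_replicate] using Multiset.count_le_of_le 1 h,
    by simpa [Multiset.count_replicate] using Multiset.count_le_of_le 2 h, ?_, ?_⟩
  · rw [Finset.sum_multiset_count_of_subset ν _ h1]; simp; ring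
  · rw [← Multiset.sum_count_eq_card fun a ha => h1 (Multiset.mem_toFinset.mpr ha)]; simp; ring

theorem part3 {a b c p : ℕ} (hp : 3 ≤ p) (hc : Even c) :
    (∀ e ∈ Multiset.replicate a 3 + Multiset.replicate b 1 + Multiset.replicate c 2, 0 < e ∧ e ≤ p) ∧
    (∀ e, Even e →
      Even ((Multiset.replicate a 3 + Multiset.replicate b 1 + Multiset.replicate c 2).count e)) ∧
    (Multiset.replicate a 3 + Multiset.replicate b 1 + Multiset.replicate c 2).sum =
      3 * a + b + 2 * c := by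
  refine ⟨fun e he => ?_, fun e he => ?_, by simp; ring⟩
  · simp only [Multiset.mem_add, Multiset.mem_replicate] at he; omega
  · have := Nat.even_iff.mp he
    simp only [Multiset.count_add, Multiset.count_replicate, if_neg (show 3 ≠ e by omega),
      if_neg (show 1 ≠ e by omega), zero_add]
    split_ifs <;> simp [hc]

/-- Unipotent types. -/
noncomputable def uT (F : Type u) [Field F] (μ : Multiset ℕ) : Multiset F[X] :=
  μ.map fun e => (X - 1) ^ e

variable {F : Type u} [Field F] {μ ν : Multiset ℕ}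

theorem uT_inj : Function.Injective fun e : ℕ => (X - 1 : F[X]) ^ e := fun a b h => by
  simpa [natDegree_X_sub_one] using congrArg natDegree h

theorem uT_sum : ((uT F μ).map natDegree).sum = μ.sum := by
  simp [uT, natDegree_X_sub_one]

open Classical in
theorem uT_count (e : ℕ) : (uT F μ).count ((X - 1) ^ e) = μ.count e :=
  Multiset.count_map_eq_count' _ _ uT_inj e

theorem uT_add : uT F (μ + ν) = uT F μ + uT F ν := Multiset.map_add _ _ _

theorem uT_le : uT F μ ≤ uT F ν ↔ μ ≤ ν := Multiset.map_le_map_iff uT_inj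

theorem uT_mem (h : ∀ e ∈ μ, 0 < e) : ∀ u ∈ uT F μ, ∃ j, 0 < j ∧ u = (X - 1) ^ j := fun u hu => by
  obtain ⟨e, he, rfl⟩ := Multiset.mem_map.mp hu
  exact ⟨e, h e he, rfl⟩

variable {σ : F →+* F} {ε κ : F} {τ : F →+ F} {V : Type*} [AddCommGroup V] [Module F V]
  [FiniteDimensional F V] {g : End F V} {U W : Submodule F V} {Q : V → F} {p : ℕ}

theorem pow_eq_zero_iff_uT (h : tyE g = uT F μ) (k : ℕ) : (g - 1) ^ k = 0 ↔ ∀ e ∈ μ, e ≤ k := by
  rw [show (g - 1) ^ k = aeval g ((X - 1 : F[X]) ^ k) by simp, aeval_eq_zero_iff_tyE, h]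
  simp [uT, pow_dvd_pow_iff irr_X_sub_one.ne_zero irr_X_sub_one.not_isUnit]

theorem exists_uT {k : ℕ} (hg : (g - 1) ^ k = 0) : ∃ μ, (∀ e ∈ μ, 0 < e ∧ e ≤ k) ∧ tyE g = uT F μ := by
  have h1 : ∀ u ∈ tyE g, ∃ e, 0 < e ∧ e ≤ k ∧ u = (X - 1) ^ e := fun u hu =>
    (prim_of_mem_tyE hu).eq_pow_of_dvd_pow irr_X_sub_one monic_X_sub_one
      ((aeval_eq_zero_iff_tyE g _).mp (by simpa using hg) u hu)
  refine ⟨(tyE g).map natDegree, fun e he => ?_, ?_⟩
  · obtain ⟨u, hu, rfl⟩ := Multiset.mem_map.mp he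
    obtain ⟨e, a, b, rfl⟩ := h1 u hu
    simp [natDegree_X_sub_one, a, b]
  · rw [uT, Multiset.map_map, Multiset.map_congr rfl (g := id) fun u hu => ?_, Multiset.map_id]
    obtain ⟨e, -, -, rfl⟩ := h1 u hu
    simp [natDegree_X_sub_one]

theorem finrank_ker_uT (h0 : ∀ e ∈ μ, 0 < e) (h : tyE g = uT F μ) :
    finrank F (LinearMap.ker (g - 1)) = μ.card := by
  have h1 := kdE_eq_sum g (X - 1)
  rw [h, uT, Multiset.map_map, Multiset.map_congr rfl (g := fun _ => 1) fun e he => by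
    rw [Function.comp, gd_of_dvd_right (pow_ne_zero _ irr_X_sub_one.ne_zero)
      (dvd_pow_self _ (h0 e he).ne'), natDegree_X_sub_one],
    kdE, show aeval g (X - 1 : F[X]) = g - 1 by simp] at h1
  simpa using h1

omit [FiniteDimensional F V] in
theorem sub_pow_char' [Fact p.Prime] [CharP F p] : g ^ p = 1 ↔ (g - 1) ^ p = 0 := by
  rw [show (g - 1) ^ p = aeval g ((X - 1 : F[X]) ^ p) by simp, sub_pow_char]
  simp [sub_eq_zero]

omit [FiniteDimensional F V] in
theorem restrict_sub_pow (hW : ∀ x ∈ W, g x ∈ W) (k : ℕ) (x : W) :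
    (((g.restrict hW - 1) ^ k) x : V) = ((g - 1) ^ k) x := by
  induction k with
  | zero => simp
  | succ k ih => simp [pow_succ', ih]

section cyc

theorem exists_cyc_sub {j : ℕ} {x : V} (hW : ∀ x ∈ W, g x ∈ W) (hx : x ∈ W)
    (h0 : ∀ x ∈ W, ((g - 1) ^ (j + 1)) x = 0) (h1 : ((g - 1) ^ j) x ≠ 0) :
    ∃ C ≤ W, x ∈ C ∧ TyOn g C (uT F {j + 1}) ∧
      ∀ v ∈ C, (g - 1) v = 0 → ∃ a : F, v = a • ((g - 1) ^ j) x := by
  have hN : ∀ i : ℕ, ((g - 1) ^ i) x ∈ W := fun i => by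
    induction i with
    | zero => simpa
    | succ i ih => simpa [pow_succ'] using W.sub_mem (hW _ ih) ih
  let C := Submodule.span F (Set.range fun i : ℕ => ((g - 1) ^ i) x)
  have c0 : ∀ i : ℕ, ((g - 1) ^ i) x ∈ C := fun i => Submodule.subset_span ⟨i, rfl⟩
  have c1 : C ≤ W := Submodule.span_le.mpr (by rintro _ ⟨i, rfl⟩; exact hN i)
  have c2 : ∀ v ∈ C, g v ∈ C := fun v hv => by
    refine (Submodule.span_le (p := C.comap g)).mpr ?_ hv
    rintro _ ⟨i, rfl⟩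
    simpa [pow_succ'] using C.add_mem (c0 (i + 1)) (c0 i)
  have c3 : finrank F (LinearMap.ker (g.restrict c2 - 1)) ≤ 1 := by
    have e1 := (g.restrict c2 - 1).finrank_range_add_finrank_ker
    have e2 : C ≤ (LinearMap.range (g.restrict c2 - 1)).map C.subtype ⊔ Submodule.span F {x} := by
      refine Submodule.span_le.mpr ?_
      rintro _ ⟨i, rfl⟩
      rcases i with _ | i
      · exact Submodule.mem_sup_right (by simp)
      · exact Submodule.mem_sup_left ⟨_, ⟨⟨_, c0 i⟩, rfl⟩, by simp [pow_succ']⟩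
    have e3 := (Submodule.finrank_mono e2).trans (Submodule.finrank_add_le_finrank_add_finrank _ _)
    have e4 := finrank_span_le_card (R := F) ({x} : Set V)
    rw [Submodule.finrank_map_subtype_eq] at e3
    simp only [Set.toFinset_singleton, Finset.card_singleton] at e4
    omega
  have c4 : (g.restrict c2 - 1) ^ (j + 1) = 0 := LinearMap.ext fun v => Subtype.ext <| by
    rw [restrict_sub_pow]; exact h0 _ (c1 v.2)
  have c5 : tyE (g.restrict c2) = uT F {finrank F C} := tyE_reg ⟨_, c4⟩ c3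
    (finrank_pos_iff_exists_ne_zero.mpr ⟨⟨_, c0 j⟩, fun e => h1 (congrArg Subtype.val e)⟩)
  have c6 : finrank F C = j + 1 := by
    have a := (pow_eq_zero_iff_uT c5 _).mp c4
    have b := mt (pow_eq_zero_iff_uT c5 j).mpr fun e => h1 (by
      rw [← restrict_sub_pow c2 j ⟨x, by simpa using c0 0⟩, e]; rfl)
    simp only [Multiset.mem_singleton, forall_eq] at a b
    omega
  refine ⟨C, c1, by simpa using c0 0, ⟨c2, c6 ▸ c5⟩, fun v hv e => ?_⟩
  have c7 : (⟨⟨_, c0 j⟩, Subtype.ext (by simpa [pow_succ'] using h0 x hx)⟩ :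
      LinearMap.ker (g.restrict c2 - 1)) ≠ 0 := fun e => h1 (congrArg (fun x => x.1.1) e)
  obtain ⟨a, ha⟩ := exists_smul_eq_of_finrank_eq_one (le_antisymm c3
    (finrank_pos_iff_exists_ne_zero.mpr ⟨_, c7⟩)) c7 ⟨⟨v, hv⟩, Subtype.ext (by simpa using e)⟩
  exact ⟨a, (congrArg (fun x => x.1.1) ha).symm⟩

omit [FiniteDimensional F V] in
theorem eq_bot_of_ker {k : ℕ} (hW : ∀ x ∈ W, g x ∈ W) (h0 : ∀ x ∈ W, ((g - 1) ^ k) x = 0)
    (h : ∀ x ∈ W, (g - 1) x = 0 → x = 0) : W = ⊥ := by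
  induction k with
  | zero => exact (Submodule.eq_bot_iff _).mpr (by simpa using h0)
  | succ k ih =>
    refine ih fun x hx => h _ ?_ (by simpa [pow_succ'] using h0 x hx)
    rw [← restrict_sub_pow hW k ⟨x, hx⟩]; exact Subtype.property _

end cyc

section forms
variable {B : V →ₛₗ[σ] V →ₗ[F] F} {y : Isom B Q}

theorem exists_isom_sum (h : IsForm ε κ τ B Q) (hB : B.SeparatingLeft) (hW : NondegOn B W)
    {s t : Multiset F[X]} (h1 : RealIn (pull B W.subtype) (fun x => Q x) s)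
    (h2 : RealIn (pull B (perp B W).subtype) (fun x => Q x) t) : ∃ y : Isom B Q,
      TyOn y.1.toLinearMap W s ∧ TyOn y.1.toLinearMap (perp B W) t ∧ tyE y.1.toLinearMap = s + t := by
  have hc := h.isCompl_perp hB hW
  have hs := h.isOrthSum_of_isCompl hc fun a ha b hb => mem_perp.mp hb a ha
  obtain ⟨a, rfl⟩ := h1
  obtain ⟨b, rfl⟩ := h2
  have e1 : TyOn (orthSumHom hs (a, b)).1.toLinearMap W (tyE a.1.toLinearMap) := by
    simpa using tyOn_range (f := W.subtype) (g := a.1.toLinearMap)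
      (g' := (orthSumHom hs (a, b)).1.toLinearMap) Subtype.val_injective fun x => by
        simpa using (orthSumHom_apply hs (a, b) (x, 0)).symm
  have e2 : TyOn (orthSumHom hs (a, b)).1.toLinearMap (perp B W) (tyE b.1.toLinearMap) := by
    simpa using tyOn_range (f := (perp B W).subtype) (g := b.1.toLinearMap)
      (g' := (orthSumHom hs (a, b)).1.toLinearMap) Subtype.val_injective fun x => by
        simpa using (orthSumHom_apply hs (a, b) (0, x)).symm
  exact ⟨_, e1, e2, e1.eq_add e2 hc⟩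

theorem RealIn.exists_pow [Fact p.Prime] [CharP F p] (h : RealIn B Q (uT F μ)) (hμ : ∀ e ∈ μ, e ≤ p) :
    ∃ y : Isom B Q, y ^ p = 1 ∧ tyE y.1.toLinearMap = uT F μ := by
  obtain ⟨y, hy⟩ := h
  exact ⟨y, isom_pow_of_lin (sub_pow_char'.mpr ((pow_eq_zero_iff_uT hy p).mpr hμ)), hy⟩

theorem exists_le_uT (h : IsForm ε κ τ B Q) (hB : B.SeparatingLeft) (h0 : ∀ e ∈ μ, 0 < e)
    (hy : tyE y.1.toLinearMap = uT F μ) (hW : NondegOn B W) (h1 : ∀ x ∈ W, y.1 x ∈ W) :
    ∃ ν ≤ μ, (∀ e ∈ ν, 0 < e) ∧ ν.sum = finrank F W ∧ TyOn y.1.toLinearMap W (uT F ν) := by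
  obtain ⟨t, ht⟩ := exists_tyOn (g := y.1.toLinearMap) (isom_inv_perp hB y.2.1 h1)
  obtain ⟨ν, a, b⟩ := exists_uT (g := y.1.toLinearMap.restrict h1) (k := μ.sum)
    (LinearMap.ext fun v => Subtype.ext <| by
      rw [restrict_sub_pow, (pow_eq_zero_iff_uT hy _).mpr fun e => Multiset.single_le_sum (by simp) e]
      rfl)
  have c : TyOn y.1.toLinearMap W (uT F ν) := ⟨h1, b⟩
  exact ⟨ν, uT_le.mp (by rw [← hy, c.eq_add ht (h.isCompl_perp hB hW)]; exact le_self_add),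
    fun e he => (a e he).1, by rw [c.finrank_eq, uT_sum], c⟩

end forms

section alt
variable {B : LinearMap.BilinForm F V} (hA : B.IsAlt) (hB : B.SeparatingLeft)
  {y : Isom (σ := RingHom.id F) B fun _ => 0}
include hA

theorem TyOn.even_alt (hW : NondegOn B W) (h : TyOn y.1.toLinearMap W (uT F ν)) (e : ℕ)
    (he : Odd e) : Even (ν.count e) := by
  obtain ⟨h1, h2⟩ := h
  rw [← uT_count (F := F), ← h2]
  exact even_count_alt (B := pull B W.subtype) (nondegOn_iff.mp hW) (fun x => hA x)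
    (fun a b => y.2.1 a b) he

include hB

theorem exists_block (h2 : (2 : F) ≠ 0) (hg : ∀ a b, B (g a) (g b) = B a b) {k : ℕ}
    (hy : (g - 1) ^ k = 0) (hW : NondegOn B W) (h1 : ∀ x ∈ W, g x ∈ W) (h0 : W ≠ ⊥) :
    ∃ P ≤ W, P ≠ ⊥ ∧ NondegOn B P ∧ (∀ x ∈ P, g x ∈ P) ∧
      ∃ e, (Even e ∧ TyOn g P (uT F {e})) ∨ (Odd e ∧ TyOn g P (uT F ({e} + {e}))) := by
  classical
  have hex : ∃ k : ℕ, ∀ x ∈ W, ((g - 1) ^ k) x = 0 := ⟨k, fun x _ => by simp [hy]⟩
  obtain ⟨j, hj⟩ := Nat.exists_eq_succ_of_ne_zero (n := Nat.find hex) fun e =>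
    h0 ((Submodule.eq_bot_iff _).mpr (by simpa [e] using Nat.find_spec hex))
  have k1 : ∀ x ∈ W, ((g - 1) ^ (j + 1)) x = 0 := by simpa [hj] using Nat.find_spec hex
  obtain ⟨a, ha, k2⟩ : ∃ a ∈ W, ((g - 1) ^ j) a ≠ 0 := by
    simpa using Nat.find_min hex (m := j) (by omega)
  obtain ⟨b, hb, k3⟩ : ∃ b ∈ W, B (((g - 1) ^ j) a) b ≠ 0 := by
    by_contra! H
    exact k2 (hW _ (by rw [← restrict_sub_pow h1 j ⟨a, ha⟩]; exact Subtype.property _) H)
  have k4 : ∀ a ∈ W, ∀ b, B (((g - 1) ^ j) a) b = -(-1) ^ j * B (((g - 1) ^ j) b) a := fun a ha b => by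
    rw [← form_pow_right hg (by simpa [pow_succ'] using k1 a ha) j, pow_sub_adj hg, ← hA.neg_eq]
    ring
  have k5 : ∀ P ≤ W, (∀ x ∈ P, g x ∈ P) → (∀ v ∈ P, (g - 1) v = 0 → (∀ w ∈ P, B v w = 0) → v = 0) →
      NondegOn B P := fun P p1 p2 p3 x hx h => by
    have := eq_bot_of_ker (g := g) (W := P ⊓ perp B P) (k := j + 1)
      (fun x hx => ⟨p2 x hx.1, isom_inv_perp hB hg p2 x hx.2⟩) (fun x hx => k1 x (p1 hx.1))
      fun x hx e => p3 x hx.1 e fun w hw => hA.isRefl _ _ (mem_perp.mp hx.2 w hw)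
    exact (Submodule.eq_bot_iff _).mp this x ⟨hx, mem_perp.mpr fun w hw => hA.isRefl _ _ (h w hw)⟩
  rcases Nat.even_or_odd j with e | e
  · have k6 : ∀ a ∈ W, B (((g - 1) ^ j) a) a = 0 := fun a ha => by
      have := k4 a ha a
      rw [e.neg_one_pow] at this
      exact (mul_eq_zero.mp (by linear_combination this)).resolve_left h2
    have k7 : B (((g - 1) ^ j) b) a ≠ 0 := fun e => k3 (by rw [k4 a ha, e, mul_zero])
    obtain ⟨C, c1, c2, c3, c4⟩ := exists_cyc_sub h1 ha k1 k2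
    obtain ⟨D, d1, d2, d3, d4⟩ := exists_cyc_sub h1 hb k1 fun e => k7 (by simp [e])
    have hd : Disjoint C D := disjoint_iff.mpr <| eq_bot_of_ker (g := g) (k := j + 1)
      (fun x hx => ⟨c3.inv x hx.1, d3.inv x hx.2⟩) (fun x hx => k1 x (c1 hx.1)) fun x hx e => by
        obtain ⟨s, hs⟩ := c4 x hx.1 e
        obtain ⟨t, ht⟩ := d4 x hx.2 e
        have := congrArg (fun v => B v b) (hs.symm.trans ht)
        simp only [map_smul, LinearMap.smul_apply, k6 b hb, smul_eq_mul, mul_zero] at this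
        simp [hs, (mul_eq_zero.mp this).resolve_right k3]
    have t := c3.sup d3 hd
    refine ⟨C ⊔ D, sup_le c1 d1, fun e => k2 ?_, k5 _ (sup_le c1 d1) t.inv fun v hv e H => ?_, t.inv,
      j + 1, .inr ⟨e.add_one, uT_add (F := F) ▸ t⟩⟩
    · simp [(Submodule.eq_bot_iff _).mp e a (Submodule.mem_sup_left c2)]
    obtain ⟨u, hu, w, hw, rfl⟩ := Submodule.mem_sup.mp hv
    have e1 : (g - 1) u ∈ C := C.sub_mem (c3.inv u hu) hu
    have e2 : (g - 1) w ∈ D := D.sub_mem (d3.inv w hw) hw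
    rw [map_add, add_eq_zero_iff_eq_neg] at e
    have e3 : (g - 1) u = 0 := Submodule.disjoint_def.mp hd _ e1 (e ▸ D.neg_mem e2)
    obtain ⟨s, rfl⟩ := c4 u hu e3
    obtain ⟨t, rfl⟩ := d4 w hw (neg_eq_zero.mp (e.symm.trans e3))
    have e4 := H a (Submodule.mem_sup_left c2)
    have e5 := H b (Submodule.mem_sup_right d2)
    simp only [map_add, map_smul, LinearMap.add_apply, LinearMap.smul_apply, k6 a ha, k6 b hb,
      smul_eq_mul, mul_zero, zero_add, add_zero, mul_eq_zero, k3, k7, or_false] at e4 e5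
    simp [e4, e5]
  · obtain ⟨x, hx, k6⟩ : ∃ x ∈ W, B (((g - 1) ^ j) x) x ≠ 0 := by
      by_contra! H
      have := H _ (W.add_mem ha hb)
      simp only [map_add, LinearMap.add_apply, H a ha, H b hb, k4 b hb a, e.neg_one_pow] at this
      exact k3 ((mul_eq_zero.mp (by linear_combination this)).resolve_left h2)
    obtain ⟨C, c1, c2, c3, c4⟩ := exists_cyc_sub h1 hx k1 fun e => k6 (by simp [e])
    refine ⟨C, c1, fun e => k6 ?_, k5 _ c1 c3.inv fun v hv e H => ?_, c3.inv, j + 1,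
      .inl ⟨e.add_one, c3⟩⟩
    · simp [(Submodule.eq_bot_iff _).mp e x c2]
    obtain ⟨s, rfl⟩ := c4 v hv e
    simp [show s = 0 by simpa [k6] using H x c2]

theorem alt_sub (h2 : (2 : F) ≠ 0) {k : ℕ} (hy : (y.1.toLinearMap - 1) ^ k = 0)
    (hW : NondegOn B W) (h1 : ∀ x ∈ W, y.1 x ∈ W) : ∀ μ, TyOn y.1.toLinearMap W (uT F μ) →
      ∀ ν ≤ μ, (∀ e, Odd e → Even (ν.count e)) →
        ∃ U ≤ W, NondegOn B U ∧ (∀ x ∈ U, y.1 x ∈ U) ∧ finrank F U = ν.sum := by
  have h := isForm_alt hA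
  refine inv_induction (y := y) (p := fun W => ∀ μ, TyOn y.1.toLinearMap W (uT F μ) → ∀ ν ≤ μ,
    (∀ e, Odd e → Even (ν.count e)) → ∃ U ≤ W, NondegOn B U ∧ (∀ x ∈ U, y.1 x ∈ U) ∧
      finrank F U = ν.sum) h hB (fun W a b => exists_block hA hB h2 y.2.1 hy a b)
    (fun μ a ν b _ => ?_) (fun P U ⟨e, he⟩ p1 p2 u1 u2 o ih μ a ν b c => ?_) hW h1
  · obtain rfl := Multiset.map_eq_zero.mp (a.unique tyOn_bot)
    exact ⟨⊥, le_rfl, fun x hx _ => hx, by simp, by simp [Multiset.le_zero.mp b]⟩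
  have hd := disjoint_of_nondeg p1 o h
  obtain ⟨μ', -, m⟩ := exists_uT (g := y.1.toLinearMap.restrict u2) (k := k)
    (LinearMap.ext fun v => Subtype.ext <| by rw [restrict_sub_pow, hy]; rfl)
  obtain ⟨β, b1, b2, b3, b4⟩ : ∃ β, TyOn y.1.toLinearMap P (uT F β) ∧ (∀ a, Odd a → Even (β.count a)) ∧
      (e ∈ ν → β ≤ ν) ∧ ∀ a ∈ β, a = e := by
    rcases he with ⟨e1, e2⟩ | ⟨e1, e2⟩
    · exact ⟨_, e2, fun a ha => by
        rw [Multiset.count_singleton, if_neg (by rintro rfl; exact Nat.not_odd_iff_even.mpr e1 ha)]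
        simp, by simp, by simp⟩
    · refine ⟨_, e2, fun a _ => by rw [Multiset.count_add]; exact Even.add_self _, fun e3 => ?_,
        by simp⟩
      have := Multiset.one_le_count_iff_mem.mpr e3
      have := Nat.even_iff.mp (c e e1)
      exact Multiset.le_count_iff_replicate_le.mp (show 2 ≤ ν.count e by omega)
  obtain rfl : μ = β + μ' := Multiset.map_injective uT_inj
    ((a.unique (b1.sup ⟨u2, m⟩ hd)).trans uT_add.symm)
  by_cases e3 : e ∈ ν
  · obtain ⟨ν', rfl⟩ := Multiset.le_iff_exists_add.mp (b3 e3)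
    obtain ⟨X, x1, x2, x3, x4⟩ := ih μ' ⟨u2, m⟩ ν' (by simpa using b) fun a ha =>
      (Nat.even_add.mp (Multiset.count_add a β ν' ▸ c a ha)).mp (b2 a ha)
    refine ⟨P ⊔ X, sup_le_sup_left x1 _, nondegOn_sup h p1 x2 fun a ha b hb => o a ha b (x1 hb),
      fun x hx => ?_, by rw [finrank_sup_of_disjoint (hd.mono_right x1), x4, b1.finrank_eq, uT_sum,
        Multiset.sum_add]⟩
    obtain ⟨a, ha, b, hb, rfl⟩ := Submodule.mem_sup.mp hx
    exact map_add y.1 a b ▸ Submodule.add_mem_sup (p2 a ha) (x3 b hb)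
  · obtain ⟨X, x1, x2⟩ := ih μ' ⟨u2, m⟩ ν (Multiset.le_iff_count.mpr fun a => by
      have := Multiset.count_le_of_le a b
      by_cases e4 : a = e
      · simp [e4, Multiset.count_eq_zero.mpr e3]
      · rwa [Multiset.count_add, Multiset.count_eq_zero.mpr fun h => e4 (b4 a h), zero_add] at this) c
    exact ⟨X, x1.trans le_sup_right, x2⟩

theorem alt_part [Fact p.Prime] [CharP F p] (h2 : (2 : F) ≠ 0) {m : ℕ} (hm : Even m)
    (hmn : m ≤ finrank F V) : (∀ y : Isom (σ := RingHom.id F) B fun _ => 0, y ^ p = 1 → y ≠ 1 →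
      Fx y fun W => finrank F W = m ∧ NondegOn B W) ↔
    ∀ μ : Multiset ℕ, (∀ a ∈ μ, 0 < a ∧ a ≤ p) → (∀ a, Odd a → Even (μ.count a)) →
      μ.sum = finrank F V → ∃ ν ≤ μ, ν.sum = m ∧ ∀ a, Odd a → Even (ν.count a) := by
  refine ⟨fun H μ a b c => ?_, fun H y a _ => ?_⟩
  · obtain ⟨y, y1, y2⟩ := ((real_alt_unip (uT_mem fun e he => (a e he).1) fun j hj => by
      rw [uT_count]; exact b j hj).alt hA hB (uT_sum.trans c)).exists_pow fun e he => (a e he).2
    obtain ⟨W, ⟨w1, w2⟩, w3⟩ : Fx y fun W => finrank F W = m ∧ NondegOn B W := by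
      by_cases e : y = 1
      · obtain ⟨W, -, w1, w2⟩ := (alt_on hA (nondegOn_top hB)).2.2 m hm (by simpa)
        exact ⟨W, ⟨w2, w1⟩, by simp [e]⟩
      · exact H y y1 e
    obtain ⟨ν, n1, -, n2, n3⟩ := exists_le_uT (isForm_alt hA) hB (fun e he => (a e he).1) y2 w2 w3
    exact ⟨ν, n1, n2.trans w1, n3.even_alt hA w2⟩
  · have h3 := sub_pow_char'.mp (isom_lin_pow a)
    obtain ⟨μ, m1, m2⟩ := exists_uT h3
    have m3 : TyOn y.1.toLinearMap ⊤ (uT F μ) := m2 ▸ tyOn_top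
    obtain ⟨ν, n1, n2, n3⟩ := H μ m1 (m3.even_alt hA (nondegOn_top hB))
      (by rw [← finrank_top, m3.finrank_eq, uT_sum])
    obtain ⟨W, -, w1, w2, w3⟩ := alt_sub hA hB h2 h3 (nondegOn_top hB) (by simp) μ m3 ν n1 n3
    exact ⟨W, ⟨w3.trans n2, w1⟩, w2⟩

end alt

theorem herm_part [Finite F] [Fact p.Prime] [CharP F p] {B : V →ₛₗ[σ] V →ₗ[F] F} (hH : IsHerm B)
    (hB : B.SeparatingLeft) {m : ℕ} (hmn : m ≤ finrank F V) :
    (∀ y : UIsom B, y ^ p = 1 → y ≠ 1 → Fx y fun W => finrank F W = m ∧ NondegOn B W) ↔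
    ∀ μ : Multiset ℕ, (∀ a ∈ μ, 0 < a ∧ a ≤ p) → μ.sum = finrank F V → ∃ ν ≤ μ, ν.sum = m := by
  have hr : ∀ μ : Multiset ℕ, (∀ a ∈ μ, 0 < a ∧ a ≤ p) → Real σ 1 1 (trHom σ) (uT F μ) :=
    fun μ a => real_herm_unip hH.ne hH.invol (uT_mem fun e he => (a e he).1)
  refine ⟨fun H μ a c => ?_, fun H y a _ => ?_⟩
  · obtain ⟨y, y1, y2⟩ := ((hr μ a).herm hH hB (uT_sum.trans c)).exists_pow fun e he => (a e he).2
    obtain ⟨W, ⟨w1, w2⟩, w3⟩ : Fx y fun W => finrank F W = m ∧ NondegOn B W := by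
      by_cases e : y = 1
      · obtain ⟨W, -, w1, w2⟩ := (herm_on hH hB (nondegOn_top hB)).2 m (by simpa)
        exact ⟨W, ⟨w2, w1⟩, by simp [e]⟩
      · exact H y y1 e
    obtain ⟨ν, n1, -, n2, -⟩ := exists_le_uT hH.form hB (fun e he => (a e he).1) y2 w2 w3
    exact ⟨ν, n1, n2.trans w1⟩
  · obtain ⟨μ, m1, m2⟩ := exists_uT (sub_pow_char'.mp (isom_lin_pow a))
    obtain ⟨ν, n1, n2⟩ := H μ m1 (by rw [finrank_eq_sum_tyE y.1.toLinearMap, m2, uT_sum])
    obtain ⟨ν', rfl⟩ := Multiset.le_iff_exists_add.mp n1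
    obtain ⟨W, w1, w2⟩ := exists_nondeg_of_real hH.form hB y.2.1 (.inl hH.ne)
      (hr ν fun e he => m1 e (by simp [he])) (hr ν' fun e he => m1 e (by simp [he])) (m2.trans uT_add)
    exact ⟨W, ⟨by rw [w2.finrank_eq, uT_sum, n2], w1⟩, w2.inv⟩

section quad
variable {B : V →ₗ[F] V →ₗ[F] F} (h : IsQuad B Q) {y : Isom B Q} (h2 : (2 : F) ≠ 0)
include h h2

theorem TyOn.even_quad (hW : NondegOn B W) (h0 : ∀ e ∈ ν, 0 < e)
    (H : TyOn y.1.toLinearMap W (uT F ν)) (e : ℕ) (he : Even e) : Even (ν.count e) := by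
  obtain ⟨h1, h3⟩ := H
  rcases e.eq_zero_or_pos with rfl | e1
  · simp [Multiset.count_eq_zero.mpr fun a => (h0 0 a).false]
  rw [← uT_count (F := F), ← h3]
  exact even_count_symm (B := pull B W.subtype) h2 (nondegOn_iff.mp hW) (fun a b => h.comm a b)
    (fun a b => y.2.1 a b) he e1

variable [Finite F] (hB : B.SeparatingLeft)
include hB

theorem realIn_odd (h0 : ∀ e ∈ μ, 0 < e) (h1 : ∀ e, Even e → Even (μ.count e))
    (hs : μ.sum = finrank F V) (ho : Odd (finrank F V)) : RealIn B Q (uT F μ) := by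
  obtain ⟨W, _, _, _, C, R, w1, w2, w3⟩ := real_quad_unip h2 (uT_mem h0) fun j hj _ => by
    rw [uT_count]; exact h1 j hj
  have w4 : finrank F W = finrank F V := by rw [w3.finrank_eq, uT_sum, hs]
  obtain ⟨c, e, -, e1, e2⟩ := IsQuad.exists_equiv_of_odd w1 w2 h hB (w4 ▸ ho) w4
  exact w3.sim e e1 e2

theorem exists_isom_odd (hW : NondegOn B W) (he : Even (finrank F V)) (ho : Odd (finrank F W))
    (h0 : ∀ e ∈ μ, 0 < e) (h1 : ∀ e, Even e → Even (μ.count e))
    (hs : finrank F W + μ.sum = finrank F V) : ∃ y : Isom B Q,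
      TyOn y.1.toLinearMap W (uT F {finrank F W}) ∧ TyOn y.1.toLinearMap (perp B W) (uT F μ) ∧
      tyE y.1.toLinearMap = uT F ({finrank F W} + μ) := by
  have h3 := h.finrank_perp hB W
  have h4 := Nat.odd_iff.mp ho
  have h5 := Nat.even_iff.mp he
  rw [uT_add]
  exact exists_isom_sum h hB hW (realIn_odd (h.restrict W) h2 (nondegOn_iff.mp hW) (by simp; omega)
    (fun e he => by
      rw [Multiset.count_singleton, if_neg (by rintro rfl; exact Nat.not_odd_iff_even.mpr he ho)]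
      simp) (by simp) ho) (realIn_odd (h.restrict _) h2
    (nondegOn_iff.mp (h.nondegOn_perp hB hW)) h0 h1 (by omega) (by rw [Nat.odd_iff]; omega))

theorem realIn_of_odd_part (h0 : ∀ e ∈ μ, 0 < e) (h1 : ∀ e, Even e → Even (μ.count e))
    (hs : μ.sum = finrank F V) {e : ℕ} (he : e ∈ μ) (ho : Odd e) : RealIn B Q (uT F μ) := by
  rcases Nat.even_or_odd (finrank F V) with a | a
  · obtain ⟨μ, rfl⟩ := Multiset.exists_cons_of_mem he
    obtain ⟨W, -, w1, rfl⟩ := quad_le h hB h2 (nondegOn_top hB) e (by simp [← hs])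
    obtain ⟨y, -, -, hy⟩ := exists_isom_odd (μ := μ) h h2 hB w1 a ho (fun e he => h0 e (by simp [he]))
      (fun e he => by
        have := h1 e he
        rwa [Multiset.count_cons_of_ne (by rintro rfl; exact Nat.not_odd_iff_even.mpr he ho)] at this)
      (by simpa using hs)
    exact ⟨y, hy⟩
  · exact realIn_odd h h2 hB h0 h1 hs a

variable [Fact p.Prime] [CharP F p] {m : ℕ} (hmn : m ≤ finrank F V)
  (H : ∀ y : Isom B Q, y ^ p = 1 → y ≠ 1 → Fx y fun W => finrank F W = m ∧ NondegOn B W)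
include hmn H

theorem quad_part_odd (h0 : ∀ e ∈ μ, 0 < e ∧ e ≤ p) (h1 : ∀ e, Even e → Even (μ.count e))
    (hs : μ.sum = finrank F V) {e : ℕ} (he : e ∈ μ) (ho : Odd e) :
    ∃ ν ≤ μ, ν.sum = m ∧ ∀ e, Even e → Even (ν.count e) := by
  obtain ⟨y, y1, y2⟩ := (realIn_of_odd_part h h2 hB (fun e he => (h0 e he).1) h1 hs he ho).exists_pow
    fun e he => (h0 e he).2
  obtain ⟨W, ⟨w1, w2⟩, w3⟩ : Fx y fun W => finrank F W = m ∧ NondegOn B W := by
    by_cases e : y = 1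
    · obtain ⟨W, -, w1, w2⟩ := quad_le h hB h2 (nondegOn_top hB) m (by simpa)
      exact ⟨W, ⟨w2, w1⟩, by simp [e]⟩
    · exact H y y1 e
  obtain ⟨ν, n1, n2, n3, n4⟩ := exists_le_uT h hB (fun e he => (h0 e he).1) y2 w2 w3
  exact ⟨ν, n1, n3.trans w1, n4.even_quad h h2 w2 n2⟩

theorem quad_part3 {a b c : ℕ} (hab : 0 < a + b) (hc : Even c)
    (hs : 3 * a + b + 2 * c = finrank F V) :
    ∃ a' ≤ a, ∃ b' ≤ b, ∃ c' ≤ c, c' % 2 = 0 ∧ m = 3 * a' + b' + 2 * c' := by
  have hp : 3 ≤ p := (Fact.out : p.Prime).two_le.lt_of_ne fun e => h2 (by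
    subst e; exact CharTwo.two_eq_zero)
  obtain ⟨p1, p2, p3⟩ := part3 (a := a) (b := b) hp hc
  obtain ⟨ν, n1, n2, n3⟩ := quad_part_odd h h2 hB hmn H p1 p2 (p3.trans hs)
    (e := if a = 0 then 1 else 3) (by split_ifs <;> simp [Multiset.mem_replicate] <;> omega) (by split_ifs <;> decide)
  obtain ⟨k1, k2, k3, k4, -⟩ := sum_of_le3 n1
  exact ⟨_, k1, _, k2, _, k3, Nat.even_iff.mp (n3 2 even_two), n2 ▸ k4⟩

theorem quad_part (hm : Even m) (μ : Multiset ℕ) (h0 : ∀ e ∈ μ, 0 < e ∧ e ≤ p)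
    (h1 : ∀ e, Even e → Even (μ.count e)) (hs : μ.sum = finrank F V) :
    ∃ ν ≤ μ, ν.sum = m ∧ ∀ e, Even e → Even (ν.count e) := by
  by_cases a : ∃ e ∈ μ, Odd e
  · obtain ⟨e, a, b⟩ := a
    exact quad_part_odd h h2 hB hmn H h0 h1 hs a b
  simp only [not_exists, not_and, Nat.not_odd_iff_even] at a
  rcases eq_or_ne μ 0 with rfl | b
  · exact ⟨0, le_rfl, by simp at hs ⊢; omega, by simp⟩
  obtain ⟨e, he⟩ := Multiset.exists_mem_of_ne_zero b
  have e1 := Nat.even_iff.mp (a e he)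
  have e2 := h0 e he
  have e3 : p % 2 = 1 := (Fact.out : p.Prime).eq_two_or_odd.resolve_left fun e => h2 (by
    subst e; exact CharTwo.two_eq_zero)
  obtain ⟨μ, rfl⟩ := Multiset.le_iff_exists_add.mp (Multiset.le_count_iff_replicate_le.mp
    (show 2 ≤ μ.count e by
      have := Multiset.one_le_count_iff_mem.mpr he
      have := Nat.even_iff.mp (h1 e (a e he))
      omega))
  have c0 : ∀ x, Even x → ∀ s : Multiset ℕ, (Multiset.replicate 2 e + s).count x % 2 = s.count x % 2 :=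
    fun x _ s => by rw [Multiset.count_add, Multiset.count_replicate]; split_ifs <;> omega
  have c1 : ∀ x, Even x → ∀ s : Multiset ℕ, ((e + 1) ::ₘ (e - 1) ::ₘ s).count x = s.count x :=
    fun x hx s => by
      have := Nat.even_iff.mp hx
      rw [Multiset.count_cons_of_ne (by omega), Multiset.count_cons_of_ne (by omega)]
  have c2 : ∀ s ≤ μ, s.sum % 2 = 0 := fun s hs => Nat.even_iff.mp <| by
    rw [even_iff_two_dvd]
    exact Multiset.dvd_sum fun x hx => (a x (by simp [Multiset.mem_of_le hs hx])).two_dvd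
  obtain ⟨ν, n1, n2, n3⟩ := quad_part_odd (μ := (e + 1) ::ₘ (e - 1) ::ₘ μ) h h2 hB hmn H
    (fun x hx => by
      simp only [Multiset.mem_cons] at hx
      rcases hx with rfl | rfl | hx
      · omega
      · omega
      · exact h0 x (by simp [hx]))
    (fun x hx => by rw [c1 x hx, Nat.even_iff, ← c0 x hx, ← Nat.even_iff]; exact h1 x hx)
    (by simp at hs ⊢; omega) (Multiset.mem_cons_self _ _) (by rw [Nat.odd_iff]; omega)
  have e4 := Nat.even_iff.mp hm
  by_cases x1 : e + 1 ∈ ν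
  · obtain ⟨ν, rfl⟩ := Multiset.exists_cons_of_mem x1
    rw [Multiset.cons_le_cons_iff] at n1
    by_cases x2 : e - 1 ∈ ν
    · obtain ⟨ν, rfl⟩ := Multiset.exists_cons_of_mem x2
      rw [Multiset.cons_le_cons_iff] at n1
      exact ⟨Multiset.replicate 2 e + ν, by simpa, by simp at n2 ⊢; omega, fun x hx => by
        rw [Nat.even_iff, c0 x hx, ← c1 x hx, ← Nat.even_iff]; exact n3 x hx⟩
    · have := c2 ν ((Multiset.le_cons_of_notMem x2).mp n1)
      simp at n2; omega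
  rw [Multiset.le_cons_of_notMem x1] at n1
  by_cases x2 : e - 1 ∈ ν
  · obtain ⟨ν, rfl⟩ := Multiset.exists_cons_of_mem x2
    have := c2 ν ((Multiset.cons_le_cons_iff _).mp n1)
    simp at n2; omega
  · exact ⟨ν, ((Multiset.le_cons_of_notMem x2).mp n1).trans le_add_self, n2, n3⟩

end quad

end Cfsg.Agent.H10
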