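import Mathlib
import Cfsg.Agent.H10.Elus9

/-! Fixed subspaces: classes of odd-dimensional subspaces, non-singular points. -/

namespace Cfsg.Agent.H10
open Module Polynomial H11 L0
universe u

variable {F : Type u} [Field F] {σ : F →+* F} {ε κ : F} {τ : F →+ F} {V : Type*} [AddCommGroup V]
  [Module F V] [FiniteDimensional F V] {U W : Submodule F V} {Q : V → F} {p : ℕ}

omit [FiniteDimensional F V] in
theorem map_perp_isom {B : V →ₛₗ[σ] V →ₗ[F] F} (g : Isom B Q) :
    (perp B W).map g.1.toLinearMap = perp B (W.map g.1.toLinearMap) :=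
  IsForm.isom_map_perp g.2 W

theorem alt_orbit {B : LinearMap.BilinForm F V} (hA : B.IsAlt) (hB : B.SeparatingLeft)
    (hU : NondegOn B U) (hW : NondegOn B W) (h : finrank F U = finrank F W) :
    ∃ g : Isom (σ := RingHom.id F) B fun _ => 0, U.map g.1.toLinearMap = W := by
  have a : LinearMap.BilinForm.IsAlt (pull B U.subtype) := fun x => hA x
  have b : LinearMap.BilinForm.IsAlt (pull B W.subtype) := fun x => hA x
  obtain ⟨e, he⟩ := alt_isometric (a.isRefl.nondegenerate_iff_separatingLeft.mpr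
    (nondegOn_iff.mp hU)) a (b.isRefl.nondegenerate_iff_separatingLeft.mpr (nondegOn_iff.mp hW)) b h
  exact exists_map_eq_of_equiv (isForm_alt hA) hB e he fun _ => rfl

theorem herm_orbit [Finite F] {B : V →ₛₗ[σ] V →ₗ[F] F} (hH : IsHerm B) (hB : B.SeparatingLeft)
    (hU : NondegOn B U) (hW : NondegOn B W) (h : finrank F U = finrank F W) :
    ∃ g : UIsom B, U.map g.1.toLinearMap = W := by
  obtain ⟨b, hb⟩ := exists_orthonormal_basis hH.ne (hH.form.restrict U) (nondegOn_iff.mp hU) h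
  obtain ⟨b', hb'⟩ := exists_orthonormal_basis hH.ne (hH.form.restrict W) (nondegOn_iff.mp hW) rfl
  obtain ⟨e, e1, e2, -⟩ := (hH.form.restrict U).exists_equiv_of_basis (hH.form.restrict W) b b'
    (fun i j => (hb' i j).trans (hb i j).symm) fun i => (hb' i i).trans (hb i i).symm
  exact exists_map_eq_of_equiv hH.form hB e e1 e2

theorem elu_alt_char_two [Finite F] [CharP F 2] {B : LinearMap.BilinForm F V} (hA : B.IsAlt)
    (hB : B.SeparatingLeft) {k j : ℕ} (hn : finrank F V = 2 * k) (hk : 2 ≤ k) (hj : j ≤ k) :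
    Elu (σ := RingHom.id F) (B := B) (Q := fun _ => 0) ⊤ 2
      (fun W => finrank F W = 2 * j ∧ NondegOn B W) ↔ k / 2 ≤ j / 2 + (k - j) / 2 := by
  have := Module.nontrivial_of_finrank_pos (R := F) (M := V) (by omega)
  have T := two_alt hA hB
  have h := isForm_alt hA
  obtain ⟨W, -, w1, w2⟩ := (alt_on hA (nondegOn_top hB)).2.2 (2 * j) (even_two_mul j) (by simp; omega)
  have h1 := h.finrank_perp hB W
  have key := fun y : Isom (σ := RingHom.id F) B fun _ => 0 => T.fx_iff (y := y) w1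
    (Ω := fun W => finrank F W = 2 * j ∧ NondegOn B W)
    (fun U => ⟨fun a => alt_orbit hA hB w1 a.2 (w2.trans a.1.symm), by
      rintro ⟨g, rfl⟩
      exact ⟨by rw [LinearEquiv.finrank_map_eq, w2], nondegOn_map_isom w1 g⟩⟩)
    (fun X a i hi => by
      obtain ⟨Z, z1, z2⟩ := (alt_on hA a).2.1
      obtain ⟨U, a1, rfl⟩ := exists_le_finrank_eq Z (k := i) (by omega)
      obtain ⟨u, h1, h2⟩ := SetLike.exists_of_lt (Submodule.lt_of_le_of_finrank_lt_finrank a1
        (by omega))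
      exact ⟨U, u, z1.1.mono a1, rfl, h2, fun x hx => z1.1.2 x (a1 hx) u h1, rfl⟩)
    (alt_on hA w1).2.1 (alt_on hA (h.nondegOn_perp hB w1)).2.1
  rw [elu_char_two hB]
  constructor
  · intro H
    obtain ⟨Z, z1, z2⟩ := wittIdx_alt hA hB hn
    obtain ⟨U, u1, u2⟩ := exists_le_finrank_eq Z (k := 2 * (k / 2)) (by omega)
    obtain ⟨g, g1, g2, g3⟩ := T.exists_invol_alt (z1.1.mono u1) u2
    have := (key g g1).mp (H g trivial g1 fun e => by
      rw [← g2, e, finrank_movS_eq_zero.mpr (by rfl)] at u2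
      omega) g3
    rw [g2] at this
    omega
  · refine fun H y _ y1 _ => (key y y1).mpr fun e => ?_
    have := T.two_mul_rank_le y1
    have := Nat.even_iff.mp (T.even_of_altT y1 e)
    omega

theorem elu_alt_two {B : LinearMap.BilinForm F V} (hA : B.IsAlt) (hB : B.SeparatingLeft)
    (h2 : (2 : F) ≠ 0) {j : ℕ} (h0 : 0 < finrank F V) (hj : 2 * j ≤ finrank F V) :
    Elu (σ := RingHom.id F) (B := B) (Q := fun _ => 0) ⊤ 2
      fun W => finrank F W = 2 * j ∧ NondegOn B W := by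
  have := Module.nontrivial_of_finrank_pos h0
  have h := isForm_alt hA
  refine (elu_two hB h2).mpr ⟨fun y _ y1 _ _ => ?_, fun y _ y1 => ?_⟩
  · obtain ⟨a1, a2, a3, -, a4, -⟩ := invol_data h hB h2 y1
    have e1 := Nat.even_iff.mp (alt_on hA a1).1
    obtain ⟨U, u1, u2, u3⟩ := (alt_on hA a1).2.2 (min (2 * j) (finrank F (movS y.1)))
      (by rw [Nat.even_iff]; omega) (by omega)
    obtain ⟨W, w1, w2, w3⟩ := (alt_on hA a2).2.2 (2 * j - min (2 * j) (finrank F (movS y.1)))
      (by rw [Nat.even_iff]; omega) (by omega)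
    have o : ∀ a ∈ U, ∀ b ∈ W, B a b = 0 := fun a ha b hb => a3 a (u1 ha) b (w1 hb)
    exact fx_of_split y1 h2 u1 w1 ⟨by
      rw [finrank_sup_of_disjoint (disjoint_of_nondeg u2 o h)]; omega, nondegOn_sup h u2 w2 o⟩
  · obtain ⟨U, -, u1, u2, u3⟩ := cx_nondeg y1 h hB (fun W a b c =>
      (cx_alt_hb hA h2 y1 W a b c).imp fun P d => ⟨d.1, d.2.1, d.2.2.1, d.2.2.2.1⟩)
      (nondegOn_top hB) (by simp) j (by simpa)
    exact ⟨U, ⟨u3, u1⟩, u2⟩

variable {B : V →ₗ[F] V →ₗ[F] F} (h : IsQuad B Q) (hB : B.SeparatingLeft)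
include h hB

theorem odd_pair_sq {j : ℕ} (hn : finrank F V = 2 * j + 1) (hU : TotSing B Q U) (hW : TotSing B Q W)
    (h1 : finrank F U = j) (h2 : finrank F W = j) {u w : V} (hu : u ∈ perp B U) (hw : w ∈ perp B W)
    (h0 : Q w ≠ 0) : ∃ a, Q u = a * a * Q w := by
  obtain ⟨g, rfl⟩ := (totSing_orbit h hB U ⟨h1, hU⟩ W).mp ⟨h2, hW⟩
  have h3 := h.finrank_perp hB (U.map g.1.toLinearMap)
  have h4 : U.map g.1.toLinearMap ⊔ Submodule.span F {w} = perp B (U.map g.1.toLinearMap) :=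
    Submodule.eq_of_le_of_finrank_eq (sup_le hW.le_perp (by simpa)) (by
      rw [finrank_sup_of_disjoint ((Submodule.disjoint_span_singleton' (by
        rintro rfl; exact h0 h.map_zero)).mpr fun e => h0 (hW.1 _ e)),
        finrank_span_singleton (by rintro rfl; exact h0 h.map_zero)]
      omega)
  have h5 : g.1 u ∈ perp B (U.map g.1.toLinearMap) := map_perp_isom g ▸ ⟨u, hu, rfl⟩
  obtain ⟨x, hx, _, hz, e⟩ := Submodule.mem_sup.mp (h4 ▸ h5)
  obtain ⟨a, rfl⟩ := Submodule.mem_span_singleton.mp hz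
  exact ⟨a, by simp [← g.2.2 u, ← e, h.add', h.smul', hW.1 x hx, mem_perp.mp hw x hx]⟩

variable [Finite F]

theorem exists_nonsing_of_lt {j : ℕ} (hn : finrank F V = 2 * j + 1) (hU : j < finrank F U) :
    ∃ u ∈ U, Q u ≠ 0 := by
  by_contra! H
  have := h.finrank_perp hB U
  have := Submodule.finrank_mono (h.totSing_iff.mpr H).le_perp
  omega

variable (h2 : (2 : F) ≠ 0) [Fact p.Prime] [CharP F p]
include h2

theorem der_class_aux {k : ℕ} (hn : finrank F V = 2 * k) (hk : Even k) (h3 : 2 ≤ k)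
    (hW : NondegOn B W) (hm : finrank F W % 4 = 1) (H : ∀ y : Isom B Q, y ^ p = 1 → y ≠ 1 →
      Fx y fun U => ∃ g : Isom B Q, W.map g.1.toLinearMap = U) : False := by
  obtain ⟨j, hj⟩ : ∃ j, finrank F W = 2 * j + 1 := ⟨finrank F W / 2, by omega⟩
  have hp : 3 ≤ p := (Fact.out : p.Prime).two_le.lt_of_ne fun e => h2 (by
    subst e; exact CharTwo.two_eq_zero)
  have e0 := Nat.even_iff.mp hk
  have hW' := nondegOn_iff.mp hW
  obtain ⟨U, u1, u2⟩ := wittIdx_on h hW
  rw [if_neg (by rw [Nat.even_iff]; omega)] at u2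
  obtain ⟨u, u3, u4⟩ := exists_nonsing_of_lt (h.restrict W) hW' hj (U := perp (pull B W.subtype) U) (by
    have := (h.restrict W).finrank_perp hW' U
    omega)
  obtain ⟨c, hc⟩ := FiniteField.exists_nonsquare (F := F) fun e => h2 (by
    simpa [e] using ringChar.Nat.cast_ringChar (R := F))
  obtain ⟨v, hv⟩ := h.exists_eq hB (by omega) (c * Q u)
  have v1 : Q v ≠ 0 := hv ▸ mul_ne_zero (by rintro rfl; simp at hc) u4
  have v2 : B v v ≠ 0 := by simp [h.diag, h2, v1]
  have v3 : finrank F (Submodule.span F {v}) = 1 :=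
    finrank_span_singleton (by rintro rfl; simp at v2)
  obtain ⟨p1, p2, p3⟩ := part3 (a := 1) (b := 0) (c := k - 2) hp (by rw [Nat.even_iff]; omega)
  obtain ⟨p4, -⟩ := part3 (a := 1) (b := 1) (c := k - 2) hp (by rw [Nat.even_iff]; omega)
  obtain ⟨y, y1, y2, y3⟩ := exists_isom_odd h h2 hB (IsForm.nondegOn_span_singleton v2)
    (hn ▸ even_two_mul k) (by simp [v3]) (fun e he => (p1 e he).1) p2 (by omega)
  rw [v3] at y1 y3
  rw [show {1} + (Multiset.replicate 1 3 + Multiset.replicate 0 1 + Multiset.replicate (k - 2) 2) =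
    Multiset.replicate 1 3 + Multiset.replicate 1 1 + Multiset.replicate (k - 2) 2 by
      simp [Multiset.cons_swap]] at y3
  have y4 : y.1 v = v := by
    obtain ⟨a, b⟩ := y1
    simpa [sub_eq_zero] using congrArg Subtype.val (LinearMap.congr_fun
      ((pow_eq_zero_iff_uT b 1).mpr (by simp)) ⟨v, Submodule.mem_span_singleton_self v⟩)
  have y5 : ∀ x, y.1 x = x → ∃ a, Q x = a * a * Q v := fun x hx => by
    obtain ⟨_, ha, w, hw, rfl⟩ := Submodule.mem_sup.mp ((h.isCompl_perp hB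
      (IsForm.nondegOn_span_singleton v2)).sup_eq_top ▸ Submodule.mem_top (x := x))
    obtain ⟨a, rfl⟩ := Submodule.mem_span_singleton.mp ha
    have w1 : y.1 w = w := by simpa [y4] using hx
    have w2 : B v w = 0 := mem_perp.mp hw v (Submodule.mem_span_singleton_self v)
    refine ⟨a, by_contra fun e => ?_⟩
    have w3 : B w w ≠ 0 := fun e' => e (by
      simp [h.add', h.smul', w2, show Q w = 0 by simpa [h.diag, h2] using e'])
    obtain ⟨x1, x2⟩ := nondegOn_sup_span h (IsForm.nondegOn_span_singleton v2) w3 (mem_perp.mp hw)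
    have x3 : ∀ x ∈ Submodule.span F {v} ⊔ Submodule.span F {w}, y.1 x = x := fun x hx =>
      H11.mem_fixS.mp ((sup_le (by simpa [H11.mem_fixS]) (by simpa [H11.mem_fixS]) :
        _ ≤ H11.fixS y.1) hx)
    obtain ⟨ν, n1, -, n2, n3, n4⟩ := exists_le_uT h hB (fun e he => (p4 e he).1) y3 x1
      fun x hx => by rwa [x3 x hx]
    have n5 := (pow_eq_zero_iff_uT n4 1).mp (LinearMap.ext fun x => Subtype.ext (by
      simpa [sub_eq_zero] using x3 x x.2))
    have := sum_of_le3 n1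
    have := Multiset.count_eq_zero.mpr (mt (n5 3) (by omega))
    have := Multiset.count_eq_zero.mpr (mt (n5 2) (by omega))
    omega
  obtain ⟨_, ⟨g, rfl⟩, w1⟩ := H y (isom_pow_of_lin (sub_pow_char'.mpr ((pow_eq_zero_iff_uT y3 p).mpr
    fun e he => (p4 e he).2))) fun e => by
      simpa using (pow_eq_zero_iff_uT y3 1).mp (by simp [e, End.one_eq_id]) 3 (by simp)
  have w2 := nondegOn_map_isom hW g
  have w3 : finrank F (W.map g.1.toLinearMap) = 2 * j + 1 := by rw [LinearEquiv.finrank_map_eq, hj]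
  have w4 := nondegOn_iff.mp w2
  obtain ⟨ν, n1, n2, n3, n4⟩ := exists_le_uT h hB (fun e he => (p4 e he).1) y3 w2 w1
  have n5 := sum_of_le3 n1
  have n6 := Nat.even_iff.mp (n4.even_quad h h2 w2 n2 2 even_two)
  obtain ⟨z, hz⟩ := exists_isom_restrict w1
  obtain ⟨n7, n8⟩ := n4
  rw [show y.1.toLinearMap.restrict n7 = z.1.toLinearMap from
    LinearMap.ext fun x => Subtype.ext (hz x).symm] at n8
  have z1 : finrank F (H11.fixS z.1) = j + 1 := (finrank_ker_uT n2 n8).trans (by omega)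
  have z2 := finrank_movS_add z.1
  have z3 := (h.restrict _).perp_movS w4 z.2
  have z4 : movS z.1 ≤ H11.fixS z.1 := by
    rintro _ ⟨x, rfl⟩
    refine LinearMap.congr_fun ((pow_eq_zero_iff_uT n8 2).mpr fun e he => ?_) x
    have := Multiset.mem_of_le n1 he
    have := Multiset.one_le_count_iff_mem.mpr he
    simp only [Multiset.mem_add, Multiset.mem_replicate] at *
    rcases eq_or_ne e 3 with rfl | _ <;> omega
  obtain ⟨w, w5, w6⟩ := exists_nonsing_of_lt (h.restrict _) w4 w3 (U := H11.fixS z.1) (by omega)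
  obtain ⟨a, ha⟩ := y5 w (by rw [← hz, H11.mem_fixS.mp w5])
  obtain ⟨b, hb⟩ := odd_pair_sq (h.restrict _) w4 w3 (U := U.map (g.1.submoduleMap W).toLinearMap)
    (W := movS z.1) ((IsQuad.totSing_iff (h.restrict _)).mpr (by
      rintro _ ⟨x, hx, rfl⟩
      exact (g.2.2 x).trans (u1.1.1 x hx))) ((IsQuad.totSing_iff (h.restrict _)).mpr fun x hx => by
        simpa [h.diag, h2] using show B x x = 0 from mem_perp.mp (z3 ▸ z4 hx) x hx)
    (by rw [LinearEquiv.finrank_map_eq]; omega) (by omega) (u := g.1.submoduleMap W u) (w := w)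
    (mem_perp.mpr (by
      rintro _ ⟨x, hx, rfl⟩
      exact (g.2.1 x u).trans (mem_perp.mp u3 x hx))) (z3 ▸ w5) w6
  have e : Q u = b * b * (a * a * (c * Q u)) := by rw [← hv, ← ha, ← hb]; exact (g.2.2 u).symm
  have e' : b * a * (b * a) * c = 1 := mul_right_cancel₀ u4 (by linear_combination -e)
  exact hc ⟨b * a * c, by linear_combination -c * e'⟩

theorem der_class {k : ℕ} (hn : finrank F V = 2 * k) (h3 : 2 ≤ k) (hW : NondegOn B W)
    (hm : Odd (finrank F W)) : ¬ ∀ y : Isom B Q, y ^ p = 1 → y ≠ 1 →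
      Fx y fun U => ∃ g : Isom B Q, W.map g.1.toLinearMap = U := fun H => by
  have h4 := Nat.odd_iff.mp hm
  have h5 := h.finrank_perp hB W
  rcases Nat.even_or_odd k with e | e
  · have := Nat.even_iff.mp e
    rcases (show finrank F W % 4 = 1 ∨ finrank F (perp B W) % 4 = 1 by omega) with a | a
    · exact der_class_aux h hB h2 hn e h3 hW a H
    · refine der_class_aux h hB h2 hn e h3 (h.nondegOn_perp hB hW) a fun y y1 y2 => ?_
      obtain ⟨_, ⟨g, rfl⟩, b⟩ := H y y1 y2
      exact ⟨_, ⟨g, map_perp_isom g⟩, isom_inv_perp hB y.2.1 b⟩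
  have := Nat.odd_iff.mp e
  have H' : ∀ y : Isom B Q, y ^ p = 1 → y ≠ 1 →
      Fx y fun U => finrank F U = finrank F W ∧ NondegOn B U := fun y y1 y2 => by
    obtain ⟨_, ⟨g, rfl⟩, b⟩ := H y y1 y2
    exact ⟨_, ⟨LinearEquiv.finrank_map_eq _ _, nondegOn_map_isom hW g⟩, b⟩
  obtain ⟨a, _, b, _, c, _, _⟩ := quad_part3 h h2 hB W.finrank_le H' (a := 2) (b := 0) (c := k - 3)
    two_pos (by rw [Nat.even_iff]; omega) (by omega)
  obtain ⟨a', _, b', _, c', _, _⟩ := quad_part3 h h2 hB W.finrank_le H' (a := 0) (b := 2)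
    (c := k - 1) two_pos (by rw [Nat.even_iff]; omega) (by omega)
  interval_cases a <;> omega

omit h2 [Fact p.Prime] [CharP F p] in
theorem elu_nonsing [CharP F 2] {k r : ℕ} (hn : finrank F V = 2 * k) (h3 : 3 ≤ k) (hr : r.Prime)
    (hd : r ∣ Nat.card {W : Submodule F V // finrank F W = 1 ∧ ∃ v ∈ W, Q v ≠ 0}) :
    Elu (commutator (Isom B Q)) r (fun W => finrank F W = 1 ∧ ∃ v ∈ W, Q v ≠ 0) ↔
      r = 2 ∧ ¬ (Pl B Q ⊤ ∧ Even k) := by
  have := Module.nontrivial_of_finrank_pos (R := F) (M := V) (by omega)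
  have T := two_quad h hB
  have k0 : ∀ {W : Submodule F V} {v}, finrank F W = 1 → v ∈ W → Q v ≠ 0 →
      W = Submodule.span F {v} := fun a b c => (Submodule.eq_of_le_of_finrank_eq (by simpa)
        (by rw [a, finrank_span_singleton (by rintro rfl; exact c h.map_zero)])).symm
  have k1 : ∀ v, Q v ≠ 0 → finrank F (Submodule.span F {v}) = 1 ∧
      ∃ w ∈ Submodule.span F {v}, Q w ≠ 0 := fun v hv =>
    ⟨finrank_span_singleton (by rintro rfl; exact hv h.map_zero), v, by simp, hv⟩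
  have key : ∀ y : Isom B Q, (Fx y fun W => finrank F W = 1 ∧ ∃ v ∈ W, Q v ≠ 0) ↔
      ∃ v ∈ H11.fixS y.1, Q v ≠ 0 := fun y => by
    constructor
    · rintro ⟨W, ⟨a, v, b, c⟩, d⟩
      obtain ⟨s, hs⟩ := Submodule.mem_span_singleton.mp (k0 a b c ▸ d v b)
      have := y.2.2 v
      rw [← hs, h.smul', mul_eq_right₀ c, mul_self_eq_one_iff, CharTwo.neg_eq, or_self] at this
      exact ⟨v, H11.mem_fixS.mpr (by simp [← hs, this]), c⟩
    · rintro ⟨v, a, b⟩
      refine ⟨_, k1 v b, fun x hx => ?_⟩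
      rwa [H11.mem_fixS.mp ((Submodule.span_singleton_le_iff_mem _ _).mpr a hx)]
  rcases hr.eq_two_or_odd' with rfl | e
  · rw [and_iff_right rfl]
    constructor
    · rintro H ⟨⟨U, -, u1, u2⟩, j, hj⟩
      rw [finrank_top] at u2
      obtain ⟨g, g1, g2, -⟩ := T.exists_invol_alt u1 (k := j) (by omega)
      have g3 := finrank_movS_add g.1
      obtain ⟨v, v1, v2⟩ := (key g).mp (H.fx_char h hB (by omega) (sq g ▸ g1) (fun e => by
        rw [← g2, e, finrank_movS_eq_zero.mpr (by rfl)] at u2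
        omega) ⟨j, by rw [g2]; omega⟩)
      rw [← Submodule.eq_of_le_of_finrank_eq (T.movS_le_fixS g1) (by rw [g2] at g3 ⊢; omega), g2] at v1
      exact v2 (u1.1 v v1)
    · refine fun H => (elu_char_two hB).mpr fun y _ y1 _ => (key y).mpr ?_
      by_contra! a
      have a1 := h.totSing_iff.mpr a
      have a2 := finrank_movS_add y.1
      have a3 := T.two_mul_rank_le y1
      have a4 := h.finrank_perp hB (H11.fixS y.1)
      have a5 := Submodule.finrank_mono a1.le_perp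
      have a6 := Nat.even_iff.mp (T.even_of_altT y1 ((totSing_movS_iff h hB y).mp
        (a1.mono (T.movS_le_fixS y1))))
      exact H ⟨⟨_, le_top, a1, by rw [finrank_top]; omega⟩, by rw [Nat.even_iff]; omega⟩
  have e2 : r ≠ 2 := by rintro rfl; exact absurd e (by decide)
  refine iff_of_false (fun H => ?_) fun a => e2 a.1
  obtain ⟨v, -, hv⟩ := h.exists_nonsingular (nondegOn_top hB) top_ne_bot
  obtain ⟨y, y1, y2, y3⟩ := exists_elt_of_dvd h hB hr (by
    rw [Ne, CharP.cast_eq_zero_iff F 2, ← even_iff_two_dvd]; simpa using e) ⟨_, k1 v hv⟩ (by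
    rintro W ⟨a, w, b, c⟩ U
    constructor
    · rintro ⟨a', u, b', c'⟩
      obtain ⟨s, hs⟩ := FiniteField.isSquare_of_char_two (ringChar.eq F 2) (Q w / Q u)
      have e3 : Q (s • u) = Q w := by rw [h.smul', ← hs, div_mul_cancel₀ _ c']
      obtain ⟨g, g1, g2⟩ := h.witt_one hB (v := w) (w := s • u) (by rintro rfl; exact c h.map_zero)
        (fun e => c (by rw [← e3, e, h.map_zero])) e3
      refine ⟨⟨g, g1⟩, ?_⟩
      rw [k0 a b c, k0 a' (U.smul_mem s b') (e3 ▸ c), Submodule.map_span, Set.image_singleton, ← g2]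
      rfl
    · rintro ⟨g, rfl⟩
      exact ⟨by rw [LinearEquiv.finrank_map_eq, a], _, ⟨w, b, rfl⟩, by simpa [g.2.2]⟩) hd
  obtain ⟨x, x1, x2⟩ := (key y).mp ((elu_omega_odd h hB (by omega) e).mp H y y1 y2)
  exact y3 _ ((Submodule.span_singleton_le_iff_mem _ _).mpr x1) (k1 x x2)

end Cfsg.Agent.H10
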