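import Mathlib
import Cfsg.Agent.H10.Elus10
import Cfsg.Agent.H18.Li3

/-! Fixed subspaces of elements of prime order of unitary groups. -/

namespace Cfsg.Agent.H10
open Module Polynomial H11 L0 IsHerm
universe u

theorem cyc_root_iff {G : Type*} [CommGroup G] [IsCyclic G] [Finite G] {r : ℕ} [hr : Fact r.Prime]
    {ζ : G} (h : orderOf ζ = r) {n : ℕ} (hn : n ≠ 0) :
    (∃ c, c ^ n = ζ) ↔ padicValNat r n < padicValNat r (Nat.card G) := by
  have h1 : Nat.card G ≠ 0 := Nat.card_pos.ne'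
  rw [exists_pow_eq_iff, ← orderOf_dvd_iff_pow_eq_one, h]
  have h3 := Nat.gcd_dvd_left (Nat.card G) n
  have h4 := (Nat.div_pos (Nat.le_of_dvd (Nat.pos_of_ne_zero h1) h3)
    (Nat.gcd_pos_of_pos_right _ (Nat.pos_of_ne_zero hn))).ne'
  rw [dvd_iff_padicValNat_ne_zero h4, padicValNat.div_of_dvd h3, ← Nat.factorization_def _ hr.out,
    ← Nat.factorization_def _ hr.out, ← Nat.factorization_def _ hr.out, Nat.factorization_gcd h1 hn,
    Finsupp.inf_apply]
  omega

variable {F : Type u} [Field F] {σ : F →+* F} {ε κ : F} {τ : F →+ F} {V : Type*} [AddCommGroup V]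
  [Module F V] [FiniteDimensional F V] {U W : Submodule F V} {Q : V → F} {q r N : ℕ}
  {B : V →ₛₗ[σ] V →ₗ[F] F} {Ω : Submodule F V → Prop}

theorem TyOn.two_le {g : End F V} {t : Multiset F[X]} (h : IsForm ε κ τ B Q) (hB : B.SeparatingLeft)
    (hg : ∀ x y, B (g x) (g y) = B x y) (hN : (N : F) ≠ 0) (hgN : g ^ N = 1)
    (hd : ∀ u ∈ tyE g, du σ N u = u) (hW : TyOn g W t) (hi : ∀ x ∈ W, ∀ y ∈ W, B x y = 0) :
    t + t ≤ tyE g := by
  have := hW.add_du_le h hB hg hN hgN hi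
  rwa [Multiset.map_congr rfl (g := id) fun u hu => hd u (Multiset.mem_of_le (hW.le_tyE hN hgN) hu),
    Multiset.map_id] at this

theorem tyOn_of_smul {g : End F V} {c : F} (h : ∀ x ∈ W, g x = c • x) :
    TyOn g W (H18.El.lin (Multiset.replicate (finrank F W) c)) := by
  have h1 : ∀ x ∈ W, g x ∈ W := fun x hx => h x hx ▸ W.smul_mem c hx
  obtain ⟨k, k1, k2⟩ := tyE_of_irr (T := g.restrict h1) (irreducible_X_sub_C c) (monic_X_sub_C c)
    ((aeval_eq_zero_iff_tyE _ _).mp (LinearMap.ext fun x => Subtype.ext (by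
      simp [h x x.2, algebraMap_end_apply])))
  exact ⟨h1, by simp [k1, k2, H18.El.lin]⟩

theorem det_invol {y : Isom B Q} (h : IsForm ε κ τ B Q) (hB : B.SeparatingLeft) (h2 : (2 : F) ≠ 0)
    (hy : y * y = 1) : LinearMap.det y.1.toLinearMap = (-1) ^ finrank F (movS y.1) := by
  have := (tyOn_of_smul (g := y.1.toLinearMap) (W := movS y.1) (c := -1) fun x hx => by
    simpa using (mem_movS_invol hy h2).mp hx).eq_add (tyOn_of_smul (W := H11.fixS y.1) (c := 1)
      fun x hx => by simpa using H11.mem_fixS.mp hx)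
    ⟨invol_disjoint hy h2, codisjoint_iff.mpr (invol_data h hB h2 hy).2.2.2.1⟩
  rw [H18.El.lin, H18.El.lin, ← Multiset.map_add] at this
  simp [H18.El.lin_det this]

theorem plane_nondeg {y : Isom B Q} (h : IsForm ε κ τ B Q) (hB : B.SeparatingLeft)
    (hb : ∀ W, NondegOn B W → (∀ x ∈ W, y.1 x ∈ W) → W ≠ ⊥ → ∃ P ≤ W, NondegOn B P ∧
      (∀ x ∈ P, y.1 x ∈ P) ∧ finrank F P = 2) (hW : NondegOn B W) (h1 : ∀ x ∈ W, y.1 x ∈ W) (j : ℕ) :
    2 * j ≤ finrank F W → ∃ U ≤ W, NondegOn B U ∧ (∀ x ∈ U, y.1 x ∈ U) ∧ finrank F U = 2 * j := by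
  refine inv_induction h hB (b := fun P => finrank F P = 2) (p := fun W => ∀ j, 2 * j ≤ finrank F W →
    ∃ U ≤ W, NondegOn B U ∧ (∀ x ∈ U, y.1 x ∈ U) ∧ finrank F U = 2 * j) (fun W a b c => ?_)
    (fun j hj => ⟨⊥, le_rfl, fun x hx _ => hx, by simp, by simp at hj; simp [hj]⟩)
    (fun P U p1 p2 p3 u1 u2 o ih j hj => ?_) hW h1 j
  · obtain ⟨P, p1, p2, p3, p4⟩ := hb W a b c
    exact ⟨P, p1, by rintro rfl; simp at p4, p2, p3, p4⟩
  rcases j with _ | j
  · exact ⟨⊥, bot_le, fun x hx _ => hx, by simp, by simp⟩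
  rw [finrank_sup_of_disjoint (disjoint_of_nondeg p2 o h)] at hj
  obtain ⟨U', a1, a2, a3, a4⟩ := ih j (by omega)
  have o' := fun a ha b hb => o a ha b (a1 hb)
  refine ⟨P ⊔ U', sup_le_sup_left a1 _, nondegOn_sup h p2 a2 o', fun x hx => ?_, by
    rw [finrank_sup_of_disjoint (disjoint_of_nondeg p2 o' h)]; omega⟩
  obtain ⟨a, ha, b, hb, rfl⟩ := Submodule.mem_sup.mp hx
  exact map_add y.1 a b ▸ Submodule.add_mem_sup (p3 a ha) (a3 b hb)

theorem real_lin (hσ : σ ≠ RingHom.id F) (hσ2 : ∀ a, σ (σ a) = a) {m : Multiset F}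
    (h : ∀ a ∈ m, σ a * a = 1) : Real σ 1 1 (trHom σ) (H18.El.lin m) := by
  rw [H18.El.lin, ← Multiset.bind_singleton]
  exact (par_herm hσ2).real_sum _ _ fun a ha => by
    simpa using real_herm_binom hσ hσ2 (k := 0) (h a ha) (by simpa using irreducible_X_sub_C a)

section eigen
variable {y : UIsom B} {w : F} (hH : IsHerm B) (hB : B.SeparatingLeft) (h2 : (2 : F) ≠ 0)
  (hw : σ w * w = -1) (hy : ∀ v, y.1 (y.1 v) = (w * w) • v)
include hH hB h2 hw hy

theorem herm_eigen : ∃ U W : Submodule F V, TotSing B (fun x => B x x) U ∧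
    TotSing B (fun x => B x x) W ∧ IsCompl U W ∧ 2 * finrank F U = finrank F V ∧
    (∀ x, x ∈ U ↔ y.1 x = w • x) ∧ ∀ x, x ∈ W ↔ y.1 x = -w • x := by
  have w0 : w ≠ 0 := by rintro rfl; simp at hw
  have key : ∀ w : F, σ w * w = -1 →
      TotSing B (fun x => B x x) (End.eigenspace y.1.toLinearMap w) := fun w hw =>
    totSing_iff.mpr fun x hx z hz => mul_left_cancel₀ h2 (by
      have := y.2.1 x z
      simp only [show y.1 x = w • x from End.mem_eigenspace_iff.mp hx, show y.1 z = w • z from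
        End.mem_eigenspace_iff.mp hz, map_smulₛₗ, LinearMap.smul_apply, smul_eq_mul,
        RingHom.id_apply] at this
      linear_combination -this + B x z * hw)
  have h1 := key w hw
  have h3 := key (-w) (by simpa)
  have h4 : End.eigenspace y.1.toLinearMap w ⊔ End.eigenspace y.1.toLinearMap (-w) = ⊤ :=
    eq_top_iff.mpr fun v _ => Submodule.mem_sup.mpr ⟨(2 * w)⁻¹ • (w • v + y.1 v),
      Submodule.smul_mem _ _ (End.mem_eigenspace_iff.mpr (by
        simp [hy, smul_smul, add_comm])), (2 * w)⁻¹ • (w • v - y.1 v),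
      Submodule.smul_mem _ _ (End.mem_eigenspace_iff.mpr (by
        simp [hy, smul_smul, smul_sub, sub_eq_neg_add, add_comm])), by
      rw [← smul_add, add_add_sub_cancel, ← two_smul F, smul_smul, smul_smul, mul_assoc,
        inv_mul_cancel₀ (mul_ne_zero h2 w0), one_smul]⟩
  have h5 := Submodule.finrank_sup_add_finrank_inf_eq (End.eigenspace y.1.toLinearMap w)
    (End.eigenspace y.1.toLinearMap (-w))
  have h6 := hH.form.two_mul_finrank_le hB h1
  have h7 := hH.form.two_mul_finrank_le hB h3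
  rw [h4, finrank_top] at h5
  exact ⟨_, _, h1, h3, ⟨disjoint_iff.mpr (Submodule.finrank_eq_zero.mp (by omega)),
    codisjoint_iff.mpr h4⟩, by omega, fun x => End.mem_eigenspace_iff,
    fun x => End.mem_eigenspace_iff⟩

theorem herm_eigen_det :
    Even (finrank F V) ∧ LinearMap.det y.1.toLinearMap = (-(w * w)) ^ (finrank F V / 2) := by
  obtain ⟨U, W, -, -, h1, h3, h4, h5⟩ := herm_eigen hH hB h2 hw hy
  have h6 := Submodule.finrank_add_eq_of_isCompl h1
  have := (tyOn_of_smul (g := y.1.toLinearMap) fun x hx => (h4 x).mp hx).eq_add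
    (tyOn_of_smul fun x hx => (h5 x).mp hx) h1
  rw [H18.El.lin, H18.El.lin, ← Multiset.map_add] at this
  refine ⟨h3 ▸ even_two_mul _, ?_⟩
  rw [H18.El.lin_det this, show finrank F W = finrank F U by omega,
    show finrank F V / 2 = finrank F U by omega]
  simp [← mul_pow]

theorem herm_eigen_ts {m : ℕ} (hm : 2 * m ≤ finrank F V) :
    Fx y fun W => finrank F W = m ∧ TotSing B (fun x => B x x) W := by
  obtain ⟨U, -, h1, -, -, h3, h4, -⟩ := herm_eigen hH hB h2 hw hy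
  obtain ⟨X, x1, x2⟩ := exists_le_finrank_eq U (k := m) (by omega)
  exact ⟨X, ⟨x2, h1.mono x1⟩, fun x hx => (h4 x).mp (x1 hx) ▸ X.smul_mem _ hx⟩

theorem herm_eigen_nd {m : ℕ} (hm : m ≤ finrank F V) :
    (Fx y fun W => finrank F W = m ∧ NondegOn B W) ↔ Even m := by
  have key : ∀ W, NondegOn B W → (∀ x ∈ W, y.1 x ∈ W) → ∃ z : UIsom (pull B W.subtype),
      (∀ x, (z.1 x : V) = y.1 x) ∧ ∀ v, z.1 (z.1 v) = (w * w) • v := fun W a b => by
    obtain ⟨z, hz⟩ := exists_isom_restrict b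
    exact ⟨z, hz, fun v => Subtype.ext (by simp [hz, hy])⟩
  constructor
  · rintro ⟨W, ⟨rfl, a⟩, b⟩
    obtain ⟨z, -, hz⟩ := key W a b
    exact (herm_eigen_det (hH.pull _) (nondegOn_iff.mp a) h2 hw hz).1
  rintro ⟨j, rfl⟩
  refine (plane_nondeg (y := y) hH.form hB (fun W a b c => ?_) (nondegOn_top hB)
    (by simp) j (by simp; omega)).imp fun U u => ⟨⟨by omega, u.2.1⟩, u.2.2.1⟩
  obtain ⟨z, z1, z2⟩ := key W a b
  have a' := nondegOn_iff.mp a
  obtain ⟨S, T, s1, t1, c1, c2, c3, c4⟩ := herm_eigen (hH.pull _) a' h2 hw z2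
  obtain ⟨e, e1, e2⟩ := Submodule.exists_mem_ne_zero_of_ne_bot (p := S) (by
    rintro rfl
    exact c (Submodule.finrank_eq_zero.mp (by simpa using c2.symm)))
  obtain ⟨f, f1, f2⟩ : ∃ f ∈ T, B e f ≠ 0 := by
    by_contra! H
    refine e2 (a' e fun v => ?_)
    obtain ⟨s, hs, t, ht, rfl⟩ := Submodule.mem_sup.mp (c1.sup_eq_top ▸ Submodule.mem_top (x := v))
    rw [map_add, s1.2 e e1 s hs, zero_add]; exact H t ht
  have hs : HypSys B (fun x => B x x) (fun _ : Unit => e.1) fun _ => (B e f)⁻¹ • f.1 :=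
    ⟨fun _ => s1.1 e e1, fun _ => by simp [show B f f = 0 from t1.1 f f1], fun _ _ => s1.1 e e1,
      fun _ _ => by simp [show B f f = 0 from t1.1 f f1], fun _ _ => by simp [f2]⟩
  refine ⟨_, Submodule.span_le.mpr ?_, hs.nondegOn hH.form, fun x hx => ?_, by
    simpa using finrank_span_eq_card (hs.linearIndependent hH.form)⟩
  · rintro _ ⟨_ | _, rfl⟩
    exacts [e.2, W.smul_mem _ f.2]
  · refine Submodule.mem_comap.mp ((Submodule.span_le (p := Submodule.comap y.1.toLinearMap _)).mpr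
      ?_ hx)
    rintro _ ⟨i | i, rfl⟩
    · rw [SetLike.mem_coe, Submodule.mem_comap, Sum.elim_inl, LinearEquiv.coe_coe, ← z1,
        (c3 e).mp e1]
      exact Submodule.smul_mem _ w (Submodule.subset_span ⟨.inl i, rfl⟩)
    · rw [SetLike.mem_coe, Submodule.mem_comap, Sum.elim_inr, LinearEquiv.coe_coe, map_smul, ← z1,
        (c4 f).mp f1, Submodule.coe_smul, smul_comm]
      exact Submodule.smul_mem _ _ (Submodule.subset_span ⟨.inr i, rfl⟩)

end eigen

/-- Every element of order `r` of the projective group satisfies `Φ`. -/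
def EluP (G : Subgroup (Isom B Q)) (r : ℕ) (Φ : Isom B Q → Prop) : Prop :=
  ∀ y ∈ G, (∃ z : F, ∀ v, (y ^ r).1 v = z • v) → (∀ z : F, ¬ ∀ v, y.1 v = z • v) → Φ y

/-- `Φ` is invariant under scalars. -/
def ScI (Φ : Isom B Q → Prop) : Prop :=
  ∀ (y y' : Isom B Q) (c : F), Φ y' → (∀ v, y.1 v = c • y'.1 v) → Φ y

omit [FiniteDimensional F V] in
theorem elu_iff_eluP {G : Subgroup (Isom B Q)} : Elu G r Ω ↔ EluP G r (Fx · Ω) := Iff.rfl

omit [FiniteDimensional F V] in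
theorem scI_fx : ScI fun y : Isom B Q => Fx y Ω := fun _ _ _ h => h.of_smul

variable (hq : QConj σ q) (hH : IsHerm B) (hB : B.SeparatingLeft) (h0 : 0 < finrank F V)
  {Φ : UIsom B → Prop}
include hB h0

theorem elu_su_iff (hΦ : ScI Φ) : EluP (SIsom B) r Φ ↔ (∀ y : UIsom B, y ^ r = 1 →
    (∀ z : F, ¬ ∀ v, y.1 v = z • v) → (∃ w : normOne σ, detI B _ y = w.1 ^ finrank F V) → Φ y) ∧
    ∀ y ∈ SIsom B, ∀ z : normOne σ, (∀ w, w ^ r ≠ z) → y ^ r = scalU B z → Φ y := by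
  have hc : ∀ (w : normOne σ) (y : UIsom B), (scalU B w * y) ^ r = scalU B (w ^ r) * y ^ r :=
    fun w y => by rw [Commute.mul_pow (scalU_comm w y).symm, map_pow]
  have hs : ∀ (w : normOne σ) (y : UIsom B) v, (w.1 : F) • (scalU B w⁻¹ * y).1 v = y.1 v :=
    fun w y v => by
      change _ • ((w⁻¹.1 : F) • y.1 v) = _
      simp
  have hn : ∀ (w : normOne σ) (y : UIsom B), (∀ z : F, ¬ ∀ v, y.1 v = z • v) →
      ∀ z : F, ¬ ∀ v, (scalU B w⁻¹ * y).1 v = z • v := fun w y h z hz => h (w.1 * z) fun v => by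
    rw [mul_smul, ← hz, hs]
  have hf : ∀ (w : normOne σ) (y : UIsom B), Φ (scalU B w⁻¹ * y) → Φ y :=
    fun w y h => hΦ _ _ w.1 h fun v => (hs w y v).symm
  refine ⟨fun H => ⟨fun y y1 y2 ⟨w, hw⟩ => hf w y (H _ ?_ ⟨(w⁻¹ ^ r).1, fun v => ?_⟩ (hn w y y2)),
    fun y y1 z z1 z2 => H y y1 ⟨_, fun v => by rw [z2, scalU_apply]⟩ fun a ha => ?_⟩,
    fun H y y1 ⟨a, ha⟩ y2 => ?_⟩
  · simp [MonoidHom.mem_ker, det_scalU, hw]
  · rw [hc, y1, mul_one, scalU_apply]
  · obtain ⟨b, -, rfl⟩ := exists_eq_scalU hB h0 y ha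
    exact z1 b (scalU_injective h0 ((map_pow _ _ _).trans z2))
  obtain ⟨z, -, hz⟩ := exists_eq_scalU hB h0 _ ha
  by_cases e : ∃ w, w ^ r = z
  · obtain ⟨w, rfl⟩ := e
    exact hf w y (H.1 _ (by rw [hc, hz, ← map_mul]; simp) (hn w y y2)
      ⟨w⁻¹, by simp [det_scalU, MonoidHom.mem_ker.mp y1]⟩)
  · exact H.2 y y1 z (by simpa using e) hz

include hq hH

omit hB h0 hH in
theorem normOne_fin : Finite (normOne σ) ∧ IsCyclic (normOne σ) :=
  have := hq.finite
  ⟨inferInstance, inferInstance⟩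

theorem det_mem (y : UIsom B) : detI B _ y ∈ normOne σ :=
  have := hq.finite
  hH.range_detI hB h0 ▸ ⟨y, rfl⟩

variable [hr : Fact r.Prime]

theorem elu_su_coprime (hΦ : ScI Φ) (h : ¬ r ∣ q + 1) :
    EluP (SIsom B) r Φ ↔ ∀ y : UIsom B, y ^ r = 1 → y ≠ 1 → Φ y := by
  obtain ⟨_, _⟩ := normOne_fin hq
  rw [← hq.card_normOne] at h
  rw [elu_su_iff hB h0 hΦ, and_iff_left fun y _ z hz => by
    obtain ⟨w, hw⟩ := H18.El.exists_pow_of_not_dvd h z
    exact absurd hw (hz w)]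
  refine ⟨fun H y y1 y2 => H y y1 (fun a ha => y2 ?_) ⟨1, ?_⟩,
    fun H y y1 y2 _ => H y y1 fun e => y2 1 (by simp [e])⟩
  · obtain ⟨b, -, rfl⟩ := exists_eq_scalU hB h0 y ha
    rw [H18.El.eq_one_of_not_dvd h (scalU_injective h0 ((map_pow _ _ _).trans
      (y1.trans (map_one _).symm))), map_one]
  · simpa using congrArg Subtype.val (H18.El.eq_one_of_not_dvd h (z := ⟨_, det_mem hq hH hB h0 y⟩)
      (Subtype.ext (by simp [← map_pow, y1])))

omit hB h0 hH in
theorem nonpow_of_odd (h2 : r ≠ 2) (h : r ∣ q + 1) {z : normOne σ} (hz : ∀ w, w ^ r ≠ z) (w : F) :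
    w ^ r ≠ z.1 := fun e => by
  have h1 : (σ w * w) ^ r = 1 := by rw [mul_pow, ← map_pow, e]; exact z.2
  have h3 : σ (σ w * w) = σ w * w := by rw [map_mul, hq.invol, mul_comm]
  obtain ⟨k, hk⟩ := h
  obtain ⟨j, hj⟩ := hr.out.odd_of_ne_two h2
  have h4 : (σ w * w) ^ 2 = 1 := by
    rw [sq, ← congrArg (· * (σ w * w)) h3, hq.eq (σ w * w), ← pow_succ, hk, pow_mul, h1, one_pow]
  rw [hj, pow_succ, pow_mul, h4, one_pow, one_mul] at h1
  exact hz ⟨Units.mk0 w (by rintro rfl; simp at h1), h1⟩ (Subtype.ext (Units.ext e))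

theorem nonsplit_iff_odd (h2 : r ≠ 2) (h : r ∣ q + 1) {P : Prop}
    (hP : ∀ (y : UIsom B) (z : F), σ z * z = 1 → (∀ w, w ^ r ≠ z) →
      y.1.toLinearMap ^ r = z • 1 → (Fx y Ω ↔ P)) :
    (∀ y ∈ SIsom B, ∀ z : normOne σ, (∀ w, w ^ r ≠ z) → y ^ r = scalU B z → Fx y Ω) ↔
      P ∨ padicValNat r (finrank F V) ≤ padicValNat r (q + 1) := by
  obtain ⟨_, _⟩ := normOne_fin hq
  have := hq.finite
  have e1 : ∀ (y : UIsom B) (z : normOne σ), y ^ r = scalU B z ↔
      y.1.toLinearMap ^ r = (z.1 : F) • 1 := fun y z => by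
    rw [← isom_pow_coe, Subtype.ext_iff, ← LinearEquiv.toLinearMap_inj]; rfl
  have e2 : (-1 : F) ^ (r + 1) = 1 := (hr.out.odd_of_ne_two h2).add_one.neg_one_pow
  rw [← hq.card_normOne] at h ⊢
  constructor
  · refine fun H => or_iff_not_imp_right.mpr fun a => ?_
    have a1 : r ∣ finrank F V := dvd_of_one_le_padicValNat (by omega)
    obtain ⟨a2, a3⟩ := H18.El.val_div a1 h0.ne'
    obtain ⟨z, z1, z2⟩ := (H18.El.cyc_nonpow h a2).mpr (by omega)
    have z3 := nonpow_of_odd hq h2 (hq.card_normOne ▸ h) z1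
    obtain ⟨k, hk⟩ := Nat.exists_eq_succ_of_ne_zero hr.out.ne_zero
    obtain ⟨y, hy⟩ := ((par_herm hH.invol).real_nsmul (real_herm_binom hH.ne hH.invol (k := k) z.2
      (by simpa [hk] using X_pow_sub_C_irreducible_of_prime hr.out z3)) (finrank F V / r)).herm hH hB
      (by simpa [hk, Multiset.nsmul_singleton] using Nat.div_mul_cancel a1)
    have y1 : y.1.toLinearMap ^ r = (z.1 : F) • 1 := (H18.El.pow_eq_smul_iff _ _ _).mpr fun u hu => by
      rw [hy, Multiset.nsmul_singleton] at hu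
      simp [Multiset.eq_of_mem_replicate hu, hk]
    refine (hP y _ z.2 z3 y1).mp (H y (mem_sisom.mpr ?_) z z1 ((e1 y z).mpr y1))
    rw [(H18.El.ty_nonsplit hr.out y1 z3).2.2, e2, one_mul]
    exact congrArg (fun x : normOne σ => (x.1 : F)) z2
  · refine fun H y y1 z z1 z2 => ?_
    have z3 := nonpow_of_odd hq h2 (hq.card_normOne ▸ h) z1
    refine (hP y _ z.2 z3 ((e1 y z).mp z2)).mpr (H.resolve_right fun a => ?_)
    obtain ⟨a1, -, a4⟩ := H18.El.ty_nonsplit hr.out ((e1 y z).mp z2) z3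
    obtain ⟨a2, a3⟩ := H18.El.val_div a1 h0.ne'
    rw [mem_sisom.mp y1, e2, one_mul] at a4
    have := (H18.El.cyc_nonpow h a2).mp ⟨z, z1, Subtype.ext (Units.ext (by simpa using a4.symm))⟩
    omega

omit h0 hq hH hB in
theorem dvd_of_nonsplit {g : End F V} {z : F} (hz : ∀ w, w ^ r ≠ z) (hg : g ^ r = z • 1)
    (hW : ∀ x ∈ W, g x ∈ W) : r ∣ finrank F W :=
  (H18.El.ty_nonsplit (g := g.restrict hW) hr.out (LinearMap.ext fun x => Subtype.ext (by
    rw [End.pow_restrict r hW]; simp [hg])) hz).1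

omit h0 in
theorem nonsplit_nd {m : ℕ} (hm : m ≤ finrank F V) (y : UIsom B) (z : F) (h1 : σ z * z = 1)
    (hz : ∀ w, w ^ r ≠ z) (hy : y.1.toLinearMap ^ r = z • 1) :
    (Fx y fun W => finrank F W = m ∧ NondegOn B W) ↔ r ∣ m := by
  have := hq.finite
  refine ⟨fun ⟨W, a, b⟩ => a.1 ▸ dvd_of_nonsplit hz hy b, ?_⟩
  rintro ⟨j, rfl⟩
  obtain ⟨⟨k, a1⟩, a2, -⟩ := H18.El.ty_nonsplit hr.out hy hz
  obtain ⟨l, hl⟩ := Nat.exists_eq_succ_of_ne_zero hr.out.ne_zero
  have a3 : ∀ j, Real σ 1 1 (trHom σ) (Multiset.replicate j (X ^ r - C z)) := fun j => by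
    simpa [hl, Multiset.nsmul_singleton] using (par_herm hH.invol).real_nsmul (real_herm_binom hH.ne
      hH.invol (k := l) h1 (by simpa [hl] using X_pow_sub_C_irreducible_of_prime hr.out hz)) j
  rw [a1, Nat.mul_div_cancel_left _ hr.out.pos] at a2
  obtain ⟨W, w1, w2⟩ := exists_nondeg_of_real hH.form hB y.2.1 (.inl hH.ne) (a3 j) (a3 (k - j)) (by
    rw [a2, ← Multiset.replicate_add, Nat.add_sub_cancel' (Nat.le_of_mul_le_mul_left (a1 ▸ hm)
      hr.out.pos)])
  exact ⟨W, ⟨by simp [w2.finrank_eq, mul_comm], w1⟩, w2.inv⟩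

omit h0 in
theorem nonsplit_ts (h3 : (r : F) ≠ 0) {m : ℕ} (hm : 2 * m ≤ finrank F V) (y : UIsom B) (z : F)
    (h1 : σ z * z = 1) (hz : ∀ w, w ^ r ≠ z) (hy : y.1.toLinearMap ^ r = z • 1) :
    (Fx y fun W => finrank F W = m ∧ TotSing B (fun x => B x x) W) ↔ r ∣ m := by
  classical
  have := hq.finite
  refine ⟨fun ⟨W, a, b⟩ => a.1 ▸ dvd_of_nonsplit hz hy b, ?_⟩
  rintro ⟨j, rfl⟩
  rcases j.eq_zero_or_pos with rfl | j0
  · exact ⟨⊥, ⟨by simp, hH.form.totSing_bot⟩, by simp⟩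
  obtain ⟨⟨k, a1⟩, a2, -⟩ := H18.El.ty_nonsplit hr.out hy hz
  rw [a1, Nat.mul_div_cancel_left _ hr.out.pos] at a2
  have a3 : 2 * j ≤ k := Nat.le_of_mul_le_mul_left (by rw [a1] at hm; linarith) hr.out.pos
  have a4 : ((r * (q + 1) : ℕ) : F) ≠ 0 := by
    have := Fintype.ofFinite F
    have e : (q : F) = 0 := by
      simpa [← Nat.card_eq_fintype_card, hq.card] using FiniteField.cast_card_eq_zero F
    simp [h3, e]
  have a5 : y.1.toLinearMap ^ (r * (q + 1)) = 1 := by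
    rw [pow_mul, hy, _root_.smul_pow, pow_succ z, ← hq.eq, h1, one_pow, one_smul]
  have a6 := inv_tyE hH.form hB a4 y a5
  have a7 : X ^ r - C z ∈ tyE y.1.toLinearMap := by
    rw [a2, Multiset.mem_replicate]; exact ⟨by omega, rfl⟩
  have a8 : du σ (r * (q + 1)) (X ^ r - C z) = X ^ r - C z :=
    Multiset.eq_of_mem_replicate (a2 ▸ Multiset.count_pos.mp ((a6.2 _ (a6.1 _ a7)).symm ▸
      Multiset.count_pos.mpr a7))
  obtain ⟨W, -, -, w1, -, w2, -⟩ := exists_iso_of_le (par_herm hH.invol) hH.form hB y.2.1 a4 a5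
    (.inl hH.ne) (t := Multiset.replicate j (X ^ r - C z)) (by
      rw [a2, Multiset.map_replicate, a8, ← Multiset.replicate_add, Multiset.replicate_le_replicate]
      omega)
  exact ⟨W, ⟨by simp [w2.finrank_eq, mul_comm], totSing_iff.mpr w1⟩, w2.inv⟩

theorem split_ts_odd (h2 : r ≠ 2) (h : r ∣ q + 1) {t m : ℕ} (O : OD σ r 1 1 t) (h1 : 0 < m)
    (hm : 2 * m ≤ finrank F V)
    (hd : r ∣ Nat.card {U : Submodule F V // finrank F U = m ∧ TotSing B (fun x => B x x) U}) :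
    (∀ y : UIsom B, y ^ r = 1 → (∀ z : F, ¬ ∀ v, y.1 v = z • v) →
      (∃ w : normOne σ, detI B _ y = w.1 ^ finrank F V) →
      Fx y fun W => finrank F W = m ∧ TotSing B (fun x => B x x) W) ↔
      r - 1 + 2 * m ≤ finrank F V := by
  classical
  obtain ⟨_, _⟩ := normOne_fin hq
  have := hq.finite
  have key := O.totSing_max hH.form hB (par_herm hH.invol) hm (fun y hy => (herm_on hH hB
    (nondegOn_fixS hH.form hB y.2 (isom_disjoint hy O.ne))).1) (fun k hk => adm_herm hH hB hk) hd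
  have e1 := O.mul_eq
  rw [mul_one] at e1
  simp only [Nat.mod_one, Nat.div_one, mul_one, ne_eq, not_true, false_or, mul_zero, le_refl,
    true_and, e1, show 1 ≤ m from h1] at key
  refine ⟨fun H => ?_, fun H y y1 y2 _ => key.mpr H y y1 fun e => y2 1 (by simp [e])⟩
  rw [← hq.card_normOne] at h
  by_cases a : padicValNat r (finrank F V) < padicValNat r (Nat.card (normOne σ))
  · refine key.mp fun y y1 _ => ?_
    by_cases b : ∃ z : F, ∀ v, y.1 v = z • v
    · obtain ⟨z, hz⟩ := b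
      obtain ⟨U, -, u1, u2⟩ := (exists_totSing_le hH.form (nondegOn_top hB)
        (herm_on hH hB (nondegOn_top hB)).1 (b := m)).mpr (by simp; omega)
      exact ⟨U, ⟨u2, u1⟩, fun x hx => hz x ▸ U.smul_mem z hx⟩
    refine H y y1 (by simpa using b) ?_
    by_cases c : (⟨_, det_mem hq hH hB h0 y⟩ : normOne σ) = 1
    · exact ⟨1, by simpa using congrArg Subtype.val c⟩
    obtain ⟨w, hw⟩ := (cyc_root_iff (orderOf_eq_prime (Subtype.ext (by simp [← map_pow, y1])) c)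
      h0.ne').mpr a
    exact ⟨w, (congrArg Subtype.val hw).symm⟩
  have a1 : r ∣ finrank F V := dvd_of_one_le_padicValNat (by
    have := one_le_padicValNat_of_dvd Nat.card_pos.ne' h
    omega)
  have a2 := Nat.le_of_dvd h0 a1
  obtain ⟨ζ, hζ⟩ := exists_prime_orderOf_dvd_card' r h
  have z1 : IsPrimitiveRoot (ζ.1 : F) r := by
    rw [IsPrimitiveRoot.coe_units_iff, IsPrimitiveRoot.coe_submonoidClass_iff, ← hζ]
    exact IsPrimitiveRoot.orderOf ζ
  let s : Multiset F :=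
    (Multiset.range r).map ((ζ.1 : F) ^ ·) + Multiset.replicate (finrank F V - r) (1 : F)
  have s1 : ∀ a ∈ s, σ a * a = 1 ∧ a ^ r = 1 := fun a ha => by
    simp only [s, Multiset.mem_add, Multiset.mem_map, Multiset.mem_replicate] at ha
    rcases ha with ⟨i, -, rfl⟩ | ⟨-, rfl⟩
    · exact ⟨by simpa [mem_normOne] using (ζ ^ i).2, by rw [← pow_mul, mul_comm, pow_mul, z1.pow_eq_one, one_pow]⟩
    · simp
  obtain ⟨y, hy⟩ := (real_lin hH.ne hH.invol fun a ha => (s1 a ha).1).herm hH hB (by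
    simp only [H18.El.lin, Multiset.map_map, Function.comp_def, natDegree_X_sub_C]
    simp [s]; omega)
  have y1 : y.1.toLinearMap ^ r = 1 := by
    simpa using (H18.El.lin_pow hy r 1).mpr fun a ha => (s1 a ha).2
  have r2 := hr.out.two_le
  obtain ⟨W, ⟨w1, w2⟩, w3⟩ := H y (isom_pow_of_lin y1) (fun z hz => by
    have := (H18.El.lin_pow hy 1 z).mp (LinearMap.ext (by simpa using hz))
    have b1 := this ((ζ.1 : F) ^ 0)
      (Multiset.mem_add.mpr (.inl (Multiset.mem_map_of_mem _ (by simp; omega))))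
    have b2 := this ((ζ.1 : F) ^ 1)
      (Multiset.mem_add.mpr (.inl (Multiset.mem_map_of_mem _ (by simp; omega))))
    exact z1.ne_one r2 (by simpa using b2.trans b1.symm)) ⟨1, Units.ext (by
      obtain ⟨k, hk⟩ := hr.out.odd_of_ne_two h2
      rw [detI_coe, H18.El.lin_det hy]
      simp only [s, Multiset.prod_add, Multiset.prod_replicate, one_pow, mul_one]
      rw [← Finset.range_val, ← Finset.prod_eq_multiset_prod, Finset.prod_pow_eq_pow_sum,
        Finset.sum_range_id, z1.pow_eq_one_iff_dvd _ |>.mpr ⟨k, by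
          rw [hk, Nat.add_sub_cancel, mul_left_comm, Nat.mul_div_cancel_left _ two_pos]⟩]
      simp)⟩
  obtain ⟨u, hu⟩ := exists_tyOn (g := y.1.toLinearMap) w3
  have u1 := hu.two_le hH.form hB y.2.1 O.ne y1 (fun u hu => by
    by_cases e : u = X - 1
    · rw [e, du_X_sub_one hr.out.pos]
    · exact (O.cases.resolve_right (by simp)).1 ⟨u, irrD_of_mem O.ne y1 hu, e⟩) w2.2
  rw [hy] at u1
  have u2 : ∀ a, (H18.El.lin s).count (X - C a) = s.count a := fun a =>
    Multiset.count_map_eq_count' _ _ (fun _ _ h => C_injective (sub_right_injective h)) a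
  have u3 : ∀ a, ((Multiset.range r).map ((ζ.1 : F) ^ ·)).count a ≤ 1 := Multiset.nodup_iff_count_le_one.mp
    ((Multiset.nodup_range r).map_on fun i hi j hj =>
      z1.pow_inj (Multiset.mem_range.mp hi) (Multiset.mem_range.mp hj))
  have u4 : u = Multiset.replicate u.card (X - C 1) := Multiset.eq_replicate_card.mpr fun v hv => by
    obtain ⟨a, -, rfl⟩ := Multiset.mem_map.mp (Multiset.mem_of_le u1 (Multiset.mem_add.mpr (.inl hv)))
    have := Multiset.count_le_of_le (X - C a) u1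
    have := Multiset.one_le_count_iff_mem.mpr hv
    have := u3 a
    by_contra e
    rw [u2, Multiset.count_add, Multiset.count_add, Multiset.count_replicate,
      if_neg (by rintro rfl; exact e rfl)] at *
    omega
  have u5 := Multiset.count_le_of_le (X - C 1) u1
  have u6 := hu.finrank_eq
  have := u3 1
  rw [u2, u4, Multiset.count_add, Multiset.count_add, Multiset.count_replicate_self,
    Multiset.count_replicate_self] at u5
  rw [u4, Multiset.map_replicate, Multiset.sum_replicate, natDegree_X_sub_C, smul_eq_mul] at u6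
  omega

omit hr

omit hB h0 hH in
theorem neg_one_facts (h2 : (2 : F) ≠ 0) : q % 2 = 1 ∧ ∃ u : normOne σ, (u.1 : F) = -1 ∧
    orderOf u = 2 ∧ ((∃ w, w ^ 2 = u) ↔ q % 4 = 3) := by
  obtain ⟨_, _⟩ := normOne_fin hq
  have e : orderOf (⟨-1, by simp [mem_normOne]⟩ : normOne σ) = 2 :=
    orderOf_eq_prime (Subtype.ext (by simp)) fun e => h2 (by
      have : (-1 : F) = 1 := by simpa using congrArg (fun x : normOne σ => (x.1 : F)) e
      linear_combination -this)
  have e1 := orderOf_dvd_natCard (⟨-1, by simp [mem_normOne]⟩ : normOne σ)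
  rw [e, hq.card_normOne] at e1
  refine ⟨by omega, _, by simp, e, ?_⟩
  rw [exists_pow_eq_iff, ← orderOf_dvd_iff_pow_eq_one, e, hq.card_normOne, Nat.gcd_eq_right e1]
  omega

omit hB h0 hH in
theorem exists_sqrt_nonsq (h2 : (2 : F) ≠ 0) {z : normOne σ} (hz : ∀ w, w ^ 2 ≠ z) :
    ∃ w : F, σ w * w = -1 ∧ w * w = z.1 := by
  have := hq.finite
  have := Fintype.ofFinite F
  obtain ⟨k, hk⟩ : ∃ k, q = 2 * k + 1 := ⟨q / 2, by have := (neg_one_facts hq h2).1; omega⟩
  obtain ⟨w, hw⟩ := (FiniteField.isSquare_iff (a := (z.1 : F)) (fun e => h2 (by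
    simpa [e] using ringChar.Nat.cast_ringChar (R := F))) z.1.ne_zero).mpr (by
    rw [← Nat.card_eq_fintype_card, hq.card, show q ^ 2 / 2 = (q + 1) * k by
      rw [hk, show (2 * k + 1) ^ 2 = 2 * ((2 * k + 1 + 1) * k) + 1 by ring]; omega, pow_mul,
      pow_succ, ← hq.eq, show σ z.1 * z.1 = 1 from z.2, one_pow])
  have h1 : σ w * w * (σ w * w) = 1 := by
    rw [mul_mul_mul_comm, ← map_mul, ← hw]; exact z.2
  refine ⟨w, (mul_self_eq_one_iff.mp h1).resolve_left fun e => ?_, hw.symm⟩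
  exact hz ⟨Units.mk0 w (by rintro rfl; simp at e), e⟩ (Subtype.ext (Units.ext (by simp [hw, sq])))

theorem nonsplit_two (h2 : (2 : F) ≠ 0) {P : Prop} (hP : ∀ (y : UIsom B) (w : F), σ w * w = -1 →
    (∀ v, y.1 (y.1 v) = (w * w) • v) → (Φ y ↔ P)) :
    (∀ y ∈ SIsom B, ∀ z : normOne σ, (∀ w, w ^ 2 ≠ z) → y ^ 2 = scalU B z → Φ y) ↔
      P ∨ Odd (finrank F V) ∨ (padicValNat 2 (finrank F V) ≤ padicValNat 2 (q + 1) ∧ q % 4 = 3) := by
  obtain ⟨_, _⟩ := normOne_fin hq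
  have := hq.finite
  obtain ⟨q1, u, u1, u2, u3⟩ := neg_one_facts hq h2
  have u4 : u * u = 1 := by rw [← sq, ← u2, pow_orderOf_eq_one]
  have h : 2 ∣ Nat.card (normOne σ) := by rw [hq.card_normOne]; omega
  have key : Even (finrank F V) → ((∃ z : normOne σ, (∀ w, w ^ 2 ≠ z) ∧
      (u * z) ^ (finrank F V / 2) = 1) ↔
      ¬ (padicValNat 2 (finrank F V) ≤ padicValNat 2 (q + 1) ∧ q % 4 = 3)) := fun e => by
    obtain ⟨a2, a3⟩ := H18.El.val_div e.two_dvd h0.ne'
    by_cases e1 : q % 4 = 3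
    · obtain ⟨c, rfl⟩ := u3.mpr e1
      rw [and_iff_left e1, a3, not_le, Nat.lt_add_one_iff, ← hq.card_normOne,
        ← H18.El.cyc_nonpow h a2]
      refine ⟨fun ⟨z, a, b⟩ => ⟨_, fun w e => a (c * w) ?_, b⟩,
        fun ⟨z, a, b⟩ => ⟨c ^ 2 * z, fun w e => a (c * w) ?_, ?_⟩⟩
      · rw [mul_pow, e, ← mul_assoc, u4, one_mul]
      · rw [mul_pow, e, ← mul_assoc, u4, one_mul]
      · rwa [← mul_assoc, u4, one_mul]
    · exact iff_of_true ⟨u, fun w e => e1 (u3.mp ⟨w, e⟩), by simp [u4]⟩ fun a => e1 a.2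
  constructor
  · refine fun H => or_iff_not_imp_right.mpr fun a => ?_
    rw [not_or, Nat.not_odd_iff_even] at a
    obtain ⟨z, z1, z2⟩ := (key a.1).mpr a.2
    obtain ⟨w, w1, w2⟩ := exists_sqrt_nonsq hq h2 z1
    obtain ⟨k, hk⟩ := a.1
    obtain ⟨y, hy⟩ := ((par_herm hH.invol).real_hyp (hermB_sep (Fin k)) (hermB_sepR _) (a := w • 1)
      (b := -w • 1) fun x y => by
        simp only [LinearMap.smul_apply, End.one_apply, map_smulₛₗ, smul_eq_mul, RingHom.id_apply]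
        linear_combination -hermB (Fin k) σ x y * w1).herm hH hB (by
          simp [← finrank_eq_sum_tyE, hk])
    have y1 : y.1.toLinearMap ^ 2 = (w * w) • 1 := (H18.El.pow_eq_smul_iff _ _ _).mpr fun v hv => by
      rw [hy, Multiset.mem_add] at hv
      rcases hv with hv | hv <;>
        exact (H18.El.pow_eq_smul_iff _ _ _).mp (by simp [sq, smul_smul]) v hv
    have y2 : ∀ v, y.1 (y.1 v) = (w * w) • v := fun v => by simpa [sq] using LinearMap.congr_fun y1 v
    refine (hP y w w1 y2).mp (H y (mem_sisom.mpr ?_) z z1 (Subtype.ext (LinearEquiv.ext fun v => ?_)))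
    · rw [(herm_eigen_det hH hB h2 w1 y2).2, w2]
      simpa [u1] using congrArg (fun x : normOne σ => (x.1 : F)) z2
    · simp [sq, y2, w2, scalU_apply]
  · refine fun H y y1 z z1 z2 => ?_
    obtain ⟨w, w1, w2⟩ := exists_sqrt_nonsq hq h2 z1
    have y2 : ∀ v, y.1 (y.1 v) = (w * w) • v := fun v => by
      simpa [sq, w2, scalU_apply] using congrArg (fun g : UIsom B => g.1 v) z2
    obtain ⟨a1, a2⟩ := herm_eigen_det hH hB h2 w1 y2
    refine (hP y w w1 y2).mpr (H.resolve_right ?_)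
    rw [not_or, Nat.not_odd_iff_even, ← key a1]
    exact ⟨a1, z, z1, Subtype.ext (Units.ext (by simpa [u1, w2, mem_sisom.mp y1] using a2.symm))⟩

theorem split_two (h2 : (2 : F) ≠ 0) (h1 : 2 ≤ finrank F V)
    (H1 : ∀ y : UIsom B, y * y = 1 → Even (finrank F (movS y.1)) → Φ y) :
    (padicValNat 2 (q + 1) ≤ padicValNat 2 (finrank F V) → ∀ y : UIsom B, y ^ 2 = 1 →
      (∀ z : F, ¬ ∀ v, y.1 v = z • v) → (∃ w : normOne σ, detI B _ y = w.1 ^ finrank F V) → Φ y) ∧
    ((∀ y : UIsom B, y ^ 2 = 1 → (∀ z : F, ¬ ∀ v, y.1 v = z • v) →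
      (∃ w : normOne σ, detI B _ y = w.1 ^ finrank F V) → Φ y) →
      padicValNat 2 (q + 1) ≤ padicValNat 2 (finrank F V) ∨
        ∃ y : UIsom B, y * y = 1 ∧ finrank F (movS y.1) = 1 ∧ Φ y) := by
  obtain ⟨_, _⟩ := normOne_fin hq
  have := hq.finite
  obtain ⟨-, u, u1, u2, -⟩ := neg_one_facts hq h2
  have u3 := cyc_root_iff u2 h0.ne'
  rw [hq.card_normOne] at u3
  refine ⟨fun a y y1 _ ⟨w, hw⟩ => H1 y (sq y ▸ y1) (by_contra fun e => a.not_gt (u3.mp ⟨w, ?_⟩)),
    fun H => or_iff_not_imp_left.mpr fun a => ?_⟩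
  · have := congrArg Units.val hw
    rw [detI_coe, det_invol hH.form hB h2 (sq y ▸ y1),
      (Nat.not_even_iff_odd.mp e).neg_one_pow] at this
    exact Subtype.ext (Units.ext (by simpa [u1] using this.symm))
  obtain ⟨w, hw⟩ := u3.mpr (not_le.mp a)
  obtain ⟨W, -, w1, w2⟩ := (herm_on hH hB (nondegOn_top hB)).2 1 (by simp; omega)
  obtain ⟨y, y1, rfl⟩ := exists_invol_neg hH.form hB h2 w1
  obtain ⟨-, -, -, -, a1, a2, a3⟩ := invol_data hH.form hB h2 y1
  refine ⟨y, y1, w2, H y (sq y ▸ y1) (fun z hz => ?_) ⟨w, Units.ext ?_⟩⟩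
  · have := Module.nontrivial_of_finrank_pos h0
    obtain ⟨v, hv⟩ := exists_ne (0 : V)
    have := isom_mul_self y1 v
    rw [hz, hz, smul_smul, ← sub_eq_zero, ← one_smul F v, smul_smul, mul_one, ← sub_smul,
      smul_eq_zero, or_iff_left (by simpa), sub_eq_zero, mul_self_eq_one_iff] at this
    rcases this with rfl | rfl
    · exact a2.mpr (by omega) (Subtype.ext (LinearEquiv.ext (by simpa using hz)))
    · exact a3.mpr (by omega) (by simpa using hz)
  · rw [detI_coe, det_invol hH.form hB h2 y1, w2]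
    simpa [u1] using congrArg (fun x : normOne σ => (x.1 : F)) hw.symm

end Cfsg.Agent.H10
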