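import Mathlib
import Cfsg.Agent.H10.Elus11

/-! Elusive actions of unitary groups on subspaces. -/

namespace Cfsg.Agent.H10
open Module Polynomial H11 L0 IsHerm
universe u

theorem dvd_add_one_iff {r q i : ℕ} [Fact r.Prime] (h2 : r ≠ 2) (hi : i = orderOf (q : ZMod r)) :
    r ∣ q + 1 ↔ i = 2 := by
  have : Fact (2 < r) := ⟨lt_of_le_of_ne (Fact.out : r.Prime).two_le h2.symm⟩
  rw [← ZMod.natCast_eq_zero_iff, hi, orderOf_eq_prime_iff, sq_eq_one_iff, Nat.cast_succ,
    add_eq_zero_iff_eq_neg]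
  exact ⟨fun h => ⟨.inr h, h ▸ ZMod.neg_one_ne_one⟩, fun h => h.1.resolve_left h.2⟩

variable {F : Type u} [Field F] {σ : F →+* F} {ε κ : F} {τ : F →+ F} {V : Type*} [AddCommGroup V]
  [Module F V] [FiniteDimensional F V] {U W : Submodule F V} {Q : V → F} {q r N : ℕ}
  {B : V →ₛₗ[σ] V →ₗ[F] F} {Ω : Submodule F V → Prop}

section su
variable (hq : QConj σ q) (hH : IsHerm B) (hB : B.SeparatingLeft) [hr : Fact r.Prime]
  {p i b c m n : ℕ} [Fact p.Prime] [CharP F p] (hn : finrank F V = n) (h1 : 0 < m)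
  (hi : i = orderOf (q : ZMod r)) (hb : b = if Even i then i / 2 else i)
  (hc : c = if i % 4 = 0 then i else if i % 4 = 2 then i / 2 else 2 * i)
include hq hH hB hn h1 hi hb hc

theorem elu_su_ts (hm : 2 * m ≤ n)
    (hd : r ∣ Nat.card {U : Submodule F V // finrank F U = m ∧ TotSing B (fun x => B x x) U}) :
    Elu (SIsom B) r (fun W => finrank F W = m ∧ TotSing B (fun x => B x x) W) ↔
    ((r = 2 ∧ p ≠ 2 ∧ (2 * m < n ∨ padicValNat 2 (q + 1) ≤ padicValNat 2 n)) ∨
     (r ≠ p ∧ 2 < r ∧ b ≤ m ∧ 2 * (m % b) ≤ n % c ∧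
       (i % 4 ≠ 2 ∨ (i % 4 = 2 ∧ (r - 1) / b + 2 * (m / b) ≤ n / b ∧
         (2 < i ∨ (i = 2 ∧ (r ∣ m ∨ padicValNat r n ≤ padicValNat r (q + 1)))))))) := by
  subst hn
  have := hq.finite
  have h0 : 0 < finrank F V := by omega
  obtain ⟨U, -, u1, u2⟩ := (exists_totSing_le hH.form (nondegOn_top hB)
    (herm_on hH hB (nondegOn_top hB)).1 (b := m)).mpr (by simp; omega)
  have hp : r ≠ p := by
    rintro rfl
    exact not_dvd_card_totSing hH.form hB ⟨U, u2, u1⟩ (.inr (by
      have := hq.two_le; rw [hq.card_ker_tr]; omega)) hd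
  have h3 : (r : F) ≠ 0 := natCast_ne_zero_of_coprime ((Nat.coprime_primes hr.out Fact.out).mpr hp)
  have r2 := hr.out.two_le
  rw [elu_iff_eluP]
  by_cases h2 : r = 2
  · subst h2
    have key : ∀ y : UIsom B, y * y = 1 → ((Fx y fun W => finrank F W = m ∧
        TotSing B (fun x => B x x) W) ↔ m ≤ finrank F (movS y.1) / 2 +
          (finrank F V - finrank F (movS y.1)) / 2) ∧ finrank F (movS y.1) ≤ finrank F V := fun y hy => by
      obtain ⟨a1, a2, -, -, a3, -⟩ := invol_data hH.form hB (by simpa using h3) hy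
      rw [invol_totSing hH.form hB (by simpa using h3) hy (herm_on hH hB a1).1 (herm_on hH hB a2).1]
      omega
    obtain ⟨a1, a2⟩ := split_two hq hH hB h0 (Φ := (Fx · fun W => finrank F W = m ∧
      TotSing B (fun x => B x x) W)) (by simpa using h3) (by omega) fun y hy e => by
        have := key y hy
        exact this.1.mpr (by have := Nat.even_iff.mp e; omega)
    rw [elu_su_iff hB h0 scI_fx, and_iff_left fun y _ z z1 z2 => by
      obtain ⟨w, w1, w2⟩ := exists_sqrt_nonsq hq (by simpa using h3) z1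
      exact herm_eigen_ts hH hB (by simpa using h3) w1 (fun v => by
        simpa [sq, w2, scalU_apply] using congrArg (fun g : UIsom B => g.1 v) z2) hm,
      or_iff_left (by omega), and_iff_right rfl, and_iff_right hp.symm]
    refine ⟨fun H => (a2 H).symm.imp (fun H => ?_) id, fun H => H.elim (fun H y y1 _ _ => ?_) a1⟩
    · obtain ⟨y, y1, y2, y3⟩ := H
      have := (key y y1).1.mp y3
      omega
    · obtain ⟨b1, b2⟩ := key y (sq y ▸ y1)
      exact b1.mpr (by omega)
  obtain ⟨O, e⟩ := od_herm hq hr.out h2 hp hi hb hc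
  by_cases h : r ∣ q + 1
  · obtain rfl := (dvd_add_one_iff h2 hi).mp h
    obtain rfl : b = 1 := by simpa using hb
    obtain rfl : c = 1 := by simpa using hc
    rw [elu_su_iff hB h0 scI_fx, split_ts_odd hq hH hB h0 h2 h O h1 hm hd,
      nonsplit_iff_odd hq hH hB h0 h2 h (nonsplit_ts hq hH hB h3 hm)]
    simp [h2, hp, Nat.mod_one, show 1 ≤ m from h1, show 2 < r by omega]
  have h' := (dvd_add_one_iff h2 hi).not.mp h
  rw [elu_su_coprime hq hH hB h0 scI_fx h, O.totSing_max hH.form hB (par_herm hH.invol) hm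
    (fun y hy => (herm_on hH hB (nondegOn_fixS hH.form hB y.2 (isom_disjoint hy O.ne))).1)
    (fun k hk => adm_herm hH hB hk) hd, ne_eq, e]
  simp only [h2, h', hp, false_and, false_or, or_false, ne_eq, not_false_iff, true_and,
    show 2 < r by omega]
  refine and_congr_right fun _ => and_congr_right fun _ => ?_
  omega

theorem elu_su_nd (hm : m < n)
    (hd : r ∣ Nat.card {U : Submodule F V // finrank F U = m ∧ NondegOn B U}) :
    Elu (SIsom B) r (fun W => finrank F W = m ∧ NondegOn B W) ↔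
    ((r = p ∧ 2 < p ∧ (∀ μ : Multiset ℕ, (∀ a ∈ μ, 0 < a ∧ a ≤ p) → μ.sum = n →
      ∃ ν : Multiset ℕ, ν ≤ μ ∧ ν.sum = m)) ∨ (r = p ∧ p = 2 ∧ (Odd n ∨ Even m)) ∨
     (r = 2 ∧ p ≠ 2 ∧ (Odd n ∨ Even m ∨ (padicValNat 2 n ≤ padicValNat 2 (q + 1) ∧ q % 4 = 3))) ∨
     (r ≠ p ∧ 2 < r ∧ ((i ≠ 2 ∧ c ≤ m ∧ m % c ≤ n % c) ∨
       (i = 2 ∧ (r ∣ m ∨ padicValNat r n ≤ padicValNat r (q + 1)))))) := by
  subst hn
  have := hq.finite
  have h0 : 0 < finrank F V := by omega
  have r2 := hr.out.two_le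
  rw [elu_iff_eluP]
  by_cases hp : r = p
  · subst hp
    rw [elu_su_coprime hq hH hB h0 scI_fx fun h => by
      have := Fintype.ofFinite F
      have e : (q : F) = 0 := by
        simpa [← Nat.card_eq_fintype_card, hq.card] using FiniteField.cast_card_eq_zero F
      simpa [e] using (CharP.cast_eq_zero_iff F r _).mpr h, herm_part hH hB hm.le]
    rcases r2.eq_or_lt with rfl | h
    · simpa using H18.El.part_two hm.le
    · simp [h, h.ne']
  have h3 : (r : F) ≠ 0 := natCast_ne_zero_of_coprime ((Nat.coprime_primes hr.out Fact.out).mpr hp)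
  by_cases h2 : r = 2
  · subst h2
    have h4 : (2 : F) ≠ 0 := by simpa using h3
    rw [elu_su_iff hB h0 scI_fx, and_iff_right fun y hy _ _ => by
      obtain ⟨a1, a2, a3, -, a4, -⟩ := invol_data hH.form hB h4 (sq y ▸ hy)
      obtain ⟨U, u1, u2, u3⟩ := (herm_on hH hB a1).2 _ (min_le_left _ m)
      obtain ⟨W, w1, w2, w3⟩ := (herm_on hH hB a2).2 (m - finrank F U) (by omega)
      have o := fun a ha b hb => a3 a (u1 ha) b (w1 hb)
      exact fx_of_split (sq y ▸ hy) h4 u1 w1 ⟨by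
        rw [finrank_sup_of_disjoint (disjoint_of_nondeg u2 o hH.form)]; omega,
        nondegOn_sup hH.form u2 w2 o⟩,
      nonsplit_two hq hH hB h0 h4 fun y w w1 w2 => herm_eigen_nd hH hB h4 w1 w2 hm.le]
    simp [hp, Ne.symm hp, or_left_comm]
  obtain ⟨O, e⟩ := od_herm hq hr.out h2 hp hi hb hc
  have key := O.nondeg_plain hH.form hB (par_herm hH.invol) h1 hm
    (fun W _ b a1 a2 _ => (herm_on hH hB a1).2 b a2) (fun k hk => adm_herm hH hB hk)
    (fun U W => herm_orbit hH hB) hd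
  by_cases h : r ∣ q + 1
  · obtain rfl := (dvd_add_one_iff h2 hi).mp h
    obtain rfl : c = 1 := by simpa using hc
    rw [elu_su_iff hB h0 scI_fx, and_iff_right fun y y1 y2 _ =>
      key.mpr ⟨h1, by omega⟩ y y1 fun e => y2 1 (by simp [e]),
      nonsplit_iff_odd hq hH hB h0 h2 h (nonsplit_nd hq hH hB hm.le)]
    simp [h2, hp, show 2 < r by omega]
  have h' := (dvd_add_one_iff h2 hi).not.mp h
  rw [elu_su_coprime hq hH hB h0 scI_fx h, key]
  simp [h2, h', hp, show 2 < r by omega]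

end su

end Cfsg.Agent.H10
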