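import Mathlib
import Cfsg.Agent.H10.Elus12
import Cfsg.Agent.H10.MxB

/-! Complementary pairs of totally singular subspaces. -/

namespace Cfsg.Agent.H10
open Module Polynomial H11 L0 IsHerm
universe u

theorem spO_eq (q d : ℕ) : ∃ e, spO q d = (∏ i : Fin d, (q ^ d - q ^ (i : ℕ))) *
    (q ^ e * ∏ j ∈ Finset.range d, (q ^ (j + 1) + 1)) := by
  induction d with
  | zero => exact ⟨0, by simp [spO]⟩
  | succ d ih =>
    obtain ⟨e, he⟩ := ih
    refine ⟨e + d + 1, ?_⟩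
    rw [spO] at he ⊢
    rw [Fin.prod_univ_castSucc, H18.El.gl_succ, Finset.prod_range_succ, Fin.val_last,
      show (d + 1) ^ 2 = (2 * d + 1) + d ^ 2 by ring, pow_add, mul_assoc, ← mul_assoc (q ^ d ^ 2),
      mul_comm 2 (d + 1), pow_mul, show (q ^ (d + 1)) ^ 2 - 1 = _ from Nat.sq_sub_sq _ 1]
    simp only [Fin.val_castSucc, he]
    ring

theorem uOrd_eq (q m : ℕ) : uOrd q (2 * m) = (∏ i : Fin m, ((q ^ 2) ^ m - (q ^ 2) ^ (i : ℕ))) *
    (q ^ (m * m) * ∏ j ∈ Finset.range m, (q ^ (2 * j + 1) + 1)) := by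
  induction m with
  | zero => simp [uOrd]
  | succ m ih =>
    rw [mul_add, mul_one, uOrd_succ, uOrd_succ, ih, H18.El.gl_succ, Finset.prod_range_succ,
      if_neg (by simp), if_pos (by simp), ← pow_mul q 2 (m + 1), mul_add 2 m 1]
    ring

variable {F : Type u} [Field F] {σ : F →+* F} {ε κ : F} {τ : F →+ F} {V : Type*} [AddCommGroup V]
  [Module F V] {U W U' W' Z Z' : Submodule F V} {Q : V → F} {q r : ℕ}
  {B : V →ₛₗ[σ] V →ₗ[F] F} {y : Isom B Q}

theorem eluP_iff_mat {ι : Type} [Fintype ι] [DecidableEq ι] {B : (ι → F) →ₛₗ[σ] (ι → F) →ₗ[F] F}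
    {Q : (ι → F) → F} {G : Subgroup (Isom B Q)} {H : Type*} [Monoid H] (ρ : H →* Matrix ι ι F)
    (P : H → Prop) (h1 : ∀ x, P x → ∃ y ∈ G, ∀ v, y.1 v = (ρ x).mulVec v)
    (h2 : ∀ y ∈ G, ∃ x, P x ∧ ∀ v, y.1 v = (ρ x).mulVec v) {Ψ : H → Prop} {Φ : Isom B Q → Prop}
    (h3 : ∀ x (y : Isom B Q), (∀ v, y.1 v = (ρ x).mulVec v) → (Ψ x ↔ Φ y)) :
    (∀ x, P x → (∃ z : F, ρ (x ^ r) = z • 1) → (∀ z : F, ρ x ≠ z • 1) → Ψ x) ↔ EluP G r Φ := by
  have key : ∀ x (y : Isom B Q), (∀ v, y.1 v = (ρ x).mulVec v) →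
      (((∃ z : F, ρ (x ^ r) = z • 1) → (∀ z : F, ρ x ≠ z • 1) → Ψ x) ↔
        ((∃ z : F, ∀ v, (y ^ r).1 v = z • v) → (∀ z : F, ¬ ∀ v, y.1 v = z • v) → Φ y)) :=
    fun x y e => by
      have e' : ∀ k v, (y ^ k).1 v = (ρ (x ^ k)).mulVec v := fun k => by
        induction k with
        | zero => simp
        | succ k ih =>
          intro v; rw [pow_succ, pow_succ, map_mul, ← Matrix.mulVec_mulVec, ← e, ← ih]; rfl
      simp only [matrix_eq_iff_mulVec, Matrix.smul_mulVec, Matrix.one_mulVec, e, e', Ne, h3 x y e]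
  exact ⟨fun H y hy => have ⟨x, a, b⟩ := h2 y hy; (key x y b).mp (H x a),
    fun H x hx => have ⟨y, a, b⟩ := h1 x hx; (key x y b).mpr (H y a)⟩

theorem eluP_sp {l : Type} [Fintype l] [DecidableEq l] {Ψ : End F (l ⊕ l → F) → Prop} :
    (∀ x : Matrix.symplecticGroup l F, (∃ z : F, (x ^ r).1 = z • 1) → (∀ z : F, x.1 ≠ z • 1) →
      Ψ (Matrix.toLin' x.1)) ↔
      EluP (σ := RingHom.id F) (B := spBilin l F) (Q := fun _ => 0) ⊤ r (Ψ ·.1.toLinearMap) := by
  rw [← eluP_iff_mat (G := ⊤) (Matrix.symplecticGroup l F).subtype (fun _ => True)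
    (fun x _ => ⟨spIso l F x, trivial, spIso_apply x⟩) (fun y _ => ⟨(spIso l F).symm y, trivial,
      fun v => by simpa using spIso_apply ((spIso l F).symm y) v⟩)
    (Ψ := fun x => Ψ (Matrix.toLin' x.1)) fun x y e => by
      rw [show Matrix.toLin' x.1 = y.1.toLinearMap from LinearMap.ext fun v => (e v).symm]]
  simp

/-- The matrix of an isometry. -/
noncomputable def isoGL {ι : Type} [Fintype ι] [DecidableEq ι]
    (B : (ι → F) →ₛₗ[σ] (ι → F) →ₗ[F] F) (Q : (ι → F) → F) : Isom B Q →* GL ι F :=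
  (glEquiv ι F).symm.toMonoidHom.comp (Isom B Q).subtype

theorem isoGL_apply {ι : Type} [Fintype ι] [DecidableEq ι] {B : (ι → F) →ₛₗ[σ] (ι → F) →ₗ[F] F}
    {Q : (ι → F) → F} (y : Isom B Q) (v : ι → F) : (isoGL B Q y).1.mulVec v = y.1 v := by
  rw [← glEquiv_apply]; simp [isoGL]

theorem isoGL_toLin {ι : Type} [Fintype ι] [DecidableEq ι] {B : (ι → F) →ₛₗ[σ] (ι → F) →ₗ[F] F}
    {Q : (ι → F) → F} (y : Isom B Q) : Matrix.toLin' (isoGL B Q y).1 = y.1.toLinearMap :=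
  LinearMap.ext (isoGL_apply y)

theorem eluP_gl {ι : Type} [Fintype ι] [DecidableEq ι] {B : (ι → F) →ₛₗ[σ] (ι → F) →ₗ[F] F}
    {Q : (ι → F) → F} {G : Subgroup (Isom B Q)} {K H : Subgroup (GL ι F)}
    (hK : ∀ g, g ∈ K ↔ ∃ h : glEquiv ι F g ∈ Isom B Q, ⟨_, h⟩ ∈ G) :
    H.relIndex K = (H.comap (isoGL B Q)).relIndex G ∧
    ((∀ x ∈ K, (∃ z : F, (x ^ r).1 = z • 1) → (∀ z : F, x.1 ≠ z • 1) → ∃ g ∈ K, g⁻¹ * x * g ∈ H) ↔
      EluP G r fun y => ∃ g ∈ G, g⁻¹ * y * g ∈ H.comap (isoGL B Q)) := by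
  have e : K = G.map (isoGL B Q) := Subgroup.ext fun g => (hK g).trans
    ⟨fun ⟨_, h⟩ => ⟨_, h, by simp [isoGL]⟩, by
      rintro ⟨y, hy, rfl⟩; exact ⟨by simp [isoGL], by simpa [isoGL]⟩⟩
  subst e
  refine ⟨(Subgroup.relIndex_comap _ _ _).symm, eluP_iff_mat (Units.coeHom _)
    (· ∈ G.map (isoGL B Q)) (by rintro _ ⟨y, hy, rfl⟩; exact ⟨y, hy, fun v => (isoGL_apply y v).symm⟩)
    (fun y hy => ⟨_, ⟨y, hy, rfl⟩, fun v => (isoGL_apply y v).symm⟩) fun x y e => ?_⟩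
  obtain rfl : x = isoGL B Q y := Units.ext (matrix_eq_iff_mulVec.mpr fun v =>
    (e v).symm.trans (isoGL_apply y v).symm)
  simp [Subgroup.mem_comap]

/-- A pair of totally singular subspaces splitting `Z`. -/
def PrOn (B : V →ₛₗ[σ] V →ₗ[F] F) (Q : V → F) (Z U W : Submodule F V) : Prop :=
  Disjoint U W ∧ U ⊔ W = Z ∧ TotSing B Q U ∧ TotSing B Q W

/-- `g` fixes or swaps the two subspaces. -/
def Stb (g : End F V) (U W : Submodule F V) : Prop :=
  U.map g = U ∧ W.map g = W ∨ U.map g = W ∧ W.map g = U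

/-- `y` stabilises a complementary pair of totally singular subspaces. -/
def FxP (y : Isom B Q) : Prop := ∃ U W, PrOn B Q ⊤ U W ∧ Stb y.1.toLinearMap U W

theorem PrOn.symm (h : PrOn B Q Z U W) : PrOn B Q Z W U :=
  ⟨h.1.symm, sup_comm U W ▸ h.2.1, h.2.2.2, h.2.2.1⟩

theorem PrOn.isCompl (h : PrOn B Q ⊤ U W) : IsCompl U W := ⟨h.1, codisjoint_iff.mpr h.2.1⟩

theorem PrOn.map (h : PrOn B Q ⊤ U W) (g : Isom B Q) :
    PrOn B Q ⊤ (U.map g.1.toLinearMap) (W.map g.1.toLinearMap) :=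
  ⟨Submodule.disjoint_map g.1.injective h.1, by simp [← Submodule.map_sup, h.2.1],
    h.2.2.1.map_isom g.2, h.2.2.2.map_isom g.2⟩

theorem PrOn.sup (h : IsForm ε κ τ B Q) (h1 : PrOn B Q Z U W) (h2 : PrOn B Q Z' U' W')
    (hd : Disjoint Z Z') (ho : ∀ a ∈ Z, ∀ b ∈ Z', B a b = 0) :
    PrOn B Q (Z ⊔ Z') (U ⊔ U') (W ⊔ W') := by
  obtain ⟨a1, rfl, a2, a3⟩ := h1
  obtain ⟨b1, rfl, b2, b3⟩ := h2
  refine ⟨Submodule.disjoint_def.mpr fun x hx hx' => ?_, sup_sup_sup_comm _ _ _ _,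
    totSing_sup h a2 b2 fun a ha b hb => ho a (Submodule.mem_sup_left ha) b
      (Submodule.mem_sup_left hb), totSing_sup h a3 b3 fun a ha b hb =>
      ho a (Submodule.mem_sup_right ha) b (Submodule.mem_sup_right hb)⟩
  obtain ⟨u, hu, u', hu', rfl⟩ := Submodule.mem_sup.mp hx
  obtain ⟨w, hw, w', hw', e⟩ := Submodule.mem_sup.mp hx'
  have e1 : u - w = w' - u' := by rw [sub_eq_sub_iff_add_eq_add, ← e, add_comm]
  have e2 : u - w = 0 := Submodule.disjoint_def.mp hd _ (Submodule.sub_mem_sup hu hw)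
    (e1 ▸ sup_comm W' U' ▸ Submodule.sub_mem_sup hw' hu')
  rw [e2, eq_comm, sub_eq_zero] at e1
  rw [Submodule.disjoint_def.mp a1 u hu (sub_eq_zero.mp e2 ▸ hw),
    Submodule.disjoint_def.mp b1 u' hu' (e1 ▸ hw'), add_zero]

variable [FiniteDimensional F V]

theorem PrOn.finrank (h : IsForm ε κ τ B Q) (hB : B.SeparatingLeft) (h1 : PrOn B Q ⊤ U W) :
    2 * finrank F U = finrank F V ∧ 2 * finrank F W = finrank F V := by
  have := Submodule.finrank_add_eq_of_isCompl h1.isCompl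
  have := h.two_mul_finrank_le hB h1.2.2.1
  have := h.two_mul_finrank_le hB h1.2.2.2
  omega

theorem exists_prOn (h : IsForm ε κ τ B Q) (hZ : NondegOn B Z) {k : ℕ} (hk : finrank F Z = 2 * k)
    (hν : WittIdx (pull B Z.subtype) (fun x => Q x) k) : ∃ U W, PrOn B Q Z U W := by
  obtain ⟨e, f, hs, -⟩ := (h.restrict Z).exists_witt_decomp (nondegOn_iff.mp hZ) hν
  have hs' : HypSys B Q (fun i => (e i).1) fun i => (f i).1 := ⟨hs.1, hs.2, hs.3, hs.4, hs.5⟩
  have h1 := (linearIndependent_sum.mp (hs'.linearIndependent h)).2.2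
  refine ⟨_, _, h1, Submodule.eq_of_le_of_finrank_eq (sup_le (Submodule.span_le.mpr ?_)
    (Submodule.span_le.mpr ?_)) ?_, hs'.totSing_e h, hs'.totSing_f h⟩
  · rintro _ ⟨i, rfl⟩; exact (e i).2
  · rintro _ ⟨i, rfl⟩; exact (f i).2
  · rw [finrank_sup_of_disjoint h1, hk]
    exact (congrArg₂ (· + ·) (finrank_span_eq_card (hs'.linearIndependent_e h))
      (finrank_span_eq_card (hs'.linearIndependent_f h))).trans (by simp [two_mul])

theorem PrOn.eq_zero (hB : B.SeparatingLeft) (h : IsForm ε κ τ B Q) (h1 : PrOn B Q ⊤ U W) {w : V}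
    (hw : w ∈ W) (h0 : ∀ u ∈ U, B u w = 0) : w = 0 := h.separatingRight hB fun x => by
  obtain ⟨a, ha, b, hb, rfl⟩ := Submodule.mem_sup.mp (h1.2.1 ▸ Submodule.mem_top (x := x))
  simp [h0 a ha, h1.2.2.2.2 b hb w hw]

theorem pair_ext (h : IsForm ε κ τ B Q) (hB : B.SeparatingLeft) (h1 : PrOn B Q ⊤ U W)
    (h2 : PrOn B Q ⊤ U' W') (a : U ≃ₗ[F] U') :
    ∃ g : Isom B Q, (∀ x : U, g.1 x = a x) ∧ W.map g.1.toLinearMap = W' := by
  have key : ∀ {U W : Submodule F V}, PrOn B Q ⊤ U W → ∀ e : Basis (Fin (finrank F V / 2)) F U,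
      ∃ T : W ≃ₗ[F] (Fin (finrank F V / 2) → F), ∀ w i, T w i = B (e i) w := fun {U W} h1 e => by
    have := h1.finrank h hB
    refine ⟨LinearMap.linearEquivOfInjective (LinearMap.pi fun i => B (e i) ∘ₗ W.subtype)
      ((injective_iff_map_eq_zero _).mpr fun w hw => Subtype.ext (h1.eq_zero hB h w.2 fun u hu => ?_))
      (by simp; omega), fun _ _ => rfl⟩
    exact LinearMap.congr_fun (e.ext (f₁ := B.flip w.1 ∘ₛₗ U.subtype) (f₂ := 0) fun i =>
      congrFun hw i) ⟨u, hu⟩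
  have := h1.finrank h hB
  let e := finBasisOfFinrankEq F U (n := finrank F V / 2) (by omega)
  obtain ⟨T, hT⟩ := key h1 e
  obtain ⟨T', hT'⟩ := key h2 (e.map a)
  have h3 : ∀ (u : U) (w : W), B (a u) (T'.symm (T w)) = B u w := fun u w =>
    LinearMap.congr_fun (e.ext (f₁ := (B.flip (T'.symm (T w)).1).comp (U'.subtype ∘ₗ a.toLinearMap))
      (f₂ := (B.flip w.1).comp U.subtype) fun i => by simpa [hT] using (hT' (T'.symm (T w)) i).symm) u
  have h4 : ∀ x, ∃ (u : U) (w : W), x = u.1 + w.1 := fun x => by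
    obtain ⟨a, ha, b, hb, rfl⟩ := Submodule.mem_sup.mp (h1.2.1 ▸ Submodule.mem_top (x := x))
    exact ⟨⟨a, ha⟩, ⟨b, hb⟩, rfl⟩
  have h5 := H18.El.glue_left h1.isCompl h2.isCompl a (T.trans T'.symm)
  have h6 := H18.El.glue_right h1.isCompl h2.isCompl a (T.trans T'.symm)
  refine ⟨⟨_, fun x x' => ?_, fun x => ?_⟩, h5, H18.El.map_eq_of h6⟩
  · obtain ⟨u, w, rfl⟩ := h4 x
    obtain ⟨u', w', rfl⟩ := h4 x'
    simp [h5, h6, h3, h.flip_eq (h3 u' w), h1.2.2.1.2 u u.2 u' u'.2, h1.2.2.2.2 w w.2 w' w'.2,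
      h2.2.2.1.2 _ (a u).2 _ (a u').2, h2.2.2.2.2 _ (T'.symm _).2 _ (T'.symm _).2]
  · obtain ⟨u, w, rfl⟩ := h4 x
    simp [h5, h6, h.add, h3, h1.2.2.1.1 u u.2, h1.2.2.2.1 w w.2, h2.2.2.1.1 _ (a u).2,
      h2.2.2.2.1 _ (T'.symm _).2]

theorem pair_trans (h : IsForm ε κ τ B Q) (hB : B.SeparatingLeft) (h1 : PrOn B Q ⊤ U W)
    (h2 : PrOn B Q ⊤ U' W') :
    ∃ g : Isom B Q, U.map g.1.toLinearMap = U' ∧ W.map g.1.toLinearMap = W' := by
  have := h1.finrank h hB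
  have := h2.finrank h hB
  obtain ⟨g, g1, g2⟩ := pair_ext h hB h1 h2 (LinearEquiv.ofFinrankEq _ _ (by omega))
  exact ⟨g, H18.El.map_eq_of g1, g2⟩

theorem card_pairStab (h : IsForm ε κ τ B Q) (hB : B.SeparatingLeft) (h1 : PrOn B Q ⊤ U W) :
    Nat.card ↥(stabSub B Q U ⊓ stabSub B Q W) = Nat.card (U ≃ₗ[F] U) := by
  refine Nat.card_eq_of_bijective ((stabRestrict B Q U).comp (Subgroup.inclusion inf_le_left))
    ⟨(injective_iff_map_eq_one _).mpr fun g hg => ?_, fun a => ?_⟩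
  · have e1 : ∀ u ∈ U, g.1.1 u = u := fun u hu => congrArg (fun k : U ≃ₗ[F] U => (k ⟨u, hu⟩).1) hg
    refine Subtype.ext (Subtype.ext (LinearEquiv.ext (H18.El.ext_compl (a := g.1.1.toLinearMap)
      (b := LinearMap.id) h1.isCompl e1 fun w hw => sub_eq_zero.mp (h1.eq_zero hB h
        (W.sub_mem ((mem_stabSub_iff.mp g.2.2 w).mp hw) hw) fun u hu => ?_))))
    simpa [e1 u hu, sub_eq_zero] using g.1.2.1 u w
  · obtain ⟨g, g1, g2⟩ := pair_ext h hB h1 h1 a
    exact ⟨⟨g, H18.El.map_eq_of g1, g2⟩, LinearEquiv.ext fun x => Subtype.ext (g1 x)⟩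

theorem card_pairs (h : IsForm ε κ τ B Q) (hB : B.SeparatingLeft) (h1 : PrOn B Q ⊤ U W) :
    Nat.card (Isom B Q) = Nat.card {P : Submodule F V × Submodule F V // PrOn B Q ⊤ P.1 P.2} *
      Nat.card (U ≃ₗ[F] U) := by
  rw [← card_pairStab h hB h1]
  refine card_eq_mul_of_fibers _ (fun g => ⟨(_, _), h1.map g⟩) (fun a b => ?_) fun P => ?_
  · have : ∀ X : Submodule F V, X.map a.1.toLinearMap = X.map b.1.toLinearMap ↔
        a⁻¹ * b ∈ stabSub B Q X := fun X => by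
      rw [mem_stabSub, map_mul_isom]
      constructor
      · intro e; rw [← e, ← map_mul_isom, inv_mul_cancel]; exact X.map_id
      · intro e; conv_lhs => rw [← e, ← map_mul_isom, ← map_mul_isom, mul_inv_cancel, one_mul]
    exact Subtype.ext_iff.trans (Prod.ext_iff.trans (and_congr (this U) (this W)))
  · obtain ⟨g, g1, g2⟩ := pair_trans h hB h1 P.2
    exact ⟨g, Subtype.ext (Prod.ext g1 g2)⟩

theorem map_eq_of_inv {g : V ≃ₗ[F] V} (h : ∀ x ∈ U, g x ∈ W) (he : finrank F U = finrank F W) :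
    U.map g.toLinearMap = W :=
  Submodule.eq_of_le_of_finrank_eq (by rintro _ ⟨x, hx, rfl⟩; exact h x hx)
    ((LinearEquiv.finrank_map_eq _ _).trans he)

theorem scI_fxP : ScI fun y : Isom B Q => FxP y := by
  rintro y y' c ⟨U, W, h1, h2⟩ hc
  have : ∀ X Y : Submodule F V, X.map y'.1.toLinearMap = Y → X.map y.1.toLinearMap = Y :=
    fun X Y e => map_eq_of_inv (fun x hx => hc x ▸ Y.smul_mem c (e ▸ ⟨x, hx, rfl⟩))
      (e ▸ (LinearEquiv.finrank_map_eq _ _).symm)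
  exact ⟨U, W, h1, h2.imp (.imp (this _ _) (this _ _)) (.imp (this _ _) (this _ _))⟩

theorem fxP_of_split (h : IsForm ε κ τ B Q) (hB : B.SeparatingLeft) (h2 : (2 : F) ≠ 0)
    (hy : y * y = 1) (h3 : ∃ U W, PrOn B Q (movS y.1) U W)
    (h4 : ∃ U W, PrOn B Q (H11.fixS y.1) U W) : FxP y := by
  obtain ⟨U, W, h3⟩ := h3
  obtain ⟨U', W', h4⟩ := h4
  obtain ⟨-, -, a1, a2, -⟩ := invol_data h hB h2 hy
  have key : ∀ X ≤ movS y.1, ∀ Y ≤ H11.fixS y.1, (X ⊔ Y).map y.1.toLinearMap = X ⊔ Y :=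
    fun X hX Y hY => by
      obtain ⟨_, rfl, b⟩ := fx_of_split (Ω := (· = X ⊔ Y)) hy h2 hX hY rfl
      exact map_eq_of_inv b rfl
  exact ⟨_, _, a2 ▸ h3.sup h h4 (invol_disjoint hy h2) a1,
    .inl ⟨key _ (h3.2.1 ▸ le_sup_left) _ (h4.2.1 ▸ le_sup_left),
      key _ (h3.2.1 ▸ le_sup_right) _ (h4.2.1 ▸ le_sup_right)⟩⟩

theorem FxP.fx (h : IsForm ε κ τ B Q) (hB : B.SeparatingLeft) (hr : Odd r) {z : F}
    (hy : ∀ v, (y ^ r).1 v = z • v) (H : FxP y) {m : ℕ} (hm : finrank F V = 2 * m) :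
    Fx y fun W => finrank F W = m ∧ TotSing B Q W := by
  obtain ⟨U, W, h1, h2⟩ := H
  have := h1.finrank h hB
  refine ⟨U, ⟨by omega, h1.2.2.1⟩, fun x hx => h2.elim (fun e => e.1 ▸ ⟨x, hx, rfl⟩) fun e => ?_⟩
  obtain ⟨k, rfl⟩ := hr
  have h3 : y ^ 2 ∈ stabSub B Q U := by rw [mem_stabSub, sq, map_mul_isom, e.1, e.2]
  have h4 : y ^ (2 * k + 1) ∈ stabSub B Q U :=
    mem_stabSub_of_le fun x hx => hy x ▸ U.smul_mem z hx
  rw [pow_succ, pow_mul, mul_mem_cancel_left (pow_mem h3 k)] at h4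
  exact (mem_stabSub_iff.mp h4 x).mp hx

theorem not_fxP_rank_one (h : IsForm ε κ τ B Q) (hB : B.SeparatingLeft)
    (h1 : finrank F (movS y.1) = 1) (h4 : 4 ≤ finrank F V) : ¬ FxP y := by
  rintro ⟨U, W, a1, a2⟩
  have a3 := a1.finrank h hB
  have key : ∀ {U W : Submodule F V}, PrOn B Q ⊤ U W → U.map y.1.toLinearMap = U →
      movS y.1 ≤ U := fun {U W} a1 e => by
    have a3 := a1.finrank h hB
    by_cases c : ∀ u ∈ U, y.1 u = u
    · rw [← h.perp_fixS hB y.2, Submodule.eq_of_le_of_finrank_eq a1.2.2.1.le_perp (by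
        have := h.finrank_perp hB U; omega)]
      exact perp_anti fun u hu => H11.mem_fixS.mpr (c u hu)
    push Not at c
    obtain ⟨u, u1, u2⟩ := c
    have : movS y.1 ⊓ U ≠ ⊥ := (Submodule.ne_bot_iff _).mpr ⟨y.1 u - u, ⟨⟨u, rfl⟩,
      U.sub_mem (e ▸ ⟨u, u1, rfl⟩) u1⟩, sub_ne_zero.mpr u2⟩
    exact inf_eq_left.mp (Submodule.eq_of_le_of_finrank_le inf_le_left (by
      have := Submodule.finrank_eq_zero.not.mpr this; omega))
  rcases a2 with e | e
  · rw [a1.1 (key a1 e.1) (key a1.symm e.2) |> le_bot_iff.mp, finrank_bot] at h1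
    omega
  · have : finrank F U ≤ finrank F (movS y.1) := LinearMap.finrank_le_finrank_of_injective
      (f := ((y.1.toLinearMap - LinearMap.id) ∘ₗ U.subtype).codRestrict _ fun x => ⟨x, rfl⟩)
      ((injective_iff_map_eq_zero _).mpr fun x hx => Subtype.ext (Submodule.disjoint_def.mp a1.1 _
        x.2 (by
          have : y.1 x = x := sub_eq_zero.mp (congrArg Subtype.val hx)
          exact this ▸ e.1 ▸ ⟨x, x.2, rfl⟩)))
    omega

theorem OD.not_all_fx [Finite F] {d t : ℕ} (O : OD σ r d d t) (h : IsForm ε κ τ B Q)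
    (hB : B.SeparatingLeft) (P : Par σ ε κ τ) {m : ℕ} (hm : finrank F V = 2 * m) (hd : d ≤ 2 * m)
    (H1 : ∀ y : Isom B Q, y ^ r = 1 →
      WittIdx (pull B (H11.fixS y.1).subtype) (fun x => Q x) (finrank F (H11.fixS y.1) / 2))
    (H2 : ∀ k, k * d ≤ finrank F V → OD.Adm ε κ τ B Q r (k * d)) :
    ¬ ∀ y : Isom B Q, y ^ r = 1 → y ≠ 1 → Fx y fun W => finrank F W = m ∧ TotSing B Q W := by
  simp only [Fx, and_assoc]
  rw [O.totSing_iff h hB P (ν := fun k => (finrank F V - k * d) / 2) (fun y k a b => by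
    have := finrank_movS_add y.1
    exact ⟨by omega, by rw [← b, ← this, add_tsub_cancel_left]; exact H1 y a⟩) H2]
  intro H
  obtain ⟨j, h1, b, h2, h3⟩ := H 1 one_pos (by omega)
  have := O.pos
  obtain rfl : j = 0 := by simp only [JJ, if_true] at h1; omega
  omega

section alt
variable {B : LinearMap.BilinForm F V} {y : Isom (σ := RingHom.id F) B fun _ => 0} (hA : B.IsAlt)
  (hB : B.SeparatingLeft) [Nontrivial V]
include hA hB

theorem fxP_alt_two (h2 : (2 : F) ≠ 0) {z : F} (hz : ∀ v, (y ^ 2).1 v = z • v) : FxP y := by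
  have h := isForm_alt hA
  have e : ∀ Z, NondegOn (σ := RingHom.id F) B Z → ∃ U W, PrOn (σ := RingHom.id F) B (fun _ => 0) Z U W :=
    fun Z a => exists_prOn h a (Nat.two_mul_div_two_of_even (alt_on hA a).1).symm (alt_on hA a).2.1
  rcases mul_self_eq_one_iff.mp (norm_of_scalar hB hz) with rfl | rfl
  · have hy : y * y = 1 := Subtype.ext (LinearEquiv.ext (by simpa [sq] using hz))
    obtain ⟨a1, a2, -⟩ := invol_data h hB h2 hy
    exact fxP_of_split h hB h2 hy (e _ a1) (e _ a2)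
  have hy : ∀ v, y.1 (y.1 v) = -v := by simpa [sq] using hz
  obtain ⟨U, W, a1, a2⟩ := inv_induction h hB (b := fun P => finrank F P = 2 ∧
    ∃ v, P = Submodule.span F {v, y.1 v}) (p := fun Z => ∃ U W,
    PrOn (σ := RingHom.id F) B (fun _ => 0) Z U W ∧ U.map y.1.toLinearMap = W ∧
      W.map y.1.toLinearMap = U) (fun W a b c => by
      obtain ⟨P, p1, p2, p3, p4, p5⟩ := cx_alt_hb hA h2 hy W a b c
      exact ⟨P, p1, by rintro rfl; simp at p4, p2, p3, p4, p5⟩)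
    ⟨⊥, ⊥, ⟨by simp, by simp, h.totSing_bot, h.totSing_bot⟩, by simp⟩
    (fun P Z ⟨p1, v, p2⟩ p3 _ _ _ o ⟨U, W, a1, a2, a3⟩ => by
      have t : ∀ v : V, TotSing (σ := RingHom.id F) B (fun _ => 0) (Submodule.span F {v}) :=
        fun v => h.totSing_span (by simp) (by simpa using hA v)
      have f : ∀ v : V, finrank F (Submodule.span F {v}) ≤ 1 :=
        fun v => (finrank_span_le_card {v}).trans (by simp)
      rw [Submodule.span_insert] at p2
      have := Submodule.finrank_sup_add_finrank_inf_eq (Submodule.span F {v})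
        (Submodule.span F {y.1 v})
      refine ⟨_, _, PrOn.sup h ⟨disjoint_iff.mpr (Submodule.finrank_eq_zero.mp (by
        have := f v; have := f (y.1 v); rw [← p2] at *; omega)), p2.symm, t _, t _⟩ a1
        (disjoint_of_nondeg p3 o h) o, ?_, ?_⟩
      · simp [Submodule.map_sup, a2, Submodule.map_span]
      · simp [Submodule.map_sup, a3, Submodule.map_span, hy, ← Set.neg_singleton])
    (nondegOn_top hB) (by simp)
  exact ⟨U, W, a1, .inr a2⟩

theorem not_eluP_alt_pair [Finite F] {p d : ℕ} [Fact p.Prime] [CharP F p] [hr : Fact r.Prime]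
    (h2 : r ≠ 2) (hp : r ≠ p) (hn : finrank F V = 2 * d) (ho : Odd (Nat.card F))
    (hd : r ∣ Nat.card {P : Submodule F V × Submodule F V //
      PrOn (σ := RingHom.id F) B (fun _ => 0) ⊤ P.1 P.2} / 2) :
    ¬ EluP (σ := RingHom.id F) (B := B) (Q := fun _ => 0) ⊤ r FxP := fun H => by
  have h := isForm_alt hA
  have h0 : 0 < d := by have := finrank_pos (R := F) (M := V); omega
  have a0 := alt_on hA (nondegOn_top hB)
  obtain ⟨U, W, a1⟩ := exists_prOn h (nondegOn_top hB) (Nat.two_mul_div_two_of_even a0.1).symm a0.2.1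
  have a2 := card_pairs h hB a1
  have a3 := a1.finrank h hB
  obtain ⟨e, he⟩ := spO_eq (Nat.card F) d
  have a4 := card_linearEquiv (F := F) (V := U) (k := d) (by omega)
  rw [card_isom_spO hB hA hn, he, ← a4, mul_comm, Nat.mul_left_inj Nat.card_pos.ne'] at a2
  rw [← a2] at hd
  have a5 := hd.trans (Nat.div_dvd_of_dvd (Dvd.dvd.mul_left (Dvd.dvd.trans (by
    simpa using ho.add_one.two_dvd) (Finset.dvd_prod_of_mem _ (Finset.mem_range.mpr h0))) _))
  have O := od_id (F := F) hr.out h2 hp rfl rfl rfl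
  obtain ⟨j, j1, j2⟩ := (Prime.dvd_finsetProd_iff hr.out.prime _).mp
    (((Nat.Prime.dvd_mul hr.out).mp a5).resolve_left fun a =>
      H18.El.not_dvd_card hr.out O.ne (hr.out.dvd_of_dvd_pow a))
  rw [← ZMod.natCast_eq_zero_iff, Nat.cast_succ, add_eq_zero_iff_eq_neg, Nat.cast_pow] at j2
  rw [if_pos ((exists_pow_eq_neg_one_iff h2 O.pos.1).1.mp ⟨_, j2⟩)] at O
  have a6 := Nat.le_of_dvd (by omega) (orderOf_dvd_of_pow_eq_one (n := (j + 1) * 2)
    (x := ((Nat.card F : ℕ) : ZMod r)) (by rw [pow_mul, j2]; simp))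
  have := Finset.mem_range.mp j1
  refine O.not_all_fx h hB par_alt hn (by omega) (fun y hy => (alt_on hA
    (nondegOn_fixS h hB y.2 (isom_disjoint hy O.ne))).2.1) (fun k hk => adm_alt hA hB hk) ?_
  have ho := hr.out.odd_of_ne_two h2
  exact (elu_odd hB ho (by simp)).mp fun y a ⟨z, hz⟩ c => (H y a ⟨z, hz⟩ c).fx h hB ho hz hn

end alt

section su
variable (hq : QConj σ q) (hH : IsHerm B) (hB : B.SeparatingLeft) {y : UIsom B}
include hq

omit [FiniteDimensional F V] in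
theorem qconj_char_dvd (p : ℕ) [CharP F p] : p ∣ q := by
  have := hq.finite
  have := Fintype.ofFinite F
  exact (CharP.cast_eq_zero_iff F p q).mp (by
    simpa [← Nat.card_eq_fintype_card, hq.card] using FiniteField.cast_card_eq_zero F)

include hH hB

theorem fxP_iff_conj (h1 : PrOn B (fun x => B x x) ⊤ U W) (h0 : 0 < finrank F V) :
    FxP y ↔ ∃ g ∈ SIsom B, Stb (g⁻¹ * y * g).1.toLinearMap U W := by
  have key : ∀ (g : UIsom B) (X Y : Submodule F V), X.map (g⁻¹ * y * g).1.toLinearMap = Y ↔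
      (X.map g.1.toLinearMap).map y.1.toLinearMap = Y.map g.1.toLinearMap := fun g X Y => by
    rw [← (Submodule.map_injective_of_injective (f := g.1.toLinearMap) g.1.injective).eq_iff,
      ← map_mul_isom, ← map_mul_isom, mul_assoc, mul_inv_cancel_left]
  refine ⟨fun ⟨U', W', a1, a2⟩ => ?_,
    fun ⟨g, _, a⟩ => ⟨_, _, h1.map g, by simpa only [Stb, key] using a⟩⟩
  obtain ⟨g, rfl, rfl⟩ := pair_trans hH.form hB h1 a1
  have := h1.finrank hH.form hB
  obtain ⟨u, u1, u2⟩ := Submodule.exists_mem_ne_zero_of_ne_bot (p := U) (by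
    rintro rfl; simp at this; omega)
  obtain ⟨f, f1, f2⟩ : ∃ f ∈ W, B u f = 1 := by
    by_contra! c
    refine u2 (h1.symm.eq_zero hB hH.form u1 fun w hw => hH.refl (by_contra fun e => ?_))
    exact c _ (W.smul_mem (B u w)⁻¹ hw) (by simp [e])
  obtain ⟨a, a3, a4⟩ := exists_div_conj hH.ne hH.invol (inv_mem (det_mem hq hH hB h0 g))
  let k := hH.dil (h1.2.2.1.1 u u1) (h1.2.2.2.1 f f1) f2 a3
  have k1 : U.map k.1.toLinearMap = U := map_eq_of_inv (fun x hx => by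
    simpa [k, dil_apply, h1.2.2.1.2 u u1 x hx] using U.add_mem hx (U.smul_mem _ u1)) rfl
  have k2 : W.map k.1.toLinearMap = W := map_eq_of_inv (fun x hx => by
    simpa [k, dil_apply, h1.2.2.2.2 f f1 x hx] using W.add_mem hx (W.smul_mem _ f1)) rfl
  refine ⟨g * k, MonoidHom.mem_ker.mpr (Units.ext ?_), by
    simp only [Stb, key]; simpa only [Stb, map_mul_isom, k1, k2] using a2⟩
  rw [map_mul, Units.val_mul, detI_coe k, det_dil, mul_inv_eq_iff_eq_mul₀ (by simpa) |>.mpr a4.symm]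
  simp

theorem eluP_su_pair {p m : ℕ} [Fact p.Prime] [CharP F p] [hr : Fact r.Prime]
    (hn : finrank F V = 2 * m) (hm : 2 ≤ m) (h1 : PrOn B (fun x => B x x) ⊤ U W)
    {H : Subgroup (UIsom B)} (hle : stabSub B _ U ⊓ stabSub B _ W ≤ H)
    (hd : r ∣ H.relIndex (SIsom B)) : EluP (SIsom B) r FxP ↔
      r = 2 ∧ Odd q ∧ padicValNat 2 (q + 1) ≤ padicValNat 2 (2 * m) := by
  have := hq.finite
  have h0 : 0 < finrank F V := by omega
  have hp := qconj_char_dvd hq p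
  by_cases e : r = p
  · subst e
    refine iff_of_false (fun E => ?_) (by rintro ⟨rfl, a, -⟩; exact a.not_two_dvd_nat hp)
    obtain ⟨u, f, a1, -, a2⟩ := hH.exists_pair hB (by omega)
    obtain ⟨c, c1, c2⟩ := exists_trace_zero hH.ne hH.invol
    have a3 : ∀ (k : ℕ) v, (hH.trv a1 c2 ^ k).1 v = v - (k * c * B u v) • u := fun k => by
      induction k with
      | zero => simp
      | succ k ih =>
        intro v
        rw [pow_succ, Subgroup.coe_mul, LinearEquiv.mul_apply, ih, trv_apply]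
        simp [a1, add_mul, add_smul, sub_sub, add_comm]
    have a4 : u ≠ 0 := by rintro rfl; simp at a2
    have a5 : movS (hH.trv a1 c2).1 = Submodule.span F {u} := le_antisymm
      (by rintro _ ⟨x, rfl⟩; simpa [trv_apply] using Submodule.smul_mem _ _ (Submodule.mem_span_singleton_self u))
      ((Submodule.span_singleton_le_iff_mem _ _).mpr ⟨-c⁻¹ • f, by simp [trv_apply, a2, c1]⟩)
    refine not_fxP_rank_one hH.form hB (by rw [a5, finrank_span_singleton a4]) (by omega)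
      ((elu_su_coprime hq hH hB h0 scI_fxP fun a => hr.out.one_lt.ne' (Nat.dvd_one.mp
        ((Nat.dvd_add_right hp).mp a))).mp E _ (Subtype.ext (LinearEquiv.ext fun v => by rw [a3]; simp))
        fun e => a4 ?_)
    simpa [e, a2, c1, eq_comm (a := f)] using a3 1 f
  have h3 : (r : F) ≠ 0 := natCast_ne_zero_of_coprime ((Nat.coprime_primes hr.out Fact.out).mpr e)
  by_cases h2 : r = 2
  · subst h2
    have h4 : (2 : F) ≠ 0 := by simpa using h3
    have key : ∀ Z, NondegOn B Z → Even (finrank F Z) → ∃ U W, PrOn B (fun x => B x x) Z U W :=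
      fun Z a b => exists_prOn hH.form a (Nat.two_mul_div_two_of_even b).symm (herm_on hH hB a).1
    obtain ⟨a1, a2⟩ := split_two hq hH hB h0 (Φ := FxP) h4 (by omega) fun y hy b => by
      obtain ⟨b1, b2, -, -, b3, -⟩ := invol_data hH.form hB h4 hy
      exact fxP_of_split hH.form hB h4 hy (key _ b1 b) (key _ b2 (by
        rw [Nat.even_iff] at b ⊢; omega))
    rw [elu_su_iff hB h0 scI_fxP, and_iff_left fun y _ z z1 z2 => by
      obtain ⟨w, w1, w2⟩ := exists_sqrt_nonsq hq h4 z1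
      obtain ⟨S, T, s1, t1, c1, -, c3, c4⟩ := herm_eigen hH hB h4 w1 (fun v => by
        simpa [sq, w2, scalU_apply] using congrArg (fun g : UIsom B => g.1 v) z2)
      exact ⟨S, T, ⟨c1.disjoint, c1.sup_eq_top, s1, t1⟩, .inl
        ⟨map_eq_of_inv (fun x hx => (c3 x).mp hx ▸ S.smul_mem _ hx) rfl,
          map_eq_of_inv (fun x hx => (c4 x).mp hx ▸ T.smul_mem _ hx) rfl⟩⟩,
      and_iff_right rfl, and_iff_right (Nat.odd_iff.mpr (neg_one_facts hq h4).1), ← hn]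
    exact ⟨fun H => (a2 H).resolve_right fun ⟨y, _, y2, y3⟩ =>
      not_fxP_rank_one hH.form hB y2 (by omega) y3, a1⟩
  refine iff_of_false (fun E => ?_) fun a => h2 a.1
  have a3 := h1.finrank hH.form hB
  have a1 := (stabSub B _ U ⊓ stabSub B (fun x => B x x) W).index_mul_card
  have a2 := hH.card_totSing_mul hq hB hn le_rfl
  have a4 := card_linearEquiv (F := F) (V := U) (k := m) (by omega)
  rw [card_pairStab hH.form hB h1, hH.card_uisom hq hB hn, ← a2, a4, hq.card, Nat.sub_self, uOrd,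
    Finset.prod_range_zero, Nat.zero_div, pow_zero, mul_one, mul_one, ← mul_assoc,
    Nat.mul_left_inj (by rw [← hq.card, ← a4]; exact Nat.card_pos.ne')] at a1
  have a5 := ((Nat.Prime.dvd_mul hr.out).mp (a1 ▸ (hd.trans (H18.El.rel_dvd _ _)).trans
    (Subgroup.index_dvd_of_le hle))).resolve_right fun a => H18.El.not_dvd_card hr.out h3
      (hq.card ▸ (hr.out.dvd_of_dvd_pow a).trans (dvd_pow_self _ two_ne_zero))
  rw [uOrd_eq, Nat.sub_self, show 2 * (2 * m) - 3 * m = m by omega, uOrd, Finset.prod_range_zero,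
    Nat.zero_div, pow_zero, mul_one, mul_one, ← mul_assoc (∏ _ : Fin m, _),
    mul_comm (∏ _ : Fin m, _), mul_comm, Nat.mul_right_inj (Nat.mul_pos (pow_pos (by have := hq.two_le; omega) _) (by
      rw [← hq.card, ← a4]; exact Nat.card_pos)).ne'] at a2
  obtain ⟨j, -, j2⟩ := (Prime.dvd_finsetProd_iff hr.out.prime _).mp (a2 ▸ a5)
  rw [← ZMod.natCast_eq_zero_iff, Nat.cast_succ, add_eq_zero_iff_eq_neg, Nat.cast_pow] at j2
  have ho := hr.out.odd_of_ne_two h2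
  have b1 := (elu_su_ts hq hH hB hn (by omega) rfl rfl rfl le_rfl a5).mp
    fun y a ⟨z, hz⟩ c => (E y a ⟨z, hz⟩ c).fx hH.form hB ho hz hn
  have b0 : (q : ZMod r) ≠ 0 := by rintro a; simp [a] at j2
  have b2 := ZMod.orderOf_dvd_card_sub_one b0
  have b3 : 0 < orderOf (q : ZMod r) := Nat.pos_of_dvd_of_pos b2 (by have := hr.out.two_le; omega)
  have b4 := (exists_pow_eq_neg_one_iff h2 b3).2.mp ⟨j, j2⟩
  obtain ⟨k, hk⟩ : ∃ k, orderOf (q : ZMod r) = 2 * k := ⟨orderOf (q : ZMod r) / 2, by omega⟩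
  rw [hk] at b1 b2 b3 b4
  simp only [h2, false_and, false_or, even_two_mul, if_true, b4, ne_eq, not_true,
    Nat.mul_div_cancel_left _ two_pos] at b1
  have b5 := b1.2.2.2.2.2.1
  have b6 := (Nat.le_div_iff_mul_le (by omega : 0 < k)).mpr
    (Nat.le_of_dvd (by have := hr.out.two_le; omega) b2)
  have b7 : 2 * m / k < 2 * (m / k + 1) := (Nat.div_lt_iff_lt_mul (by omega)).mpr (by
    have := Nat.lt_div_mul_add (a := m) (by omega : 0 < k); nlinarith)
  omega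

end su

end Cfsg.Agent.H10
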