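import Mathlib
import Cfsg.Agent.H10.Elus13

/-! Orthogonal decompositions stabilised by elements of prime order. -/

namespace Cfsg.Agent.H10
open Module Polynomial H11 L0
universe u v

theorem factorial_dvd_of {α : Type*} {t : ℕ} {P : (Fin t → α) → Prop}
    (h1 : ∀ D (s : Equiv.Perm (Fin t)), P D → P (D ∘ s)) (h2 : ∀ D, P D → Function.Injective D) :
    t.factorial ∣ Nat.card {D // P D} := by
  let _ : MulAction (Equiv.Perm (Fin t)) {D // P D} :=
    { smul s D := ⟨D.1 ∘ s.symm, h1 _ _ D.2⟩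
      one_smul _ := rfl
      mul_smul _ _ _ := rfl }
  rw [Nat.card_congr (MulAction.selfEquivOrbitsQuotientProd (G := Equiv.Perm (Fin t)) fun D => ?_),
    Nat.card_prod, Nat.card_perm, Nat.card_fin]
  · exact Dvd.intro_left _ rfl
  exact eq_bot_iff.mpr fun s hs => Equiv.ext fun i => h2 _ D.2
    ((congrFun (congrArg Subtype.val hs) (s i)).symm.trans (congrArg D.1 (s.symm_apply_apply i)))

variable {F : Type u} [Field F] {σ : F →+* F} {ε κ : F} {τ : F →+ F} {V : Type v} [AddCommGroup V]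
  [Module F V] {U W : Submodule F V} {Q : V → F} {a t r : ℕ} {B : V →ₛₗ[σ] V →ₗ[F] F}
  {y : Isom B Q}

/-- An orthogonal decomposition into non-degenerate subspaces of dimension `a`. -/
def ODec {ι : Type} (B : V →ₛₗ[σ] V →ₗ[F] F) (a : ℕ) (D : ι → Submodule F V) : Prop :=
  (∀ j, finrank F (D j) = a ∧ NondegOn B (D j)) ∧
    (∀ i j, i ≠ j → ∀ u ∈ D i, ∀ v ∈ D j, B u v = 0) ∧ iSup D = ⊤

/-- `g` permutes the members of an orthogonal decomposition. -/
def POd (B : V →ₛₗ[σ] V →ₗ[F] F) (a : ℕ) (g : End F V) (t : ℕ) : Prop :=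
  ∃ (ι : Type) (_ : Finite ι) (D : ι → Submodule F V) (s : Equiv.Perm ι), Nat.card ι = t ∧
    ODec B a D ∧ ∀ j, (D j).map g = D (s j)

theorem ODec.comp {ι ι' : Type} {D : ι → Submodule F V} (h : ODec B a D) (e : ι' ≃ ι) :
    ODec B a (D ∘ e) :=
  ⟨fun _ => h.1 _, fun _ _ c => h.2.1 _ _ (e.injective.ne c), (e.iSup_comp (g := D)).trans h.2.2⟩

theorem ODec.indep {ι : Type} {D : ι → Submodule F V} (H : ODec B a D) : iSupIndep D := fun i =>
  Submodule.disjoint_def.mpr fun x hx hx' => (H.1 i).2 x hx fun y hy => by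
    have : (⨆ j, ⨆ (_ : j ≠ i), D j) ≤ LinearMap.ker (B.flip y) :=
      iSup₂_le fun j c z hz => H.2.1 j i c z hz y hy
    exact this hx'

theorem ODec.inj {ι : Type} {D : ι → Submodule F V} (H : ODec B a D) (ha : 0 < a) :
    Function.Injective D := H.indep.injective fun i e => by
  have := (H.1 i).1
  rw [e, finrank_bot] at this; omega

theorem po_iff {g : End F V} : POd B a g t ↔ ∃ D : Fin t → Submodule F V, ODec B a D ∧
    ∃ s : Equiv.Perm (Fin t), ∀ j, (D j).map g = D (s j) := by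
  refine ⟨fun ⟨ι, _, D, s, h1, h2, h3⟩ => ?_,
    fun ⟨D, h, s, hs⟩ => ⟨_, inferInstance, D, s, by simp, h, hs⟩⟩
  let e := (Finite.equivFinOfCardEq h1).symm
  exact ⟨_, h2.comp e, (e.trans s).trans e.symm, fun j => by simp [h3]⟩

variable [FiniteDimensional F V]

theorem ODec.map {ι : Type} {D : ι → Submodule F V} (h : ODec B a D) (g : Isom B Q) :
    ODec B a fun j => (D j).map g.1.toLinearMap :=
  ⟨fun j => ⟨(LinearEquiv.finrank_map_eq _ _).trans (h.1 j).1, nondegOn_map_isom (h.1 j).2 g⟩, by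
    rintro i j c _ ⟨u, hu, rfl⟩ _ ⟨v, hv, rfl⟩
    exact (g.2.1 u v).trans (h.2.1 i j c u hu v hv), by simp [← Submodule.map_iSup, h.2.2]⟩

theorem POd.conj {y' : Isom B Q} (h : POd B a y.1.toLinearMap t) (hc : IsConj y y') :
    POd B a y'.1.toLinearMap t := by
  obtain ⟨ι, _, D, s, h1, h2, h3⟩ := h
  obtain ⟨g, rfl⟩ := isConj_iff.mp hc
  exact ⟨ι, inferInstance, _, s, h1, h2.map g, fun j => by
    rw [← map_mul_isom, inv_mul_cancel_right, map_mul_isom, h3]⟩

theorem scI_po : ScI fun y : Isom B Q => POd B a y.1.toLinearMap t := by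
  rintro y y' c ⟨ι, _, D, s, h1, h2, h3⟩ hc
  exact ⟨ι, inferInstance, D, s, h1, h2, fun j => map_eq_of_inv (fun x hx => hc x ▸
    (D _).smul_mem c (h3 j ▸ ⟨x, hx, rfl⟩)) ((h2.1 _).1.trans (h2.1 _).1.symm)⟩

omit [FiniteDimensional F V] in
theorem ODec.sub {ι : Type} {D : ι → Submodule F W} (h : ODec (pull B W.subtype) a D) :
    (∀ j, finrank F ((D j).map W.subtype) = a ∧ NondegOn B ((D j).map W.subtype)) ∧
    (∀ i j, i ≠ j → ∀ u ∈ (D i).map W.subtype, ∀ v ∈ (D j).map W.subtype, B u v = 0) ∧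
    ⨆ j, (D j).map W.subtype = W :=
  ⟨fun j => ⟨(Submodule.finrank_map_subtype_eq _ _).trans (h.1 j).1, by
    rintro _ ⟨x, hx, rfl⟩ c
    exact congrArg Subtype.val ((h.1 j).2 x hx fun z hz => c _ ⟨z, hz, rfl⟩)⟩, by
    rintro i j c _ ⟨u, hu, rfl⟩ _ ⟨v, hv, rfl⟩
    exact h.2.1 i j c u hu v hv, by simp [← Submodule.map_iSup, h.2.2]⟩

theorem POd.step (h : IsForm ε κ τ B Q) (hB : B.SeparatingLeft) (hW : NondegOn B W)
    (ha : finrank F W = a) (h1 : ∀ x ∈ W, y.1 x ∈ W) {b : End F (perp B W)}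
    (hb : ∀ x, (b x : V) = y.1 x) (H : POd (pull B (perp B W).subtype) a b t) :
    POd B a y.1.toLinearMap (t + 1) := by
  obtain ⟨ι, _, D, s, h2, h3, h4⟩ := H
  obtain ⟨c1, c2, c3⟩ := h3.sub
  refine ⟨Option ι, inferInstance, fun o => o.elim W fun j => (D j).map (perp B W).subtype,
    s.optionCongr, by simp [h2], ⟨?_, ?_, ?_⟩, ?_⟩
  · rintro (_ | j)
    exacts [⟨ha, hW⟩, c1 j]
  · rintro (_ | i) (_ | j) c u hu v hv
    · exact absurd rfl c
    · exact mem_perp.mp (Submodule.map_subtype_le _ _ hv) u hu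
    · exact h.refl (mem_perp.mp (Submodule.map_subtype_le _ _ hu) v hv)
    · exact c2 i j (by simpa using c) u hu v hv
  · simpa [iSup_option, c3] using (h.isCompl_perp hB hW).sup_eq_top
  · rintro (_ | j)
    · exact map_eq_of_inv h1 rfl
    · simp only [Option.elim, Equiv.optionCongr_apply, Option.map_some, ← h4, ← Submodule.map_comp]
      congr 1
      exact LinearMap.ext fun x => (hb x).symm

theorem po_swap (h : IsForm ε κ τ B Q) (hy : y * y = 1)
    (h1 : W ⊔ W.map y.1.toLinearMap = ⊤) (h2 : ∀ u ∈ W, ∀ v ∈ W, B u (y.1 v) = 0)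
    (H : POd (pull B W.subtype) a 1 t) : POd B a y.1.toLinearMap (t + t) := by
  obtain ⟨ι, _, D, s, a1, a2, -⟩ := H
  obtain ⟨c1, c2, c3⟩ := a2.sub
  have c4 : ∀ j, (D j).map W.subtype ≤ W := fun j => Submodule.map_subtype_le _ _
  refine ⟨ι ⊕ ι, inferInstance, Sum.elim (fun j => (D j).map W.subtype)
    fun j => ((D j).map W.subtype).map y.1.toLinearMap, Equiv.sumComm ι ι, by simp [a1],
    ⟨?_, ?_, ?_⟩, ?_⟩
  · rintro (j | j)
    exacts [c1 j, ⟨(LinearEquiv.finrank_map_eq _ _).trans (c1 j).1, nondegOn_map_isom (c1 j).2 y⟩]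
  · rintro (i | i) (j | j) c u hu v hv
    · exact c2 i j (by simpa using c) u hu v hv
    · obtain ⟨v, hv, rfl⟩ := hv
      exact h2 u (c4 i hu) v (c4 j hv)
    · obtain ⟨u, hu, rfl⟩ := hu
      exact h.refl (h2 v (c4 j hv) u (c4 i hu))
    · obtain ⟨u, hu, rfl⟩ := hu
      obtain ⟨v, hv, rfl⟩ := hv
      exact (y.2.1 u v).trans (c2 i j (by simpa using c) u hu v hv)
  · simpa only [iSup_sum, Sum.elim_inl, Sum.elim_inr, ← Submodule.map_iSup y.1.toLinearMap, c3]
  · rintro (j | j)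
    · rfl
    · exact (map_mul_isom _ y y).symm.trans (hy ▸ Submodule.map_id _)

theorem po_cycle {ι : Type} {D : ι → Submodule F V} (H : ODec B a D) (ha : 0 < a) (hr : r.Prime)
    (hy : y ^ r = 1) {s : Equiv.Perm ι} (hs : ∀ j, (D j).map y.1.toLinearMap = D (s j)) {j : ι}
    (hj : s j ≠ j) : a ≤ finrank F (H11.fixS y.1) ∧ a * (r - 1) ≤ finrank F (movS y.1) := by
  have h1 : ∀ k, (D j).map (y ^ k).1.toLinearMap = D (s^[k] j) := fun k => by
    induction k with
    | zero => exact Submodule.map_id _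
    | succ k ih => rw [pow_succ', map_mul_isom, ih, hs, Function.iterate_succ_apply']
  have h2 : Function.minimalPeriod s j = r := ((Nat.dvd_prime hr).mp
    (Function.IsPeriodicPt.minimalPeriod_dvd (H.inj ha (by
      rw [← h1, hy]; exact Submodule.map_id _)))).resolve_left
    fun e => hj (Function.minimalPeriod_eq_one_iff_isFixedPt.mp e)
  have h3 : ∀ m < r, ∀ i < r, ∀ u ∈ D j, ∀ w ∈ D j,
      B ((y ^ m).1 u) ((y ^ i).1 w) = if i = m then B u w else 0 := fun m hm i hi u hu w hw => by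
    split_ifs with e
    · exact e ▸ (y ^ i).2.1 u w
    · exact H.2.1 _ _ (fun c => e (Function.iterate_injOn_Iio_minimalPeriod (h2 ▸ hi) (h2 ▸ hm)
        c.symm)) _ (h1 m ▸ ⟨u, hu, rfl⟩) _ (h1 i ▸ ⟨w, hw, rfl⟩)
  have h4 : ∀ (m : ℕ) x, y.1 x = x → (y ^ m).1 x = x := fun m x hx => by
    induction m with
    | zero => rfl
    | succ m ih => rw [pow_succ]; exact (congrArg _ hx).trans ih
  rw [← (H.1 j).1]
  constructor
  · refine LinearMap.finrank_le_finrank_of_injective (f := ((∑ i ∈ Finset.range r,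
      (y ^ i).1.toLinearMap) ∘ₗ (D j).subtype).codRestrict _ fun w => H11.mem_fixS.mpr ?_)
      ((injective_iff_map_eq_zero _).mpr fun w hw => Subtype.ext ((H.1 j).2 _ w.2 fun u hu => ?_))
    · have := Finset.sum_range_succ' (fun i => (y ^ i).1 w) r
      rw [Finset.sum_range_succ, hy] at this
      simpa [pow_succ'] using this.symm
    · have := congrArg (fun x => B x ((y ^ 0).1 u)) (congrArg Subtype.val hw)
      simp only [LinearMap.codRestrict_apply, LinearMap.comp_apply, LinearMap.sum_apply, map_sum,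
        LinearEquiv.coe_coe, Submodule.subtype_apply] at this
      rw [Finset.sum_congr rfl fun i hi => h3 i (Finset.mem_range.mp hi) 0 hr.pos _ w.2 _ hu] at this
      simpa [hr.pos] using this
  · let φ : (Fin (r - 1) → D j) →ₗ[F] V :=
      ∑ i : Fin (r - 1), (y ^ (i : ℕ)).1.toLinearMap ∘ₗ (D j).subtype ∘ₗ LinearMap.proj i
    have h5 : ∀ w, ∀ m < r, ∀ u ∈ D j, B (φ w) ((y ^ m).1 u) =
        ∑ i : Fin (r - 1), if m = i then B (w i) u else 0 := fun w m hm u hu => by
      simp only [φ, LinearMap.sum_apply, map_sum]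
      exact Finset.sum_congr rfl fun i _ => h3 i (by omega) m hm _ (w i).2 _ hu
    have := LinearMap.finrank_le_finrank_of_injective
      (f := ((y.1.toLinearMap - LinearMap.id) ∘ₗ φ).codRestrict (movS y.1) fun w => ⟨_, rfl⟩)
      ((injective_iff_map_eq_zero _).mpr fun w hw => funext fun i =>
        Subtype.ext ((H.1 j).2 _ (w i).2 fun u hu => by
          have e : y.1 (φ w) = φ w := sub_eq_zero.mp (congrArg Subtype.val hw)
          have e1 := h5 w i (by omega) u hu
          have e2 := h5 w (r - 1) (by have := hr.pos; omega) u hu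
          rw [← h4 i _ e, (y ^ _).2.1] at e1
          rw [← h4 (r - 1) _ e, (y ^ _).2.1, e1] at e2
          simpa [Fin.val_inj, fun i : Fin (r - 1) => i.2.ne'] using e2))
    simpa [finrank_pi_fintype, mul_comm] using this

theorem po_bound [Finite F] {d c k : ℕ} (O : OD σ r d c k) (h : IsForm ε κ τ B Q)
    (hB : B.SeparatingLeft) (ha : 0 < a) (hy : y ^ r = 1) (H : POd B a y.1.toLinearMap t) :
    finrank F (movS y.1) ≤ t * (a / c) * c ∨
      a ≤ finrank F (H11.fixS y.1) ∧ a * (r - 1) ≤ finrank F (movS y.1) := by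
  obtain ⟨D, h1, s, h2⟩ := po_iff.mp H
  by_cases e : ∀ j, s j = j
  swap
  · obtain ⟨j, hj⟩ := not_forall.mp e
    exact .inr (po_cycle h1 ha O.prime hy h2 hj)
  choose U u1 U' u2 u3 u4 u5 u6 u7 j u8 u9 using fun j => O.nondeg_decomp h hB hy
    (W := D j) (fun x hx => e j ▸ h2 j ▸ ⟨x, hx, rfl⟩) (h1.1 j).2
  have h3 : Finset.univ.sup U ⊔ H11.fixS y.1 = ⊤ := eq_top_iff.mpr (h1.2.2 ▸ iSup_le fun i =>
    u5 i ▸ sup_le_sup (Finset.le_sup (Finset.mem_univ i)) (u2 i))
  have h4 := Submodule.finrank_sup_add_finrank_inf_eq (Finset.univ.sup U) (H11.fixS y.1)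
  have h5 := (H18.El.finrank_sup_le_sum Finset.univ U).trans (Finset.sum_le_card_nsmul _ _
    (a / c * c) fun i _ => (u8 i).trans_le (Nat.mul_le_mul_right _
      ((Nat.le_div_iff_mul_le O.pos.2.2).mpr (by have := u9 i; have := (h1.1 i).1; omega))))
  have := finrank_movS_add y.1
  rw [h3, finrank_top] at h4
  rw [Finset.card_fin, smul_eq_mul, ← mul_assoc] at h5
  omega

omit [FiniteDimensional F V] in
theorem eluP_odd {B : V →ₗ[F] V →ₗ[F] F} {G : Subgroup (Isom B Q)} [Nontrivial V]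
    {Φ : Isom B Q → Prop} (hB : B.SeparatingLeft) (hr : Odd r) (hG : ∀ y : Isom B Q, y * y ∈ G)
    (hΦ : ScI Φ) : EluP G r Φ ↔ ∀ y : Isom B Q, y ^ r = 1 → y ≠ 1 → Φ y := by
  obtain ⟨k, rfl⟩ := hr
  constructor
  · refine fun H y h1 h2 => H y ?_ ⟨1, by simp [h1]⟩ fun z hz => h2 ?_
    · rw [show y = y ^ (k + 1) * y ^ (k + 1) by
        rw [← pow_add, show k + 1 + (k + 1) = 2 * k + 1 + 1 by ring, pow_succ, h1, one_mul]]
      exact hG _
    · have h3 : z * z = 1 := norm_of_scalar hB hz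
      refine Subtype.ext (LinearEquiv.ext fun v => ?_)
      have := isom_pow_of_scalar hz (2 * k + 1) v
      rw [h1, pow_succ, pow_mul, sq, h3, one_pow, one_mul, ← hz] at this
      exact this.symm
  · rintro H y - ⟨z, hz⟩ h1
    have h3 : z * z = 1 := norm_of_scalar hB hz
    have h4 : ∀ v, y.1 v = z • (y ^ (2 * k + 1 + 1)).1 v := fun v => by
      rw [pow_succ]; change _ = z • (y ^ (2 * k + 1)).1 (y.1 v); rw [hz, smul_smul, h3, one_smul]
    refine hΦ _ _ _ (H _ (Subtype.ext (LinearEquiv.ext fun v => ?_)) fun e => h1 z ?_) h4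
    · rw [← pow_mul, mul_comm, pow_mul, isom_pow_of_scalar hz, show 2 * k + 1 + 1 = 2 * (k + 1) by
        ring, pow_mul, sq, h3]
      simp
    · simpa [e] using h4

theorem po_ind (Pr : ∀ {V : Type v} [AddCommGroup V] [Module F V], (V ≃ₗ[F] V) → ℕ → Prop)
    (step : ∀ {V : Type v} [AddCommGroup V] [Module F V] [FiniteDimensional F V]
      {B : LinearMap.BilinForm F V}, B.IsAlt → B.SeparatingLeft →
      ∀ (y : Isom (σ := RingHom.id F) B fun _ => 0) t, finrank F V = a * (t + 1) → Pr y.1 (t + 1) →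
        POd (σ := RingHom.id F) B a y.1.toLinearMap (t + 1) ∨ ∃ W : Submodule F V, finrank F W = a ∧
          NondegOn B W ∧ (∀ x ∈ W, y.1 x ∈ W) ∧
          ∀ b : perp B W ≃ₗ[F] perp B W, (∀ x, (b x : V) = y.1 x) → Pr b t) (t : ℕ) :
    ∀ {V : Type v} [AddCommGroup V] [Module F V] [FiniteDimensional F V]
      {B : LinearMap.BilinForm F V}, B.IsAlt → B.SeparatingLeft →
      ∀ y : Isom (σ := RingHom.id F) B fun _ => 0, finrank F V = a * t → Pr y.1 t →
        POd (σ := RingHom.id F) B a y.1.toLinearMap t := by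
  induction t with
  | zero =>
    intro V _ _ _ B _ _ y hn _
    have := Module.finrank_zero_iff.mp hn
    exact po_iff.mpr ⟨Fin.elim0, ⟨by simp, by simp, Subsingleton.elim _ _⟩, 1, by simp⟩
  | succ t ih =>
    intro V _ _ _ B hA hB y hn H
    refine (step hA hB y t hn H).elim id fun ⟨W, w1, w2, w3, w4⟩ => ?_
    have h := isForm_alt hA
    obtain ⟨b, hb⟩ := exists_isom_restrict (isom_inv_perp hB y.2.1 w3)
    have := h.finrank_perp hB W
    exact POd.step h hB w2 w1 w3 hb (ih (B := pull B (perp B W).subtype) (fun x => hA x)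
      (nondegOn_iff.mp (h.nondegOn_perp hB w2)) b (by rw [mul_add] at hn; omega) (w4 _ hb))

section alt
variable {B : LinearMap.BilinForm F V} {y : Isom (σ := RingHom.id F) B fun _ => 0} (hA : B.IsAlt)
  (hB : B.SeparatingLeft)
include hA hB

theorem po_one (ha : Even a) (hn : finrank F V = a * t) : POd (σ := RingHom.id F) B a 1 t :=
  po_ind (fun g _ => g = 1) (fun hA hB y t hn H => .inr <| by
    obtain ⟨W, -, w1, w2⟩ := (alt_on hA (nondegOn_top hB)).2.2 a ha (by simp [hn, mul_add])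
    exact ⟨W, w2, w1, by simp [H], fun b hb => LinearEquiv.ext fun x => Subtype.ext (by simp [hb, H])⟩)
    t hA hB 1 hn rfl

theorem alt_fx_char_two [Finite F] [CharP F 2] {k j : ℕ} (hn : finrank F V = 2 * k) (hj : j ≤ k)
    (hy : y * y = 1) : (Fx y fun W => finrank F W = 2 * j ∧ NondegOn B W) ↔
      (AltT B y.1 → finrank F (movS y.1) ≤ 2 * (j / 2) + 2 * ((k - j) / 2)) := by
  have h := isForm_alt hA
  obtain ⟨W, -, w1, w2⟩ := (alt_on hA (nondegOn_top hB)).2.2 (2 * j) (even_two_mul j) (by simp; omega)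
  have h1 := h.finrank_perp hB W
  rw [(two_alt hA hB).fx_iff (y := y) w1 (Ω := fun W => finrank F W = 2 * j ∧ NondegOn B W)
    (fun U => ⟨fun a => alt_orbit hA hB w1 a.2 (w2.trans a.1.symm), by
      rintro ⟨g, rfl⟩
      exact ⟨by rw [LinearEquiv.finrank_map_eq, w2], nondegOn_map_isom w1 g⟩⟩)
    (fun X a i hi => by
      obtain ⟨Z, z1, z2⟩ := (alt_on hA a).2.1
      obtain ⟨U, a1, rfl⟩ := exists_le_finrank_eq Z (k := i) (by omega)
      obtain ⟨u, h1, h2⟩ := SetLike.exists_of_lt (Submodule.lt_of_le_of_finrank_lt_finrank a1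
        (by omega))
      exact ⟨U, u, z1.1.mono a1, rfl, h2, fun x hx => z1.1.2 x (a1 hx) u h1, rfl⟩)
    (alt_on hA w1).2.1 (alt_on hA (h.nondegOn_perp hB w1)).2.1 hy,
    show finrank F W / 2 = j by omega, show finrank F (perp B W) / 2 = k - j by omega]

theorem po_alt_swap [Finite F] [CharP F 2] (ha : Even a) (hn : finrank F V = 2 * (a * t))
    (hy : y * y = 1) (h1 : AltT B y.1) (h2 : finrank F (movS y.1) = a * t) :
    POd (σ := RingHom.id F) B a y.1.toLinearMap (t + t) := by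
  have h := isForm_alt hA
  have T := two_alt hA hB
  obtain ⟨W, -, w1, w2⟩ := (alt_on hA (nondegOn_top hB)).2.2 (a * t) (ha.mul_right t) (by simp; omega)
  have w3 := h.nondegOn_perp hB w1
  have w4 := h.finrank_perp hB W
  have w5 := h.isCompl_perp hB w1
  have a1 : LinearMap.BilinForm.IsAlt (pull B W.subtype) := fun x => hA x
  have a2 : LinearMap.BilinForm.IsAlt (pull B (perp B W).subtype) := fun x => hA x
  obtain ⟨e, he⟩ := alt_isometric (a1.isRefl.nondegenerate_iff_separatingLeft.mpr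
    (nondegOn_iff.mp w1)) a1 (a2.isRefl.nondegenerate_iff_separatingLeft.mpr (nondegOn_iff.mp w3)) a2
    (by omega)
  have he : ∀ u v : W, B (e u) (e v) = B u v := he
  have b1 := H18.El.glue_left w5 w5.symm e e.symm
  have b2 : ∀ u : W, H18.El.glue w5 w5.symm e e.symm (e u) = u := fun u => by
    rw [H18.El.glue_right, e.symm_apply_apply]
  have b3 : ∀ x, ∃ u w : W, x = u.1 + (e w).1 := fun x => by
    obtain ⟨u, hu, w, hw, rfl⟩ := Submodule.mem_sup.mp (w5.sup_eq_top ▸ Submodule.mem_top (x := x))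
    exact ⟨⟨u, hu⟩, e.symm ⟨w, hw⟩, by simp⟩
  have b4 : ∀ u w : W, B u (e w) = 0 := fun u w => mem_perp.mp (e w).2 u u.2
  have b5 : ∀ u w : W, B (e w) u = 0 := fun u w => h.refl (b4 u w)
  let y' : Isom (σ := RingHom.id F) B fun _ => 0 := ⟨H18.El.glue w5 w5.symm e e.symm, fun x x' => by
    obtain ⟨u, w, rfl⟩ := b3 x
    obtain ⟨u', w', rfl⟩ := b3 x'
    simp [b1, b2, b4, b5, he, add_comm], fun _ => rfl⟩
  have c1 : y' * y' = 1 := Subtype.ext (LinearEquiv.ext fun x => by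
    obtain ⟨u, w, rfl⟩ := b3 x
    simp [y', b1, b2])
  refine (po_swap h c1 (W := W) (by rw [H18.El.map_eq_of b1, w5.sup_eq_top]) (fun u hu v hv =>
    (congrArg _ (b1 ⟨v, hv⟩)).trans (b4 ⟨u, hu⟩ _)) (po_one a1 (nondegOn_iff.mp w1) ha w2)).conj
    ((T.isConj_iff c1 hy).mpr ⟨le_antisymm (by have := T.two_mul_rank_le c1; omega) ?_,
      iff_of_true (fun x => ?_) h1⟩)
  · rw [h2, ← w2]
    exact LinearMap.finrank_le_finrank_of_injective
      (f := ((y'.1.toLinearMap - LinearMap.id) ∘ₗ W.subtype).codRestrict _ fun x => ⟨x, rfl⟩)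
      ((injective_iff_map_eq_zero _).mpr fun x hx => Subtype.ext (Submodule.disjoint_def.mp
        w5.disjoint _ x.2 (by
          have : y'.1 x = x := sub_eq_zero.mp (congrArg Subtype.val hx)
          exact ((b1 x).symm.trans this) ▸ (e x).2)))
  · obtain ⟨u, w, rfl⟩ := b3 x
    simp [y', b1, b2, b4, b5, he, T.comm u w, CharTwo.add_self_eq_zero]

theorem po_alt_two [Finite F] (ha : Even a) (h0 : 0 < a) (hn : finrank F V = a * t) {z : F}
    (hz : ∀ v, y.1 (y.1 v) = z • v) : POd (σ := RingHom.id F) B a y.1.toLinearMap t := by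
  obtain ⟨j, rfl⟩ := ha.two_dvd
  refine po_ind (fun g _ => ∀ v, g (g v) = z • v) (fun {V} _ _ _ B hA hB y t hn H => ?_) t hA hB y hn hz
  have h1 : 0 < finrank F V := by rw [hn]; positivity
  have := Module.nontrivial_of_finrank_pos h1
  rw [or_iff_not_imp_right]
  intro c
  replace c : ¬ Fx y fun W => finrank F W = 2 * j ∧ NondegOn B W := fun ⟨W, w1, w2⟩ =>
    c ⟨W, w1.1, w1.2, w2, fun b hb x => Subtype.ext (by simp [hb, H])⟩
  have h3 : 2 * j ≤ finrank F V := by rw [hn, mul_add]; omega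
  by_cases h2 : (2 : F) = 0
  swap
  · refine (c (elu_alt_two hA hB h2 h1 h3 y trivial ⟨z, by simpa [sq] using H⟩ fun w hw => c ?_)).elim
    obtain ⟨W, -, w1, w2⟩ := (alt_on hA (nondegOn_top hB)).2.2 _ ha (by simpa)
    exact ⟨W, ⟨w2, w1⟩, fun x hx => hw x ▸ W.smul_mem _ hx⟩
  have := CharTwo.of_one_ne_zero_of_two_eq_zero one_ne_zero h2
  obtain rfl : z = 1 := by
    simpa [CharTwo.neg_eq] using mul_self_eq_one_iff.mp (norm_of_scalar (y := y * y) hB H)
  have hy : y * y = 1 := Subtype.ext (LinearEquiv.ext (by simpa using H))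
  rw [mul_assoc] at hn
  rw [alt_fx_char_two hA hB hn (by omega) hy, Classical.not_imp] at c
  have := (two_alt hA hB).two_mul_rank_le hy
  have := Nat.even_iff.mp ((two_alt hA hB).even_of_altT hy c.1)
  obtain ⟨s, hs⟩ : Even (t + 1) := (Nat.even_mul.mp (Nat.even_iff (n := j * (t + 1)).mpr (by omega))).resolve_left
    (by rw [Nat.even_iff]; omega)
  have e : j * (t + 1) = 2 * j * s := by rw [hs]; ring
  exact hs ▸ po_alt_swap hA hB ha (e ▸ hn) hy c.1 (by omega)

theorem po_alt_odd [Finite F] {d c k : ℕ} (O : OD (RingHom.id F) r d c k) (hc : Even c)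
    (ha : Even a) (hn : finrank F V = a * t) (hy : y ^ r = 1)
    (h1 : t * (a % c) ≤ finrank F (H11.fixS y.1)) : POd (σ := RingHom.id F) B a y.1.toLinearMap t := by
  refine po_ind (fun g t => g ^ r = 1 ∧ t * (a % c) ≤ finrank F (H11.fixS g))
    (fun {V} _ _ _ B hA hB y t hn H => .inr ?_) t hA hB y hn ⟨congrArg Subtype.val hy, h1⟩
  have h := isForm_alt hA
  have hy : y ^ r = 1 := Subtype.ext H.1
  obtain ⟨m, hm⟩ := O.exists_finrank_movS h hB hy
  have a1 := nondegOn_fixS h hB y.2 (isom_disjoint hy O.ne)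
  have a2 := finrank_movS_add y.1
  have a3 := Nat.div_add_mod a c
  have a4 := Nat.mul_le_mul_left t (Nat.mod_le a c)
  have a5 := H.2
  rw [hn, hm, mul_add, mul_comm a] at a2
  rw [add_mul] at a5
  rw [mul_comm] at a3
  obtain ⟨j, j1, j2, j3⟩ : ∃ j, j ≤ m ∧ j * c ≤ a ∧ (j = m ∨ j = a / c) :=
    ⟨min m (a / c), min_le_left _ _, (Nat.mul_le_mul_right c (min_le_right _ _)).trans (by omega),
      min_choice _ _⟩
  have j4 : a - j * c + t * (a % c) ≤ finrank F (H11.fixS y.1) := by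
    rcases j3 with rfl | rfl <;> omega
  obtain ⟨X, x1, x2, x3⟩ := (alt_on hA a1).2.2 (a - j * c)
    ((Nat.even_sub j2).mpr (iff_of_true ha (hc.mul_left j))) (by omega)
  obtain ⟨U, u1, -, -, -, -, u2, u3, u4⟩ := O.nondeg_build h hB hy par_alt (j := j)
    (hm ▸ Nat.mul_le_mul_right c j1) x1 x2
  obtain ⟨X', b1, -, -, b2, b3⟩ := exists_orth_compl h hB a1 x2 x1
  have b4 : X' ≤ perp B (U ⊔ X) := perp_sup B U X ▸ le_inf
    (b1.trans (h.perp_movS hB y.2 ▸ perp_anti u1)) fun x hx => mem_perp.mpr fun a ha => b2 a ha x hx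
  refine ⟨_, by omega, u2, u3, fun b hb => ⟨LinearEquiv.ext fun x => Subtype.ext ?_, ?_⟩⟩
  · have : ∀ n : ℕ, ∀ x, ((b ^ n) x : V) = (y ^ n).1 x := fun n => by
      induction n with
      | zero => simp
      | succ n ih => intro x; simp [pow_succ, ih, hb]
    simp [this, hy]
  · have := Submodule.finrank_mono (s := X'.comap (perp B (U ⊔ X)).subtype) (t := H11.fixS b)
      fun x hx => H11.mem_fixS.mpr (Subtype.ext ((hb x).trans (H11.mem_fixS.mp (b1 hx))))
    rw [(Submodule.comapSubtypeEquivOfLe b4).finrank_eq] at this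
    omega

theorem odec_trans {ι : Type} [Finite ι] {D D' : ι → Submodule F V}
    (h : ODec (σ := RingHom.id F) B a D) (h' : ODec (σ := RingHom.id F) B a D') :
    ∃ g : Isom (σ := RingHom.id F) B fun _ => 0, ∀ j, (D j).map g.1.toLinearMap = D' j := by
  classical
  have h1 := DirectSum.isInternal_submodule_of_iSupIndep_of_iSup_eq_top h.indep h.2.2
  have h2 := DirectSum.isInternal_submodule_of_iSupIndep_of_iSup_eq_top h'.indep h'.2.2
  have a : ∀ W : Submodule F V, LinearMap.BilinForm.IsAlt (pull B W.subtype) := fun W x => hA x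
  choose e he using fun j => alt_isometric ((a _).isRefl.nondegenerate_iff_separatingLeft.mpr
    (nondegOn_iff.mp (h.1 j).2)) (a _) ((a _).isRefl.nondegenerate_iff_separatingLeft.mpr
    (nondegOn_iff.mp (h'.1 j).2)) (a _) ((h.1 j).1.trans (h'.1 j).1.symm)
  let v := fun j => finBasisOfFinrankEq F (D j) (h.1 j).1
  obtain ⟨g, g1, g2⟩ := (isForm_alt hA).witt_family hB _ _ (h1.collectedBasis v).linearIndependent
    (h2.collectedBasis fun j => (v j).map (e j)).linearIndependent (by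
      rintro ⟨i, k⟩ ⟨j, l⟩
      by_cases c : i = j
      · subst c; simpa using he i (v i k) (v i l)
      · simp [h.2.1 i j c _ (v i k).2 _ (v j l).2, h'.2.1 i j c _ (e i _).2 _ (e j _).2])
    fun _ => rfl
  refine ⟨⟨g, g1⟩, fun j => H18.El.map_eq_of (a := e j) fun x => ?_⟩
  exact LinearMap.congr_fun (f := g.toLinearMap ∘ₗ (D j).subtype)
    (g := (D' j).subtype ∘ₗ (e j).toLinearMap) ((v j).ext fun k => by simpa using g2 ⟨j, k⟩) x

attribute [local instance] H18.El.actSub in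
theorem eluP_po_odd [Finite F] {p i c : ℕ} [Fact p.Prime] [CharP F p] [hr : Fact r.Prime]
    (h2 : r ≠ 2) (hp : r ≠ p) (ha : Even a) (h0 : 0 < a) (ht : 0 < t) (hn : finrank F V = a * t)
    (hi : i = orderOf ((Nat.card F : ℕ) : ZMod r)) (hc : c = if Even i then i else 2 * i)
    (hd : r ∣ Nat.card {D : Fin t → Submodule F V // ODec (σ := RingHom.id F) B a D} / t.factorial) :
    EluP (σ := RingHom.id F) (B := B) (Q := fun _ => 0) ⊤ r
      (fun y => POd (σ := RingHom.id F) B a y.1.toLinearMap t) ↔ c ≤ a ∧ a * t % c = t * (a % c) := by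
  have h := isForm_alt hA
  have := Module.nontrivial_of_finrank_pos (R := F) (M := V) (by rw [hn]; positivity)
  have O := od_id (F := F) hr.out h2 hp rfl hi hc
  have c0 := O.pos
  have c1 := c_facts hc c0.1
  have ho := hr.out.odd_of_ne_two h2
  rw [eluP_odd hB ho (by simp) scI_po]
  refine ⟨fun H => ?_, fun H y y1 _ => po_alt_odd hA hB O c1.1 ha hn y1 ?_⟩
  swap
  · obtain ⟨k, hk⟩ := O.exists_finrank_movS h hB y1
    have := finrank_movS_add y.1
    rw [← H.2, ← hn, ← this, hk, Nat.mul_add_mod']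
    exact Nat.mod_le _ _
  obtain ⟨D, d1, -⟩ := po_iff.mp (po_one hA hB ha hn)
  have a1 := H18.El.card_mul_dvd (G := Isom (σ := RingHom.id F) B fun _ => 0) (x₀ := D)
    (P := ODec (σ := RingHom.id F) B a) (fun D' => ⟨fun d => (odec_trans hA hB d1 d).imp
      fun g hg => funext hg, by rintro ⟨g, rfl⟩; exact d1.map g⟩) (1 : Unit →* _)
    (Function.injective_of_subsingleton _) (by simp)
  obtain ⟨y, hy⟩ := exists_prime_orderOf_dvd_card' r ((hd.trans (Nat.div_dvd_of_dvd
    (factorial_dvd_of (fun D s d => d.comp s) fun D d => d.inj h0))).trans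
    ((Dvd.intro _ rfl).trans a1))
  obtain ⟨y1, y2⟩ := orderOf_eq_prime_iff.mp hy
  obtain ⟨k, hk⟩ := O.exists_finrank_movS h hB y1
  have a2 : c ≤ a * t := by
    have := finrank_movS_add y.1
    have : k ≠ 0 := fun e => y2 (Subtype.ext (finrank_movS_eq_zero.mp (by simp [hk, e])))
    have := Nat.le_mul_of_pos_left c (Nat.pos_of_ne_zero this)
    omega
  have key : ∀ k, 0 < k → k * c ≤ a * t →
      k ≤ t * (a / c) ∨ a ≤ a * t - k * c ∧ a * (r - 1) ≤ k * c := fun k k1 k2 => by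
    obtain ⟨y, y1, y2⟩ := O.exists_elt' h hB par_alt (adm_alt hA hB (hn ▸ k2))
    have := finrank_movS_add y.1
    refine (po_bound O h hB h0 y1 (H y y1 fun e => (Nat.mul_pos k1 c0.2.2).ne'
      (y2 ▸ finrank_movS_eq_zero.mpr (by rw [e]; rfl)))).imp (fun b => ?_) fun b => by omega
    exact Nat.le_of_mul_le_mul_right (y2 ▸ b) c0.2.2
  have a3 : c ≤ a := by
    rcases key 1 one_pos (by omega) with b | ⟨-, b⟩
    · exact not_lt.mp fun e => by simp [Nat.div_eq_of_lt e] at b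
    have b1 := O.mul_eq
    have b2 := Nat.mul_le_mul_right (r - 1) (show 2 ≤ a by have := Nat.even_iff.mp ha; omega)
    have b3 := Nat.le_mul_of_pos_left i c0.2.1
    have := Nat.odd_iff.mp ho
    have := hr.out.two_le
    omega
  refine ⟨a3, (H18.El.arith_dec c0.2.2).mp ((key _ (Nat.div_pos a2 c0.2.2)
    (Nat.div_mul_le_self _ _)).resolve_right fun b => ?_)⟩
  have := Nat.div_add_mod' (a * t) c
  have := Nat.mod_lt (a * t) c0.2.2
  omega

end alt

theorem odec_iff_sp {d : ℕ} (ha : 0 < a) (ht : 2 ≤ t) (D : Fin t → Submodule F (Fin d ⊕ Fin d → F)) :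
    (Geo.IsMDecomposition a D ∧ (∀ j, ∀ u ∈ D j, u ≠ 0 → ∃ v ∈ D j, sympForm d F u v ≠ 0) ∧
      ∀ j j', j ≠ j' → ∀ u ∈ D j, ∀ v ∈ D j', sympForm d F u v = 0) ↔
      ODec (σ := RingHom.id F) (spBilin (Fin d) F) a D := by
  have e : ∀ W : Submodule F (Fin d ⊕ Fin d → F), (∀ u ∈ W, u ≠ 0 → ∃ v ∈ W,
      sympForm d F u v ≠ 0) ↔ NondegOn (σ := RingHom.id F) (spBilin (Fin d) F) W := fun W => by
    simp only [sympForm_eq_spBilin, NondegOn]
    exact forall₂_congr fun x _ => by rw [← not_imp_not]; push Not; rfl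
  simp only [e]
  simp only [sympForm_eq_spBilin]
  exact ⟨fun h => ⟨fun j => ⟨h.1.finrank_eq j, h.2.1 j⟩, h.2.2, h.1.iSup_eq_top⟩,
    fun h => ⟨⟨ht, ha, fun j => (h.1 j).1, h.indep, h.2.2⟩, fun j => (h.1 j).2, h.2.1⟩⟩

end Cfsg.Agent.H10
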