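import Mathlib
import Cfsg.Agent.H10.Elus14

/-! Symplectic groups acting on quadratic forms in characteristic two. -/

namespace Cfsg.Agent.H10
open Module Polynomial H11 L0
universe u v

variable {F : Type u} [Field F] {V : Type v} [AddCommGroup V] [Module F V] [FiniteDimensional F V]
  {Q : V → F} {r : ℕ}

theorem eluP_quad [Finite F] [CharP F 2] {B : LinearMap.BilinForm F V} (h : IsQuad B Q)
    (hB : B.SeparatingLeft) [hr : Fact r.Prime] {d : ℕ} (hn : finrank F V = 2 * d) (h2 : 2 ≤ d)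
    {H : Subgroup (Isom (σ := RingHom.id F) B fun _ => 0)} (hH : ∀ y, y ∈ H ↔ ∀ v, Q (y.1 v) = Q v)
    (hd : r ∣ H.index) : EluP ⊤ r (fun y => ∃ g ∈ (⊤ : Subgroup _), g⁻¹ * y * g ∈ H) ↔
      r = 2 ∧ (Pl B Q ⊤ ∨ Odd d) := by
  classical
  have T := two_quad h hB
  have hA : B.IsAlt := T.alt
  have T' := two_alt hA hB
  have := Module.nontrivial_of_finrank_pos (R := F) (M := V) (by omega)
  have hν := wittIdx_top h hB (hn ▸ even_two_mul d)
  let φ : Isom B Q →* Isom (σ := RingHom.id F) B fun _ => 0 :=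
    Subgroup.inclusion fun g hg => ⟨hg.1, fun _ => rfl⟩
  have e1 : ∀ y g : Isom (σ := RingHom.id F) B fun _ => 0, IsConj (g⁻¹ * y * g) y := fun y g =>
    isConj_iff.mpr ⟨g, by simp [mul_assoc]⟩
  by_cases e : r = 2
  · subst e
    have h0 : ∀ (y : Isom (σ := RingHom.id F) B fun _ => 0) (z : F), (∀ v, y.1 v = z • v) → y = 1 :=
      fun y z hz => by
        obtain rfl : z = 1 := by
          simpa [CharTwo.neg_eq] using mul_self_eq_one_iff.mp (norm_of_scalar hB hz)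
        exact Subtype.ext (LinearEquiv.ext (by simpa using hz))
    refine ⟨fun E => ⟨rfl, or_iff_not_imp_right.mpr fun o => ?_⟩, fun ⟨_, o⟩ y _ ⟨z, hz⟩ _ => ?_⟩
    · obtain ⟨k, rfl⟩ := (Nat.not_odd_iff_even.mp o).two_dvd
      obtain ⟨Z, z1, z2⟩ := wittIdx_alt hA hB hn
      obtain ⟨y, y1, y2, y3⟩ := T'.exists_invol_alt z1.1 z2
      obtain ⟨g, -, hg⟩ := E y trivial ⟨1, by simp [sq, y1]⟩ fun z hz => by
        rw [← y2, h0 y z hz, finrank_movS_eq_zero.mpr (by rfl)] at z2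
        omega
      obtain ⟨a1, a2⟩ := (T'.isConj_iff (by
        simpa [mul_assoc] using congrArg (fun x => g⁻¹ * x * g) y1) y1).mp (e1 y g)
      exact ⟨_, le_top, (totSing_movS_iff h hB ⟨_, (g⁻¹ * y * g).2.1, (hH _).mp hg⟩).mpr
        (a2.mpr y3), by simp only [a1, finrank_top, hn]; rw [y2, z2]⟩
    have hy : y * y = 1 := sq y ▸ h0 _ z hz
    have a1 := T'.two_mul_rank_le hy
    obtain ⟨g, g1, g2, g3⟩ := T.exists_rank hν (fun k hk => exists_nonalt_data h hB hn hν k (by omega))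
      (AltT B y.1) (s := finrank F (movS y.1)) (fun a => ⟨T'.even_of_altT hy a, by
        have := Nat.even_iff.mp (T'.even_of_altT hy a)
        rw [Nat.odd_iff] at o
        split_ifs with b
        · omega
        · have := o.resolve_left b; omega⟩) fun a => ⟨Nat.pos_of_ne_zero fun e' =>
          a fun v => by simp [finrank_movS_eq_zero.mp e', T.alt], a1⟩
    obtain ⟨k, hk⟩ := isConj_iff.mp ((T'.isConj_iff hy (g' := φ g) (by
      rw [← map_mul, g1, map_one])).mpr ⟨g2.symm, g3.symm⟩)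
    exact ⟨k⁻¹, trivial, by rw [inv_inv, hk, hH]; exact g.2.2⟩
  refine iff_of_false (fun E => ?_) fun a => e a.1
  have O := od_id (F := F) (p := 2) hr.out e e rfl rfl rfl
  have c0 := O.pos
  have c1 := c_facts rfl c0.1
  obtain ⟨ν, rfl⟩ : ∃ ν, d = ν + 1 := ⟨d - 1, by omega⟩
  have a0 := H18.El.card_ne_zero O.ne
  have a1 : ((Nat.card F : ℕ) : ZMod r) ^ (ν + 1) = if Pl B Q ⊤ then -1 else 1 := by
    by_contra c
    refine H18.El.not_dvd_idx φ (Subgroup.inclusion_injective _) (fun g => (hH _).mpr g.2.2) (t := 2)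
      (s := (Nat.card F : ℤ) ^ (ν + 1) * ((Nat.card F : ℤ) ^ (ν + 1) - if Pl B Q ⊤ then -1 else 1))
      ?_ (by split_ifs at c ⊢ <;> simpa [a0, sub_eq_zero, add_eq_zero_iff_eq_neg] using c) hd
    rw [card_isom_spO hB hA hn, spO, Fin.prod_univ_eq_prod_range fun i => _ ^ (2 * (i + 1)) - 1,
      Nat.cast_mul, cast_prod_pow_sub_one _ _ Nat.card_pos, Finset.prod_range_succ]
    rw [hn, Nat.mul_div_cancel_left _ two_pos] at hν
    split_ifs at hν ⊢
    · rw [h.card_isom_plus ν hB hν hn]; push_cast; ring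
    · rw [h.card_isom_minus ν hB hν hn]; push_cast; ring
  have : Fact (2 < r) := ⟨lt_of_le_of_ne hr.out.two_le (Ne.symm e)⟩
  generalize hi : orderOf ((Nat.card F : ℕ) : ZMod r) = i at O c0 c1
  generalize (if Even i then i else 2 * i) = c at O c0 c1
  obtain ⟨k, k1, k2⟩ : ∃ k, 2 * (ν + 1) = k * c ∧ ¬ (Pl B Q ⊤ ↔ (c = i → Even k)) := by
    have b1 : ∀ m, ((Nat.card F : ℕ) : ZMod r) ^ m = 1 ↔ i ∣ m := fun m => by
      rw [← hi, orderOf_dvd_iff_pow_eq_one]
    split_ifs at a1 with b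
    · obtain rfl := c1.2.1.mpr (Nat.even_iff.mp (hi ▸ (exists_pow_eq_neg_one_iff e
        (hi ▸ c0.1)).1.mp ⟨_, a1⟩))
      obtain ⟨k, hk⟩ := (b1 ((ν + 1) * 2)).mp (by rw [pow_mul, a1]; simp)
      refine ⟨k, by rw [mul_comm, hk, mul_comm], fun b2 => ?_⟩
      obtain ⟨l, rfl⟩ := (b2.mp b rfl).two_dvd
      rw [(b1 _).mpr ⟨l, by linarith⟩] at a1
      exact ZMod.neg_one_ne_one a1.symm
    · obtain ⟨k, hk⟩ := (b1 _).mp a1
      rcases Nat.mod_two_eq_zero_or_one i with b2 | b2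
      · exact ⟨2 * k, by rw [c1.2.1.mpr b2, hk]; ring, by simp [b]⟩
      · exact ⟨k, by rw [c1.2.2 b2, hk]; ring, by simp [b, c1.2.1, b2]⟩
  obtain ⟨y, y1, y2⟩ := O.exists_elt' (isForm_alt hA) hB par_alt (adm_alt hA hB (hn.trans k1).ge)
  obtain ⟨g, -, hg⟩ := (eluP_odd hB (hr.out.odd_of_ne_two e) (by simp) (by
    rintro y y' z ⟨g, -, a⟩ b
    obtain rfl : z = 1 := by
      simpa [CharTwo.neg_eq] using mul_self_eq_one_iff.mp (norm_of_scalar (y := y * y'⁻¹) (z := z) hB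
        fun v => by simp [b])
    exact ⟨g, trivial, by rwa [show y = y' from Subtype.ext (LinearEquiv.ext (by simpa using b))]⟩)).mp
    E y y1 fun a => by
      rw [a, finrank_movS_eq_zero.mpr (by rfl)] at y2
      omega
  have a2 := map_movS_conj (g := y) (k := g⁻¹) (g' := g⁻¹ * y * g) (by simp)
  refine k2 (O.pl_iff h c1.1 (y := ⟨_, (g⁻¹ * y * g).2.1, (hH _).mp hg⟩) (isom_pow_of_lin
    (isom_lin_pow (y := g⁻¹ * y * g) (by
      simpa [y1] using conj_pow (a := g⁻¹) (b := y) (i := r)))) (nondegOn_top hB) (by simp)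
    (Submodule.eq_top_of_finrank_eq ?_).ge (by simp [hn, k1]))
  rw [← a2, LinearEquiv.finrank_map_eq, y2, hn, k1]

theorem mem_spGL_iff' {d : ℕ} (g : GL (Fin d ⊕ Fin d) F) : g ∈ spGL d F ↔
    ∃ h : glEquiv _ F g ∈ Isom (σ := RingHom.id F) (spBilin (Fin d) F) fun _ => 0,
      (⟨_, h⟩ : Isom (σ := RingHom.id F) (spBilin (Fin d) F) fun _ => 0) ∈ (⊤ : Subgroup _) := by
  rw [mem_spGL_iff, mem_om_alt]
  exact ⟨fun h => ⟨⟨h, fun _ => rfl⟩, trivial⟩, fun ⟨h, _⟩ => h.1⟩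

end Cfsg.Agent.H10
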