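import Mathlib
import Cfsg.Agent.H10.Md2

/-! The natural module for `SL₂(F)` inside an ambient group. -/

set_option autoImplicit false
set_option linter.unusedSectionVars false

namespace Cfsg.Agent.H10.Md

open Subgroup Matrix Cfsg.Agent.H19.St
open scoped MatrixGroups commutatorElement

variable {G F : Type*} [Group G] [Field F] {V L T : Subgroup G}

/-- coordinates for the natural module with `T` the upper unitriangular group -/
structure NM (V L T : Subgroup G) (r : SL(2, F) →* G) (ψ : Multiplicative (Fin 2 → F) →* G) : Prop where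
  ri : Function.Injective r
  pi : Function.Injective ψ
  rr : r.range = L
  pr : ψ.range = V
  act : ∀ g z, r g * ψ (.ofAdd z) * (r g)⁻¹ = ψ (.ofAdd (g.1 *ᵥ z))
  mT : ∀ x, x ∈ T ↔ ∃ t, r (xx t) = x

theorem exists_NM [Finite F] {p : ℕ} [Fact p.Prime] [CharP F p] (h : IsNaturalSL2Module F V L)
    (hf : L ⊓ centralizer (V : Set G) = ⊥) (S : Sylow p L) :
    ∃ (r : SL(2, F) →* G) (ψ : Multiplicative (Fin 2 → F) →* G), NM V L (S.1.map L.subtype) r ψ := by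
  obtain ⟨-, ρ, ψ, h1, h2, h3⟩ := h
  let e := MulEquiv.ofBijective ρ ⟨(MonoidHom.ker_eq_bot_iff ρ).1 (by
    rw [h2, ← inf_subgroupOf_left, hf, bot_subgroupOf]), h1⟩
  have := Finite.of_equiv _ e.symm.toEquiv
  obtain ⟨g, -, hg⟩ := (FT.syl_top Fact.out (S.mapSurjective (f := e.toMonoidHom) e.surjective)).syl_trans
    (P22.syl_upper (p := p))
  let θ : (Fin 2 → F) ≃+ Additive V := (DistribMulAction.toAddEquiv _ g⁻¹).trans ψ.symm
  refine ⟨L.subtype.comp ((MulAut.conj g⁻¹).trans e.symm).toMonoidHom,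
    V.subtype.comp (AddMonoidHom.toMultiplicativeLeft θ.toAddMonoidHom),
    L.subtype_injective.comp (MulEquiv.injective _), V.subtype_injective.comp θ.injective, ?_, ?_, fun a z => ?_,
    fun x => ⟨?_, ?_⟩⟩
  · rw [MonoidHom.range_comp, MonoidHom.range_eq_top.2 (MulEquiv.surjective _), ← MonoidHom.range_eq_map, range_subtype]
  · rw [MonoidHom.range_comp, MonoidHom.range_eq_top.2 θ.surjective, ← MonoidHom.range_eq_map, range_subtype]
  · obtain ⟨w, h4, h5⟩ := h3 (e.symm (g⁻¹ * a * g⁻¹⁻¹)) (θ z).toMul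
    refine h4.symm.trans (congrArg Subtype.val (ψ.eq_symm_apply.2 (h5.trans ?_)))
    rw [show ρ (e.symm (g⁻¹ * a * g⁻¹⁻¹)) = _ from e.apply_symm_apply _]
    change (g⁻¹ * a * g⁻¹⁻¹) • ψ (ψ.symm (g⁻¹ • z)) = g⁻¹ • a • z
    rw [ψ.apply_symm_apply, smul_smul, smul_smul, inv_inv, mul_inv_cancel_right]
  · rintro ⟨s, hs, rfl⟩
    obtain ⟨t, ht⟩ := mem_upper.1 (hg.ge (FT.conj_mem_cj.2 ⟨s, hs, rfl⟩))
    refine ⟨t, congrArg Subtype.val (e.symm_apply_eq.2 ?_)⟩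
    rw [← ht]
    simp [mul_assoc]
  · rintro ⟨t, rfl⟩
    obtain ⟨s, hs, h4⟩ := FT.mem_cj.1 (hg.le (mem_upper.2 ⟨t, rfl⟩))
    exact ⟨s, hs, congrArg Subtype.val (e.eq_symm_apply.2 (h4.trans (by simp)))⟩

namespace NM

variable {r : SL(2, F) →* G} {ψ : Multiplicative (Fin 2 → F) →* G} (h : NM V L T r ψ)
include h

theorem mV {v : G} : v ∈ V ↔ ∃ z, ψ (.ofAdd z) = v := by rw [← h.pr]; rfl

theorem mL {v : G} : v ∈ L ↔ ∃ z, r z = v := by rw [← h.rr]; rfl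

theorem comm_iff (g : SL(2, F)) (z : Fin 2 → F) : r g * ψ (.ofAdd z) = ψ (.ofAdd z) * r g ↔ g.1 *ᵥ z = z := by
  rw [← mul_inv_eq_iff_eq_mul, h.act, h.pi.eq_iff, Multiplicative.ofAdd.injective.eq_iff]

omit h in
theorem xx_fix {t : F} (ht : t ≠ 0) (z : Fin 2 → F) : (xx t).1 *ᵥ z = z ↔ z 1 = 0 := by
  simp [funext_iff, Fin.forall_fin_two, mulVec, dotProduct, ht]

theorem mem_cen (z : Fin 2 → F) : ψ (.ofAdd z) ∈ centralizer (T : Set G) ↔ z 1 = 0 := by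
  refine ⟨fun c => (xx_fix one_ne_zero z).1 ((h.comm_iff _ z).1 (c _ ((h.mT _).2 ⟨1, rfl⟩))), fun c x hx => ?_⟩
  obtain ⟨t, rfl⟩ := (h.mT _).1 hx
  exact (h.comm_iff _ z).2 (by simp [funext_iff, Fin.forall_fin_two, mulVec, dotProduct, c])

theorem mem_C {v : G} : v ∈ V ⊓ centralizer (T : Set G) ↔ ∃ a, ψ (.ofAdd ![a, 0]) = v := by
  refine ⟨fun ⟨h1, h2⟩ => ?_, by rintro ⟨a, rfl⟩; exact ⟨h.mV.2 ⟨_, rfl⟩, (h.mem_cen _).2 rfl⟩⟩
  obtain ⟨z, rfl⟩ := h.mV.1 h1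
  exact ⟨z 0, by congr 2; simp [funext_iff, Fin.forall_fin_two, (h.mem_cen _).1 h2]⟩

theorem comm_eq (t : F) (z : Fin 2 → F) : ⁅ψ (.ofAdd z), r (xx t)⁆ = ψ (.ofAdd ![-(t * z 1), 0]) := by
  rw [commutatorElement_def, mul_assoc, mul_assoc, ← mul_assoc (r _), ← map_inv, ← ofAdd_neg, h.act, ← map_mul,
    ← ofAdd_add]
  congr 2
  simp [funext_iff, Fin.forall_fin_two, mulVec, dotProduct, vecHead, vecTail]

theorem comm_le : ⁅V, T⁆ ≤ V ⊓ centralizer (T : Set G) := commutator_le.2 fun v hv s hs => by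
  obtain ⟨z, rfl⟩ := h.mV.1 hv
  obtain ⟨t, rfl⟩ := (h.mT _).1 hs
  exact h.mem_C.2 ⟨_, (h.comm_eq t z).symm⟩

theorem card_V : Nat.card V = Nat.card F ^ 2 := by
  rw [← h.pr, ← Nat.card_congr (MonoidHom.ofInjective h.pi).toEquiv]
  simp [Nat.card_congr Multiplicative.toAdd, Nat.card_fun]

theorem card_C : Nat.card ↥(V ⊓ centralizer (T : Set G)) = Nat.card F :=
  (Nat.card_congr (Equiv.ofBijective (fun a : F => (⟨_, h.mem_C.2 ⟨a, rfl⟩⟩ : ↥(V ⊓ centralizer (T : Set G)))) ⟨fun a b e =>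
    congrFun (Multiplicative.ofAdd.injective (h.pi (congrArg Subtype.val e))) 0, fun ⟨v, hv⟩ =>
      let ⟨a, ha⟩ := h.mem_C.1 hv; ⟨a, Subtype.ext ha⟩⟩)).symm

theorem mem_nrm {g : SL(2, F)} (hg : g.1 1 0 = 0) : r g ∈ normalizer (T : Set G) := by
  have key : ∀ g : SL(2, F), g.1 1 0 = 0 → ∀ x ∈ T, r g * x * (r g)⁻¹ ∈ T := fun g hg x hx => by
    obtain ⟨t, rfl⟩ := (h.mT _).1 hx
    refine (h.mT _).2 ⟨g.1 0 0 ^ 2 * t, ?_⟩
    rw [← map_inv, ← map_mul, ← map_mul, eq_comm]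
    congr 1
    rw [mul_inv_eq_iff_eq_mul]
    have := sl_det g
    rw [hg] at this
    refine sl_ext ?_ ?_ ?_ ?_ <;> simp [H19.St.mul_apply, hg]
    linear_combination (-t * g.1 0 0) * this
  refine mem_normalizer_iff.2 fun x => ⟨key g hg x, fun hx => ?_⟩
  simpa [mul_assoc] using key g⁻¹ (by simp [SpecialLinearGroup.SL2_inv_expl, hg]) _ hx

end NM

end Cfsg.Agent.H10.Md
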