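import Mathlib
import Cfsg.Agent.H7.Rv4

/-! Subgroups of order 15600. -/

set_option autoImplicit false
namespace Cfsg.Agent.H7.Rv
open Cfsg.Agent.H14 MulAction

theorem kpart {H : Type*} [Group H] [Finite H] (hH : Nat.card H = 35942400) {s t i : H}
    (hs : orderOf s = 13) (ht : orderOf t = 4) (hst : s * t = t * s ^ 5) (hi : t * i = i * t ^ 3)
    (hC : Nat.card (Subgroup.centralizer ({s} : Set H)) ≤ 13) {K : Subgroup H}
    (hK : Nat.card K = 15600) : ∃ u : H, u⁻¹ * s * u ∈ K ∧ u⁻¹ * t * u ∈ K ∧ ∃ w : H, u⁻¹ * w * u ∈ K ∧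
      w ∉ Subgroup.zpowers t ∧ w * w ∈ Subgroup.zpowers t ∧
      (t * w = w * t ∨ t * (w * i) = (w * i) * t) := by
  obtain ⟨u, hu⟩ := conjp (p := 13) (m := 2764800) (by norm_num) hH (by norm_num)
    (K := K) (by rw [hK]; norm_num) hs
  let K' : Subgroup H := K.map (MulAut.conj u).toMonoidHom
  have mem : ∀ x, x ∈ K' ↔ u⁻¹ * x * u ∈ K := fun x => by
    rw [Subgroup.mem_map_equiv, MulAut.conj_symm_apply]
  have hK' : Nat.card K' = 15600 := by
    rw [Subgroup.card_map_of_injective (MulAut.conj u).injective, hK]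
  have hz : Subgroup.zpowers s = Subgroup.centralizer ({s} : Set H) :=
    Subgroup.eq_of_le_of_card_ge
      (Subgroup.zpowers_le.2 (Subgroup.mem_centralizer_singleton_iff.2 rfl))
      (by rw [Nat.card_zpowers, hs]; exact hC)
  have hc : ∀ c : H, c * s = s * c → c ∈ Subgroup.zpowers s := fun c h =>
    hz ▸ Subgroup.mem_centralizer_singleton_iff.2 h
  obtain ⟨n, hn, e⟩ := frob hK' hs ((mem s).2 hu) fun c _ h => hc c h
  have h1 : n * t⁻¹ ∈ K' := Subgroup.zpowers_le.2 ((mem s).2 hu) (hc _ (by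
    calc n * t⁻¹ * s = n * t⁻¹ * (s * t) * t⁻¹ := by group
      _ = (n * s ^ 5) * t⁻¹ := by rw [hst]; group
      _ = _ := by rw [← e]; group))
  have h2 : t ∈ K' := by
    have := K'.mul_mem (K'.inv_mem h1) hn
    simpa using this
  obtain ⟨w, hw, h3, h4, h5⟩ := two_elt (by rw [hK']; norm_num) ht h2
  refine ⟨u, hu, (mem t).1 h2, w, (mem w).1 hw, h3, h4, ?_⟩
  rcases h5 with h5 | h5
  · exact Or.inl h5
  · right
    have t4 : t ^ 4 = 1 := ht ▸ pow_orderOf_eq_one t
    have h6 : t ^ 3 * i = i * (t ^ 3) ^ 3 := (SemiconjBy.pow_right (a := i) hi.symm 3).symm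
    rw [← pow_mul, show 3 * 3 = 4 * 2 + 1 from rfl, pow_succ t (4 * 2), pow_mul, t4, one_pow, one_mul] at h6
    rw [← mul_assoc, h5, mul_assoc, h6, mul_assoc]

theorem kfin {H X : Type*} [Group H] [Finite H] [MulAction H X] {K : Subgroup H} (hK : Nat.card K = 15600)
    {s t w : H} (hs : orderOf s = 13) (ht : orderOf t = 4) (sK : s ∈ K) (tK : t ∈ K) (wK : w ∈ K)
    {e f : X} (he : Nat.card (stabilizer H e) = 15600) (h1 : s • e = e) (h2 : t • e = e) (h3 : w • e = e)
    (h4 : s • f = f) (h5 : t • f = f)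
    (h : (orbit (Subgroup.closure ({s, t, w} : Set H)) f).ncard = 300) : K = stabilizer H e := by
  set L := Subgroup.closure ({s, t, w} : Set H) with hL
  have sL : s ∈ L := Subgroup.subset_closure (by simp)
  have tL : t ∈ L := Subgroup.subset_closure (by simp)
  have hLK : L ≤ K := (Subgroup.closure_le _).2 (by
    rintro x (rfl | rfl | rfl) <;> assumption)
  have hLe : L ≤ stabilizer H e := (Subgroup.closure_le _).2 (by
    rintro x (rfl | rfl | rfl) <;> assumption)
  have c1 : Nat.card L = Nat.card (orbit L f) * Nat.card (stabilizer L f) := by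
    rw [← Nat.card_prod]
    exact (Nat.card_congr (orbitProdStabilizerEquivGroup L f)).symm
  rw [Nat.card_coe_set_eq, h] at c1
  have d1 : 13 ∣ Nat.card (stabilizer L f) := by
    have := orderOf_dvd_natCard (⟨⟨s, sL⟩, h4⟩ : stabilizer L f)
    rwa [← Subgroup.orderOf_coe, ← Subgroup.orderOf_coe, hs] at this
  have d2 : 4 ∣ Nat.card (stabilizer L f) := by
    have := orderOf_dvd_natCard (⟨⟨t, tL⟩, h5⟩ : stabilizer L f)
    rwa [← Subgroup.orderOf_coe, ← Subgroup.orderOf_coe, ht] at this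
  have d3 : 0 < Nat.card (stabilizer L f) := Nat.card_pos
  have c2 : 15600 ≤ Nat.card L := by omega
  rw [← Subgroup.eq_of_le_of_card_ge hLK (hK ▸ c2), Subgroup.eq_of_le_of_card_ge hLe (he ▸ c2)]

end Cfsg.Agent.H7.Rv
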