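import Mathlib
import Cfsg.Agent.H10.Ag21
import Cfsg.Agent.H19.TU3

/-! Symplectic tensor factors: basic facts and the first coefficient space. -/

set_option autoImplicit false
set_option maxHeartbeats 400000

namespace Cfsg.Agent.H10.Sw

open Module H10 H11 H19 H19.TW H26 H26.MX Cf

variable {F : Type*} [Field F] {U V : Type*} [AddCommGroup U] [Module F U] [AddCommGroup V] [Module F V]
  {g : U →ₗ[F] U →ₗ[F] F} {ε κ : F} {τ : F →+ F} {B : V →ₗ[F] V →ₗ[F] F} {Q : V → F}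
  {M : Subgroup (V ≃ₗ[F] V)} {ι : End F U →ₐ[F] End F V}

theorem in_add {x y : End F V} (hx : In M x) (hy : In M y) (h : ∀ v, x (y v) = 0) : In M (x + y) :=
  hx.mul hy fun v => by simp [h, add_comm]

theorem in_neg {x : End F V} (hx : In M x) (h : ∀ v, x (x v) = 0) : In M (-x) :=
  let ⟨k, hk, h1⟩ := hx
  ⟨k⁻¹, inv_mem hk, fun v => inv_eq_of (by simp [h1, h])⟩

theorem in_zero : In M (0 : End F V) := ⟨1, one_mem _, by simp⟩

theorem in_cj {w x : End F V} (hw : In M w) (h : ∀ v, w (w v) = 0) (hx : In M x) :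
    In M ((1 + w) * x * (1 - w)) :=
  let ⟨k, hk, h1⟩ := hw
  hx.conj hk fun v => by simp [h1, h]

theorem in_cmm {x y : End F V} (hx : In M x) (hy : In M y) (h1 : ∀ v, x (x v) = 0) (h2 : ∀ v, y (y v) = 0)
    (h3 : ∀ v, x (y (x v)) = 0) (h4 : ∀ v, y (x (y v)) = 0) : In M (x * y - y * x) :=
  (in_cj hx h1 hy).mul (in_neg hy h2) fun v => by simp [h2, h3, h4]; abel

theorem adj_symm (h : Cl (σ := RingHom.id F) ε κ τ B Q) {x y : End F V} (h1 : Adj B x y) : Adj B y x :=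
  fun u v => by rw [h.symm v, ← h1, h.symm (x v)]

theorem adj_mul {x y x' y' : End F V} (h1 : Adj B x x') (h2 : Adj B y y') : Adj B (x * y) (y' * x') :=
  fun u v => by rw [End.mul_apply, h1, h2]; rfl

theorem adj_add {x y x' y' : End F V} (h1 : Adj B x x') (h2 : Adj B y y') : Adj B (x + y) (x' + y') :=
  fun u v => by simp [h1 u v, h2 u v]

theorem adj_smul {x x' : End F V} (c : F) (h1 : Adj B x x') : Adj B (c • x) (c • x') :=
  fun u v => by simp [h1 u v]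

theorem adj_uniq (h : Cl (σ := RingHom.id F) ε κ τ B Q) {x y y' : End F V} (h1 : Adj B x y) (h2 : Adj B x y') :
    y = y' := LinearMap.ext fun v => sub_eq_zero.1 (h.form.separatingRight h.sep fun u => by
  rw [map_sub, ← h1, ← h2, sub_self])

theorem exists_adj [FiniteDimensional F V] (h : Cl (σ := RingHom.id F) ε κ τ B Q) (x : End F V) :
    ∃ y, Adj B x y := by
  choose w hw using fun v => h.exists_B (B v ∘ₗ x)
  have h1 : ∀ v u, B (w v) u = B v (x u) := fun v => LinearMap.congr_fun (hw v)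
  exact ⟨⟨⟨w, fun a b => sub_eq_zero.1 (h.sep _ fun u => by simp [h1])⟩,
    fun c a => sub_eq_zero.1 (h.sep _ fun u => by simp [h1])⟩, adj_symm h h1⟩

theorem isom_adj {k : V ≃ₗ[F] V} (hk : k ∈ Isom B Q) (u v : V) : B (k u) v = B u (k⁻¹ v) := by
  rw [← hk.1 u, app_inv]

/-- a symplectic tensor factor whose group lies in `M` -/
structure Fa (g : U →ₗ[F] U →ₗ[F] F) (ε κ : F) (τ : F →+ F) (B : V →ₗ[F] V →ₗ[F] F) (Q : V → F)
    (M : Subgroup (V ≃ₗ[F] V)) (ι : End F U →ₐ[F] End F V) : Prop where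
  hU : Cl (σ := RingHom.id F) (-1) 0 0 g fun _ => 0
  hV : Cl (σ := RingHom.id F) ε κ τ B Q
  le : M ≤ Isom B Q
  adj : ∀ x y, Adj g x y → Adj B (ι x) (ι y)
  tv : ∀ u (c : F), In M (c • ι (r1 u (g u)))

theorem witt2 [FiniteDimensional F U] (h : Cl (σ := RingHom.id F) (-1) 0 0 g fun _ => 0) {a b a' b' : U}
    (ha : a ≠ 0) (hb : b ∉ F ∙ a) (ha' : a' ≠ 0) (hb' : b' ∉ F ∙ a') (h1 : g a' b' = g a b) :
    ∃ s ∈ Isom g fun _ => (0 : F), s a = a' ∧ s b = b' := by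
  obtain ⟨s, h2, rfl⟩ := h.form.witt_one h.sep ha ha' rfl
  obtain ⟨t, h3, h4, h5⟩ := h.form.witt_step h.sep (F ∙ s a) (u := s b) (u' := b') (fun h3 => hb (by
    obtain ⟨c, hc⟩ := Submodule.mem_span_singleton.1 h3
    exact Submodule.mem_span_singleton.2 ⟨c, s.injective (by simpa using hc)⟩)) hb' rfl fun x hx => by
      obtain ⟨c, rfl⟩ := Submodule.mem_span_singleton.1 hx
      simp [h1, h2.1]
  exact ⟨t * s, mul_mem h3 h2, h4 _ (Submodule.mem_span_singleton_self _), h5⟩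

theorem s_r1 {s : U ≃ₗ[F] U} (hs : s ∈ Isom g fun _ => (0 : F)) (a b : U) :
    r1 (s a) (g (s b)) * s.toLinearMap = s.toLinearMap * r1 a (g b) := by
  ext; simp [hs.1]

theorem orth_ind [FiniteDimensional F U] (h : Cl (σ := RingHom.id F) (-1) 0 0 g fun _ => 0)
    (hm : 3 ≤ finrank F U) {P : U → U → Prop} (h0 : ∀ b, P 0 b) (h1 : ∀ a b c, P a (b + c) → P a c → P a b)
    (h2 : ∀ a b, a ≠ 0 → b ∉ F ∙ a → g a b = 0 → P a b) {a b : U} (hab : g a b = 0) : P a b := by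
  by_cases ha : a = 0
  · exact ha ▸ h0 b
  by_cases hb : b ∈ F ∙ a
  swap
  · exact h2 a b ha hb hab
  obtain ⟨c, h3, h4⟩ := ker_ind hm a (g a)
  have h5 : c ∉ F ∙ a := fun h5 => let ⟨d, hd⟩ := Submodule.mem_span_singleton.1 h5; h4 d hd.symm
  exact h1 a b c (h2 a _ ha (fun h6 => h5 ((add_mem_cancel_left hb).1 h6)) (by simp [hab, h3]))
    (h2 a c ha h5 h3)

namespace Fa
variable (h : Fa g ε κ τ B Q M ι)
include h

theorem gg (a : U) : g a a = 0 := alt_self h.hU a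

theorem gs (a b : U) : g a b = -g b a := by simp [h.hU.symm b a]

theorem conj {k : V ≃ₗ[F] V} (hk : k ∈ M) : Fa g ε κ τ B Q M (cg k ι) :=
  ⟨h.hU, h.hV, h.le, fun x y h1 u v => by
    rw [cg_apply, cg_apply, isom_adj (h.le hk), h.adj x y h1, ← (h.le hk).1, app_inv],
    fun u c => (h.tv u c).conj hk fun v => by simp⟩

theorem Br (a b : U) (v w : V) : B (ι (r1 a (g b)) v) w = -B v (ι (r1 b (g a)) w) := by
  simpa using h.adj _ _ (adj_wg h.hU a b) v w

theorem g_ne {u : U} (hu : u ≠ 0) : g u ≠ 0 := fun h1 => hu (h.hU.sep u fun y => by simp [h1])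

theorem perp_iff {u : U} (hu : u ≠ 0) {v : V} : v ∈ perp B (Xs ι u) ↔ ι (r1 u (g u)) v = 0 :=
  ⟨fun h1 => h.hV.form.separatingRight h.hV.sep fun w => by
    rw [← neg_eq_zero, ← h.Br]; exact h1 _ (ir_mem _ _ _ _), fun h1 x hx => by
    obtain ⟨w, rfl⟩ := xs_range hu (h.g_ne hu) hx
    rw [h.Br, h1, map_zero, neg_zero]⟩

theorem perp_kill {u : U} {v : V} (hv : v ∈ perp B (Xs ι u)) (a : U) : ι (r1 a (g u)) v = 0 :=
  h.hV.form.separatingRight h.hV.sep fun w => by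
    rw [← neg_eq_zero, ← h.Br]; exact hv _ (ir_mem _ _ _ _)

theorem xs_perp {u a : U} (ha : g u a = 0) {v : V} (hv : v ∈ Xs ι a) : v ∈ perp B (Xs ι u) := by
  by_cases hu : u = 0
  · intro x hx; rw [show x = 0 by simpa using hx 1 (by simp [hu])]; simp
  exact (h.perp_iff hu).2 (xs_kill hv _ ha)

theorem in_sy {a b : U} (hab : g a b = 0) (c : F) : In M (c • ι (r1 a (g b)) + c • ι (r1 b (g a))) := by
  convert in_add (h.tv (a + b) c) (in_add (h.tv a (-c)) (h.tv b (-c)) (by simp [hab])) (by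
    simp [hab, h.hU.refl hab, h.gg]) using 1
  simp only [map_add, LinearMap.add_apply]; module

variable [FiniteDimensional F U]

theorem exists_s {s : U ≃ₗ[F] U} (hs : s ∈ Isom g fun _ => (0 : F)) :
    ∃ k ∈ M, ∀ v, k v = ι s.toLinearMap v := by
  let S : Subgroup (U ≃ₗ[F] U) :=
    { carrier := {s | ∃ k ∈ M, ∀ v, k v = ι s.toLinearMap v}
      one_mem' := ⟨1, one_mem _, fun v => by rw [show (1 : U ≃ₗ[F] U).toLinearMap = 1 from rfl, map_one]; rfl⟩
      mul_mem' := by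
        rintro a b ⟨k, h1, h2⟩ ⟨k', h3, h4⟩
        exact ⟨k * k', mul_mem h1 h3, fun v => by rw [mul_app, h2, h4, i_i]; rfl⟩
      inv_mem' := by
        rintro a ⟨k, h1, h2⟩
        exact ⟨k⁻¹, inv_mem h1, fun v => inv_eq_of (by
          rw [h2, i_i, show a.toLinearMap * a⁻¹.toLinearMap = 1 by ext; simp, map_one]; rfl)⟩ }
  refine om_le_of_tv h.hU (M := S) (fun a c => ?_) ((mem_om_alt h.hU).2 hs.1)
  obtain ⟨k, h1, h2⟩ := h.tv a (-c)
  refine ⟨k, h1, fun v => ?_⟩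
  rw [h2, show (h.hU.eich a 0 c).toLinearMap = 1 + (-c) • r1 a (g a) by
    ext x; simp [h.hU.eich_apply rfl (map_zero _), smul_smul, sub_eq_add_neg]]
  simp

theorem cm_adj {e e' : End F V} (he : Cm ι e) (h1 : Adj B e e') : Cm ι e' := fun y v => by
  obtain ⟨y', h2⟩ := exists_adj h.hU y
  have h3 := h.adj _ _ (adj_symm h.hU h2)
  refine sub_eq_zero.1 (h.hV.form.separatingRight h.hV.sep fun u => ?_)
  rw [map_sub, ← h1, ← h3, ← h3, ← h1, he, sub_self]

/-- the first coefficient space -/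
def E1 : Submodule F (End F V) where
  carrier := {e | Cm ι e ∧ ∀ a (c : F), In M (c • ι (r1 a (g a)) * e)}
  zero_mem' := ⟨fun _ _ => by simp, fun _ _ => by simpa using in_zero⟩
  add_mem' ha hb := ⟨fun y v => by simp [ha.1 y, hb.1 y], fun a c => by
    rw [mul_add]; exact in_add (ha.2 a c) (hb.2 a c) fun v => by simp [ha.1 _, h.gg]⟩
  smul_mem' d e ha := ⟨fun y v => by simp [ha.1 y], fun a c => by
    simpa [smul_smul, mul_comm] using ha.2 a (c * d)⟩

theorem one_mem_e1 : 1 ∈ h.E1 := ⟨fun _ _ => rfl, fun a c => by simpa using h.tv a c⟩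

theorem mem_e1 [Finite F] {e : End F V} (he : Cm ι e) {u : U} (hu : u ≠ 0) (h1 : In M (ι (r1 u (g u)) * e)) :
    e ∈ h.E1 := by
  have h2 : ∀ a, In M (ι (r1 a (g a)) * e) := fun a => by
    by_cases ha : a = 0
    · simpa [ha] using in_zero
    obtain ⟨s, h2, rfl⟩ := h.hU.form.witt_one h.hU.sep hu ha rfl
    obtain ⟨k, h3, h4⟩ := h.exists_s h2
    exact h1.conj h3 fun v => by simp only [End.mul_apply, h4, he _, i_i, s_r1 h2]
  have h3 : ∀ a (d : F), In M ((d * d) • ι (r1 a (g a)) * e) := fun a d => by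
    simpa [smul_smul] using h2 (d • a)
  refine ⟨he, fun a c => ?_⟩
  by_cases h4 : (2 : F) = 0
  · obtain ⟨d, rfl⟩ := FiniteField.isSquare_of_char_two
      (CharP.ringChar_of_prime_eq_zero Nat.prime_two (by exact_mod_cast h4)) c
    exact h3 a d
  convert in_add (h3 a ((c + 1) / 2)) (in_neg (h3 a ((c - 1) / 2)) (by simp [he _, h.gg]))
    (by simp [he _, h.gg]) using 1
  rw [← sub_eq_add_neg, ← sub_mul, ← sub_smul]; congr 2; field_simp; ring

theorem e1_adj {e : End F V} (he : e ∈ h.E1) : Adj B e e := fun v w => by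
  rw [← sum_ir ι w, map_sum, map_sum, map_sum]
  refine Finset.sum_congr rfl fun j _ => ?_
  have h1 := ir_mem ι (finBasis F U j) ((finBasis F U).coord j) w
  obtain ⟨x, hx⟩ := xs_range ((finBasis F U).ne_zero j) (h.g_ne ((finBasis F U).ne_zero j)) h1
  obtain ⟨k, h2, h3⟩ := he.2 (finBasis F U j) 1
  have := (h.le h2).1 v x
  simp only [h3, map_add, LinearMap.add_apply, one_smul, End.mul_apply, h.Br, ir_ir, h.gg, zero_smul,
    map_zero] at this
  rw [hx, he.1]; linear_combination -this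

theorem e1_conj {k : V ≃ₗ[F] V} (hk : k ∈ M) (h1 : Cm ι k.toLinearMap) {e e' : End F V} (he : e ∈ h.E1)
    (h2 : ∀ v, e' (k v) = k (e v)) : e' ∈ h.E1 := by
  replace h1 : ∀ y v, k (ι y v) = ι y (k v) := h1
  exact ⟨fun y v => by rw [← app_inv k v, ← h1, h2, h2, he.1, h1],
    fun a c => (he.2 a c).conj hk fun v => by simp [h2, h1]⟩

theorem e1_U [Finite F] [Nontrivial U] {s e f : End F V} (hs : s ∈ h.E1) (he : e ∈ h.E1) (hf : f ∈ h.E1)
    (h1 : ∀ v, e (s v) = v) (h1' : ∀ v, s (e v) = v) : s * f * s ∈ h.E1 := by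
  obtain ⟨b, hb⟩ := exists_ne (0 : U)
  obtain ⟨a, ha⟩ := h.hU.form.exists_right_eq_one h.hU.sep hb
  obtain ⟨k, h2, h3⟩ := he.2 a 1
  obtain ⟨k', h4, h5⟩ := hs.2 b 1
  refine h.mem_e1 (fun y v => by simp [hs.1 _, hf.1 _]) hb ((hf.2 a 1).conj (mul_mem h2 h4) fun v => ?_)
  simp [mul_app, h3, h5, hs.1 _, he.1 _, hf.1 _, h1, h1', ha, h.hU.flip_one ha, h.gg]

theorem e1_jordan [Finite F] [Nontrivial U] (h2 : (2 : F) ≠ 0) {e f : End F V} (he : e ∈ h.E1)
    (hf : f ∈ h.E1) (h1 : ∀ v, e (e v) = 0) : e * f + f * e ∈ h.E1 := by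
  have h3 := add_mem h.one_mem_e1 he
  have h4 := sub_mem h.one_mem_e1 he
  rw [← Submodule.smul_mem_iff _ h2]
  convert sub_mem (h.e1_U h3 h4 hf (by simp [h1]) (by simp [h1]))
    (h.e1_U h4 h3 hf (by simp [h1]) (by simp [h1])) using 1
  rw [two_smul]; noncomm_ring

theorem e1_mul [Finite F] [Nontrivial U] (h2 : (2 : F) ≠ 0) {e f : End F V} (he : e ∈ h.E1)
    (hf : f ∈ h.E1) (h1 : ∀ v, e (e v) = 0) (h3 : e * f = f * e) : e * f ∈ h.E1 := by
  rw [← Submodule.smul_mem_iff _ h2, two_smul]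
  simpa only [← h3] using h.e1_jordan h2 he hf h1

theorem eq_coef {u : U} (hu : u ≠ 0) {D : End F V} (h1 : ∀ v, D v ∈ Xs ι u)
    (h2 : ∀ v ∈ perp B (Xs ι u), D v = 0) : ∃ e, Cm ι e ∧ D = ι (r1 u (g u)) * e := by
  obtain ⟨χ, hχ⟩ := exists_dual_one (F := F) hu
  obtain ⟨b, hb⟩ := h.hU.form.exists_right_eq_one h.hU.sep hu
  obtain ⟨e, h3, h4, -⟩ := coef ι χ b D
  refine ⟨e, h3, LinearMap.ext fun v => ?_⟩
  rw [End.mul_apply, ← h4, xs_eq (h1 _) hχ, ← sub_eq_zero, ← map_sub]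
  exact h2 _ ((h.perp_iff hu).2 (by simp [hb]))

end Fa

end Cfsg.Agent.H10.Sw
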