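import Mathlib
import Cfsg.Agent.H10.Sw1
import Cfsg.Agent.H19.TX5

/-! Symplectic tensor factors: generation of the whole group and the second coefficient space. -/

set_option autoImplicit false
set_option maxHeartbeats 400000

namespace Cfsg.Agent.H10.Sw

open Module H10 H11 H19 H19.TW H26 H26.MX Cf

variable {F : Type*} [Field F] {U V : Type*} [AddCommGroup U] [Module F U] [AddCommGroup V] [Module F V]
  {g : U →ₗ[F] U →ₗ[F] F} {ε κ : F} {τ : F →+ F} {B : V →ₗ[F] V →ₗ[F] F} {Q : V → F}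
  {M : Subgroup (V ≃ₗ[F] V)} {ι : End F U →ₐ[F] End F V}

theorem xs_smul {u : U} {v : V} (hv : v ∈ Xs ι u) (hu : u ≠ 0) (φ : Dual F U) : ι (r1 u φ) v = φ u • v := by
  obtain ⟨χ, hχ⟩ := exists_dual_one (F := F) hu
  conv_lhs => rw [← xs_eq hv hχ]
  rw [ir_ir, xs_eq hv hχ]

variable [FiniteDimensional F U] [FiniteDimensional F V]

theorem finrank_le_xs (ι : End F U →ₐ[F] End F V) {u : U} (hu : u ≠ 0) :
    finrank F V ≤ finrank F U * finrank F (Xs ι u) := by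
  let L : V →ₗ[F] (Fin (finrank F U) → Xs ι u) :=
    LinearMap.pi fun k => (ι (r1 u ((finBasis F U).coord k))).codRestrict _ (ir_mem ι u _)
  have := LinearMap.finrank_le_finrank_of_injective (f := L) ((injective_iff_map_eq_zero _).2 fun v hv => by
    obtain ⟨χ, hχ⟩ := exists_dual_one (F := F) hu
    rw [← sum_ir ι v]
    exact Finset.sum_eq_zero fun k _ => by
      simpa [hχ, L] using congrArg (fun x => ι (r1 (finBasis F U k) χ) (x k : V)) hv)
  simpa [finrank_pi_fintype] using this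

theorem three_le_xs (hd : 2 * finrank F U < finrank F V) {u : U} (hu : u ≠ 0) : 3 ≤ finrank F (Xs ι u) := by
  have := finrank_le_xs ι hu
  by_contra h
  nlinarith

omit [FiniteDimensional F V] in
theorem sum_perp (ι : End F U →ₐ[F] End F V) (φ : Dual F U) (b : U) (v : V) :
    v = ι (r1 b φ) v + ∑ k, ι (r1 (finBasis F U k - φ (finBasis F U k) • b) ((finBasis F U).coord k)) v := by
  have h1 : ∑ k, φ (finBasis F U k) • ι (r1 b ((finBasis F U).coord k)) v = ι (r1 b φ) v := by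
    conv_rhs => rw [← (finBasis F U).sum_dual_apply_smul_coord φ]
    simp [-Basis.sum_dual_apply_smul_coord]
  simp only [map_sub, map_smul, LinearMap.sub_apply, LinearMap.smul_apply, Finset.sum_sub_distrib, sum_ir, h1]
  abel

namespace Fa
variable (h : Fa g ε κ τ B Q M ι)
include h

omit [FiniteDimensional F U] [FiniteDimensional F V] in
theorem proj {u a : U} (hu : u ≠ 0) (h1 : g u a ≠ 0) (w : V) : ∃ x ∈ Xs ι a, ∀ y ∈ Xs ι u, B y x = B y w :=
  ⟨(g u a)⁻¹ • ι (r1 a (g u)) w, Submodule.smul_mem _ _ (ir_mem _ _ _ _), fun y hy => by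
    have := h.Br u a y w
    rw [xs_smul hy hu, map_smul, LinearMap.smul_apply, h.gs a u, smul_eq_mul, neg_mul, neg_inj] at this
    rw [map_smul, ← this, smul_eq_mul, inv_mul_cancel_left₀ h1]⟩

theorem om_le [Finite F] (h2 : τ = 0 → (2 : F) ≠ 0) (hs : ∀ u, ∀ x ∈ Xs ι u, Q x = 0)
    (hd : 2 * finrank F U < finrank F V) [Nontrivial U] (hall : ∀ e e', Cm ι e → Adj B e e' → e + e' ∈ h.E1) :
    h.hV.Om ≤ M := by
  have h0 : ∀ {u x x'}, x ∈ Xs ι u → x' ∈ Xs ι u → B x x' = 0 := fun hx hx' => h.xs_perp (h.gg _) hx' _ hx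
  have h1 : ∀ {u x x'}, x ∈ Xs ι u → x' ∈ Xs ι u → h.hV.eich x x' 0 ∈ M := fun {u x x'} hx hx' => by
    by_cases hu : u = 0
    · rw [show x = 0 by simpa using hx 1 (by simp [hu]), h.hV.eich_zero_left]; exact one_mem _
    obtain ⟨e, h3, h4⟩ := h.eq_coef hu (D := (B x').smulRight x) (fun v => Submodule.smul_mem _ _ hx)
      fun v hv => by simp [hv x' hx']
    obtain ⟨e', h5⟩ := exists_adj h.hV e
    obtain ⟨k, h6, h7⟩ := (hall e e' h3 h5).2 u 1
    have h8 : ∀ v, ι (r1 u (g u)) (e v) = B x' v • x := fun v => (LinearMap.congr_fun h4 v).symm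
    have h9 : ∀ v, ι (r1 u (g u)) (e' v) = -(ε * B x v) • x' := fun v =>
      sub_eq_zero.1 (h.hV.form.separatingRight h.hV.sep fun w => by
        rw [map_sub, ← h.cm_adj h3 h5, ← h5, ← neg_neg (B _ _), ← h.Br, h8]
        simp [h.hV.symm x' w]; linear_combination (B x' w * B x v) * h.hV.eps_mul)
    rwa [show h.hV.eich x x' 0 = k from LinearEquiv.ext fun v => by
      simp [h.hV.eich_apply (hs u x hx) (h0 hx hx'), h7, h8, h9, sub_eq_add_neg, add_assoc]]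
  have h3 : ∀ {u v₀}, u ≠ 0 → v₀ ∈ Xs ι u → h.hV.Full M v₀ := fun {u v₀} hu hv => by
    have h3 : ∀ {a x x' y}, x ∈ Xs ι a → x' ∈ Xs ι a → B x v₀ = 0 → B x' v₀ = 0 → y ∈ h.hV.Arm M v₀ →
        B y x = 0 → B y x' = 1 → x ∈ h.hV.Arm M v₀ := fun {a x x' y} hx hx' h3 h4 h5 h6 h7 => by
      have := h.hV.map_mem_arm h.le (h1 hx hx') (h.hV.eich_fix 0 h3 h4) h5
      rw [h.hV.eich_of_perp (hs a x hx) (h0 hx hx') _ (h.hV.refl h6), h.hV.flip_one h7] at this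
      exact (Submodule.smul_mem_iff _ h.hV.eps_ne).1 (by simpa using sub_mem this h5)
    have h4 : ∀ y ∈ Xs ι u, y ∈ h.hV.Arm M v₀ := fun y hy c =>
      (h.hV.mem_ar (hs u _ hv)).2 ⟨h0 hv (Submodule.smul_mem _ _ hy), 0, by
        simp [hs u _ (Submodule.smul_mem _ c hy)], h1 hv (Submodule.smul_mem _ _ hy)⟩
    have h5 : ∀ a, g u a ≠ 0 → ∀ x ∈ Xs ι a, B v₀ x = 0 → x ∈ h.hV.Arm M v₀ := fun a ha x hx h5 => by
      have d1 := three_le_xs (ι := ι) hd hu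
      have d2 := H10.finrank_le_inf_ker (Xs ι u) (B.flip x)
      have d3 := H10.finrank_span_one_le (F := F) v₀
      obtain ⟨y, h6, h7⟩ := exists_mem_notMem (W := Xs ι u ⊓ LinearMap.ker (B.flip x)) (Z := F ∙ v₀) (by omega)
      obtain ⟨w, h8, h9⟩ := h.hV.form.exists_perp_not h.hV.sep h7
      obtain ⟨x', h10, h11⟩ := h.proj hu ha w
      exact h3 hx h10 (h.hV.refl h5) (h.hV.refl ((h11 _ hv).trans (h8 _ (Submodule.mem_span_singleton_self _))))
        (h4 y h6.1) h6.2 ((h11 _ h6.1).trans h9)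
    have h6 : ∀ a, g u a = 0 → ∀ x ∈ Xs ι a, x ∈ h.hV.Arm M v₀ := fun a ha x hx => by
      by_cases h6 : a = 0
      · rw [show x = 0 by simpa using hx 1 (by simp [h6])]; exact zero_mem _
      obtain ⟨b, -, h7, h8⟩ := exists_mem_ne_ne (U := ⊤) (g u) (g a) (by simpa using h.hU.exists_ne hu)
        (by simpa using h.hU.exists_ne h6)
      have hb : b ≠ 0 := by rintro rfl; simp at h7
      have d1 := three_le_xs (ι := ι) hd hb
      have d2 := H10.finrank_le_inf_ker (Xs ι b) (B.flip x)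
      have d3 := H10.finrank_le_inf_ker (Xs ι b ⊓ LinearMap.ker (B.flip x)) (B v₀)
      obtain ⟨y, h9, h10⟩ := exists_ne_zero_of_finrank
        (W := Xs ι b ⊓ LinearMap.ker (B.flip x) ⊓ LinearMap.ker (B v₀)) (by omega)
      obtain ⟨w, h11⟩ := h.hV.form.exists_right_eq_one h.hV.sep h10
      obtain ⟨x', h12, h13⟩ := h.proj hb (h.hU.refl_ne h8) w
      exact h3 hx h12 (h.hV.refl (h.xs_perp ha hx _ hv)) (h.hV.refl (h.xs_perp ha h12 _ hv))
        (h5 b h7 y h9.1.1 h9.2) h9.1.2 ((h13 _ h9.1.1).trans h11)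
    have h7 : ∀ y, B v₀ y = 0 → y ∈ h.hV.Ar M v₀ := fun y hy => h.hV.ar_of_arm (by
      obtain ⟨b, hb⟩ := h.hU.form.exists_right_eq_one h.hU.sep hu
      rw [sum_perp ι (g u) b y]
      refine add_mem (h5 b (by simp [hb]) _ (ir_mem _ _ _ _) ?_)
        (Submodule.sum_mem _ fun k _ => h6 _ (by simp [hb]) _ (ir_mem _ _ _ _))
      rw [← neg_eq_zero, ← h.Br, xs_smul hv hu]; simp [hy])
    have : 0 < finrank F U := finrank_pos
    exact h.hV.full_of_ar (hs u _ hv) h7 fun c hc => h.hV.center_of_ar (by omega) h2 (hs u _ hv) h7 hc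
  obtain ⟨u, hu⟩ := exists_ne (0 : U)
  obtain ⟨b, hb⟩ := h.hU.form.exists_right_eq_one h.hU.sep hu
  obtain ⟨v, h4, h5⟩ := exists_ne_zero_of_finrank (W := Xs ι u) (by have := three_le_xs (ι := ι) hd hu; omega)
  obtain ⟨w, h6⟩ := h.hV.form.exists_right_eq_one h.hV.sep h5
  obtain ⟨x, h7, h8⟩ := h.proj hu (a := b) (by simp [hb]) w
  exact h.hV.om_le_of_full h.le (h3 hu h4) (h3 (by rintro rfl; simp at hb) h7) (by simp [h8 v h4, h6])

omit [FiniteDimensional F V] in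
/-- the second coefficient space -/
def E2 : Submodule F (End F V) where
  carrier := {e | Cm ι e ∧ ∃ e', Adj B e e' ∧ ∀ a b, g a b = 0 → ∃ f, Cm ι f ∧
    In M (ι (r1 a (g b)) * e + ι (r1 b (g a)) * e' + ι (r1 a (g a)) * f)}
  zero_mem' := ⟨fun _ _ => by simp, 0, fun _ _ => by simp, fun _ _ _ => ⟨0, fun _ _ => by simp, by
    simpa using in_zero⟩⟩
  add_mem' := by
    rintro e d ⟨h1, e', h2, h3⟩ ⟨h4, d', h5, h6⟩
    refine ⟨fun y v => by simp [h1 y, h4 y], _, adj_add h2 h5, fun a b hab => ?_⟩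
    obtain ⟨f, h7, h8⟩ := h3 a b hab
    obtain ⟨f', h9, h10⟩ := h6 a b hab
    exact ⟨f + f', fun y v => by simp [h7 y, h9 y], h8.mul h10 fun v => by
      simp [h1 _, h7 _, h.cm_adj h1 h2 _, h.gg, hab, h.hU.refl hab]; abel⟩
  smul_mem' := by
    rintro c e ⟨h1, e', h2, h3⟩
    refine ⟨fun y v => by simp [h1 y], _, adj_smul c h2, fun a b hab => ?_⟩
    simpa using h3 a (c • b) (by simp [hab])

omit [FiniteDimensional F V] in
theorem e1_le_e2 {e : End F V} (he : e ∈ h.E1) : e ∈ h.E2 :=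
  ⟨he.1, e, h.e1_adj he, fun a b hab => ⟨0, fun _ _ => by simp, by
    convert in_add (he.2 (a + b) 1) (in_add (he.2 a (-1)) (he.2 b (-1)) (by simp [he.1 _, hab])) (by
      simp [he.1 _, hab, h.hU.refl hab, h.gg]) using 1
    ext v; simp; abel⟩⟩

theorem exists_yy (hm : 3 ≤ finrank F U) (a : U) : ∃ y y', g a y = 0 ∧ g a y' = 0 ∧ g y y' = 1 := by
  obtain ⟨y, y', h1, h2, h3⟩ := TA.exists_hyp h.hU (F ∙ a) (by have := H10.finrank_span_one_le (F := F) a; omega)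
  exact ⟨y, y', h1 a (Submodule.mem_span_singleton_self a), h2 a (Submodule.mem_span_singleton_self a), h3⟩

theorem e2_rel [Finite F] (hm : 3 ≤ finrank F U) {e e' d d' : End F V} (he : e ∈ h.E2) (hd : d ∈ h.E2)
    (h1 : Adj B e e') (h2 : Adj B d d') : e * d' + d * e' ∈ h.E1 := by
  have : Nontrivial U := Module.nontrivial_of_finrank_pos (R := F) (by omega)
  obtain ⟨a, ha⟩ := exists_ne (0 : U)
  obtain ⟨y, y', h3, h4, h5⟩ := h.exists_yy hm a
  obtain ⟨h6, _, h7, h8⟩ := he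
  obtain ⟨h9, _, h10, h11⟩ := hd
  obtain rfl := adj_uniq h.hV h1 h7
  obtain rfl := adj_uniq h.hV h2 h10
  obtain ⟨f, h12, h13⟩ := h8 a y h3
  obtain ⟨f', h14, h15⟩ := h11 a y' h4
  have h16 := h.cm_adj h6 h1
  have h17 := h.cm_adj h9 h2
  refine h.mem_e1 (fun y v => by simp [h6 y, h9 y, h16 y, h17 y]) ha ?_
  convert in_cmm h13 h15 ?_ ?_ ?_ ?_ using 1
  all_goals first | ext v | intro v
  all_goals simp [h6 _, h9 _, h12 _, h14 _, h16 _, h17 _, h.gg, h3, h4, h5, h.hU.refl h3, h.hU.refl h4,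
    h.hU.flip_one h5]

omit [FiniteDimensional F V] in
theorem e2_conj {k : V ≃ₗ[F] V} (hk : k ∈ M) (h1 : Cm ι k.toLinearMap) {e d : End F V} (he : e ∈ h.E2)
    (h2 : ∀ v, d (k v) = k (e v)) : d ∈ h.E2 := by
  replace h1 : ∀ y v, k (ι y v) = ι y (k v) := h1
  have h3 : ∀ y v, k⁻¹ (ι y v) = ι y (k⁻¹ v) := fun y v => inv_eq_of (by rw [h1, app_inv])
  obtain ⟨h4, e', h5, h6⟩ := he
  refine ⟨fun y v => by rw [← app_inv k v, ← h1, h2, h2, h4, h1], k.conjAlgEquiv F e', fun u v => by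
    rw [← app_inv k u, h2, cj_app, (h.le hk).1, isom_adj (h.le hk), h5], fun a b hab => ?_⟩
  obtain ⟨f, h7, h8⟩ := h6 a b hab
  exact ⟨k.conjAlgEquiv F f, fun y v => by simp only [cj_app, h3, h7 _, h1], h8.conj hk fun v => by
    simp only [LinearMap.add_apply, End.mul_apply, cj_app, inv_app, h2, map_add, h1]⟩

omit [FiniteDimensional F V] in
theorem mem_e2 (hm : 3 ≤ finrank F U) {e e' f : End F V} (he : Cm ι e) (h1 : Adj B e e') (hf : Cm ι f) {u y : U}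
    (hu : u ≠ 0) (hy : y ∉ F ∙ u) (h2 : g u y = 0)
    (h3 : In M (ι (r1 u (g y)) * e + ι (r1 y (g u)) * e' + ι (r1 u (g u)) * f)) : e ∈ h.E2 := by
  have h4 := h.cm_adj he h1
  refine ⟨he, e', h1, fun a b hab => (orth_ind h.hU hm (P := fun a b => g a b = 0 ∧ ∃ f, Cm ι f ∧
    In M (ι (r1 a (g b)) * e + ι (r1 b (g a)) * e' + ι (r1 a (g a)) * f)) (fun b => ⟨by simp, 0,
      fun _ _ => by simp, by simpa using in_zero⟩) ?_ (fun a b ha hb hab => ⟨hab, f, hf, ?_⟩) hab).2⟩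
  · rintro a b c ⟨h5, f, h6, h7⟩ ⟨h8, f', h9, h10⟩
    have h11 : g a b = 0 := by simpa [h8] using h5
    refine ⟨h11, f - f' - g b c • (e * e'), fun y v => by simp [h6 y, h9 y, he y, h4 y],
      h7.mul (in_neg h10 fun v => ?_) fun v => ?_⟩
    all_goals simp [he _, h4 _, h6 _, h9 _, h.gg, h8, h11, h.hU.refl h8, h.hU.refl h11]
    abel
  · obtain ⟨s, h5, rfl, rfl⟩ := witt2 h.hU hu hy ha hb (hab.trans h2.symm)
    obtain ⟨k, h6, h7⟩ := h.exists_s h5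
    exact h3.conj h6 fun v => by
      simp only [LinearMap.add_apply, End.mul_apply, map_add, h7, he _, h4 _, hf _, i_i, s_r1 h5]

theorem coef_e2 (hm : 3 ≤ finrank F U) {u y : U} (hu : u ≠ 0) (hy : g u y = 0) {D : End F V} (hD : In M D)
    (h1 : ∀ x ∈ Xs ι u, D x = 0) (h2 : ∀ v ∈ perp B (Xs ι u), D v ∈ Xs ι u) :
    ∃ e ∈ h.E2, ∀ φ v, D (ι (r1 y φ) v) = ι (r1 u φ) (e v) := by
  by_cases h3 : y ∈ F ∙ u
  · obtain ⟨c, rfl⟩ := Submodule.mem_span_singleton.1 h3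
    exact ⟨0, zero_mem _, fun φ v => by simp [h1 _ (ir_mem _ _ _ _)]⟩
  obtain ⟨χ, hχ⟩ := exists_dual_one (F := F) hu
  obtain ⟨e, h4, h5, -⟩ := coef ι χ y D
  have h6 : ∀ φ v, D (ι (r1 y φ) v) = ι (r1 u φ) (e v) := fun φ v => by
    rw [← h5, xs_eq (h2 _ (h.xs_perp hy (ir_mem _ _ _ _))) hχ]
  obtain ⟨e', h7⟩ := exists_adj h.hV e
  have h8 := h.cm_adj h4 h7
  obtain ⟨k, h9, h10⟩ := hD
  have h11 : ∀ v, ι (r1 y (g y)) (k⁻¹ v) = ι (r1 y (g y)) v + ι (r1 y (g u)) (e' v) := fun v =>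
    sub_eq_zero.1 (h.hV.form.separatingRight h.hV.sep fun w => by
      rw [map_sub, ← neg_neg (B w (ι _ (k⁻¹ v))), ← h.Br, ← isom_adj (h.le h9), h10, h6]
      simp [h.Br, ← h8 _, ← h7 _]; ring)
  refine ⟨e, h.mem_e2 hm h4 h7 (f := e * e') (fun y v => by simp [h4 y, h8 y]) hu h3 hy
    (((h.tv y 1).conj (y := k.conjAlgEquiv F (ι (r1 y (g y)))) h9 fun v => by simp [cj_app]).mul
      (h.tv y (-1)) fun v => ?_), h6⟩
  rw [cj_app, cj_app, h11, h11, h10, h10]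
  simp [h6, h4 _, h8 _, h.gg, hy, h.hU.refl hy]; abel

end Fa

/-- a symplectic tensor factor with scalar coefficients -/
structure St (g : U →ₗ[F] U →ₗ[F] F) (ε κ : F) (τ : F →+ F) (B : V →ₗ[F] V →ₗ[F] F) (Q : V → F)
    (M : Subgroup (V ≃ₗ[F] V)) (ι : End F U →ₐ[F] End F V) : Prop extends Fa g ε κ τ B Q M ι where
  sc1 : ∀ u, u ≠ 0 → ∀ D, In M D → (∀ v, D v ∈ Xs ι u) → (∀ v ∈ perp B (Xs ι u), D v = 0) →
    ∃ c : F, D = c • ι (r1 u (g u))
  sc2 : 3 ≤ finrank F U → ∀ u, u ≠ 0 → ∀ D, In M D → (∀ x ∈ Xs ι u, D x = 0) →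
    (∀ v ∈ perp B (Xs ι u), D v ∈ Xs ι u) → ∃ y, ∀ v ∈ perp B (Xs ι u), D v = ι (r1 u (g y)) v

theorem Fa.st [Finite F] (h : Fa g ε κ τ B Q M ι) (h1 : ∀ e ∈ h.E1, ∃ c : F, ∀ v, e v = c • v)
    (h2 : 3 ≤ finrank F U → ∀ e ∈ h.E2, ∃ c : F, ∀ v, e v = c • v) : St g ε κ τ B Q M ι := by
  refine ⟨h, fun u hu D h3 h4 h5 => ?_, fun hm u hu D h3 h4 h5 => ?_⟩
  · obtain ⟨e, h6, rfl⟩ := h.eq_coef hu h4 h5
    obtain ⟨c, hc⟩ := h1 e (h.mem_e1 h6 hu h3)
    exact ⟨c, LinearMap.ext fun v => by simp [hc]⟩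
  obtain ⟨b, hb⟩ := h.hU.form.exists_right_eq_one h.hU.sep hu
  have h6 : ∀ k, ∃ c : F, ∀ φ v, D (ι (r1 (finBasis F U k - g u (finBasis F U k) • b) φ) v) =
      c • ι (r1 u φ) v := fun k => by
    obtain ⟨e, h6, h7⟩ := h.coef_e2 hm hu (y := finBasis F U k - g u (finBasis F U k) • b) (by simp [hb]) h3 h4 h5
    obtain ⟨c, hc⟩ := h2 hm e h6
    exact ⟨c, fun φ v => by rw [h7, hc, map_smul]⟩
  choose l hl using h6
  obtain ⟨y, hy⟩ := h.hU.exists_B (∑ k, l k • (finBasis F U).coord k)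
  refine ⟨y, fun v hv => ?_⟩
  conv_lhs => rw [sum_perp ι (g u) b v, h.perp_kill hv, zero_add, map_sum]
  simp only [hl, hy, map_sum, map_smul, LinearMap.sum_apply, LinearMap.smul_apply]

omit [FiniteDimensional F U] [FiniteDimensional F V] in
theorem St.conj (h : St g ε κ τ B Q M ι) {k : V ≃ₗ[F] V} (hk : k ∈ M) : St g ε κ τ B Q M (cg k ι) := by
  have h1 : ∀ u v, v ∈ perp B (Xs ι u) → k v ∈ perp B (Xs (cg k ι) u) := fun u v hv x hx => by
    rw [← app_inv k x, (h.le hk).1]; exact hv _ (mem_xs_cg.1 hx)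
  have h2 : ∀ u v, v ∈ perp B (Xs (cg k ι) u) → k⁻¹ v ∈ perp B (Xs ι u) := fun u v hv x hx => by
    rw [← isom_adj (h.le hk)]; exact hv _ (mem_xs_cg.2 (by rwa [inv_app]))
  have h3 : ∀ D, In M D → In M (k⁻¹.toLinearMap * D * k.toLinearMap) := fun D hD =>
    hD.conj (inv_mem hk) fun v => by simp
  refine ⟨h.toFa.conj hk, fun u hu D h4 h5 h6 => ?_, fun hm u hu D h4 h5 h6 => ?_⟩
  · obtain ⟨c, hc⟩ := h.sc1 u hu _ (h3 D h4) (fun v => mem_xs_cg.1 (h5 _)) fun v hv => by simp [h6 _ (h1 u v hv)]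
    exact ⟨c, LinearMap.ext fun v => by simpa using congrArg k (LinearMap.congr_fun hc (k⁻¹ v))⟩
  · obtain ⟨y, hy⟩ := h.sc2 hm u hu _ (h3 D h4) (fun x hx => by
      simp [h5 (k x) (mem_xs_cg.2 (by rwa [inv_app]))]) fun v hv => mem_xs_cg.1 (h6 _ (h1 u v hv))
    exact ⟨y, fun v hv => by simpa using congrArg k (hy _ (h2 u v hv))⟩

end Cfsg.Agent.H10.Sw
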