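import Mathlib
import Cfsg.Agent.H10.Sw2

/-! Symplectic tensor factors: invariant subspaces of the endomorphism algebra. -/

set_option autoImplicit false
set_option maxHeartbeats 400000

namespace Cfsg.Agent.H10.Sw

open Module H10 H11 H19 H19.TW H26 H26.MX Cf

variable {F : Type*} [Field F] {U V : Type*} [AddCommGroup U] [Module F U] [AddCommGroup V] [Module F V]
  {g : U →ₗ[F] U →ₗ[F] F} {ι : End F U →ₐ[F] End F V} [FiniteDimensional F U]

/-- matrix coefficients -/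
noncomputable def cf (ι : End F U →ₐ[F] End F V) (e : End F V) : Dual F U →ₗ[F] U →ₗ[F] End F V :=
  LinearMap.mk₂ F (fun χ a => ∑ k, ι (r1 (finBasis F U k) χ) * e * ι (r1 a ((finBasis F U).coord k)))
    (by simp [add_mul, Finset.sum_add_distrib]) (by simp [Finset.smul_sum])
    (by simp [mul_add, Finset.sum_add_distrib]) (by simp [Finset.smul_sum])

theorem cf_eq (e : End F V) (u : U) (χ : Dual F U) (a : U) (φ : Dual F U) (v : V) :
    ι (r1 u χ) (e (ι (r1 a φ) v)) = ι (r1 u φ) (cf ι e χ a v) := by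
  conv_lhs => rw [← (finBasis F U).sum_dual_apply_smul_coord φ]
  simp [cf, -Basis.sum_dual_apply_smul_coord]

theorem cf_cm (e : End F V) (χ : Dual F U) (a : U) : Cm ι (cf ι e χ a) := cm_of fun u φ v => by
  rw [← cf_eq]
  conv_rhs => rw [← (finBasis F U).sum_repr u]
  simp [cf, -Basis.sum_repr]

theorem cf_comm {e z : End F V} (h1 : Cm ι z) (h2 : ∀ v, e (z v) = z (e v)) (χ : Dual F U) (a : U) (v : V) :
    cf ι e χ a (z v) = z (cf ι e χ a v) := by simp [cf, h1 _, ← h2]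

theorem cm_of_cf {e : End F V} (h : ∀ χ a, χ a = 0 → cf ι e χ a = 0) : Cm ι e := cm_of fun y ψ v => by
  by_cases hy : y = 0
  · simp [hy]
  refine sub_eq_zero.1 (eq_zero_of_ir (ι := ι) hy fun χ => ?_)
  rw [map_sub, cf_eq, ir_ir, ← sum_ir ι v]
  simp only [map_sum, cf_eq, Finset.smul_sum, ← Finset.sum_sub_distrib, cf_cm e χ y _, ir_ir]
  refine Finset.sum_eq_zero fun k _ => ?_
  simpa [sub_eq_zero] using congrArg (fun x : End F V => ι (r1 y ((finBasis F U).coord k)) (x v))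
    (bil_eq h χ ψ y (finBasis F U k))

/-- invariance under the symplectic group of a factor -/
def Iv (g : U →ₗ[F] U →ₗ[F] F) (ι : End F U →ₐ[F] End F V) (E : Submodule F (End F V)) : Prop :=
  ∀ s ∈ Isom g fun _ => (0 : F), ∀ e ∈ E, ∀ d : End F V, (∀ v, d (ι s.toLinearMap v) = ι s.toLinearMap (e v)) → d ∈ E

omit [FiniteDimensional F U] in
theorem i_inv (ι : End F U →ₐ[F] End F V) (s : U ≃ₗ[F] U) (v : V) : ι s.toLinearMap (ι s⁻¹.toLinearMap v) = v := by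
  rw [i_i, show s.toLinearMap * s⁻¹.toLinearMap = 1 by ext; simp, map_one]; rfl

omit [FiniteDimensional F U] in
theorem i_inv' (ι : End F U →ₐ[F] End F V) (s : U ≃ₗ[F] U) (v : V) : ι s⁻¹.toLinearMap (ι s.toLinearMap v) = v :=
  i_inv ι s⁻¹ v

omit [FiniteDimensional F U] in
theorem cm_cj {ι' : End F U →ₐ[F] End F V} {s : U ≃ₗ[F] U} (h1 : Cm ι' (ι s.toLinearMap)) {e d : End F V}
    (he : Cm ι' e) (h : ∀ v, d (ι s.toLinearMap v) = ι s.toLinearMap (e v)) : Cm ι' d := fun y v => by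
  rw [← i_inv ι s v, ← h1, h, h, he, h1]

section
variable (h : Cl (σ := RingHom.id F) (-1) 0 0 g fun _ => 0) {E : Submodule F (End F V)} (hE : Iv g ι E)
include h

theorem three_le {a b : U} (ha : a ≠ 0) (hb : b ∉ F ∙ a) (h1 : g a b = 0) : 3 ≤ finrank F U := by
  by_contra h2
  have h3 := Dual.finrank_ker_add_one_of_ne_zero (f := g a) fun h3 => ha (h.sep a fun y => by simp [h3])
  have h4 := finrank_span_singleton (K := F) ha
  exact hb ((Submodule.eq_of_le_of_finrank_le (S₁ := F ∙ a) (S₂ := LinearMap.ker (g a))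
    ((Submodule.span_singleton_le_iff_mem _ _).2 (alt_self h a)) (by omega)).ge h1)

include hE

omit [FiniteDimensional F U] in
theorem Iv.tv {e : End F V} (he : e ∈ E) (a : U) :
    ι (r1 a (g a)) * e - e * ι (r1 a (g a)) - ι (r1 a (g a)) * e * ι (r1 a (g a)) ∈ E := by
  have h1 : (h.eich a 0 (-1)).toLinearMap = 1 + r1 a (g a) := by
    ext x; simp [h.eich_apply rfl (map_zero _)]
  convert sub_mem (hE _ (h.eich_mem_isom (u := a) (w := 0) (c := -1) rfl (map_zero _) rfl) e he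
    ((1 + ι (r1 a (g a))) * e * (1 - ι (r1 a (g a)))) fun v => by simp [h1, alt_self h]) he using 1
  noncomm_ring

theorem Iv.x {e : End F V} (he : e ∈ E) {a b : U} (hab : g a b = 0) :
    ι (r1 a (g b)) * cf ι e (g a) b + ι (r1 b (g a)) * cf ι e (g b) a ∈ E := by
  convert neg_mem (hE.tv h (hE.tv h he a) b) using 1
  ext v; simp [← cf_eq, hab, h.refl hab, add_comm]

theorem Iv.sp1 {β : End F V} (h1 : Cm ι β) {a : U} (ha : a ≠ 0) (h2 : ι (r1 a (g a)) * β ∈ E) (b : U) :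
    ι (r1 b (g b)) * β ∈ E := by
  by_cases hb : b = 0
  · simp [hb]
  obtain ⟨s, h3, rfl⟩ := h.form.witt_one h.sep ha hb rfl
  exact hE s h3 _ h2 _ fun v => by simp only [End.mul_apply, h1 _, i_i, s_r1 h3]

theorem Iv.sp2 {β γ : End F V} (h1 : Cm ι β) (h2 : Cm ι γ) {a b : U} (ha : a ≠ 0) (hb : b ∉ F ∙ a)
    (hab : g a b = 0) (h3 : ι (r1 a (g b)) * β + ι (r1 b (g a)) * γ ∈ E) {x y : U} (hxy : g x y = 0) :
    ι (r1 x (g y)) * β + ι (r1 y (g x)) * γ ∈ E := by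
  refine orth_ind h (three_le h ha hb hab) (P := fun x y => ι (r1 x (g y)) * β + ι (r1 y (g x)) * γ ∈ E)
    (fun b => by simp) (fun x y z h4 h5 => ?_) (fun x y hx hy hxy => ?_) hxy
  · convert sub_mem h4 h5 using 1
    simp only [map_add, LinearMap.add_apply, add_mul]; abel
  · obtain ⟨s, h5, rfl, rfl⟩ := witt2 h ha hb hx hy (hxy.trans hab.symm)
    exact hE s h5 _ h3 _ fun v => by
      simp only [LinearMap.add_apply, End.mul_apply, map_add, h1 _, h2 _, i_i, s_r1 h5]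

theorem Iv.ext1 (hm : 3 ≤ finrank F U) {e : End F V} (he : e ∈ E) (h1 : ¬ Cm ι e) : ∃ χ a γ, cf ι e χ a ≠ 0 ∧ Cm ι γ ∧
    ∀ x y, g x y = 0 → ι (r1 x (g y)) * cf ι e χ a + ι (r1 y (g x)) * γ ∈ E := by
  obtain ⟨a, b, ha, hb, hab, h2⟩ : ∃ a b, a ≠ 0 ∧ b ∉ F ∙ a ∧ g a b = 0 ∧ cf ι e (g a) b ≠ 0 := by
    by_contra! h2
    refine h1 (cm_of_cf fun χ b h3 => ?_)
    obtain ⟨a, rfl⟩ := h.exists_B χ
    exact orth_ind h hm (P := fun a b => cf ι e (g a) b = 0) (by simp) (fun a b c h4 h5 => by simpa [h5] using h4)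
      h2 h3
  exact ⟨_, _, _, h2, cf_cm e _ _, fun x y => hE.sp2 h (cf_cm e _ _) (cf_cm e _ _) ha hb hab (hE.x h he hab)⟩

theorem Iv.ext2 (h2 : (2 : F) ≠ 0) {e : End F V} (he : e ∈ E) (h1 : ¬ Cm ι e) : ∃ χ a, cf ι e χ a ≠ 0 ∧
    ((∀ x, ι (r1 x (g x)) * cf ι e χ a ∈ E) ∨
      3 ≤ finrank F U ∧ ∀ x y, g x y = 0 → ι (wg g x y) * cf ι e χ a ∈ E) := by
  by_cases h3 : ∃ a, cf ι e (g a) a ≠ 0
  · obtain ⟨a, h3⟩ := h3
    refine ⟨_, _, h3, .inl (hE.sp1 h (cf_cm e _ _) (a := a) (by rintro rfl; simp at h3) ?_)⟩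
    rw [← E.smul_mem_iff h2, two_smul]; exact hE.x h he (alt_self h a)
  push Not at h3
  obtain ⟨a, b, hab, h4⟩ : ∃ a b, g a b = 0 ∧ cf ι e (g a) b ≠ 0 := by
    by_contra! h4
    exact h1 (cm_of_cf fun χ b h5 => by obtain ⟨a, rfl⟩ := h.exists_B χ; exact h4 a b h5)
  have ha : a ≠ 0 := by rintro rfl; simp at h4
  have hb : b ∉ F ∙ a := fun hb => by
    obtain ⟨c, rfl⟩ := Submodule.mem_span_singleton.1 hb; simp [h3] at h4
  have h5 : cf ι e (g b) a = -cf ι e (g a) b := eq_neg_of_add_eq_zero_right (by simpa [h3] using h3 (a + b))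
  refine ⟨_, _, h4, .inr ⟨three_le h ha hb hab, fun x y hxy => ?_⟩⟩
  simpa [wg, sub_mul, h5, sub_eq_add_neg, add_mul] using
    hE.sp2 h (cf_cm e _ _) (cf_cm e _ _) ha hb hab (hE.x h he hab) hxy

end

variable {T : Type} [Fintype T] [DecidableEq T] {ι : T → (End F U →ₐ[F] End F V)}
  (hc : ∀ i j, i ≠ j → CC (ι i) (ι j)) (hg : ∀ A : Subalgebra F (End F V), (∀ i x, ι i x ∈ A) → A = ⊤)
  (h : Cl (σ := RingHom.id F) (-1) 0 0 g fun _ => 0)
include hc hg h

theorem alg6 (hm : 5 ≤ finrank F U) (J : Finset T) : ∀ E : Submodule F (End F V), (∀ x ∈ E, ∀ y ∈ E, x * y ∈ E) →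
    (∀ j ∈ J, Iv g (ι j) E) → (∀ e ∈ E, ∀ j ∉ J, Cm (ι j) e) →
    (∀ e ∈ E, ∃ c : F, ∀ v, e v = c • v) ∨ ∃ j ∈ J, ∀ y, ι j y ∈ E := by
  induction J using Finset.strongInduction with | H J ih => ?_
  refine fun E h1 h2 h3 => or_iff_not_imp_left.2 fun h4 => ?_
  obtain ⟨e, he, j, h5⟩ : ∃ e ∈ E, ∃ j, ¬ Cm (ι j) e := by
    by_contra! h5; exact h4 fun e he => scal_of_cm hg (h5 e he)
  have hj : j ∈ J := by_contra fun h => h5 (h3 e he j h)
  obtain ⟨χ, a, γ, h6, h7, h8⟩ := (h2 j hj).ext1 h (by omega) he h5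
  let P : Submodule F (End F V) :=
    { carrier := {β | (∀ k ∉ J.erase j, Cm (ι k) β) ∧ ∃ γ, Cm (ι j) γ ∧ ∀ x y, g x y = 0 →
        ι j (r1 x (g y)) * β + ι j (r1 y (g x)) * γ ∈ E}
      zero_mem' := ⟨fun _ _ _ _ => by simp, 0, fun _ _ => by simp, by simp⟩
      add_mem' := fun ⟨h1, γ, h2, h3⟩ ⟨h4, δ, h5, h6⟩ => ⟨fun k hk y v => by simp [h1 k hk y, h4 k hk y], γ + δ,
        fun y v => by simp [h2 y, h5 y], fun x y h => by
          convert add_mem (h3 x y h) (h6 x y h) using 1; simp only [mul_add]; abel⟩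
      smul_mem' := fun d _ ⟨h1, γ, h2, h3⟩ => ⟨fun k hk y v => by simp [h1 k hk y], d • γ,
        fun y v => by simp [h2 y], fun x y h => by simpa using E.smul_mem d (h3 x y h)⟩ }
  have h9 : ∀ β ∈ P, ∀ β' ∈ P, ∀ x y, g x y = 0 → ι j (r1 x (g y)) * (β * β') ∈ E := by
    rintro β ⟨h9, γ, h10, h11⟩ β' ⟨-, γ', -, h12⟩ x y h13
    obtain ⟨c, c', h14, h15, h16, h17, h18⟩ := TA.exists_hyp2 h hm x y
    convert h1 _ (h11 x c h14) _ (h12 c' y (h.refl h17)) using 1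
    ext v; simp [h9 j (by simp) _, h10 _, h13, h16, h18, h.refl h15]
  have h10 : cf (ι j) e χ a ∈ P := ⟨fun k hk y v => by
    by_cases h10 : k = j
    · exact h10 ▸ cf_cm e χ a y v
    · exact cf_comm (hc j k (Ne.symm h10) y) (h3 e he k (by simpa [h10] using hk) y) χ a v, γ, h7, h8⟩
  have h11 : 1 ∈ P := by
    rcases ih _ (Finset.erase_ssubset hj) P (fun x hx y hy => ⟨fun k hk z v => by
        simp [hx.1 k hk z, hy.1 k hk z], 0, fun _ _ => by simp, fun a b hab => by simpa using h9 x hx y hy a b hab⟩)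
      (fun k hk s hs β ⟨h11, γ, h12, h13⟩ d hd => by
        have h14 := hc j k (Finset.ne_of_mem_erase hk).symm
        exact ⟨fun l hl => cm_cj (hc l k (by rintro rfl; exact hl hk) _) (h11 l hl) hd,
          ι k s.toLinearMap * γ * ι k s⁻¹.toLinearMap, fun y v => by simp [h12 _, h14 _ _], fun x y hxy =>
          h2 k (Finset.mem_of_mem_erase hk) s hs _ (h13 x y hxy) _ fun v => by simp [hd, i_inv', h14 _ _]⟩)
      (fun x hx => hx.1) with h13 | ⟨k, -, h13⟩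
    · obtain ⟨d, hd⟩ := h13 _ h10
      have h14 : d ≠ 0 := by rintro rfl; exact h6 (LinearMap.ext (by simpa using hd))
      convert P.smul_mem d⁻¹ h10 using 1; ext; simp [hd, h14]
    · simpa using h13 1
  exact ⟨j, hj, top_of_r1 (by omega) (S := E.comap (ι j).toLinearMap) (fun x hx y hy => by simpa using h1 _ hx _ hy)
    fun u φ h12 => by
      obtain ⟨y, rfl⟩ := h.exists_B φ
      simpa using h9 1 h11 1 h11 u y (h.refl h12)⟩

end Cfsg.Agent.H10.Sw
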