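import Mathlib
import Cfsg.Agent.H10.Sw3

/-! Symplectic tensor factors of dimension two and four in odd characteristic. -/

set_option autoImplicit false
set_option maxHeartbeats 400000

namespace Cfsg.Agent.H10.Sw

open Module H10 H11 H19 H19.TW H26 H26.MX Cf

variable {F : Type*} [Field F] {U V : Type*} [AddCommGroup U] [Module F U] [AddCommGroup V] [Module F V]
  {g : U →ₗ[F] U →ₗ[F] F} [FiniteDimensional F U]

/-- the two kinds of generating sets -/
def Tg (g : U →ₗ[F] U →ₗ[F] F) (G : Set (End F U)) : Prop :=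
  G = Set.range (fun a => r1 a (g a)) ∨ 3 ≤ finrank F U ∧ G = {z | ∃ x y, g x y = 0 ∧ z = wg g x y}

section
variable (h : Cl (σ := RingHom.id F) (-1) 0 0 g fun _ => 0)
include h

theorem one2 (hk : finrank F U = 2) {a b : U} (hab : g a b = 1) : wg g a b = -1 := LinearMap.ext fun z => by
  by_contra h1
  have h2 := three_le h (a := a) (b := wg g a b z + z) (by rintro rfl; simp at hab) (fun h2 => by
    obtain ⟨c, hc⟩ := Submodule.mem_span_singleton.1 h2
    have := congrArg (g b) hc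
    simp [wg_apply, alt_self h, h.flip_one hab] at this
    exact h1 (eq_neg_of_add_eq_zero_left (by simp [← hc, this]))) (by simp [wg_apply, alt_self h, hab])
  omega

theorem one4 (hk : finrank F U = 4) {a b : U} (hab : g a b = 1) : ∃ v w, g a v = 0 ∧ g a w = 0 ∧ g b v = 0 ∧
    g b w = 0 ∧ g v w = 1 ∧ wg g a b + wg g v w = -1 := by
  have h0 := h.form.finrank_perp h.sep (Submodule.span F {a, b})
  have h1 := H10.finrank_span_pair_le (F := F) a b
  obtain ⟨v, h2, h3⟩ := exists_ne_zero_of_finrank (W := perp g (Submodule.span F {a, b})) (by omega)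
  rw [mem_perp_span] at h2
  have h4 := h2 a (by simp)
  have h5 := h2 b (by simp)
  obtain ⟨w₀, h6⟩ := h.form.exists_right_eq_one h.sep h3
  obtain ⟨w, h7, h8, h9⟩ : ∃ w, g a w = 0 ∧ g b w = 0 ∧ g v w = 1 := ⟨w₀ + wg g a b w₀, by
    simp [wg_apply, alt_self h, hab], by simp [wg_apply, alt_self h, h.flip_one hab], by
    simp [wg_apply, h.refl h4, h.refl h5, h6]⟩
  refine ⟨v, w, h4, h7, h5, h8, h9, LinearMap.ext fun z => eq_neg_of_add_eq_zero_left ?_⟩
  let L : U →ₗ[F] Fin 4 → F := LinearMap.pi ![g a, g b, g v, g w]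
  refine (injective_iff_map_eq_zero L).1 ((LinearMap.injective_iff_surjective_of_finrank_eq_finrank
    (by simp [hk])).2 fun t => ⟨t 0 • b - t 1 • a + t 2 • w - t 3 • v, funext fun i => ?_⟩) _ (funext fun i => ?_)
  all_goals fin_cases i <;> simp [L, wg_apply, alt_self h, hab, h.flip_one hab, h4, h5, h7, h8, h9, h.flip_one h9,
    h.refl h4, h.refl h5, h.refl h7, h.refl h8]

omit h [FiniteDimensional F U] in
theorem sy_mem {S : Submodule F (End F U)} (h1 : ∀ a, r1 a (g a) ∈ S) (a b : U) : r1 a (g b) + r1 b (g a) ∈ S := by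
  convert sub_mem (sub_mem (h1 (a + b)) (h1 a)) (h1 b) using 1
  simp only [map_add, LinearMap.add_apply]; abel

omit [FiniteDimensional F U] in
theorem wd_mem {S : Submodule F (End F U)} (h1 : ∀ x y, g x y = 0 → wg g x y ∈ S) {a b v w : U} (hab : g a b = 1)
    (h2 : g a w = 0) (h3 : g b v = 0) (h4 : g v w = 1) : wg g a b - wg g v w ∈ S := by
  convert sub_mem (add_mem (h1 (a + v) (b - w) (by simp [hab, h2, h4, h.refl h3])) (h1 a w h2))
    (h1 v b (h.refl h3)) using 1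
  simp only [wg, map_add, map_sub, LinearMap.add_apply, LinearMap.sub_apply]; abel

omit [FiniteDimensional F U] in
theorem adj_w (a b : U) : Adj g (wg g a b) (wg g a b) := by
  simpa [wg, sub_eq_add_neg, add_comm] using adj_add (adj_wg h a b) (adj_smul (-1) (adj_wg h b a))

theorem Tg.nice {G : Set (End F U)} (hG : Tg g G) (a : U) : ∃ x ∈ Submodule.span F G, ∃ y ∈ Submodule.span F G,
    ∃ s : F, s ≠ 0 ∧ x * x = 0 ∧ x * y = r1 a (g a) ∧ y * x = -r1 a (g a) ∧ Adj g x (s • x) ∧ Adj g y (s • y) := by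
  by_cases ha : a = 0
  · exact ⟨0, zero_mem _, 0, zero_mem _, 1, one_ne_zero, by simp [ha, Cf.Adj]⟩
  rcases hG with rfl | ⟨hk, rfl⟩
  · obtain ⟨b, hb⟩ := h.form.exists_right_eq_one h.sep ha
    exact ⟨_, Submodule.subset_span ⟨a, rfl⟩, _, sy_mem (g := g) (fun a => Submodule.subset_span (Set.mem_range_self a)) a b, -1, by simp,
      by simp [r1_mul, alt_self h], by simp [mul_add, r1_mul, alt_self h, hb],
      by simp [add_mul, r1_mul, alt_self h, h.flip_one hb], by simpa using adj_wg h a a,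
      by simpa [add_comm] using adj_add (adj_wg h a b) (adj_wg h b a)⟩
  obtain ⟨v, w, h1, h2, h3⟩ := TA.exists_hyp h (F ∙ a) (by have := H10.finrank_span_one_le (F := F) a; omega)
  replace h1 := h1 a (Submodule.mem_span_singleton_self a)
  replace h2 := h2 a (Submodule.mem_span_singleton_self a)
  refine ⟨_, Submodule.subset_span ⟨a, v, h1, rfl⟩, _, Submodule.subset_span ⟨w, a, h.refl h2, rfl⟩, 1, one_ne_zero,
    ?_, ?_, ?_, by simpa using adj_w h a v, by simpa using adj_w h w a⟩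
  all_goals simp [wg, mul_sub, sub_mul, r1_mul, alt_self h, h1, h2, h3, h.refl h1, h.refl h2, h.flip_one h3]

variable (hk : finrank F U = 2 ∨ finrank F U = 4)
include hk

theorem Tg.inv {G : Set (End F U)} (hG : Tg g G) : ∃ c ∈ Submodule.span F G, c * c = 1 := by
  have : Nontrivial U := Module.nontrivial_of_finrank_pos (R := F) (by omega)
  obtain ⟨a, ha⟩ := exists_ne (0 : U)
  obtain ⟨b, hb⟩ := h.form.exists_right_eq_one h.sep ha
  rcases hk with hk | hk
  · obtain rfl := hG.resolve_right (by omega)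
    refine ⟨_, sy_mem (g := g) (fun a => Submodule.subset_span (Set.mem_range_self a)) a b, neg_injective ?_⟩
    rw [← one2 h hk hb]
    simp [wg, mul_add, add_mul, r1_mul, alt_self h, hb, h.flip_one hb, sub_eq_add_neg, add_comm]
  obtain ⟨v, w, h1, h2, h3, h4, h5, h6⟩ := one4 h hk hb
  rcases hG with rfl | ⟨-, rfl⟩
  · refine ⟨_, add_mem (sy_mem (g := g) (fun a => Submodule.subset_span (Set.mem_range_self a)) a b)
      (sy_mem (g := g) (fun a => Submodule.subset_span (Set.mem_range_self a)) v w), neg_injective ?_⟩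
    rw [← h6]
    simp [wg, mul_add, add_mul, r1_mul, alt_self h, hb, h.flip_one hb, h1, h2, h3, h4, h5, h.flip_one h5,
      h.refl h1, h.refl h2, h.refl h3, h.refl h4]
    abel
  · refine ⟨_, wd_mem h (fun x y h7 => Submodule.subset_span (by exact ⟨x, y, h7, rfl⟩)) hb h2 h3 h5, neg_injective ?_⟩
    rw [← h6]
    simp [wg, mul_sub, sub_mul, r1_mul, alt_self h, hb, h.flip_one hb, h1, h2, h3, h4, h5, h.flip_one h5,
      h.refl h1, h.refl h2, h.refl h3, h.refl h4]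
    abel

theorem top_of (h2 : (2 : F) ≠ 0) {S : Submodule F (End F U)} (h0 : 1 ∈ S) (h1 : ∀ a, r1 a (g a) ∈ S)
    (h3 : ∀ x y, g x y = 0 → wg g x y ∈ S) (a : U) (φ : Dual F U) : r1 a φ ∈ S := by
  obtain ⟨b, rfl⟩ := h.exists_B φ
  have h4 : ∀ a b, g a b = 1 → wg g a b ∈ S := fun a b h4 => by
    rcases hk with hk | hk
    · exact one2 h hk h4 ▸ neg_mem h0
    obtain ⟨v, w, -, h5, h6, -, h7, h8⟩ := one4 h hk h4
    rw [← S.smul_mem_iff h2]
    convert add_mem (h8 ▸ neg_mem h0) (wd_mem h h3 h4 h5 h6 h7) using 1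
    module
  have h5 : wg g a b ∈ S := by
    by_cases h5 : g a b = 0
    · exact h3 a b h5
    · convert S.smul_mem (g a b) (h4 a ((g a b)⁻¹ • b) (by simp [h5])) using 1
      simp [wg, smul_sub, h5]
  rw [← S.smul_mem_iff h2]
  convert add_mem h5 (sy_mem h1 a b) using 1
  rw [wg]; module

end

variable {T : Type} [Fintype T] [DecidableEq T] {ι : T → (End F U →ₐ[F] End F V)}

/-- coefficient spaces of a generating set -/
def Pq (ι : T → (End F U →ₐ[F] End F V)) (J : Finset T) (j : T) (G : Set (End F U)) (E : Submodule F (End F V)) :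
    Submodule F (End F V) where
  carrier := {β | (∀ k ∉ J.erase j, Cm (ι k) β) ∧ ∀ x ∈ Submodule.span F G, ι j x * β ∈ E}
  zero_mem' := ⟨fun _ _ _ _ => by simp, by simp⟩
  add_mem' ha hb := ⟨fun k hk y v => by simp [ha.1 k hk y, hb.1 k hk y], fun x hx => by
    simpa [mul_add] using add_mem (ha.2 x hx) (hb.2 x hx)⟩
  smul_mem' d _ ha := ⟨fun k hk y v => by simp [ha.1 k hk y], fun x hx => by simpa using E.smul_mem d (ha.2 x hx)⟩

variable (hc : ∀ i j, i ≠ j → CC (ι i) (ι j)) (hg : ∀ A : Subalgebra F (End F V), (∀ i x, ι i x ∈ A) → A = ⊤)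
  (h : Cl (σ := RingHom.id F) (-1) 0 0 g fun _ => 0) (h2 : (2 : F) ≠ 0)
include hc hg h h2

theorem pq_step {J : Finset T} {E : Submodule F (End F V)} (h3 : ∀ j ∈ J, Iv g (ι j) E)
    (h4 : ∀ e ∈ E, ∀ j ∉ J, Cm (ι j) e) : (∀ e ∈ E, ∃ c : F, ∀ v, e v = c • v) ∨ ∃ j ∈ J, ∃ G, Tg g G ∧
      (∃ β ∈ Pq ι J j G E, β ≠ 0) ∧ ∀ l ∈ J.erase j, Iv g (ι l) (Pq ι J j G E) := by
  refine or_iff_not_imp_left.2 fun h5 => ?_
  obtain ⟨e, he, j, h6⟩ : ∃ e ∈ E, ∃ j, ¬ Cm (ι j) e := by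
    by_contra! h6; exact h5 fun e he => scal_of_cm hg (h6 e he)
  have hj : j ∈ J := by_contra fun h => h6 (h4 e he j h)
  obtain ⟨χ, a, h7, h8⟩ := (h3 j hj).ext2 h h2 he h6
  obtain ⟨G, h9, h10⟩ : ∃ G, Tg g G ∧ ∀ x ∈ G, ι j x * cf (ι j) e χ a ∈ E := by
    rcases h8 with h8 | ⟨hm, h8⟩
    · exact ⟨_, .inl rfl, by rintro _ ⟨x, rfl⟩; exact h8 x⟩
    · exact ⟨_, .inr ⟨hm, rfl⟩, by rintro _ ⟨x, y, h9, rfl⟩; exact h8 x y h9⟩
  refine ⟨j, hj, G, h9, ⟨_, ⟨fun k hk y v => ?_, fun x hx => (Submodule.span_le (p := E.comap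
    (LinearMap.mulRight F _ ∘ₗ (ι j).toLinearMap))).2 h10 hx⟩, h7⟩, fun k hk s hs β hβ d hd =>
    ⟨fun l hl => cm_cj (hc l k (by rintro rfl; exact hl hk) _) (hβ.1 l hl) hd, fun x hx =>
      h3 k (Finset.mem_of_mem_erase hk) s hs _ (hβ.2 x hx) _ fun v => by
        simp [hd, hc j k (Finset.ne_of_mem_erase hk).symm _ _]⟩⟩
  by_cases h10 : k = j
  · exact h10 ▸ cf_cm e χ a y v
  · exact cf_comm (hc j k (Ne.symm h10) y) (h4 e he k (by simpa [h10] using hk) y) χ a v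

omit hc hg h h2 [FiniteDimensional F U] in
theorem one_mem_of {E : Submodule F (End F V)} (h1 : ∀ e ∈ E, ∃ c : F, ∀ v, e v = c • v) {β : End F V} (h3 : β ∈ E)
    (h4 : β ≠ 0) : 1 ∈ E := by
  obtain ⟨d, hd⟩ := h1 _ h3
  have h5 : d ≠ 0 := by rintro rfl; exact h4 (LinearMap.ext (by simpa using hd))
  convert E.smul_mem d⁻¹ h3 using 1; ext; simp [hd, h5]

variable (hk : finrank F U = 2 ∨ finrank F U = 4)
include hk

theorem exists_invol (J : Finset T) : ∀ E : Submodule F (End F V), (∀ j ∈ J, Iv g (ι j) E) →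
    (∀ e ∈ E, ∀ j ∉ J, Cm (ι j) e) → (∃ β ∈ E, β ≠ 0) → ∃ c ∈ E, ∀ v, c (c v) = v := by
  induction J using Finset.strongInduction with | H J ih => ?_
  rintro E h3 h4 ⟨β, h5, h6⟩
  rcases pq_step hc hg h h2 h3 h4 with h7 | ⟨j, hj, G, h7, h8, h9⟩
  · exact ⟨1, one_mem_of h7 h5 h6, fun _ => rfl⟩
  obtain ⟨c, h10, h11⟩ := ih _ (Finset.erase_ssubset hj) _ h9 (fun x hx => hx.1) h8
  obtain ⟨d, h12, h13⟩ := h7.inv h hk
  exact ⟨_, h10.2 d h12, fun v => by simp [h10.1 j (by simp) _, i_i, h13, h11]⟩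

theorem ext_two {J : Finset T} {E : Submodule F (End F V)} (h3 : ∀ j ∈ J, Iv g (ι j) E)
    (h4 : ∀ e ∈ E, ∀ j ∉ J, Cm (ι j) e) : (∀ e ∈ E, ∃ c : F, ∀ v, e v = c • v) ∨
      (∃ j ∈ J, ∃ G, Tg g G ∧ ∀ x ∈ Submodule.span F G, ι j x ∈ E) ∨
      ∃ j ∈ J, ∃ l ∈ J, j ≠ l ∧ ∃ G G', Tg g G ∧ Tg g G' ∧ ∃ c, (∀ v, c (c v) = v) ∧ Cm (ι j) c ∧ Cm (ι l) c ∧
        ∀ x ∈ Submodule.span F G, ∀ y ∈ Submodule.span F G', ι j x * (ι l y * c) ∈ E := by
  refine (pq_step hc hg h h2 h3 h4).imp_right fun ⟨j, hj, G, h5, ⟨β, h6, h7⟩, h8⟩ => ?_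
  refine (pq_step hc hg h h2 h8 fun x hx => hx.1).imp (fun h9 => ⟨j, hj, G, h5, fun x hx => ?_⟩)
    fun ⟨l, hl, G', h9, h10, h11⟩ => ?_
  · simpa using (one_mem_of h9 h6 h7).2 x hx
  obtain ⟨c, h12, h13⟩ := exists_invol hc hg h h2 hk _ _ h11 (fun x hx => hx.1) h10
  exact ⟨j, hj, l, Finset.mem_of_mem_erase hl, (Finset.ne_of_mem_erase hl).symm, G, G', h5, h9, c, h13,
    h12.1 j (by simp), h12.1 l (by simp), fun x hx y hy => (h12.2 y hy).2 x hx⟩

end Cfsg.Agent.H10.Sw
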