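import Mathlib
import Cfsg.Agent.H10.Sw4

/-! Symplectic tensor factors: the coefficient spaces consist of scalars. -/

set_option autoImplicit false
set_option maxHeartbeats 400000

namespace Cfsg.Agent.H10.Sw

open Module H10 H11 H19 H19.TW H26 H26.MX Cf

variable {F : Type*} [Field F] {U V : Type*} [AddCommGroup U] [Module F U] [AddCommGroup V] [Module F V]
  {g : U →ₗ[F] U →ₗ[F] F} {ε κ : F} {τ : F →+ F} {B : V →ₗ[F] V →ₗ[F] F} {Q : V → F}
  {M : Subgroup (V ≃ₗ[F] V)} [FiniteDimensional F U] [FiniteDimensional F V] [Finite F]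

namespace Fa
variable {ι ι' : End F U →ₐ[F] End F V} (h : Fa g ε κ τ B Q M ι)
include h

omit [FiniteDimensional F V] [Finite F] in
theorem iv1 (h' : Fa g ε κ τ B Q M ι') (hc : CC ι ι') : Iv g ι' h.E1 := fun s hs e he d hd => by
  obtain ⟨k, h1, h2⟩ := h'.exists_s hs
  exact h.e1_conj h1 (fun y v => by simp [h2, hc _ y]) he fun v => by rw [h2, h2, hd]

omit [FiniteDimensional F V] [Finite F] in
theorem iv2 (h' : Fa g ε κ τ B Q M ι') (hc : CC ι ι') : Iv g ι' h.E2 := fun s hs e he d hd => by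
  obtain ⟨k, h1, h2⟩ := h'.exists_s hs
  exact h.e2_conj h1 (fun y v => by simp [h2, hc _ y]) he fun v => by rw [h2, h2, hd]

omit [FiniteDimensional F V] [Finite F] in
theorem e2_pure (hm : 5 ≤ finrank F U) {e e' d d' : End F V} (he : e ∈ h.E2) (hd : d ∈ h.E2)
    (h1 : Adj B e e') (h2 : Adj B d d') {a b : U} (hab : g a b = 0) :
    In M (ι (r1 a (g b)) * (e * d') + ι (r1 b (g a)) * (d * e')) := by
  obtain ⟨y, y', h3, h4, h5, h5', h5''⟩ := TA.exists_hyp2 h.hU hm a b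
  obtain ⟨h6, _, h7, h8⟩ := he
  obtain ⟨h9, _, h10, h11⟩ := hd
  obtain rfl := adj_uniq h.hV h1 h7
  obtain rfl := adj_uniq h.hV h2 h10
  obtain ⟨f, h12, h13⟩ := h8 a y h3
  obtain ⟨f', h14, h15⟩ := h11 b y' h5'
  have h16 := h.cm_adj h6 h1
  have h17 := h.cm_adj h9 h2
  convert in_cmm h13 h15 ?_ ?_ ?_ ?_ using 1
  all_goals first | ext v | intro v
  all_goals simp [h6 _, h9 _, h12 _, h14 _, h16 _, h17 _, h.gg, h3, h4, h5, h5', h5'', h.hU.refl h3, h.hU.refl h4,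
    h.hU.refl h5, h.hU.refl h5', h.hU.flip_one h5'', hab, h.hU.refl hab]

omit [Finite F] in
theorem e2_mul (hm : 5 ≤ finrank F U) {e d : End F V} (he : e ∈ h.E2) (hd : d ∈ h.E2) : e * d ∈ h.E2 := by
  have h0 : ∀ {e d d'}, e ∈ h.E2 → d ∈ h.E2 → Adj B d d' → e * d' ∈ h.E2 := fun {e d d'} he hd h2 => by
    obtain ⟨e', h1⟩ := exists_adj h.hV e
    exact ⟨fun y v => by simp [he.1 y, h.cm_adj hd.1 h2 y], _, adj_mul h1 (adj_symm h.hV h2), fun a b hab =>
      ⟨0, fun _ _ => by simp, by simpa using h.e2_pure hm he hd h1 h2 hab⟩⟩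
  obtain ⟨d', h2⟩ := exists_adj h.hV d
  exact h0 he (by simpa using h0 (h.e1_le_e2 h.one_mem_e1) hd h2) (adj_symm h.hV h2)

end Fa

variable {T : Type} [Fintype T] [DecidableEq T] {ι : T → (End F U →ₐ[F] End F V)}
  (hc : ∀ i j, i ≠ j → CC (ι i) (ι j)) (hg : ∀ A : Subalgebra F (End F V), (∀ i x, ι i x ∈ A) → A = ⊤)
  (hF : ∀ i, Fa g ε κ τ B Q M (ι i))
  (hs : ∀ a b c, a ≠ b → b ≠ c → a ≠ c → ∃ s ∈ M, cg s (ι a) = ι b ∧ cg s (ι b) = ι c ∧
    ∀ x, x ≠ a → x ≠ b → x ≠ c → cg s (ι x) = ι x) {i : T}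
  (hM : ¬ ∀ e e', Cm (ι i) e → Adj B e e' → e + e' ∈ (hF i).E1)
include hc hg hF hs hM

theorem sc6 (hm : 5 ≤ finrank F U) : ∀ e ∈ (hF i).E2, ∃ c : F, ∀ v, e v = c • v := by
  refine (alg6 hc hg (hF i).hU hm (Finset.univ.erase i) _ (fun x hx y hy => (hF i).e2_mul hm hx hy)
    (fun j hj => (hF i).iv2 (hF j) (hc i j (Finset.ne_of_mem_erase hj).symm))
    fun x hx j hj => (show j = i by simpa using hj) ▸ hx.1).resolve_right fun ⟨j, hj, h3⟩ => hM fun e e' h4 h5 => ?_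
  replace hj := Finset.ne_of_mem_erase hj
  have h1 := (hF i).e1_le_e2 (hF i).one_mem_e1
  suffices ∀ k, k ≠ i → ∀ y, ι k y ∈ (hF i).E2 by
    simpa using (hF i).e2_rel (by omega) (mem_of_cm (by omega) hc hg (E := (hF i).E2.toSubalgebra h1
      fun x y hx hy => (hF i).e2_mul hm hx hy) (fun c h => h.1) this h4) h1 h5 (d' := 1) fun _ _ => rfl
  intro k hk y
  by_cases h6 : j = k
  · exact h6 ▸ h3 y
  obtain ⟨s, h7, h8, h9, -⟩ := hs i j k hj.symm h6 hk.symm
  obtain ⟨a, ha, -⟩ := ker2 (show 3 ≤ finrank F U by omega) (0 : Dual F U) 0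
  obtain ⟨b, h10, h11⟩ := ker_ind (show 3 ≤ finrank F U by omega) a (g a)
  obtain ⟨α, h12, h13⟩ := exists_dual_pair (F := F) (u := b) (x := a) fun c h12 => h11 c⁻¹ (by
    rw [h12, inv_smul_smul₀]; rintro rfl; simp [h12] at ha)
  obtain ⟨c, h14⟩ := (hF i).hU.form.exists_right_eq_one (hF i).hU.sep (show b ≠ 0 from fun h => h11 0 (by simp [h]))
  obtain ⟨y', h15⟩ := exists_adj (hF i).hU y
  obtain ⟨w, h16, h17⟩ := ((hF i).e2_pure hm (h3 y) h1 ((hF j).adj _ _ h15) (d' := 1) (fun _ _ => rfl) h10).conj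
    (y := ι j (r1 a (g b)) * ι k y + ι j (r1 b (g a)) * ι k y') h7 fun v => by simp [← h8, ← h9]
  have h18 := (hF i).e2_conj h16 (fun z v => by simp [h17, hc i j hj.symm _ z, hc i k hk.symm _ z])
    (h3 (r1 a α)) (d := ι j (r1 a α) - ι j (r1 a (g b)) * ι k y) fun v => by
      simp [h17, hc j k h6 _ _, h12, h13, (hF i).gg, h10, (hF i).hU.refl h10]
  convert Submodule.sum_mem (t := Finset.univ) _ fun m _ => (hF i).e2_mul hm (h3 (r1 (finBasis F U m) α))
    ((hF i).e2_mul hm (sub_mem (h3 (r1 a α)) h18) (h3 (r1 c ((finBasis F U).coord m)))) using 1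
  ext v; simp [hc j k h6 _ _, h12, h14, sum_ir]

omit hs hM in
theorem b2_of (h2 : (2 : F) ≠ 0) [Nontrivial U] {j l : T} (hjl : j ≠ l) {G G' : Set (End F U)} (h3 : Tg g G)
    (h4 : Tg g G') {c : End F V} (h5 : ∀ v, c (c v) = v) (h6 : Cm (ι j) c) (h7 : Cm (ι l) c)
    (h8 : ∀ x ∈ Submodule.span F G, ∀ y ∈ Submodule.span F G', ι j x * (ι l y * c) ∈ (hF i).E1) (a b : U) :
    ι j (r1 a (g a)) * ι l (r1 b (g b)) ∈ (hF i).E1 := by
  obtain ⟨x, h9, y, h10, -, -, h11, h12, h13, -⟩ := h3.nice (hF i).hU a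
  obtain ⟨x', h14, y', h15, -, -, -, h16, h17, -⟩ := h4.nice (hF i).hU b
  rw [← Submodule.smul_mem_iff _ h2]
  convert (hF i).e1_jordan h2 (h8 x h9 x' h14) (h8 y h10 y' h15) fun v => by
    simp [h6 _, hc j l hjl _ _, i_i (ι j), h11] using 1
  ext v
  simp [h6 _, h7 _, h5, hc j l hjl _ _, i_i (ι j), i_i (ι l), h12, h13, h16, h17, two_smul]

omit hs hM in
theorem all_of (h2 : (2 : F) ≠ 0) (hk : finrank F U = 2 ∨ finrank F U = 4)
    (h3 : ∀ l, l ≠ i → ∀ x y, g x y = 0 → ι l (wg g x y) ∈ (hF i).E1)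
    (h4 : ∀ j l, j ≠ i → l ≠ i → j ≠ l → ∀ a b, ι j (r1 a (g a)) * ι l (r1 b (g b)) ∈ (hF i).E1)
    (e e' : End F V) (h5 : Cm (ι i) e) (h6 : Adj B e e') : e + e' ∈ (hF i).E1 := by
  have : Nontrivial U := Module.nontrivial_of_finrank_pos (R := F) (by omega)
  let W : Finset T → Submodule F (End F V) := fun J =>
    { carrier := {z | ∃ z', Adj B z z' ∧ z + z' ∈ (hF i).E1 ∧ ∀ m ∉ J, m ≠ i → ∀ a,
        ι m (r1 a (g a)) * (z - z') ∈ (hF i).E1}
      zero_mem' := ⟨0, fun _ _ => by simp, by simp, by simp⟩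
      add_mem' := fun ⟨x, h1, h2, h3⟩ ⟨y, h4, h5, h6⟩ => ⟨_, adj_add h1 h4, by
        convert add_mem h2 h5 using 1; abel, fun m h7 h8 a => by
        convert add_mem (h3 m h7 h8 a) (h6 m h7 h8 a) using 1; noncomm_ring⟩
      smul_mem' := fun c _ ⟨x, h1, h2, h3⟩ => ⟨_, adj_smul c h1, by simpa using Submodule.smul_mem _ c h2,
        fun m h7 h8 a => by simpa [← smul_sub] using Submodule.smul_mem _ c (h3 m h7 h8 a)⟩ }
  have h7 : ∀ J : Finset T, i ∉ J → ∀ z, (∀ k ∉ J, Cm (ι k) z) → z ∈ W J := fun J => by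
    induction J using Finset.induction_on with
    | empty =>
      intro _ z hz
      obtain ⟨c, h7⟩ := scal_of_cm hg fun k => hz k (by simp)
      obtain rfl : z = c • 1 := LinearMap.ext h7
      exact (W ∅).smul_mem c ⟨1, fun _ _ => rfl, add_mem (hF i).one_mem_e1 (hF i).one_mem_e1, by simp⟩
    | insert l J hl ih =>
      intro hi z hz
      have hli : l ≠ i := by rintro rfl; simp at hi
      rw [show z = ∑ m, ∑ n, ι l (r1 (finBasis F U m) ((finBasis F U).coord n)) *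
          cf (ι l) z ((finBasis F U).coord m) (finBasis F U n) from LinearMap.ext fun v => by
        simp [← cf_eq, ← map_sum, sum_ir]]
      refine Submodule.sum_mem _ fun m _ => Submodule.sum_mem _ fun n _ => ?_
      have h7 : ∀ k ∉ J, Cm (ι k) (cf (ι l) z ((finBasis F U).coord m) (finBasis F U n)) := fun k hk y v => by
        by_cases h7 : k = l
        · exact h7 ▸ cf_cm z _ _ y v
        · exact cf_comm (hc l k (Ne.symm h7) y) (hz k (by simp [h7, hk]) y) _ _ v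
      generalize cf (ι l) z ((finBasis F U).coord m) (finBasis F U n) = β at h7
      obtain ⟨β', h8, h9, h10⟩ := ih (fun h => hi (by simp [h])) β h7
      have h11 := fun k hk => (hF k).cm_adj (h7 k hk) h8
      refine top_of (hF i).hU hk h2 (S := (W (insert l J)).comap (LinearMap.mulRight F β ∘ₗ (ι l).toLinearMap))
        ⟨β', by simpa using h8, by simpa using h9, fun m h12 h13 a => by
          simpa using h10 m (fun h => h12 (by simp [h])) h13 a⟩
        (fun a => ⟨_, adj_mul ((hF l).adj _ _ (adj_wg (hF i).hU a a)) h8, ?_, fun m h12 h13 b => ?_⟩)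
        (fun x y hxy => ⟨_, adj_mul ((hF l).adj _ _ (adj_w (hF i).hU x y)) h8, ?_, fun m h12 h13 b => ?_⟩) _ _
      · convert h10 l hl hli a using 1
        ext v; simp [h11 l hl _, sub_eq_add_neg]
      · have h14 : m ≠ l := by rintro rfl; simp at h12
        have h15 : m ∉ J := fun h => h12 (by simp [h])
        convert (hF i).e1_mul h2 (h4 m l h13 hli h14 b a) h9 (fun v => by simp [hc m l h14 _ _, (hF i).gg])
          (LinearMap.ext fun v => by simp [h7 l hl _, h7 m h15 _, h11 l hl _, h11 m h15 _]) using 1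
        ext v; simp [h11 l hl _]
      · convert (hF i).e1_mul h2 (h3 l hli x y hxy) h9 (fun v => by
          simp [wg, hxy, (hF i).hU.refl hxy, (hF i).gg])
          (LinearMap.ext fun v => by simp [h7 l hl _, h11 l hl _]) using 1
        ext v; simp [h11 l hl _]
      · have h14 : m ≠ l := by rintro rfl; simp at h12
        have h15 : m ∉ J := fun h => h12 (by simp [h])
        convert (hF i).e1_mul h2 (h3 l hli x y hxy) (h10 m h15 h13 b) (fun v => by
          simp [wg, hxy, (hF i).hU.refl hxy, (hF i).gg])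
          (LinearMap.ext fun v => by simp [h7 l hl _, h11 l hl _, hc m l h14 _ _]) using 1
        ext v; simp [h11 l hl _, hc m l h14 _ _]
  obtain ⟨_, h8, h9, -⟩ := h7 (Finset.univ.erase i) (by simp) e fun k hk => (show k = i by simpa using hk) ▸ h5
  rwa [adj_uniq (hF i).hV h6 h8]

theorem sc1_small [Nontrivial V] (h2 : (2 : F) ≠ 0) (hk : finrank F U = 2 ∨ finrank F U = 4)
    (hs2 : ∀ j l, j ≠ i → l ≠ i → j ≠ l → ∃ s ∈ M, cg s (ι i) = ι i ∧ cg s (ι j) = ι l) :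
    ∀ e ∈ (hF i).E1, ∃ c : F, ∀ v, e v = c • v := by
  have : Nontrivial U := Module.nontrivial_of_finrank_pos (R := F) (by omega)
  have hU := (hF i).hU
  have h0 : ∀ {s}, cg s (ι i) = ι i → Cm (ι i) s.toLinearMap := fun {s} h y v => by
    conv_rhs => rw [← h]
    simp
  have h1 : ∀ j, j ≠ i → (∀ x y, g x y = 0 → ι j (wg g x y) ∈ (hF i).E1) →
      ∀ l, l ≠ i → ∀ x y, g x y = 0 → ι l (wg g x y) ∈ (hF i).E1 := fun j hj h1 l hl x y hxy => by
    by_cases h3 : j = l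
    · exact h3 ▸ h1 x y hxy
    obtain ⟨s, h4, h5, h6⟩ := hs2 j l hj hl h3
    exact (hF i).e1_conj h4 (h0 h5) (h1 x y hxy) fun v => by simp [← h6]
  refine (ext_two hc hg hU h2 hk (J := Finset.univ.erase i)
    (fun j hj => (hF i).iv1 (hF j) (hc i j (Finset.ne_of_mem_erase hj).symm))
    fun x hx j hj => (show j = i by simpa using hj) ▸ hx.1).resolve_right fun h3 => hM ?_
  rcases h3 with ⟨j, hj, G, h3, h4⟩ | ⟨j, hj, l, hl, hjl, G, G', h3, h4, c, h5, h6, h7, h8⟩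
  · rcases h3 with rfl | ⟨hm, rfl⟩
    · obtain ⟨a, ha⟩ := exists_ne (0 : U)
      have h5 := adj_uniq (hF i).hV ((hF i).e1_adj (h4 _ (Submodule.subset_span ⟨a, rfl⟩)))
        ((hF j).adj _ _ (adj_wg hU a a))
      refine absurd (i_inj (ι := ι j) fun v => (smul_eq_zero_iff_right h2).1 ?_) (r1_ne ha ((hF i).g_ne ha))
      rw [two_smul]; nth_rewrite 1 [h5]; simp
    have h5 := h1 j (Finset.ne_of_mem_erase hj) fun x y h => h4 _ (Submodule.subset_span ⟨x, y, h, rfl⟩)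
    have h6 : ∀ l, l ≠ i → ∀ y ∈ Submodule.span F {z | ∃ x y, g x y = 0 ∧ z = wg g x y}, ι l y ∈ (hF i).E1 :=
      fun l hl y hy => (Submodule.span_le (p := (hF i).E1.comap (ι l).toLinearMap)).2 (by
        rintro _ ⟨x, y, h, rfl⟩; exact h5 l hl x y h) hy
    refine all_of hc hg hF h2 hk h5 fun j l hj hl hjl => b2_of hc hg hF h2 hjl (.inr ⟨hm, rfl⟩) (.inr ⟨hm, rfl⟩)
      (c := 1) (fun _ => rfl) (fun _ _ => rfl) (fun _ _ => rfl) fun x hx y hy => (Submodule.span_le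
        (p := (hF i).E1.comap (LinearMap.mulRight F _ ∘ₗ (ι j).toLinearMap))).2 ?_ hx
    rintro _ ⟨a, b, h, rfl⟩
    exact (hF i).e1_mul h2 (h5 j hj a b h) (by simpa using h6 l hl y hy)
      (fun v => by simp [wg, h, hU.refl h, (hF i).gg]) (LinearMap.ext fun v => by simp [hc j l hjl _ _])
  replace hj := Finset.ne_of_mem_erase hj
  replace hl := Finset.ne_of_mem_erase hl
  have h9 := b2_of hc hg hF h2 hjl h3 h4 h5 h6 h7 h8
  have h10 : ∀ j l, j ≠ i → l ≠ i → j ≠ l → (∀ a b, ι j (r1 a (g a)) * ι l (r1 b (g b)) ∈ (hF i).E1) →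
      ∀ m, m ≠ i → m ≠ j → ∀ a b, ι m (r1 a (g a)) * ι j (r1 b (g b)) ∈ (hF i).E1 :=
    fun j l hj hl hjl h10 m hm hmj a b => by
    have h11 : ∀ j l, j ≠ l → ∀ x y, ι j x * ι l y = ι l y * ι j x := fun j l h x y =>
      LinearMap.ext fun v => (hc j l h y x v).symm
    by_cases h12 : m = l
    · rw [h11 m j hmj, h12]; exact h10 b a
    obtain ⟨s, h13, h14, h15, h16⟩ := hs l j m hjl.symm hmj.symm (Ne.symm h12)
    refine (hF i).e1_conj h13 (h0 (h16 i hl.symm hj.symm hm.symm)) (h10 a b) fun v => ?_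
    conv_lhs => rw [← h14, ← h15]
    simp
  refine all_of hc hg hF h2 hk (h1 j hj fun a b hab => ?_) fun m n hm hn hmn => ?_
  · by_cases ha : a = 0
    · simp [ha, wg]
    rcases hk with hk | hk
    · by_cases hb : b ∈ F ∙ a
      · obtain ⟨c, rfl⟩ := Submodule.mem_span_singleton.1 hb; simp [wg]
      · have := three_le hU ha hb hab; omega
    obtain ⟨a', h11⟩ := hU.form.exists_right_eq_one hU.sep ha
    have h12 : ∀ d, ι j (r1 a' (g b) + r1 b (g a')) * ι l (r1 d (g d)) ∈ (hF i).E1 := fun d =>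
      sy_mem (g := g) (S := (hF i).E1.comap (LinearMap.mulRight F _ ∘ₗ (ι j).toLinearMap)) (fun x => h9 x d) a' b
    have h13 : ∀ c d, g c d = 1 → ι j (r1 a (g b)) * ι l (r1 c (g d)) + ι j (r1 b (g a)) * ι l (r1 d (g c)) ∈
        (hF i).E1 := fun c d h13 => by
      convert (hF i).e1_jordan h2 (h9 a c) (h12 d) fun v => by simp [hc j l hjl _ _, (hF i).gg] using 1
      ext v; simp [hc j l hjl _ _, h11, h13, hU.flip_one h11, hU.flip_one h13, hab, hU.refl hab]
    have h14 : ∀ c d, g c d = 1 → ι j (wg g a b) * ι l (wg g c d) ∈ (hF i).E1 := fun c d h14 => by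
      convert add_mem (h13 c d h14) (h13 d (-c) (by simp [hU.flip_one h14])) using 1
      simp [wg, mul_sub, sub_mul]; abel
    obtain ⟨v, w, -, -, -, -, h15, h16⟩ := one4 hU hk h11
    convert neg_mem (add_mem (h14 a a' h11) (h14 v w h15)) using 1
    rw [← mul_add, ← map_add, h16]; simp
  by_cases h11 : n = j
  · exact h11 ▸ h10 j l hj hl hjl h9 m hm (h11 ▸ hmn)
  · exact h10 n j hn hj h11 (h10 j l hj hl hjl h9 n hn h11) m hm hmn

omit hs hM in
theorem sc2_small [Nontrivial V] (h2 : (2 : F) ≠ 0) (hk : finrank F U = 4)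
    (h1 : ∀ e ∈ (hF i).E1, ∃ c : F, ∀ v, e v = c • v) : ∀ e ∈ (hF i).E2, ∃ c : F, ∀ v, e v = c • v := by
  have hU := (hF i).hU
  have hm : 3 ≤ finrank F U := by omega
  obtain ⟨a, ha, -⟩ := ker2 hm (0 : Dual F U) 0
  refine (ext_two hc hg hU h2 (.inr hk) (J := Finset.univ.erase i)
    (fun j hj => (hF i).iv2 (hF j) (hc i j (Finset.ne_of_mem_erase hj).symm))
    fun x hx j hj => (show j = i by simpa using hj) ▸ hx.1).resolve_right ?_
  rintro (⟨j, hj, G, h3, h4⟩ | ⟨j, hj, l, hl, hjl, G, G', h3, h4, c, h5, h6, h7, h8⟩)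
  · obtain ⟨b, h5, h6⟩ := ker_ind hm a (g a)
    obtain ⟨a', h7⟩ := hU.form.exists_right_eq_one hU.sep ha
    obtain ⟨c, h8⟩ := h1 (ι j (wg g a b)) (by
      rcases h3 with rfl | ⟨-, rfl⟩
      · convert neg_mem ((hF i).e2_rel hm (h4 _ (Submodule.subset_span ⟨a, rfl⟩)) (h4 _ (sy_mem (g := g)
          (fun a => Submodule.subset_span (Set.mem_range_self a)) a' b)) ((hF j).adj _ _ (adj_wg hU a a))
          ((hF j).adj _ _ (adj_add (adj_wg hU a' b) (adj_wg hU b a')))) using 1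
        ext v; simp [wg, h7, h5, hU.flip_one h7, hU.refl h5, sub_eq_add_neg, add_comm]
      · rw [← Submodule.smul_mem_iff _ h2, two_smul]
        simpa using (hF i).e2_rel hm (h4 _ (Submodule.subset_span ⟨a, b, h5, rfl⟩))
          ((hF i).e1_le_e2 (hF i).one_mem_e1) ((hF j).adj _ _ (adj_w hU a b)) (d' := 1) fun _ _ => rfl)
    have h9 := LinearMap.congr_fun (i_inj (ι := ι j) (x := wg g a b - c • 1) fun v => by simp [h8])
    have h10 := h9 a
    simp [wg_apply, hU.refl h5, (hF i).gg, ha] at h10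
    exact h6 (g b a') (sub_eq_zero.1 (by simpa [wg_apply, h10, h7] using h9 a')).symm
  obtain ⟨x, h9, y, h10, s, s0, -, h12, h13, h14, h15⟩ := h3.nice hU a
  obtain ⟨x', h16, y', h17, s', s0', -, h18, h19, h20, h21⟩ := h4.nice hU a
  obtain ⟨c', h22⟩ := exists_adj (hF i).hV c
  have h23 := LinearMap.congr_fun (adj_uniq (hF i).hV (adj_mul h22 h22)
    (show Adj B (c * c) 1 from fun u v => by simp [h5]))
  have h24 := (hF j).cm_adj h6 h22
  have h25 := (hF l).cm_adj h7 h22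
  obtain ⟨t, ht⟩ := h1 _ ((hF i).e2_rel hm (h8 x h9 x' h16) (h8 y h10 y' h17)
    (adj_mul ((hF j).adj _ _ h14) (adj_mul ((hF l).adj _ _ h20) h22))
    (adj_mul ((hF j).adj _ _ h15) (adj_mul ((hF l).adj _ _ h21) h22)))
  replace ht : ∀ v, (2 * s * s') • ι j (r1 a (g a)) (ι l (r1 a (g a)) (c (c' v))) = t • v := fun v => by
    rw [← ht]
    simp [h6 _, h7 _, h24 _, h25 _, hc j l hjl _ _, i_i (ι j), i_i (ι l), h12, h13, h18, h19]
    module
  have h26 := r1_ne ha ((hF i).g_ne ha)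
  have h27 : t = 0 := by_contra fun h27 => h26 (i_inj (ι := ι j) fun v => by
    simpa [(hF i).gg, h27] using congrArg (ι j (r1 a (g a))) (ht v).symm)
  refine h26 (i_inj (ι := ι l) ((hc j l hjl _).cancel h26 fun v => ?_))
  have h28 := ht (c' (c v))
  rw [show c' (c' (c v)) = c v from h23 _, h5] at h28
  simpa [h27, h2, s0, s0'] using h28

end Cfsg.Agent.H10.Sw
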