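import Mathlib
import Cfsg.Agent.H10.Sw5
import Cfsg.Agent.H3.Dick2

/-! Symplectic tensor factors of dimension two: no extremal pairs. -/

set_option autoImplicit false
set_option maxHeartbeats 400000

namespace Cfsg.Agent.H10.Sw

open Module H10 H11 H19 H19.TW H26 H26.MX Cf Polynomial
open scoped MatrixGroups

variable {F : Type*} [Field F] {U V : Type*} [AddCommGroup U] [Module F U] [AddCommGroup V] [Module F V]

theorem dick [FiniteDimensional F V] [Finite F] (h2 : (2 : F) ≠ 0) (hq : Nat.card F ≠ 3) {N N' : End F V}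
    {S : Subgroup (V ≃ₗ[F] V)} (hT : ∀ c : F, ∃ z ∈ S, ∀ v, z v = v + c • N v)
    (hT' : ∀ c : F, ∃ z ∈ S, ∀ v, z v = v + c • N' v) (hN' : ∀ v, N' (N' v) = 0)
    {A : Submodule F V} (hA : A ≠ ⊥) (h1 : ∀ a ∈ A, N a = 0) (h3 : ∀ a ∈ A, (N * N') a ∈ A)
    (h4 : ∀ a ∈ A, N (N' a) = 0 → a = 0)
    (hz : ∀ z ∈ S, ∀ a ∈ A, a ≠ 0 → z a ∈ A → ∃ c : F, ∀ v, z (N v) = c • N (z v)) :
    (∃ a ∈ A, a ≠ 0 ∧ ∃ t : F, t ≠ 0 ∧ N (N' a) = t • a) ∧
      ∃ z ∈ S, ∃ c : F, c ≠ 1 ∧ ∀ v, z (N v) = c • N (z v) := by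
  have := Submodule.nontrivial_iff_ne_bot.2 hA
  let θ : End F A := (N * N').restrict h3
  have hi : IsIntegral F θ := Algebra.IsIntegral.isIntegral θ
  obtain ⟨P, hm, hP, G, hG⟩ := exists_monic_irreducible_factor (minpoly F θ) (minpoly.not_isUnit F θ)
  have hG0 : G ≠ 0 := by rintro rfl; exact minpoly.ne_zero hi (by simpa using hG)
  obtain ⟨u, hu⟩ : ∃ u, aeval θ G u ≠ 0 := by
    by_contra! h5
    have h6 := natDegree_le_of_dvd (minpoly.dvd F θ (p := G) (LinearMap.ext h5)) hG0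
    rw [hG, natDegree_mul hm.ne_zero hG0] at h6
    have := hP.natDegree_pos
    omega
  have h5 : aeval θ P (aeval θ G u) = 0 := by rw [← End.mul_apply, ← map_mul, ← hG, minpoly.aeval]; rfl
  generalize aeval θ G u = v at hu h5
  have := Fact.mk hP
  have : Module.Finite F (AdjoinRoot P) := (AdjoinRoot.powerBasis' hm).finite
  have : Finite (AdjoinRoot P) := Module.finite_of_finite F
  let j : AdjoinRoot P →ₗ[F] A := LinearMap.applyₗ v ∘ₗ (aeval θ).toLinearMap ∘ₗ AdjoinRoot.modByMonicHom hm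
  have h6 : ∀ φ, j (AdjoinRoot.mk P φ) = aeval θ φ v := fun φ => by
    conv_rhs => rw [← modByMonic_add_div φ P, mul_comm P]
    simp [j, h5]
  have h7 : ∀ x, j (AdjoinRoot.root P * x) = θ (j x) := fun x => by
    obtain ⟨φ, rfl⟩ := AdjoinRoot.mk_surjective x
    rw [← AdjoinRoot.mk_X, ← map_mul, h6, h6]; simp
  have h8 : j 1 = v := by simpa using h6 1
  have h9 : ∀ x, j x = 0 → x = 0 := fun x hx => by_contra fun h9 => hu (by
    obtain ⟨φ, hφ⟩ := AdjoinRoot.mk_surjective x⁻¹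
    obtain ⟨ψ, rfl⟩ := AdjoinRoot.mk_surjective x
    rw [← h8, ← inv_mul_cancel₀ h9, ← hφ, ← map_mul, h6, map_mul, End.mul_apply, ← h6, hx, map_zero])
  have h7' : ∀ x, N (N' (j x)) = j (AdjoinRoot.root P * x) := fun x => by rw [h7]; rfl
  have h0 : AdjoinRoot.root P ≠ 0 := fun h => hu (Subtype.ext (h4 v v.2 (by rw [← h8, h7', h]; simp)))
  have hs : ∀ (c : F) x, j (AdjoinRoot.of P c * x) = c • j x := fun c x => by
    rw [← map_smul, Algebra.smul_def]; rfl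
  clear_value j
  let Φ : (Fin 2 → AdjoinRoot P) → V := fun x => N' (j (x 0)) + j (x 1)
  let H : Subgroup SL(2, AdjoinRoot P) :=
    { carrier := {g | ∃ z ∈ S, ∀ x, z (Φ x) = Φ (g.1.mulVec x)}
      one_mem' := ⟨1, one_mem _, by simp⟩
      mul_mem' := by
        rintro a b ⟨z, hz, h9⟩ ⟨z', hz', h10⟩
        exact ⟨z * z', mul_mem hz hz', fun x => by
          rw [mul_app, h10, h9, Matrix.mulVec_mulVec]; rfl⟩
      inv_mem' := by
        rintro a ⟨z, hz, h9⟩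
        exact ⟨z⁻¹, inv_mem hz, fun x => inv_eq_of (by
          rw [h9, Matrix.mulVec_mulVec, ← Matrix.SpecialLinearGroup.coe_mul, mul_inv_cancel]; simp)⟩ }
  have h10 : H = ⊤ := H3.Dk.dickson_fin h2 hq h0 (fun z => by
      obtain ⟨φ, rfl⟩ := AdjoinRoot.mk_surjective z; exact ⟨φ, AdjoinRoot.aeval_eq φ⟩)
    (fun c => (hT' c).imp fun z hz => ⟨hz.1, fun x => by
      simp [Φ, hz.2, hN', Matrix.mulVec, dotProduct, hs]; abel⟩)
    fun c => (hT c).imp fun z hz => ⟨hz.1, fun x => by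
      simp [Φ, hz.2, h1, h7', Matrix.mulVec, dotProduct, hs, mul_assoc]; abel⟩
  have h11 : ∀ l : AdjoinRoot P, l ≠ 0 → ∃ z ∈ S, ∃ c : F, algebraMap F _ c * l ^ 2 = 1 ∧
      ∀ v, z (N v) = c • N (z v) := fun l hl => by
    obtain ⟨z, h11, h12⟩ := h10.ge (Subgroup.mem_top (H3.Dk.dd l hl))
    have h13 : ∀ x, z (j x) = j (l⁻¹ * x) := fun x => by
      simpa [Φ, H3.Dk.dd, Matrix.mulVec, dotProduct, mul_comm] using h12 ![0, x]
    have h14 : z (N' (j 1)) = N' (j l) := by simpa [Φ, H3.Dk.dd, Matrix.mulVec, dotProduct] using h12 ![1, 0]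
    obtain ⟨c, h15⟩ := hz z h11 (j 1) (j 1).2 (by simpa [h8] using hu) (h13 1 ▸ (j _).2)
    have h16 := h15 (N' (j 1))
    rw [h14, h7', h7', h13, ← Submodule.coe_smul, Subtype.val_inj, ← map_smul, ← sub_eq_zero, ← map_sub] at h16
    refine ⟨z, h11, c, mul_left_cancel₀ h0 ?_, h15⟩
    have h17 := h9 _ h16
    rw [Algebra.smul_def] at h17
    linear_combination (-l) * h17 + AdjoinRoot.root P * mul_inv_cancel₀ hl
  have h12 : ∀ l : AdjoinRoot P, ∃ d, algebraMap F _ d = l ^ 2 := fun l => by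
    by_cases hl : l = 0
    · exact ⟨0, by simp [hl]⟩
    obtain ⟨-, -, c, h12, -⟩ := h11 l hl
    exact ⟨c⁻¹, by rw [map_inv₀]; exact inv_eq_of_mul_eq_one_right h12⟩
  obtain ⟨d, h13⟩ := h12 (AdjoinRoot.root P)
  obtain ⟨d', h14⟩ := h12 (AdjoinRoot.root P + 1)
  have h15 : algebraMap F _ ((d' - d - 1) / 2) = AdjoinRoot.root P := by
    rw [map_div₀, div_eq_iff ((_root_.map_ne_zero _).2 h2), map_sub, map_sub, h13, h14, map_one, map_ofNat]; ring
  obtain ⟨l, h16, h17⟩ := H3.Dk.exists_sq_ne h2 hq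
  obtain ⟨z, h18, c, h19, h20⟩ := h11 _ ((_root_.map_ne_zero (algebraMap F (AdjoinRoot P))).2 h16)
  refine ⟨⟨v, v.2, by simpa using hu, (d' - d - 1) / 2, fun h => h0 (by rw [← h15, h, map_zero]), by
    rw [← h8, h7']; nth_rewrite 1 [← h15]; rw [← Algebra.smul_def, map_smul]; rfl⟩, z, h18, c, ?_, h20⟩
  rintro rfl
  exact h17 ((algebraMap F (AdjoinRoot P)).injective (by simpa using h19))

/-- the Lie algebra generated by two quadratic elements -/
def LL (N N' : End F V) : Submodule F (End F V) where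
  carrier := {x | ∃ r s t : End F V, (∀ v, r (N v) = N (r v)) ∧ (∀ v, r (N' v) = N' (r v)) ∧
    (∀ v, s (N v) = N (s v)) ∧ (∀ v, s (N' v) = N' (s v)) ∧ (∀ v, t (N v) = N (t v)) ∧ (∀ v, t (N' v) = N' (t v)) ∧
    ∀ v, x v = N (r v) + N' (s v) + (N (N' (t v)) - N' (N (t v)))}
  zero_mem' := ⟨0, 0, 0, by simp⟩
  add_mem' := fun ⟨r, s, t, h1, h2, h3, h4, h5, h6, h7⟩ ⟨r', s', t', k1, k2, k3, k4, k5, k6, k7⟩ =>
    ⟨r + r', s + s', t + t', by simp [*], by simp [*], by simp [*], by simp [*], by simp [*], by simp [*],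
      fun v => by simp [*]; abel⟩
  smul_mem' := fun c _ ⟨r, s, t, h1, h2, h3, h4, h5, h6, h7⟩ =>
    ⟨c • r, c • s, c • t, by simp [*], by simp [*], by simp [*], by simp [*], by simp [*], by simp [*],
      fun v => by simp [*, smul_sub]⟩

theorem ll_symm {N N' x : End F V} (h : x ∈ LL N N') : x ∈ LL N' N :=
  let ⟨r, s, t, h1, h2, h3, h4, h5, h6, h7⟩ := h
  ⟨s, r, -t, h4, h3, h2, h1, by simp [h6], by simp [h5], fun v => by simp [h7]; abel⟩

theorem ll_nl {N N' : End F V} (h : ∀ v, N (N v) = 0) (h' : ∀ v, N' (N' v) = 0) {c : F} {z : V ≃ₗ[F] V}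
    (hz : ∀ v, z v = v + c • N v) : z ∈ NL (LL N N') := by
  have h0 : ∀ {c : F} {z : V ≃ₗ[F] V}, (∀ v, z v = v + c • N v) → ∀ x ∈ LL N N', z.conjAlgEquiv F x ∈ LL N N' := by
    rintro c z hz x ⟨r, s, t, h1, h2, h3, h4, h5, h6, h7⟩
    refine ⟨r - (c * c) • (N * N' + N' * N) * s - (2 * c) • (N * N' + N' * N) * t, s, t + c • s, by simp [*],
      by simp [*], h3, h4, by simp [*], by simp [*], fun v => ?_⟩
    rw [cj_app, inv_eq_of (g := z) (x := v - c • N v) (by simp [hz, h])]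
    simp [*]; module
  exact mem_NL (h0 hz) (h0 (c := -c) fun v => inv_eq_of (by simp [hz, h]))

variable {g : U →ₗ[F] U →ₗ[F] F} {B : V →ₗ[F] V →ₗ[F] F} {M : Subgroup (V ≃ₗ[F] V)}
  {h : Cl (σ := RingHom.id F) (-1) 0 0 g fun _ => 0} {ι ι' : End F U →ₐ[F] End F V} {u u' : U}
  [FiniteDimensional F U] [Nontrivial V] [FiniteDimensional F V] [Finite F] (h2 : (2 : F) ≠ 0) (hq : Nat.card F ≠ 3)
include h2 hq

theorem ext_sc (E : TX.Ext h B M ι ι' u u') : Xs ι u ⊓ Xs ι' u' = ⊥ ∧ ∃ t : F, t ≠ 0 ∧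
    ∀ v, ι (r1 u (g u)) (ι' (r1 u' (g u')) (ι (r1 u (g u)) v)) = t • ι (r1 u (g u)) v := by
  have h0 := alt_self h u
  have h0' := alt_self h u'
  have k0 : ∀ v, ι (r1 u (g u)) (ι (r1 u (g u)) v) = 0 := by simp [h0]
  have k0' : ∀ v, ι' (r1 u' (g u')) (ι' (r1 u' (g u')) v) = 0 := by simp [h0']
  have h8 : ∀ a ∈ (Xs ι' u').map (ι (r1 u (g u))), ι' (r1 u' (g u')) a ∈ Xs ι u → a = 0 := by
    rintro _ ⟨x, hx, rfl⟩ h8
    exact xs_kill (E.symm.f1 hx (E.f1 (ir_mem _ _ _ _) h8)) u h0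
  have h8' : ∀ a ∈ (Xs ι' u').map (ι (r1 u (g u))), a ∈ Xs ι u := by
    rintro _ ⟨x, -, rfl⟩; exact ir_mem _ _ _ _
  let S := TX.Sg M (Xs ι u ⊔ Xs ι' u') (Xs ι u ⊓ Xs ι' u') ⊓ NL (LL (ι (r1 u (g u))) (ι' (r1 u' (g u'))))
  have hT : ∀ c : F, ∃ z ∈ S, ∀ v, z v = v + c • ι (r1 u (g u)) v := fun c =>
    (E.s.tvS E.hu (c := c) rfl le_sup_left (D := Xs ι u ⊓ Xs ι' u') fun x hx => xs_kill hx.1 u h0).imp fun z hz =>
      ⟨⟨hz.1, ll_nl k0 k0' hz.2⟩, hz.2⟩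
  have hT' : ∀ c : F, ∃ z ∈ S, ∀ v, z v = v + c • ι' (r1 u' (g u')) v := fun c =>
    (E.symm.s.tvS E.hu' (c := c) rfl le_sup_right (D := Xs ι u ⊓ Xs ι' u') fun x hx => xs_kill hx.2 u' h0').imp fun z hz =>
      ⟨⟨hz.1, fun l => ⟨fun h => ll_symm ((ll_nl k0' k0 hz.2 l).1 (ll_symm h)),
        fun h => ll_symm ((ll_nl k0' k0 hz.2 l).2 (ll_symm h))⟩⟩, hz.2⟩
  have h9 : ∀ z ∈ S, ∀ a ∈ (Xs ι' u').map (ι (r1 u (g u))), a ≠ 0 → z a ∈ Xs ι u → ∀ x ∈ Xs ι u, z x ∈ Xs ι u :=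
    fun z hz a h10 h11 h12 => by
    have h13 : a ∉ Xs ι' u' := fun h15 => h11 (h8 a h10 (by simp [xs_kill h15 u' h0']))
    rcases E.g1 hz.1.1 (fun x h1 h2 => hz.1.2.2 x ⟨h1, h2⟩) (h8' a h10) h13 h12 with h15 | h15
    · exact TX.stab_of h15.symm h11 (h8' a h10) h12
    obtain ⟨r, s, t, k1, -, h16, h17, k2, -, h18⟩ := (hz.2 (ι (r1 u (g u)))).2
      ⟨1, 0, 0, by simp, by simp, by simp, by simp, by simp, by simp, by simp⟩
    replace h18 : ∀ v, cg z ι (r1 u (g u)) v = _ := h18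
    obtain ⟨y, hy⟩ := h.form.exists_right_eq_one h.sep E.ne
    obtain ⟨χ, hχ⟩ := exists_dual_one (F := F) E.ne
    obtain ⟨w, h19⟩ := xs_range (ι := cg z ι) E.ne (TX.f_ne h E.ne) (x := z a)
      (mem_xs_cg.2 (by simpa using h8' a h10))
    have h20 : ∀ w, (2 : F) • ι (r1 u (g u)) (cg z ι (r1 u (g u)) w) =
        ι (r1 u (g u)) (ι' (r1 u' (g u')) (s w)) + ι' (r1 u' (g u')) (ι (r1 u (g u)) (s w)) := fun w => by
      rw [two_smul]; nth_rewrite 2 [← h15 _]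
      generalize ι (r1 u (g u)) = N at *
      simp [*]; abel
    have h21 : z a = ι (r1 u (g u)) (cg z ι (r1 u (g u)) (ι (r1 y χ) w)) := by
      rw [h15, ir_ir, hy, one_smul, ← h19, xs_eq h12 hχ]
    have h22 : z a ∈ Xs ι' u' := E.f1 h12 (by
      rw [← Submodule.smul_mem_iff _ h2, ← map_smul, h21, h20, map_add, k0', add_zero, ← h17,
        show ∀ w, ι' (r1 u' (g u')) (ι (r1 u (g u)) (s (ι' (r1 u' (g u')) w))) =
          (2 : F) • ι (r1 u (g u)) (cg z ι (r1 u (g u)) (ι' (r1 u' (g u')) w)) from fun w => by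
            rw [h20, h17, k0', map_zero, zero_add]]
      exact Submodule.smul_mem _ _ (ir_mem _ _ _ _))
    exact absurd (z.injective (hz.1.2.2 _ ⟨h12, h22⟩) ▸ h22) h13
  obtain ⟨⟨a, h10, h11, t, h12, h13⟩, z, h14, c, h15, h16⟩ := dick h2 hq hT hT' k0'
    (A := (Xs ι' u').map (ι (r1 u (g u)))) (fun h9 => E.symm.ne_xs E.ne' E.ne (.inl rfl) fun x hx =>
      E.symm.f1 hx (by simp [show ι (r1 u (g u)) x = 0 from h9.le ⟨_, hx, rfl⟩]))
    (fun a ha => xs_kill (h8' a ha) u h0) (fun a _ => ⟨_, ir_mem _ _ _ a, rfl⟩)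
    (fun a ha h9 => h8 a ha (E.symm.f1 (ir_mem _ _ _ _) (by simp [h9]))) fun z hz a h10 h11 h12 => by
      obtain ⟨k, h13, -, h14⟩ := E.s.kap (E.s.toFm.conj hz.1.1) rfl E.ne E.ne (Submodule.eq_of_le_of_finrank_eq
        (fun x hx => app_inv z x ▸ h9 z hz a h10 h11 (h8' _ h12) _ (mem_xs_cg.1 hx)) (finrank_xs_cg _ _)).symm
      exact ⟨k, fun v => by simpa using h14 (z v)⟩
  have h17 : Xs ι u ⊓ Xs ι' u' = ⊥ := eq_bot_iff.2 fun d hd => by
    obtain ⟨v, h17⟩ := xs_range E.ne (TX.f_ne h E.ne) hd.1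
    obtain ⟨x, h18, x', h19, h20⟩ := Submodule.mem_sup.1 (h14.1.2.1 v)
    have h21 := h16 v
    rw [← h17, h14.1.2.2 d hd, eq_add_of_sub_eq h20.symm, map_add, map_add, xs_kill h18 u h0, ← h17] at h21
    have h22 : (1 - c) • d = ι (r1 u (g u)) (c • x') := by rw [map_smul]; linear_combination (norm := module) h21
    rw [xs_kill (E.symm.f1 (Submodule.smul_mem _ c h19) (h22 ▸ Submodule.smul_mem _ _ hd.2)) u h0] at h22
    exact (smul_eq_zero_iff_right (sub_ne_zero.2 h15.symm)).1 h22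
  obtain ⟨T, h18, h19⟩ := hT (-2 / t)
  obtain ⟨T', h20, h21⟩ := hT' 1
  refine ⟨h17, t, h12, fun v => ?_⟩
  have h22 := ir_mem ι u (g u) v
  generalize ι (r1 u (g u)) v = x at h22
  have h23 : ∀ x ∈ Xs ι u, (T' * T * T') x = x + (-2 / t) • ι (r1 u (g u)) (ι' (r1 u' (g u')) x) +
      ι' (r1 u' (g u')) ((2 : F) • x + (-2 / t) • ι (r1 u (g u)) (ι' (r1 u' (g u')) x)) := fun x hx => by
    simp [mul_app, h19, h21, xs_kill hx u h0, h0']; module
  have h24 := h9 _ (mul_mem (mul_mem h20 h18) h20) a h10 h11 (by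
    rw [h23 a (h8' a h10), h13, smul_smul, div_mul_cancel₀ _ h12]
    simpa using add_mem (h8' a h10) (neg_mem (Submodule.smul_mem _ 2 (h8' a h10)))) x h22
  have h25 := Submodule.smul_mem _ (-2 / t) (ir_mem ι u (g u) (ι' (r1 u' (g u')) x))
  rw [h23 x h22, Submodule.add_mem_iff_right _ (add_mem h22 h25)] at h24
  have h26 := add_mem (Submodule.smul_mem _ 2 h22) h25
  have h27 : _ = (0 : V) := h17.le ⟨h26, E.f1 h26 h24⟩
  rw [← smul_right_inj (show -2 / t ≠ 0 by simp [h2, h12]), smul_smul, div_mul_cancel₀ _ h12]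
  linear_combination (norm := module) h27

theorem ext_false (hk : finrank F U = 2) (E : TX.Ext h B M ι ι' u u') : False := by
  obtain ⟨h1, t, h3, h4⟩ := ext_sc h2 hq E
  obtain ⟨y, hy⟩ := h.form.exists_right_eq_one h.sep E.ne
  have h5 : ∀ a, ∃ s : F, cf ι (ι' (r1 u' (g u'))) (g a) a = s • 1 := fun a => by
    by_cases ha : a = 0
    · exact ⟨0, by simp [ha]⟩
    obtain ⟨-, s, -, h5⟩ := ext_sc h2 hq (E.move h1 rfl ha)
    exact ⟨s, sub_eq_zero.1 (LinearMap.ext (Cm.cancel (ι := ι) (fun y v => by simp [cf_cm _ _ _ y])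
      (r1_ne ha (TX.f_ne h ha)) fun v => by simp [← cf_eq, h5]))⟩
  have h6 : ∀ v, ι (r1 y (g u)) v - ι (r1 u (g y)) v = v := fun v => by
    simpa [wg] using congrArg (fun x => -ι x v) (one2 h hk hy)
  have h7 : ∀ v, ι' (r1 u' (g u')) (ι' (r1 u' (g u')) v) = 0 := by simp [alt_self h]
  have h8 : ∀ v, ι' (r1 u' (g u')) v ∈ Xs ι' u' := ir_mem _ _ _
  have h0 := r1_ne E.ne' (TX.f_ne h E.ne')
  replace h0 : ι' (r1 u' (g u')) ≠ 0 := fun h => h0 (i_inj (ι := ι') (by simp [h]))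
  generalize ι' (r1 u' (g u')) = N at *
  obtain ⟨s, h9⟩ := h5 y
  obtain ⟨s', h10⟩ := h5 (u + y)
  have h11 : ∀ φ v, ι (r1 u (g u)) (N (ι (r1 u φ) v)) = t • ι (r1 u φ) v := fun φ v => by
    simpa [hy] using h4 (ι (r1 y φ) v)
  have h12 : cf ι N (g u) u = t • 1 := sub_eq_zero.1 (LinearMap.ext (Cm.cancel (ι := ι)
    (fun y v => by simp [cf_cm _ _ _ y]) (r1_ne E.ne (TX.f_ne h E.ne)) fun v => by simp [← cf_eq, h4]))
  have h13 : cf ι N (g y) u = (s' - s - t) • 1 - cf ι N (g u) y := by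
    simp only [map_add, LinearMap.add_apply, h9, h12] at h10
    linear_combination (norm := module) h10
  have h14 : cf ι N (g u) y = ((s' - s - t) / 2) • 1 := sub_eq_zero.1 (LinearMap.ext (Cm.cancel (ι := ι)
    (fun y v => by simp [cf_cm _ _ _ y]) (r1_ne E.ne (TX.f_ne h E.ne)) fun v => by
      have h14 := congrArg (ι (r1 u (g u))) (h7 (ι (r1 u (g u)) v))
      rw [← h6 (N (ι _ v)), map_sub, map_sub, cf_eq N y, cf_eq N u (g y), cf_eq, h11, h12, h13] at h14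
      rw [← smul_eq_zero_iff_right (mul_ne_zero h2 h3)]
      simp only [LinearMap.smul_apply, End.one_apply, map_smul, LinearMap.sub_apply, map_sub, map_zero] at h14 ⊢
      rw [smul_sub, smul_smul, show 2 * t * ((s' - s - t) / 2) = t * (s' - s - t) by field_simp]
      linear_combination (norm := module) h14))
  have h15 : ∀ v, ι (((s' - s - t) / 2) • r1 y (g u) - t • r1 y (g y) - s • r1 u (g u) +
      ((s' - s - t) / 2) • r1 u (g y)) v = N v := fun v => by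
    conv_rhs => rw [← h6 v, ← h6 (N _)]
    simp only [map_sub, cf_eq, h9, h12, h13, h14]
    simp only [map_add, map_sub, map_smul, LinearMap.add_apply, LinearMap.sub_apply, LinearMap.smul_apply,
      End.one_apply]
    match_scalars <;> field_simp <;> ring
  obtain ⟨a, h16, h17⟩ := TX.eq_xs (E.symm.dim E.ne) (fun h => h0 (LinearMap.ext fun v => by
    rw [← h15, h]; simp)) fun v => h15 v ▸ h8 v
  exact E.ne_xs h16 E.ne' (.inl rfl) h17.ge

end Cfsg.Agent.H10.Sw
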