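import Mathlib
import Cfsg.Agent.H10.Sw6

/-! Overgroups of tensor induced subgroups with symplectic factors permute the factors. -/

set_option autoImplicit false
set_option maxHeartbeats 400000

namespace Cfsg.Agent.H10.Sw

open Module H10 H11 H19 H19.TW H26 H26.MX Cf

variable {F : Type*} [Field F] {U V : Type*} [AddCommGroup U] [Module F U] [AddCommGroup V] [Module F V]
  {g : U →ₗ[F] U →ₗ[F] F} {ε κ : F} {τ : F →+ F} {B : V →ₗ[F] V →ₗ[F] F} {Q : V → F}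
  {M : Subgroup (V ≃ₗ[F] V)} [FiniteDimensional F U]

section
variable {ι ι' : End F U →ₐ[F] End F V}

theorem Fa.fm (h : Fa g ε κ τ B Q M ι) : TX.Fm h.hU B M ι :=
  ⟨fun _ => h.hV.form.separatingRight h.hV.sep, fun _ _ => h.hV.refl, fun _ hk => (h.le hk).1,
    fun a b v w => by simp [h.Br], fun _ hs => h.exists_s (h.hU.om_le_isom hs)⟩

theorem tor2 (h : Cl (σ := RingHom.id F) (-1) 0 0 g fun _ => 0) (hk : finrank F U = 2) (h2 : (2 : F) ≠ 0)
    (hq : Nat.card F ≠ 3) : TX.Tor h := fun u y _ _ h1 => by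
  obtain ⟨l, h3, h4⟩ := H3.Dk.exists_sq_ne h2 hq
  have hu : u ≠ 0 := by rintro rfl; simp at h1
  have h5 : ∀ c d : F, d ≠ 0 → d • y ∉ F ∙ c • u := fun c d hd h5 => by
    obtain ⟨e, he⟩ := Submodule.mem_span_singleton.1 h5
    simpa [alt_self h, h1, hd] using congrArg (g u) he.symm
  obtain ⟨s, h6, h7, h8⟩ := witt2 h hu (by simpa using h5 1 1 one_ne_zero) (smul_ne_zero h3 hu)
    (h5 l l⁻¹ (inv_ne_zero h3)) (by simp [h3])
  have h9 : l ≠ l⁻¹ := fun h => h4 (by rw [sq]; nth_rewrite 2 [h]; exact mul_inv_cancel₀ h3)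
  refine ⟨s, (mem_om_alt h).2 h6.1, l, l, l⁻¹, h7, h8, fun a ha => ⟨0, ?_⟩, h9, h9⟩
  obtain ⟨c, rfl⟩ := Submodule.mem_span_singleton.1 (show a ∈ F ∙ u from by_contra fun h10 => by
    have := three_le h hu h10 ha; omega)
  simp [h7, smul_smul, mul_comm]

variable [Nontrivial V]

theorem St.fq (h : St g ε κ τ B Q M ι) (hk : 4 ≤ finrank F U ∨ finrank F U = 2 ∧ (2 : F) ≠ 0 ∧ Nat.card F ≠ 3) :
    TX.Fq h.hU B M ι := by
  refine ⟨h.fm, ⟨1, one_ne_zero, rfl⟩, hk.imp_right fun hk => tor2 h.hU hk.1 hk.2.1 hk.2.2,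
    fun u _ hu θ h1 h2 h3 => ?_⟩
  obtain ⟨y, h4, h5⟩ : ∃ y, g u y = 0 ∧ ∀ v ∈ perp B (Xs ι u), θ v = v + ι (r1 u (g y)) v := by
    rcases hk with hk | ⟨hk, -⟩
    · obtain ⟨y, h4⟩ := h.sc2 (by omega) u hu (θ.toLinearMap - 1) ⟨θ, h1, by simp⟩ (fun x hx => by simp [h2 x hx])
        fun v hv => h3 v ((h.perp_iff hu).1 hv)
      refine ⟨y, h.hU.refl (by_contra fun h5 => r1_ne hu (h.g_ne hu) (i_inj (ι := ι) fun v => ?_)),
        fun v hv => eq_add_of_sub_eq' (h4 v hv)⟩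
      have h6 := h4 _ (h.xs_perp (h.gg u) (ir_mem ι u (g u) v))
      simpa [h2 _ (ir_mem ι u (g u) v), h5] using h6.symm
    obtain ⟨y, hy⟩ := h.hU.form.exists_right_eq_one h.hU.sep hu
    refine ⟨0, by simp, fun v hv => ?_⟩
    have h4 : ι (r1 u (g y)) v = -v := by
      simpa [wg, h.perp_kill hv] using congrArg (fun x => ι x v) (one2 h.hU hk hy)
    simpa using h2 v (by simpa [h4] using ir_mem ι u (g y) v)
  obtain ⟨T, h6, h7⟩ := h.in_sy h4 (-1)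
  have h8 : ∀ v ∈ perp B (Xs ι u), (T * θ) v = v := fun v hv => by
    simp [mul_app, h7, h5 v hv, h.perp_kill hv, h.gg, h.hU.refl h4]
  obtain ⟨c, hc⟩ := h.sc1 u hu ((T * θ).toLinearMap - 1) ⟨_, mul_mem h6 h1, by simp⟩
    (h.fm.img_mem (mul_mem h6 h1) fun v hv => h8 v ((h.perp_iff hu).2 hv)) fun v hv => sub_eq_zero.2 (h8 v hv)
  refine ⟨(1 + (r1 u (g y) + r1 y (g u))) * (1 + c • r1 u (g u)), fun v => T.injective ?_⟩
  rw [show T (θ v) = v + c • ι (r1 u (g u)) v from eq_add_of_sub_eq' (LinearMap.congr_fun hc v)]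
  simp [h7, h.gg, h4, h.hU.refl h4]; abel

theorem not_cc2 (h0 : Cl (σ := RingHom.id F) (-1) 0 0 g fun _ => 0) [Nontrivial U] (h : CC ι ι') :
    ¬ ι.range ≤ ι'.range := fun h1 => by
  obtain ⟨u, hu⟩ := exists_ne (0 : U)
  obtain ⟨a, ha⟩ := h0.form.exists_right_eq_one h0.sep hu
  obtain ⟨x, hx⟩ := h1 ⟨r1 a (g u), rfl⟩
  refine r1_ne hu (TX.f_ne h0 hu) (i_inj (ι := ι) fun v => ?_)
  have := h x (r1 u (g u)) v
  rw [show ι' x = ι (r1 a (g u)) from hx] at this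
  simpa [ha, alt_self h0] using this.symm

theorem gd_all [FiniteDimensional F V] [Finite F] {h : Cl (σ := RingHom.id F) (-1) 0 0 g fun _ => 0}
    (H : TX.Fq h B M ι)
    (hm : 5 ≤ finrank F U ∨ (2 : F) ≠ 0 ∧ (finrank F U = 4 ∨ finrank F U = 2 ∧ Nat.card F ≠ 3))
    {k k' : V ≃ₗ[F] V} (hk : k ∈ M) (hk' : k' ∈ M) : Gd (cg k ι) (cg k' ι) := by
  by_contra h1
  have : Nontrivial U := Module.nontrivial_of_finrank_pos (R := F) (by omega)
  obtain ⟨u, hu⟩ := exists_ne (0 : U)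
  have : Finite U := Module.finite_of_finite F
  have : Finite V := Module.finite_of_finite F
  have : Finite (V ≃ₗ[F] V) := DFunLike.finite _
  obtain ⟨⟨⟨k, k'⟩, a, a'⟩, ⟨hk, hk', h1, ha, ha'⟩, hx⟩ := Set.exists_max_image
    {p : (_ × _) × U × U | p.1.1 ∈ M ∧ p.1.2 ∈ M ∧ ¬ Gd (cg p.1.1 ι) (cg p.1.2 ι) ∧ p.2.1 ≠ 0 ∧ p.2.2 ≠ 0}
    (fun p => finrank F ↥(Xs (cg p.1.1 ι) p.2.1 ⊓ Xs (cg p.1.2 ι) p.2.2)) (Set.toFinite _)
    ⟨((k, k'), u, u), hk, hk', h1, hu, hu⟩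
  have E : TX.Ext h B M (cg k ι) (cg k' ι) a a' := ⟨H.conj hk, ⟨k' * k⁻¹, mul_mem hk' (inv_mem hk), by
    rw [cg_cg, inv_mul_cancel_right]⟩, rfl, ha, rfl, ha', h1, fun j hj j' hj' b b' _ h2 _ h3 h4 =>
      hx ((j * k, j' * k), b, b') ⟨mul_mem hj hk, mul_mem hj' hk, h4, h2, h3⟩,
    hm.elim (fun h => .inr (.inr (by omega))) fun h => .inl h.1⟩
  by_cases two : (2 : F) = 0
  · have := hm.resolve_right fun h => h.1 two
    exact E.false₂ two (by omega) (.inl this)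
  by_cases h2 : 3 ≤ finrank F U
  · exact E.false₁ h2 (.inl two)
  obtain ⟨h3, h4⟩ := (hm.resolve_left (by omega)).2.resolve_left (by omega)
  exact ext_false two h4 h3 E

end

variable {T : Type} [Fintype T] [DecidableEq T] {ι : T → (End F U →ₐ[F] End F V)}
  (hc : ∀ i j, i ≠ j → CC (ι i) (ι j)) (hg : ∀ A : Subalgebra F (End F V), (∀ i x, ι i x ∈ A) → A = ⊤)
include hc hg

theorem mem_of_cm2 [Nontrivial U] {i : T} {E : Subalgebra F (End F V)}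
    (h2 : ∀ j, j ≠ i → ∀ y, ι j y ∈ E) {e : End F V} (he : Cm (ι i) e) : e ∈ E := by
  obtain ⟨u, hu⟩ := exists_ne (0 : U)
  obtain ⟨χ₀, h3⟩ := exists_dual_one (F := F) hu
  let A : Subalgebra F (End F V) :=
    { carrier := {x | ∀ χ a, ∃ c ∈ E, ∀ u φ v, ι i (r1 u χ) (x (ι i (r1 a φ) v)) = ι i (r1 u φ) (c v)}
      add_mem' := fun ha hb χ a => let ⟨c, h1, h2⟩ := ha χ a; let ⟨d, h3, h4⟩ := hb χ a
        ⟨c + d, add_mem h1 h3, fun u φ v => by simp [h2, h4]⟩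
      mul_mem' := fun {x y} ha hb χ a => by
        choose c h4 h5 using ha χ
        choose d h6 h7 using fun χ => hb χ a
        refine ⟨∑ k, c (finBasis F U k) * d ((finBasis F U).coord k),
          sum_mem fun k _ => mul_mem (h4 _) (h6 _), fun u φ v => ?_⟩
        rw [End.mul_apply, ← sum_ir (ι i) (y _)]
        simp [h7, h5]
      algebraMap_mem' := fun c χ a => ⟨algebraMap F _ (c * χ a), E.algebraMap_mem _, fun u φ v => by
        simp [smul_smul, mul_comm]⟩ }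
  obtain ⟨c, h4, h5⟩ := (hg A fun j x χ a => by
    by_cases h4 : j = i
    · exact ⟨algebraMap F _ (χ (x a)), E.algebraMap_mem _, fun u φ v => by simp [h4, i_i _ x, mul_r1]⟩
    · exact ⟨χ a • ι j x, E.smul_mem (h2 j h4 x) _, fun u φ v => by simp [hc i j (Ne.symm h4) x _]⟩).ge
    (Algebra.mem_top (x := e)) χ₀ u
  rwa [show e = c from LinearMap.ext fun v => sub_eq_zero.1 (eq_zero_of_ir (ι := ι i) hu fun φ => by
    simpa [he _, h3, sub_eq_zero] using h5 u φ v)]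

theorem exists_perm [FiniteDimensional F V] [Finite F] [Nontrivial T] [Nontrivial V]
    (hF : ∀ i, Fa g ε κ τ B Q M (ι i))
    (hs : ∀ a b c, a ≠ b → b ≠ c → a ≠ c → ∃ s ∈ M, cg s (ι a) = ι b ∧ cg s (ι b) = ι c ∧
      ∀ x, x ≠ a → x ≠ b → x ≠ c → cg s (ι x) = ι x)
    (hs2 : (2 : F) ≠ 0 → ∀ i j l, j ≠ i → l ≠ i → j ≠ l → ∃ s ∈ M, cg s (ι i) = ι i ∧ cg s (ι j) = ι l)
    (hm : 5 ≤ finrank F U ∨ (2 : F) ≠ 0 ∧ (finrank F U = 4 ∨ finrank F U = 2 ∧ Nat.card F ≠ 3))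
    (h0 : τ = 0 → (2 : F) ≠ 0) (hQ : ∀ i u, ∀ x ∈ Xs (ι i) u, Q x = 0) (hd : 2 * finrank F U < finrank F V)
    {hV : Cl (σ := RingHom.id F) ε κ τ B Q} (hM : ¬ hV.Om ≤ M) {k : V ≃ₗ[F] V} (hk : k ∈ M) :
    ∃ σ : Equiv.Perm T, ∀ i, (cg k (ι i)).range ≤ (ι (σ i)).range := by
  have : Nontrivial U := Module.nontrivial_of_finrank_pos (R := F) (by omega)
  have hS : ∀ i, St g ε κ τ B Q M (ι i) := fun i => by
    have h1 := fun h => hM ((hF i).om_le h0 (hQ i) hd h)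
    rcases hm with hm | ⟨h2, hm⟩
    · exact (hF i).st (fun e he => sc6 hc hg hF hs h1 hm e ((hF i).e1_le_e2 he)) fun _ => sc6 hc hg hF hs h1 hm
    have h3 := sc1_small hc hg hF hs h1 h2 (by omega) (hs2 h2 i)
    exact (hF i).st h3 fun _ => sc2_small hc hg hF h2 (by omega) h3
  have h1 : ∀ i, ∃ j, (cg k (ι i)).range ≤ (ι j).range := fun i => by
    by_contra! h1
    have h2 : ∀ s ∈ M, ∀ j, cg s (ι i) = ι j → CC (ι j) (cg k (ι i)) := fun s h2 j h3 =>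
      h3 ▸ (gd_all ((hS i).fq (hm.elim (fun h => .inl (by omega)) fun h => h.2.imp (fun h => h.ge)
        fun h' => ⟨h'.1, h.1, h'.2⟩)) hm h2 hk).resolve_left fun h4 => h1 j (h3 ▸ h4.ge)
    obtain ⟨j, hj⟩ := exists_ne i
    by_cases h3 : ∀ l, l ≠ i → l = j
    · refine h1 j ?_
      rintro _ ⟨x, rfl⟩
      exact mem_of_cm2 hc hg (fun l hl y => h3 l hl ▸ ⟨y, rfl⟩) (h2 1 (one_mem _) i rfl x)
    push Not at h3
    obtain ⟨l, h3, h4⟩ := h3
    refine h1 j ?_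
    rintro _ ⟨x, rfl⟩
    obtain ⟨c, h5⟩ := scal_of_cm hg (e := cg k (ι i) x) fun a => by
      by_cases h5 : i = a
      · exact h5 ▸ h2 1 (one_mem _) i rfl x
      by_cases h6 : a = j
      · obtain ⟨s, h7, h8, -⟩ := hs i a l h5 (h6 ▸ h4.symm) h3.symm
        exact h2 s h7 a h8 x
      · obtain ⟨s, h7, h8, -⟩ := hs i a j h5 h6 hj.symm
        exact h2 s h7 a h8 x
    exact ⟨c • 1, LinearMap.ext fun v => by simpa using (h5 v).symm⟩
  choose σ h2 using h1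
  have h3 : ∀ ι : End F U →ₐ[F] End F V, finrank F ι.range = finrank F (End F U) := fun ι =>
    (AlgEquiv.ofInjective ι ((injective_iff_map_eq_zero _).2 fun x hx =>
      i_inj (ι := ι) (by simp [hx]))).toLinearEquiv.finrank_eq.symm
  exact ⟨Equiv.ofBijective σ (Finite.injective_iff_bijective.1 fun i j h4 => by_contra fun h5 =>
    not_cc2 (hF i).hU ((hc i j h5).conj k) ((h2 i).trans (h4 ▸ (Subalgebra.eq_of_le_of_finrank_eq (h2 j)
      ((h3 _).trans (h3 _).symm)).ge))), h2⟩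

end Cfsg.Agent.H10.Sw
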