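import Mathlib
import Cfsg.Agent.H10.Sw7
import Cfsg.Agent.H10.Ag22

/-! Maximality of the tensor induced subgroups with symplectic factors. -/

set_option autoImplicit false
set_option maxHeartbeats 400000

namespace Cfsg.Agent.H10.Sw

open Module H10 H11 H19 H19.TW H26 H26.MX Cf Cfsg.Geo Matrix

variable {F : Type*} [Field F] {ε κ' : F} {τ : F →+ F}

theorem Fa.exists_bad {U V : Type*} [AddCommGroup U] [Module F U] [AddCommGroup V] [Module F V]
    {g : U →ₗ[F] U →ₗ[F] F} {B : V →ₗ[F] V →ₗ[F] F} {Q : V → F} {M : Subgroup (V ≃ₗ[F] V)}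
    {ι : End F U →ₐ[F] End F V} [FiniteDimensional F U] [FiniteDimensional F V] [Nontrivial U] [Nontrivial V]
    (h : Fa g ε κ' τ B Q M ι) (hk : 3 ≤ finrank F U ∨ (2 : F) ≠ 0) (hs : ∀ u, ∀ x ∈ Xs ι u, Q x = 0)
    (hd : 2 * finrank F U < finrank F V) :
    ∃ k ∈ h.hV.Om, ∀ ι', ι' = ι ∨ CC ι ι' → ¬ (cg k ι).range ≤ ι'.range := by
  obtain ⟨u, hu⟩ := exists_ne (0 : U)
  obtain ⟨b, hb⟩ := h.hU.form.exists_right_eq_one h.hU.sep hu
  have d1 := three_le_xs (ι := ι) hd hu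
  obtain ⟨x, h1, h2⟩ := exists_ne_zero_of_finrank (W := Xs ι u) (by omega)
  have d2 := H10.finrank_span_one_le (F := F) x
  obtain ⟨x', h3, h4⟩ := exists_mem_notMem (W := Xs ι u) (Z := F ∙ x) (by omega)
  obtain ⟨w, h5, h6⟩ := h.hV.form.exists_perp_not h.hV.sep h4
  have h0 : ∀ {x x'}, x ∈ Xs ι u → x' ∈ Xs ι u → B x x' = 0 := fun hx hx' => h.xs_perp (h.gg _) hx' _ hx
  have h7 : ∀ v, h.hV.eich x x' 0 v = v + ((B x').smulRight x - ε • (B x).smulRight x') v := fun v => by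
    simp [h.hV.eich_apply (hs u x h1) (h0 h1 h3), add_sub_assoc, smul_smul]
  refine ⟨_, h.hV.eich_mem_om (c := 0) (hs u x h1) (h0 h1 h3) (by simp [hs u x' h3]), ?_⟩
  generalize h.hV.eich x x' 0 = k at h7
  rintro ι' (rfl | h8) h9
  · rcases TX.cm2 hk (TX.range_eq h9) (u := u) (Z := Submodule.span F {x, x'})
      ((H10.finrank_span_pair_le x x').trans (by omega)) h7 (by simp [h0 h1 h1, h0 h1 h3, h0 h3 h1, h0 h3 h3])
      (fun v => sub_mem (Submodule.smul_mem _ _ (Submodule.subset_span (by simp)))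
        (Submodule.smul_mem _ _ (Submodule.smul_mem _ _ (Submodule.subset_span (by simp))))) with h10 | ⟨a, ha, h10⟩
    · have h11 := congrArg (ι' (r1 u (g u))) (h10 (r1 b (g b)) w)
      simp [h7, h6, h5 x (Submodule.mem_span_singleton_self x), xs_kill h1 u (h.gg u), xs_kill h3 u (h.gg u),
        hb] at h11
      exact h2 (by simpa [xs_smul h1 hu, h.hU.flip_one hb] using h11)
    · have := three_le_xs (ι := ι') hd ha
      have := H10.finrank_span_pair_le (F := F) x x'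
      rw [h10] at this; omega
  obtain ⟨y, hy⟩ := h9 ⟨r1 u (g u), rfl⟩
  have h10 : ∀ v, ι' y (k v) = k (ι (r1 u (g u)) v) := fun v => by
    simpa using LinearMap.congr_fun (show ι' y = cg k ι (r1 u (g u)) from hy) (k v)
  have h11 : ∀ v, ι' y v = ι (r1 u (g u)) v := fun v => by
    rw [← app_inv k v, h10]
    simp [h7, xs_kill h1 u (h.gg u), xs_kill h3 u (h.gg u), h0 h1 (ir_mem _ _ _ _), h0 h3 (ir_mem _ _ _ _)]
  exact r1_ne hu (h.g_ne hu) (i_inj (ι := ι) fun v => by simpa [h11, hb, h.gg] using h8 y (r1 b (g u)) v)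

variable {κ : Type} [Fintype κ] [DecidableEq κ] {m t : ℕ} (e : κ ≃ (Fin t → Fin m)) (P : GL κ F)

/-- permuting the factors -/
noncomputable def pw : Equiv.Perm (Fin t) →* ((κ → F) ≃ₗ[F] (κ → F)) :=
  MonoidHom.mk' (fun σ => glEquiv κ F (trG e P (facPerm _ F σ))) fun σ τ => by rw [facPerm_mul, map_mul, map_mul]

theorem cg_pw (σ : Equiv.Perm (Fin t)) (a : Fin t) : cg (pw e P σ) (fe e P a) = fe e P (σ a) :=
  AlgHom.ext fun y => by
    rw [show pw e P σ = glEquiv κ F (trG e P (facPerm _ F σ)) from rfl, cg_fe, ← trA_cj, cj_facPerm_fac]; rfl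

theorem pw_pten (σ : Equiv.Perm (Fin t)) (xs : Fin t → Fin m → F) :
    pw e P σ (pten e P xs) = pten e P (xs ∘ σ.symm) := by
  rw [show pw e P σ = glEquiv κ F (trG e P (facPerm _ F σ)) from rfl, glEquiv_apply, coe_trG, pten, trA_mulVec, pten]
  congr 2
  ext a
  simp [mulVec, dotProduct, facPerm_apply, ← Equiv.prod_comp σ fun i => xs (σ.symm i) (a i)]

variable {e P} {B : (κ → F) →ₗ[F] (κ → F) →ₗ[F] F} {Q : (κ → F) → F} {g : (Fin m → F) →ₗ[F] (Fin m → F) →ₗ[F] F}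
  {c : F} (hV : Cl (σ := RingHom.id F) ε κ' τ B Q) (hU : Cl (σ := RingHom.id F) (-1) 0 0 g fun _ => 0)
  (hB : ∀ xs ys, B (pten e P xs) (pten e P ys) = c * ∏ i, g (xs i) (ys i)) (hp : ∀ xs, Q (pten e P xs) = 0)
include hV hB hp

theorem pw_isom (σ : Equiv.Perm (Fin t)) : pw e P σ ∈ Isom B Q := by
  have h1 : ∀ u v, B (pw e P σ u) (pw e P σ v) = B u v := fun u v => by
    refine sub_eq_zero.1 (pten_span e P (W := LinearMap.ker (B.flip (pw e P σ v) ∘ₗ (pw e P σ).toLinearMap - B.flip v))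
      (fun xs => ?_) u)
    refine pten_span e P (W := LinearMap.ker (B (pw e P σ (pten e P xs)) ∘ₗ (pw e P σ).toLinearMap - B (pten e P xs)))
      (fun ys => sub_eq_zero.2 ?_) v
    simp [pw_pten, hB, ← Equiv.prod_comp σ fun i => g (xs (σ.symm i)) (ys (σ.symm i))]
  exact ⟨h1, pten_span e P (W :=
    { carrier := {v | Q (pw e P σ v) = Q v}
      zero_mem' := by simp
      add_mem' := fun ha hb => by simp_all [hV.Q_add]
      smul_mem' := fun c x hx => by simp_all [hV.Q_smul] }) fun xs => by simp [pw_pten, hp]⟩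

include hU

theorem q_xs (i : Fin t) (u : Fin m → F) (x : κ → F) (hx : x ∈ Xs (fe e P i) u) : Q x = 0 := by
  by_cases hu : u = 0
  · rw [show x = 0 by simpa using hx 1 (by simp [hu]), hV.Q_zero]
  obtain ⟨χ, hχ⟩ := exists_dual_one (F := F) hu
  obtain ⟨a, rfl⟩ := hU.exists_B χ
  rw [← xs_eq hx hχ]
  exact pten_span e P (W :=
    { carrier := {v | Q (fe e P i (r1 u (g a)) v) = 0}
      zero_mem' := by simp [hV.Q_zero]
      add_mem' := fun ha hb => by simp_all [hV.Q_add, adj_fe hB i (adj_wg hU u a) _, alt_self hU]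
      smul_mem' := fun c x hx => by simp_all [hV.Q_smul] }) (fun xs => (fe_pten e P i _ xs).symm ▸ hp _) x

theorem sw_max [Fintype F] {G : Subgroup (GL κ F)} (hG : ∀ x, x ∈ G ↔ glEquiv κ F x ∈ hV.Om) (ht : 2 ≤ t)
    (hm : 5 ≤ m ∨ (2 : F) ≠ 0 ∧ (m = 4 ∨ m = 2 ∧ Nat.card F ≠ 3)) (h0 : τ = 0 → (2 : F) ≠ 0)
    (hn : 13 ≤ Fintype.card κ)
    (htv : ∀ i u (d : F) (k : (κ → F) ≃ₗ[F] (κ → F)), (∀ v, k v = v + d • fe e P i (r1 u (g u)) v) → k ∈ hV.Om)
    (hcm : ∀ x ∈ Isom B Q, ∀ y ∈ Isom B Q, x * y * x⁻¹ * y⁻¹ ∈ hV.Om)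
    (hsw : (2 : F) ≠ 0 → Isom B Q ≤ hV.Om ∨ t ≠ 3) :
    IsMaximalIn G (tensorWreathSubgroup m t e P ⊓ G) := by
  have : Nonempty (Fin m) := ⟨⟨0, by omega⟩⟩
  have : Nontrivial (Fin t) := Fin.nontrivial_iff_two_le.2 ht
  have : Nonempty κ := e.nonempty
  have hd : 2 * finrank F (Fin m → F) < finrank F (κ → F) := by
    have h1 : Fintype.card κ = m ^ t := by simp [Fintype.card_congr e]
    have h2 := Nat.pow_le_pow_right (show 0 < m by omega) ht
    simp only [finrank_fintype_fun_eq_card, Fintype.card_fin]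
    by_cases h3 : m = 2
    · omega
    · nlinarith [show 3 ≤ m by omega]
  have hF : ∀ M ≤ hV.Om, (∀ k ∈ hV.Om, (∀ i, (cg k (fe e P i)).range ≤ (fe e P i).range) → k ∈ M) →
      ∀ i, Fa g ε κ' τ B Q M (fe e P i) := fun M h1 h2 i => ⟨hU, hV, h1.trans hV.om_le_isom,
    fun _ _ => adj_fe hB i, fun u d => ⟨unip (d • fe e P i (r1 u (g u))) (by simp [alt_self hU]),
      h2 _ (htv i u d _ fun _ => rfl) fun j => by
      rintro _ ⟨y, rfl⟩
      by_cases h : i = j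
      · exact ⟨(1 + d • r1 u (g u)) * y * (1 - d • r1 u (g u)), LinearMap.ext fun v => by simp [← h]⟩
      · exact ⟨y, LinearMap.ext fun v => by simp [fe_cc e P j i (Ne.symm h) _ _, alt_self hU]⟩, fun _ => rfl⟩⟩
  refine H10.isMaximalIn_inf (fun h => ?_) fun M hM hM' x hx hx' y hy => by_contra fun h1 => hx' ?_
  · obtain ⟨k, h1, h2⟩ := (hF _ le_rfl (fun _ h _ => h) ⟨0, by omega⟩).exists_bad
      (hm.elim (fun h => .inl (by simp; omega)) fun h => .inr h.1) (q_xs hV hU hB hp _) hd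
    obtain ⟨j, a, h3⟩ := cg_wr (h ((hG ((glEquiv κ F).symm k)).2 (by simpa))) ⟨0, by omega⟩
    rw [MulEquiv.apply_symm_apply] at h3
    refine h2 (fe e P j) ((eq_or_ne j ⟨0, by omega⟩).imp (congrArg _) fun h => fe_cc e P _ j h.symm) ?_
    rintro _ ⟨y, rfl⟩
    exact ⟨_, (h3 y).symm⟩
  have h2 : ∀ k ∈ hV.Om, ∀ σ : Equiv.Perm (Fin t), (∀ i, (cg k (fe e P i)).range ≤ (fe e P (σ i)).range) →
      k ∈ M.map (glEquiv κ F).toMonoidHom := fun k hk σ h => ⟨(glEquiv κ F).symm k, hM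
    ⟨mem_wr σ (by simpa), (hG _).2 (by simpa)⟩, by simp⟩
  have h3 : ∀ a b c : Fin t, a ≠ b → b ≠ c → a ≠ c → ∃ s ∈ M.map (glEquiv κ F).toMonoidHom,
      cg s (fe e P a) = fe e P b ∧ cg s (fe e P b) = fe e P c ∧
      ∀ x, x ≠ a → x ≠ b → x ≠ c → cg s (fe e P x) = fe e P x := fun a b c h3 h4 h5 => by
    refine ⟨pw e P (Equiv.swap a b * Equiv.swap a c * (Equiv.swap a b)⁻¹ * (Equiv.swap a c)⁻¹), h2 _ (by
      simp only [map_mul, map_inv]; exact hcm _ (pw_isom hV hB hp _) _ (pw_isom hV hB hp _)) _ fun a => by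
        rw [cg_pw], ?_, ?_, fun x h6 h7 h8 => ?_⟩
    all_goals rw [cg_pw]; simp [Equiv.swap_apply_def, *, h3.symm, h4.symm, h5.symm]
  obtain ⟨σ, h3⟩ := exists_perm (M := M.map (glEquiv κ F).toMonoidHom) (fe_cc e P) (fe_gen e P)
    (hF _ (by rintro _ ⟨z, hz, rfl⟩; exact (hG z).1 (hM' hz)) fun k hk => h2 k hk 1) h3
    (fun two i j l h4 h5 h6 => by
      rcases hsw two with h7 | h7
      · exact ⟨pw e P (Equiv.swap j l), h2 _ (h7 (pw_isom hV hB hp _)) _ fun a => by rw [cg_pw],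
          by rw [cg_pw, Equiv.swap_apply_of_ne_of_ne h4.symm h5.symm], by rw [cg_pw, Equiv.swap_apply_left]⟩
      obtain ⟨n, -, h8⟩ := Finset.exists_mem_notMem_of_card_lt_card (s := {i, j, l}) (t := Finset.univ) (by
        have h8 := Finset.card_le_univ ({i, j, l} : Finset (Fin t))
        rw [Finset.card_eq_three.2 ⟨i, j, l, h4.symm, h5.symm, h6, rfl⟩] at h8 ⊢
        simp at h8 ⊢; omega)
      simp only [Finset.mem_insert, Finset.mem_singleton, not_or] at h8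
      obtain ⟨s, h9, h10, -, h11⟩ := h3 j l n h6 (Ne.symm h8.2.2) (Ne.symm h8.2.1)
      exact ⟨s, h9, h11 i h4.symm h5.symm (Ne.symm h8.1), h10⟩)
    (by simpa using hm) h0 (q_xs hV hU hB hp) hd (hV := hV)
    (fun h => h1 (by
      obtain ⟨z, hz, h3⟩ := h ((hG y).1 hy)
      rwa [← (glEquiv κ F).injective h3])) ⟨x, hx, rfl⟩
  exact mem_wr σ h3

theorem nil_alt (hε : ε = 1) (ht : 2 ≤ t) (i : Fin t) (u : Fin m → F) (v : κ → F) :
    B (fe e P i (r1 u (g u)) v) v = 0 := by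
  have : Nontrivial (Fin t) := Fin.nontrivial_iff_two_le.2 ht
  obtain ⟨j, hj⟩ := exists_ne i
  refine pten_span e P (W :=
    { carrier := {v | B (fe e P i (r1 u (g u)) v) v = 0}
      zero_mem' := by simp
      add_mem' := fun {a b} ha hb => by
        have := adj_fe hB i (adj_wg hU u u) b a
        rw [hV.symm _ b] at this
        simp_all
      smul_mem' := fun c x hx => by simp_all }) (fun xs => ?_) v
  change B _ _ = 0
  rw [fe_pten, hB, Finset.prod_eq_zero (Finset.mem_univ j) (by simp [hj, alt_self hU]), mul_zero]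

end Cfsg.Agent.H10.Sw
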